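import Mathlib
import Cfsg.Prelude.Def_Classical
import Cfsg.Prelude.Def_GeometricClasses

/-!
# Definitions for CALL C3O (S5977 / S5978), helper43

`IsJ Q n J` : the matrix `J` is a square root of `n` that is self-adjoint for the polar form of `Q`;
`IsFrame Q J e α β` : `e` is a `J`-frame (the `e i`, `J e i` span mutually orthogonal planes, all but the
last normalised to `Q (e i) = 0`, `B (J e i) (e i) = 1`; the last has `Q = α`, `B (J e) e = β`);
`gm g` : the matrix of an isometry; `fixdim M` : the dimension of the fixed space of a matrix.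
-/

set_option autoImplicit false

namespace Cfsg.Agent.Helper43.C3O

universe u

variable {F : Type u} [Field F] {ι : Type} [Fintype ι] [DecidableEq ι]

/-- the matrix of an isometry -/
abbrev gm {Q : (ι → F) → F} (g : ↥(Cfsg.isometryGroup F Q)) : Matrix ι ι F :=
  ((g : Matrix.GeneralLinearGroup ι F) : Matrix ι ι F)

/-- `J` is a square root of `n`, self-adjoint for the polar form of `Q` -/
def IsJ (Q : QuadraticForm F (ι → F)) (n : F) (J : Matrix ι ι F) : Prop :=
  J * J = n • (1 : Matrix ι ι F) ∧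
    ∀ u v : ι → F, QuadraticMap.polar ⇑Q (J.mulVec u) v = QuadraticMap.polar ⇑Q u (J.mulVec v)

/-- a `J`-frame with last values `α`, `β` -/
def IsFrame (Q : QuadraticForm F (ι → F)) (J : Matrix ι ι F) {d : ℕ} (e : Fin (d + 1) → ι → F)
    (α β : F) : Prop :=
  (∀ i j, i ≠ j → QuadraticMap.polar ⇑Q (e i) (e j) = 0 ∧
      QuadraticMap.polar ⇑Q (J.mulVec (e i)) (e j) = 0) ∧
  (∀ i, i ≠ Fin.last d → Q (e i) = 0 ∧ QuadraticMap.polar ⇑Q (J.mulVec (e i)) (e i) = 1) ∧
  Q (e (Fin.last d)) = α ∧ QuadraticMap.polar ⇑Q (J.mulVec (e (Fin.last d))) (e (Fin.last d)) = β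

/-- the dimension of the fixed space of a matrix -/
noncomputable abbrev fixdim (M : Matrix ι ι F) : ℕ :=
  Module.finrank F (LinearMap.ker (Matrix.toLin' M - 1))

end Cfsg.Agent.Helper43.C3O
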