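import Mathlib
import Cfsg.Agent.Helper43.OrthReal
import Cfsg.Agent.Helper43.OrthEven

set_option autoImplicit false

/-!
# Realization of polynomials by isometries of hyperbolic quadratic spaces (helper43)

* `QRealzH p f` : `f` is the characteristic polynomial of an isometry, of order prime to `p`, of a
  quadratic space of dimension `2 l` with nondegenerate polar form and a totally singular
  subspace of dimension `l`;
* `qrealzH_one`, `qrealzH_mul`, `qrealzH_hyp`;
* `qrealzH_of_sym` : every monic `f` with `star f = f`, none of whose irreducible factors `g`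
  satisfies `star g = g`, is realized.
-/

namespace Cfsg.Agent.Helper43.OrthReal

open Polynomial Cfsg.Agent.Helper43.SpReal Cfsg.Agent.Helper43.StarPoly Cfsg.Agent.Helper43.UReal
  Cfsg.Agent.Helper42.SpModels Cfsg.Agent.Helper43.OrthEven

universe u

section DefH

variable {F : Type u} [Field F]

/-- `f` is the characteristic polynomial of an isometry, of order prime to `p`, of a hyperbolic
quadratic space -/
def QRealzH (p : ℕ) (f : F[X]) : Prop :=
  ∃ (V : Type u) (_ : AddCommGroup V) (_ : Module F V) (_ : FiniteDimensional F V)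
    (Q : QuadraticForm F V) (T : Module.End F V),
    PolarNondeg Q ∧ (∀ v, Q (T v) = Q v) ∧ (∃ k : ℕ, k.Coprime p ∧ T ^ k = 1) ∧ T.charpoly = f ∧
      ∃ l : ℕ, Module.finrank F V = 2 * l ∧ HasTS Q l

theorem qrealzH_one (p : ℕ) : QRealzH p (1 : F[X]) := by
  refine ⟨PUnit.{u + 1}, inferInstance, inferInstance, inferInstance, 0, 1,
    fun v _ => Subsingleton.elim _ _, fun v => rfl, ⟨1, Nat.coprime_one_left p, pow_one _⟩, ?_,
    0, Module.finrank_zero_of_subsingleton, ⊥, Nat.zero_le _, fun u _ => rfl⟩
  apply eq_one_of_monic_natDegree_zero (LinearMap.charpoly_monic _)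
  rw [LinearMap.charpoly_natDegree]
  exact Module.finrank_zero_of_subsingleton

theorem qrealzH_mul (p : ℕ) {f g : F[X]} (hf : QRealzH p f) (hg : QRealzH p g) :
    QRealzH p (f * g) := by
  obtain ⟨V₁, _, _, _, Q₁, T₁, hnd₁, hT₁, ⟨k₁, hk₁, hTk₁⟩, hch₁, l₁, hl₁, hts₁⟩ := hf
  obtain ⟨V₂, _, _, _, Q₂, T₂, hnd₂, hT₂, ⟨k₂, hk₂, hTk₂⟩, hch₂, l₂, hl₂, hts₂⟩ := hg
  refine ⟨V₁ × V₂, inferInstance, inferInstance, inferInstance, Q₁.prod Q₂, T₁.prodMap T₂,
    ?_, ?_, ⟨k₁ * k₂, Nat.Coprime.mul_left hk₁ hk₂, ?_⟩, ?_, l₁ + l₂, ?_, hasTS_prod hts₁ hts₂⟩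
  · intro v hv
    apply Prod.ext
    · apply hnd₁
      intro w
      have h := hv (w, 0)
      rw [QuadraticMap.polar_prod] at h
      simpa using h
    · apply hnd₂
      intro w
      have h := hv (0, w)
      rw [QuadraticMap.polar_prod] at h
      simpa using h
  · intro v
    rw [QuadraticMap.prod_apply, QuadraticMap.prod_apply, LinearMap.prodMap_apply, hT₁, hT₂]
  · rw [prodMap_pow', prodMap_eq_one_iff]
    constructor
    · rw [pow_mul, hTk₁, one_pow]
    · rw [mul_comm, pow_mul, hTk₂, one_pow]
  · rw [LinearMap.charpoly_prodMap, hch₁, hch₂]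
  · rw [Module.finrank_prod, hl₁, hl₂]
    ring

theorem qrealz_of_qrealzH (p : ℕ) {f : F[X]} (hf : QRealzH p f) : QRealz p f := by
  obtain ⟨V, i1, i2, i3, Q, T, hnd, hT, hk, hch, -⟩ := hf
  exact ⟨V, i1, i2, i3, Q, T, hnd, hT, hk, hch⟩

end DefH

section BlocksH

variable {F : Type u} [Field F] [Finite F] (p : ℕ) [CharP F p]

theorem qrealzH_hyp (g : F[X]) (hm : g.Monic) (hirr : Irreducible g) (h0 : g.coeff 0 ≠ 0) :
    QRealzH p (g * SpReal.star g) := by
  have : Fact (Irreducible g) := ⟨hirr⟩
  have hg0 : g ≠ 0 := hm.ne_zero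
  have : Module.Finite F (AdjoinRoot g) := Cfsg.Agent.Helper40.model_finite hg0
  have : Finite (AdjoinRoot g) := Module.finite_of_finite F
  have : Algebra.IsSeparable F (AdjoinRoot g) := Algebra.IsAlgebraic.isSeparable_of_perfectField
  have hroot : AdjoinRoot.root g ≠ 0 := root_ne_zero' h0
  obtain ⟨k, hk, hk1⟩ := exists_coprime_pow_eq_one (F := F) p (AdjoinRoot.root g) hroot
  let B : LinearMap.BilinForm F (AdjoinRoot g × AdjoinRoot g) :=
    (Algebra.traceForm F (AdjoinRoot g)).compl₁₂ (LinearMap.fst F (AdjoinRoot g) (AdjoinRoot g))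
      (LinearMap.snd F (AdjoinRoot g) (AdjoinRoot g))
  have hB : ∀ x y : AdjoinRoot g × AdjoinRoot g,
      B x y = Algebra.trace F (AdjoinRoot g) (x.1 * y.2) := fun x y => rfl
  have hnd := (traceForm_nondegenerate F (AdjoinRoot g)).1
  refine ⟨AdjoinRoot g × AdjoinRoot g, inferInstance, inferInstance, inferInstance,
    LinearMap.BilinMap.toQuadraticMap B, hypMap F (AdjoinRoot g) (AdjoinRoot.root g), ?_, ?_,
    ⟨k, hk, ?_⟩, ?_, Module.finrank F (AdjoinRoot g), ?_, ?_⟩
  · intro v hv
    have hv' : ∀ w : AdjoinRoot g × AdjoinRoot g, Algebra.trace F (AdjoinRoot g) (v.1 * w.2) +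
        Algebra.trace F (AdjoinRoot g) (w.1 * v.2) = 0 := by
      intro w
      have h := hv w
      rwa [LinearMap.BilinMap.polar_toQuadraticMap, hB, hB] at h
    apply Prod.ext
    · apply hnd
      intro y
      have h := hv' (0, y)
      rw [zero_mul, map_zero, add_zero] at h
      exact h
    · apply hnd
      intro y
      have h := hv' (y, 0)
      rw [mul_zero, map_zero, zero_add, mul_comm] at h
      exact h
  · intro v
    rw [LinearMap.BilinMap.toQuadraticMap_apply, LinearMap.BilinMap.toQuadraticMap_apply, hB, hB,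
      hypMap_apply]
    have h1 : AdjoinRoot.root g * v.1 * ((AdjoinRoot.root g)⁻¹ * v.2) = v.1 * v.2 := by
      field_simp
    simp only [h1]
  · rw [hypMap_pow, hk1]
    exact (hypMap_eq_one_iff F _ _).mpr rfl
  · have h1 : (LinearMap.mulLeft F (AdjoinRoot.root g)).charpoly = g :=
      Cfsg.Agent.Helper40.modelEnd_charpoly hg0 hm
    rw [hypMap, LinearMap.charpoly_prodMap, h1]
    congr 1
    rw [SpReal.star, charpoly_of_mul_eq_one (LinearMap.mulLeft F (AdjoinRoot.root g))
      (LinearMap.mulLeft F (AdjoinRoot.root g)⁻¹) ?_, h1]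
    apply LinearMap.ext
    intro x
    rw [Module.End.mul_apply, LinearMap.mulLeft_apply, LinearMap.mulLeft_apply, ← mul_assoc,
      inv_mul_cancel₀ hroot, one_mul, Module.End.one_apply]
  · rw [Module.finrank_prod]
    ring
  · exact hasTS_of_map _ (LinearMap.inl F (AdjoinRoot g) (AdjoinRoot g)) LinearMap.inl_injective
      (by
        intro w
        rw [LinearMap.BilinMap.toQuadraticMap_apply, hB]
        show Algebra.trace F (AdjoinRoot g) (w * 0) = 0
        rw [mul_zero, map_zero])

/-- every monic polynomial with `star f = f`, none of whose irreducible factors is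
`star`-invariant, is the characteristic polynomial of an isometry of order prime to `p` of a
hyperbolic quadratic space -/
theorem qrealzH_of_sym : ∀ (n : ℕ) (f : F[X]), f.Monic → f.natDegree = n →
    SpReal.star f = f → (∀ g : F[X], g.Monic → Irreducible g → g ∣ f → SpReal.star g ≠ g) →
    QRealzH p f := by
  intro n
  induction n using Nat.strong_induction_on with
  | _ n ih =>
  intro f hm hdeg hs h2
  have husym : f.map (RingHom.id F) = SpReal.star f := by rw [Polynomial.map_id, hs]
  rcases Nat.eq_zero_or_pos n with hn | hn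
  · subst hn
    rw [eq_one_of_monic_natDegree_zero hm hdeg]
    exact qrealzH_one p
  · have hnu : ¬ IsUnit f := by
      intro hu
      have := natDegree_eq_zero_of_isUnit hu
      omega
    have hf0 : f.coeff 0 ≠ 0 := coeff_zero_ne_of_usym (RingHom.id F) hm.ne_zero husym
    obtain ⟨g, hgm, hgirr, hgf⟩ := exists_monic_irreducible_factor f hnu
    have hg0 : g.coeff 0 ≠ 0 := by
      intro h0
      obtain ⟨c, hc⟩ := hgf
      have h1 := congrArg (fun q => q.coeff 0) hc
      simp only [mul_coeff_zero, h0, zero_mul] at h1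
      exact hf0 h1
    have hsf : SpReal.star g ∣ f := by
      have h := ustar_dvd (RingHom.id F) hm hf0 husym hgf
      rwa [Polynomial.map_id] at h
    have hgpos : 0 < g.natDegree := hgirr.natDegree_pos
    have hsg : SpReal.star g ≠ g := h2 g hgm hgirr hgf
    have hbm : (g * SpReal.star g).Monic := hgm.mul (star_monic hg0)
    have hbs : SpReal.star (g * SpReal.star g) = g * SpReal.star g := by
      rw [UReal.star_mul, star_star hgm hg0, mul_comm]
    have hbf : g * SpReal.star g ∣ f := by
      refine IsCoprime.mul_dvd ((hgirr.coprime_iff_not_dvd).mpr (fun hd => hsg ?_)) hgf hsf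
      exact eq_of_monic_of_dvd_of_natDegree_le hgm (star_monic hg0) hd
        (le_of_eq (star_natDegree hg0))
    have hbpos : 0 < (g * SpReal.star g).natDegree := by
      rw [hgm.natDegree_mul (star_monic hg0)]
      omega
    obtain ⟨k, hk⟩ := hbf
    have hbu : (g * SpReal.star g).map (RingHom.id F) = SpReal.star (g * SpReal.star g) := by
      rw [Polynomial.map_id, hbs]
    have hb0 : (g * SpReal.star g).coeff 0 ≠ 0 :=
      coeff_zero_ne_of_usym (RingHom.id F) hbm.ne_zero hbu
    have hkm : k.Monic := hbm.of_mul_monic_left (hk ▸ hm)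
    have hku : k.map (RingHom.id F) = SpReal.star k :=
      usym_of_mul (RingHom.id F) hb0 hbu (hk ▸ husym)
    have hks : SpReal.star k = k := by rw [← hku, Polynomial.map_id]
    have hkdeg : k.natDegree < n := by
      have h1 := hbm.natDegree_mul hkm
      rw [← hk, hdeg] at h1
      omega
    rw [hk]
    exact qrealzH_mul p (qrealzH_hyp p g hgm hgirr hg0) (ih k.natDegree hkdeg k hkm rfl hks
      (fun g' hg'm hg'i hd => h2 g' hg'm hg'i (hk ▸ hd.mul_left _)))

end BlocksH

end Cfsg.Agent.Helper43.OrthReal
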