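/-
Helper43 library: nilpotent endomorphisms with one-dimensional kernel ("regular nilpotent").
-/
import Mathlib

set_option autoImplicit false

namespace Cfsg.Agent.Helper43

open Module

section

variable {K V : Type*} [Field K] [AddCommGroup V] [Module K V] [FiniteDimensional K V]

theorem finrank_ker_comp_le (f g : V →ₗ[K] V) :
    finrank K (LinearMap.ker (f ∘ₗ g)) ≤
      finrank K (LinearMap.ker f) + finrank K (LinearMap.ker g) := by
  let φ : LinearMap.ker (f ∘ₗ g) →ₗ[K] LinearMap.ker f :=
    g.restrict (p := LinearMap.ker (f ∘ₗ g)) (q := LinearMap.ker f) (fun x hx => by simpa using hx)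
  have h1 := LinearMap.finrank_range_add_finrank_ker φ
  have h2 : finrank K (LinearMap.range φ) ≤ finrank K (LinearMap.ker f) := Submodule.finrank_le _
  have h3 : finrank K (LinearMap.ker φ) ≤ finrank K (LinearMap.ker g) := by
    have hle : (LinearMap.ker φ).map (LinearMap.ker (f ∘ₗ g)).subtype ≤ LinearMap.ker g := by
      rintro _ ⟨x, hx, rfl⟩
      have h0 : φ x = 0 := hx
      have h0' := congrArg Subtype.val h0
      simpa [φ] using h0'
    calc finrank K (LinearMap.ker φ)
        = finrank K ((LinearMap.ker φ).map (LinearMap.ker (f ∘ₗ g)).subtype) :=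
          (Submodule.finrank_map_subtype_eq _ _).symm
      _ ≤ _ := Submodule.finrank_mono hle
  omega

theorem finrank_ker_pow_le (N : Module.End K V) (k : ℕ) :
    finrank K (LinearMap.ker (N ^ k)) ≤ k * finrank K (LinearMap.ker N) := by
  induction k with
  | zero => simp [Module.End.one_eq_id]
  | succ k ih =>
    rw [pow_succ, Module.End.mul_eq_comp]
    have := finrank_ker_comp_le (N ^ k) N
    rw [Nat.succ_mul]
    omega

theorem pow_finrank_apply_eq_zero_of_mem {N : Module.End K V} (hN : IsNilpotent N)
    (W : Submodule K V) (hW : ∀ w ∈ W, N w ∈ W) :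
    ∀ w ∈ W, (N ^ finrank K W) w = 0 := by
  intro w hw
  have hnil : IsNilpotent (N.restrict hW) := by
    obtain ⟨k, hk⟩ := hN
    refine ⟨k, ?_⟩
    rw [Module.End.pow_restrict]
    ext x
    simp [hk]
  have h0 : (N.restrict hW) ^ finrank K W = 0 := by
    have := (N.restrict hW).aeval_self_charpoly
    rw [IsNilpotent.charpoly_eq_X_pow_finrank hnil] at this
    simpa using this
  have h1 : ((N.restrict hW) ^ finrank K W) ⟨w, hw⟩ = 0 := by rw [h0]; rfl
  rw [Module.End.pow_restrict] at h1
  have h2 := congrArg Subtype.val h1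
  simpa using h2

/-- A nilpotent endomorphism with kernel of dimension at most one: every invariant subspace is
the kernel of the power given by its dimension. -/
theorem eq_ker_pow_finrank {N : Module.End K V} (hN : IsNilpotent N)
    (hker : finrank K (LinearMap.ker N) ≤ 1) (W : Submodule K V) (hW : ∀ w ∈ W, N w ∈ W) :
    W = LinearMap.ker (N ^ finrank K W) := by
  apply Submodule.eq_of_le_of_finrank_le
  · intro w hw
    exact pow_finrank_apply_eq_zero_of_mem hN W hW w hw
  · calc finrank K (LinearMap.ker (N ^ finrank K W))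
        ≤ finrank K W * finrank K (LinearMap.ker N) := finrank_ker_pow_le N _
      _ ≤ finrank K W * 1 := Nat.mul_le_mul_left _ hker
      _ = _ := mul_one _

end

theorem mulVecLin_pow {K : Type*} [Field K] {n : Type*} [Fintype n] [DecidableEq n]
    (M : Matrix n n K) (k : ℕ) :
    Matrix.mulVecLin (M ^ k) = (Matrix.mulVecLin M) ^ k := by
  induction k with
  | zero => simp [Module.End.one_eq_id]
  | succ k ih => rw [pow_succ, pow_succ, Matrix.mulVecLin_mul, ih]; rfl

/-- Matrix form: `M` nilpotent (`M ^ k = 0`) of rank `card n - 1`; the associated endomorphism is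
nilpotent with kernel of dimension at most one. -/
theorem regular_nilpotent_data {K : Type*} [Field K] {n : Type*} [Fintype n] [DecidableEq n]
    (M : Matrix n n K) (k : ℕ) (hnil : M ^ k = 0) (hreg : M.rank = Fintype.card n - 1) :
    IsNilpotent (Matrix.mulVecLin M) ∧ finrank K (LinearMap.ker (Matrix.mulVecLin M)) ≤ 1 := by
  refine ⟨⟨k, by rw [← mulVecLin_pow, hnil]; simp⟩, ?_⟩
  have h1 := LinearMap.finrank_range_add_finrank_ker (Matrix.mulVecLin M)
  have h2 : finrank K (LinearMap.range (Matrix.mulVecLin M)) = Fintype.card n - 1 := hreg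
  rw [Module.finrank_fintype_fun_eq_card] at h1
  omega

end Cfsg.Agent.Helper43
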