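/-
Helper43 library: the symplectic form `Cfsg.sympForm` as a Mathlib bilinear form.
-/
import Mathlib
import Cfsg.Prelude.Def_ClassicalGeometry
import Cfsg.Agent.Helper43.RegNilp

set_option autoImplicit false

namespace Cfsg.Agent.Helper43

open Module

/-- the symplectic form as a Mathlib bilinear form -/
noncomputable def sympBilin (m : ℕ) (F : Type*) [Field F] :
    LinearMap.BilinForm F (Fin m ⊕ Fin m → F) :=
  Matrix.toBilin' (Matrix.J (Fin m) F)

theorem sympBilin_apply (m : ℕ) (F : Type*) [Field F] (u v : Fin m ⊕ Fin m → F) :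
    sympBilin m F u v = Cfsg.sympForm m F u v := by
  rw [sympBilin, Matrix.toBilin'_apply']
  rfl

theorem sympForm_swap (m : ℕ) (F : Type*) [Field F] (u v : Fin m ⊕ Fin m → F) :
    Cfsg.sympForm m F v u = - Cfsg.sympForm m F u v := by
  unfold Cfsg.sympForm
  rw [Matrix.dotProduct_mulVec, ← Matrix.mulVec_transpose, Matrix.J_transpose, Matrix.neg_mulVec,
    neg_dotProduct, dotProduct_comm]

theorem sympBilin_isRefl (m : ℕ) (F : Type*) [Field F] : (sympBilin m F).IsRefl := by
  intro x y h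
  rw [sympBilin_apply] at h ⊢
  rw [sympForm_swap, h, neg_zero]

theorem sympForm_mulVec_mulVec {F : Type*} [Field F] (m : ℕ) (A : Matrix.symplecticGroup (Fin m) F)
    (u v : Fin m ⊕ Fin m → F) :
    Cfsg.sympForm m F ((A : Matrix (Fin m ⊕ Fin m) (Fin m ⊕ Fin m) F).mulVec u)
      ((A : Matrix (Fin m ⊕ Fin m) (Fin m ⊕ Fin m) F).mulVec v) = Cfsg.sympForm m F u v := by
  unfold Cfsg.sympForm
  have h : (A : Matrix (Fin m ⊕ Fin m) (Fin m ⊕ Fin m) F).transpose * Matrix.J (Fin m) F *
      (A : Matrix (Fin m ⊕ Fin m) (Fin m ⊕ Fin m) F) = Matrix.J (Fin m) F :=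
    SymplecticGroup.mem_iff'.mp A.2
  rw [← Matrix.vecMul_transpose, ← Matrix.dotProduct_mulVec, Matrix.mulVec_mulVec,
    Matrix.mulVec_mulVec, h]

theorem symp_mulVec_injective {F : Type*} [Field F] (m : ℕ) (A : Matrix.symplecticGroup (Fin m) F) :
    Function.Injective (A : Matrix (Fin m ⊕ Fin m) (Fin m ⊕ Fin m) F).mulVec := by
  intro x y hxy
  have h1 : ((A⁻¹ : Matrix.symplecticGroup (Fin m) F) : Matrix (Fin m ⊕ Fin m) (Fin m ⊕ Fin m) F) *
      (A : Matrix (Fin m ⊕ Fin m) (Fin m ⊕ Fin m) F) = 1 := by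
    have := congrArg Subtype.val (inv_mul_cancel A)
    exact this
  have := congrArg
    (((A⁻¹ : Matrix.symplecticGroup (Fin m) F) : Matrix (Fin m ⊕ Fin m) (Fin m ⊕ Fin m) F).mulVec) hxy
  simpa [Matrix.mulVec_mulVec, h1] using this

theorem ker_pow_le_ker_pow {K V : Type*} [Field K] [AddCommGroup V] [Module K V]
    (N : Module.End K V) {k l : ℕ} (h : k ≤ l) :
    LinearMap.ker (N ^ k) ≤ LinearMap.ker (N ^ l) := by
  intro x hx
  obtain ⟨c, rfl⟩ := Nat.exists_eq_add_of_le h
  rw [LinearMap.mem_ker] at hx ⊢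
  rw [add_comm, pow_add, Module.End.mul_apply, hx, map_zero]

/-- A subspace invariant under an injective endomorphism of a finite-dimensional space is mapped
onto itself. -/
theorem exists_preimage_of_invariant {K V : Type*} [Field K] [AddCommGroup V] [Module K V]
    [FiniteDimensional K V] (f : V →ₗ[K] V) (hf : Function.Injective f) (W : Submodule K V)
    (hW : ∀ w ∈ W, f w ∈ W) : ∀ w ∈ W, ∃ w' ∈ W, f w' = w := by
  intro w hw
  have hinj : Function.Injective (f.restrict hW) := by
    intro x y hxy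
    have := congrArg Subtype.val hxy
    simp only [LinearMap.coe_restrict_apply] at this
    exact Subtype.ext (hf this)
  have hsurj : Function.Surjective (f.restrict hW) := LinearMap.injective_iff_surjective.mp hinj
  obtain ⟨w', hw'⟩ := hsurj ⟨w, hw⟩
  refine ⟨w', w'.2, ?_⟩
  have := congrArg Subtype.val hw'
  simpa using this

end Cfsg.Agent.Helper43
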