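/-
Helper43 library: the commutant of a regular nilpotent endomorphism.
-/
import Mathlib
import Cfsg.Agent.Helper43.Symp

set_option autoImplicit false

namespace Cfsg.Agent.Helper43

open Module

section

variable {K V : Type*} [Field K] [AddCommGroup V] [Module K V] [FiniteDimensional K V]

/-- data of a regular nilpotent endomorphism -/
structure RegNilp (N : Module.End K V) : Prop where
  nil : IsNilpotent N
  rank : finrank K (LinearMap.range N) = finrank K V - 1
  pos : 1 ≤ finrank K V

theorem RegNilp.ker_le {N : Module.End K V} (h : RegNilp N) :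
    finrank K (LinearMap.ker N) ≤ 1 := by
  have h1 := LinearMap.finrank_range_add_finrank_ker N
  have h2 := h.rank
  omega

theorem RegNilp.exists_cyclic {N : Module.End K V} (h : RegNilp N) :
    ∃ v, (N ^ (finrank K V - 1)) v ≠ 0 := by
  by_contra hcon
  have h0 : N ^ (finrank K V - 1) = 0 := by
    ext x
    by_contra hx
    exact hcon ⟨x, hx⟩
  have h1 := finrank_ker_pow_le N (finrank K V - 1)
  rw [h0, LinearMap.ker_zero, finrank_top] at h1
  have h2 := h.ker_le
  have h3 := h.pos
  have : (finrank K V - 1) * finrank K (LinearMap.ker N) ≤ (finrank K V - 1) * 1 :=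
    Nat.mul_le_mul_left _ h2
  omega

theorem RegNilp.eq_top_of_mem {N : Module.End K V} (h : RegNilp N) {v : V}
    (hv : (N ^ (finrank K V - 1)) v ≠ 0) (W : Submodule K V) (hW : ∀ w ∈ W, N w ∈ W)
    (hvW : v ∈ W) : W = ⊤ := by
  have e := eq_ker_pow_finrank h.nil h.ker_le W hW
  apply Submodule.eq_top_of_finrank_eq
  by_contra hne
  have hle : finrank K W ≤ finrank K V := Submodule.finrank_le W
  have hlt : finrank K W ≤ finrank K V - 1 := by omega
  have : v ∈ LinearMap.ker (N ^ (finrank K V - 1)) := ker_pow_le_ker_pow N hlt (e ▸ hvW)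
  exact hv this

theorem RegNilp.eq_zero_of_apply {N : Module.End K V} (h : RegNilp N) {v : V}
    (hv : (N ^ (finrank K V - 1)) v ≠ 0) (g : Module.End K V) (hg : g * N = N * g)
    (hgv : g v = 0) : g = 0 := by
  have : LinearMap.ker g = ⊤ := by
    apply h.eq_top_of_mem hv
    · intro w hw
      rw [LinearMap.mem_ker] at hw ⊢
      have := congrArg (fun f => f w) hg
      simp only [Module.End.mul_apply] at this
      rw [this, hw, map_zero]
    · exact hgv
  exact LinearMap.ker_eq_top.mp this

theorem RegNilp.exists_commuting {N : Module.End K V} (h : RegNilp N) {v : V}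
    (hv : (N ^ (finrank K V - 1)) v ≠ 0) (x : V) : ∃ g : Module.End K V, g * N = N * g ∧ g v = x := by
  let W : Submodule K V :=
    { carrier := {x | ∃ g : Module.End K V, g * N = N * g ∧ g v = x}
      add_mem' := by
        rintro _ _ ⟨g1, h1, rfl⟩ ⟨g2, h2, rfl⟩
        exact ⟨g1 + g2, by rw [add_mul, mul_add, h1, h2], rfl⟩
      zero_mem' := ⟨0, by simp, by simp⟩
      smul_mem' := by
        rintro c _ ⟨g, h1, rfl⟩
        exact ⟨c • g, by rw [smul_mul_assoc, mul_smul_comm, h1], rfl⟩ }
  have hW : W = ⊤ := by
    apply h.eq_top_of_mem hv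
    · rintro _ ⟨g, h1, rfl⟩
      exact ⟨N * g, by rw [mul_assoc, h1], rfl⟩
    · exact ⟨1, by simp, rfl⟩
  have : x ∈ W := by rw [hW]; trivial
  exact this

theorem RegNilp.range_eq {N : Module.End K V} (h : RegNilp N) :
    LinearMap.range N = LinearMap.ker (N ^ (finrank K V - 1)) := by
  have e := eq_ker_pow_finrank h.nil h.ker_le (LinearMap.range N)
    (fun w _ => LinearMap.mem_range_self N w)
  rw [h.rank] at e
  exact e

theorem RegNilp.bijective_iff {N : Module.End K V} (h : RegNilp N) {v : V}
    (hv : (N ^ (finrank K V - 1)) v ≠ 0) (g : Module.End K V) (hg : g * N = N * g) :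
    Function.Bijective g ↔ g v ∉ LinearMap.range N := by
  have hcomm : ∀ k : ℕ, ∀ x, g ((N ^ k) x) = (N ^ k) (g x) := by
    intro k
    induction k with
    | zero => intro x; simp
    | succ k ih =>
      intro x
      rw [pow_succ, Module.End.mul_apply, Module.End.mul_apply, ih]
      have := congrArg (fun f => f x) hg
      simp only [Module.End.mul_apply] at this
      rw [this]
  constructor
  · intro hbij hmem
    rw [h.range_eq, LinearMap.mem_ker, ← hcomm] at hmem
    exact hv (hbij.1 (by rw [hmem, map_zero]))
  · intro hnot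
    by_contra hbij
    have hns : ¬ Function.Surjective g := by
      intro hs
      exact hbij ⟨LinearMap.injective_iff_surjective.mpr hs, hs⟩
    have hne : LinearMap.range g ≠ ⊤ := by
      intro htop
      exact hns (LinearMap.range_eq_top.mp htop)
    have hlt : finrank K (LinearMap.range g) < finrank K V := Submodule.finrank_lt hne
    have hinv : ∀ w ∈ LinearMap.range g, N w ∈ LinearMap.range g := by
      rintro _ ⟨x, rfl⟩
      refine ⟨N x, ?_⟩
      have := congrArg (fun f => f x) hg
      simpa only [Module.End.mul_apply] using this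
    have e := eq_ker_pow_finrank h.nil h.ker_le (LinearMap.range g) hinv
    have hle : LinearMap.range g ≤ LinearMap.range N := by
      rw [h.range_eq, e]
      exact ker_pow_le_ker_pow N (by omega)
    exact hnot (hle (LinearMap.mem_range_self g v))

end

end Cfsg.Agent.Helper43
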