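import Mathlib
import Cfsg.Agent.Helper43.SpReal
import Cfsg.Agent.S2578
import Cfsg.Prelude.Def_JordanBlocks

set_option autoImplicit false

namespace Cfsg.Agent.Helper43.JordanRank

open Matrix

variable {F : Type*} [Field F]

/-- the rank of an alternating matrix is even -/
theorem even_rank_of_alt {ι : Type*} [Fintype ι] [DecidableEq ι] (M : Matrix ι ι F)
    (halt : ∀ x : ι → F, x ⬝ᵥ M *ᵥ x = 0) : Even M.rank := by
  classical
  have hskew : ∀ x y : ι → F, x ⬝ᵥ M *ᵥ y = - (y ⬝ᵥ M *ᵥ x) := by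
    intro x y
    have h := halt (x + y)
    simp only [Matrix.mulVec_add, add_dotProduct, dotProduct_add, halt] at h
    linear_combination h
  obtain ⟨W, hW⟩ := Submodule.exists_isCompl (LinearMap.ker M.mulVecLin)
  let B : LinearMap.BilinForm F W := (Matrix.toBilin' M).restrict W
  have hB : ∀ x y : W, B x y = (x : ι → F) ⬝ᵥ M *ᵥ (y : ι → F) := by
    intro x y
    simp [B, Matrix.toBilin'_apply']
  have halt' : ∀ v : W, B v v = 0 := fun v => by rw [hB, halt]
  have hnd : ∀ v : W, (∀ w : W, B v w = 0) → v = 0 := by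
    intro v hv
    have hker : (v : ι → F) ∈ LinearMap.ker M.mulVecLin := by
      rw [LinearMap.mem_ker, Matrix.mulVecLin_apply]
      have h0 : ∀ x : ι → F, x ⬝ᵥ M *ᵥ (v : ι → F) = 0 := by
        intro x
        obtain ⟨k, hk, w, hw, rfl⟩ : ∃ k ∈ LinearMap.ker M.mulVecLin, ∃ w ∈ W, k + w = x := by
          have := Submodule.mem_sup.mp (show x ∈ LinearMap.ker M.mulVecLin ⊔ W by
            rw [hW.sup_eq_top]; exact Submodule.mem_top)
          exact this
        rw [LinearMap.mem_ker, Matrix.mulVecLin_apply] at hk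
        rw [hskew, Matrix.mulVec_add, dotProduct_add, hk, dotProduct_zero, zero_add]
        have := hv ⟨w, hw⟩
        rw [hB] at this
        rw [this, neg_zero]
      funext i
      have := h0 (Pi.single i 1)
      rwa [single_one_dotProduct] at this
    have : (v : ι → F) ∈ LinearMap.ker M.mulVecLin ⊓ W := ⟨hker, v.2⟩
    rw [hW.inf_eq_bot, Submodule.mem_bot] at this
    exact Subtype.ext this
  obtain ⟨n, hn⟩ := SpReal.even_finrank_of_alt B halt' hnd
  have h1 := LinearMap.finrank_range_add_finrank_ker M.mulVecLin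
  have h2 := Submodule.finrank_add_eq_of_isCompl hW
  have h3 : M.rank = Module.finrank F W := by
    unfold Matrix.rank
    omega
  rw [h3, hn]
  exact even_two_mul n

/-- congruence preserves the alternating property -/
theorem alt_congr {ι : Type*} [Fintype ι] [DecidableEq ι] (M P : Matrix ι ι F)
    (halt : ∀ x : ι → F, x ⬝ᵥ M *ᵥ x = 0) (x : ι → F) : x ⬝ᵥ (Pᵀ * M * P) *ᵥ x = 0 := by
  have := halt (P *ᵥ x)
  rw [Matrix.mul_assoc, ← Matrix.mulVec_mulVec, Matrix.dotProduct_mulVec, Matrix.vecMul_transpose,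
    ← Matrix.mulVec_mulVec]
  exact this

/-- for an isometry `A` of an alternating form `G`, the even powers of `A - 1` have even rank -/
theorem even_rank_alt {ι : Type*} [Fintype ι] [DecidableEq ι] (G A A' : Matrix ι ι F)
    (hG : IsUnit G.det) (halt : ∀ x : ι → F, x ⬝ᵥ G *ᵥ x = 0) (hA : Aᵀ * G * A = G)
    (hA' : A' * A = 1) (l : ℕ) : Even ((A - 1) ^ (2 * l)).rank := by
  classical
  have hA'' : A * A' = 1 := mul_eq_one_comm.mp hA'
  have hskew : ∀ x y : ι → F, x ⬝ᵥ G *ᵥ y = - (y ⬝ᵥ G *ᵥ x) := by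
    intro x y
    have h := halt (x + y)
    simp only [Matrix.mulVec_add, add_dotProduct, dotProduct_add, halt] at h
    linear_combination h
  -- adjoint relations
  have h1 : Aᵀ * G = G * A' := by
    calc Aᵀ * G = Aᵀ * G * (A * A') := by rw [hA'', mul_one]
      _ = (Aᵀ * G * A) * A' := by simp only [Matrix.mul_assoc]
      _ = G * A' := by rw [hA]
  have h2 : A'ᵀ * G = G * A := by
    calc A'ᵀ * G = A'ᵀ * (Aᵀ * G * A) := by rw [hA]
      _ = (A * A')ᵀ * G * A := by rw [Matrix.transpose_mul]; simp only [Matrix.mul_assoc]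
      _ = G * A := by rw [hA'', Matrix.transpose_one, one_mul]
  set S : Matrix ι ι F := A + A' - 2 • 1 with hS
  have hST : Sᵀ * G = G * S := by
    rw [hS, Matrix.transpose_sub, Matrix.transpose_add, Matrix.transpose_smul, Matrix.transpose_one,
      sub_mul, add_mul, h1, h2, mul_sub, mul_add]
    simp only [smul_mul_assoc, mul_smul_comm, one_mul, mul_one]
    abel
  have hS2 : S = A' * (A - 1) ^ 2 := by
    have e : A' * (A - 1) ^ 2 = (A' * A) * A - (A' * A) - (A' * A) + A' := by noncomm_ring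
    rw [e, hA', hS, one_mul, two_smul]
    abel
  have hcomm : Commute A' (A - 1) := by
    have : Commute A' A := by rw [Commute, SemiconjBy, hA', hA'']
    exact this.sub_right (Commute.one_right _)
  -- alternating property of `G * S ^ l`
  have key : ∀ l : ℕ, (∀ x : ι → F, x ⬝ᵥ (G * S ^ l) *ᵥ x = 0) ∧
      (∀ x : ι → F, x ⬝ᵥ (G * S ^ (l + 1)) *ᵥ x = 0) := by
    intro l
    induction l with
    | zero =>
      refine ⟨fun x => by rw [pow_zero, mul_one]; exact halt x, fun x => ?_⟩
      rw [zero_add, pow_one, hS, mul_sub, mul_add, ← h1, Matrix.sub_mulVec, Matrix.add_mulVec,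
        dotProduct_sub, dotProduct_add, ← Matrix.mulVec_mulVec, ← Matrix.mulVec_mulVec,
        Matrix.dotProduct_mulVec x Aᵀ, Matrix.vecMul_transpose, hskew (A *ᵥ x) x]
      simp only [mul_smul_comm, mul_one, Matrix.smul_mulVec, dotProduct_smul, halt]
      simp
    | succ l ih =>
      refine ⟨ih.2, fun x => ?_⟩
      have : G * S ^ (l + 1 + 1) = Sᵀ * (G * S ^ l) * S := by
        rw [← mul_assoc, hST, pow_succ, pow_succ']
        simp only [Matrix.mul_assoc]
      rw [this]
      exact alt_congr _ _ ih.1 x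
  have hr := even_rank_of_alt (G * S ^ l) (key l).1
  have hpow : S ^ l = A' ^ l * (A - 1) ^ (2 * l) := by
    rw [hS2, (hcomm.pow_right 2).mul_pow, pow_mul]
  have hdet : IsUnit (A' ^ l).det := by
    rw [Matrix.det_pow]
    have : IsUnit A'.det := by
      have h := congrArg Matrix.det hA'
      rw [Matrix.det_mul, Matrix.det_one] at h
      exact IsUnit.of_mul_eq_one _ h
    exact this.pow l
  rwa [Matrix.rank_mul_eq_right_of_isUnit_det _ _ hG, hpow,
    Matrix.rank_mul_eq_right_of_isUnit_det _ _ hdet] at hr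

/-- for an isometry `A` of a symmetric form `G` in characteristic not two with `A - 1` nilpotent,
the odd powers of `A - 1` have even rank -/
theorem even_rank_sym {ι : Type*} [Fintype ι] [DecidableEq ι] (h2 : (2 : F) ≠ 0)
    (G A A' : Matrix ι ι F)
    (hG : IsUnit G.det) (hsym : Gᵀ = G) (hA : Aᵀ * G * A = G)
    (hA' : A' * A = 1) (hnil : IsNilpotent (A - 1)) (l : ℕ) (hl : Odd l) :
    Even ((A - 1) ^ l).rank := by
  classical
  have hA'' : A * A' = 1 := mul_eq_one_comm.mp hA'
  have h1 : Aᵀ * G = G * A' := by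
    calc Aᵀ * G = Aᵀ * G * (A * A') := by rw [hA'', mul_one]
      _ = (Aᵀ * G * A) * A' := by simp only [Matrix.mul_assoc]
      _ = G * A' := by rw [hA]
  have h2' : A'ᵀ * G = G * A := by
    calc A'ᵀ * G = A'ᵀ * (Aᵀ * G * A) := by rw [hA]
      _ = (A * A')ᵀ * G * A := by rw [Matrix.transpose_mul]; simp only [Matrix.mul_assoc]
      _ = G * A := by rw [hA'', Matrix.transpose_one, one_mul]
  set S : Matrix ι ι F := A - A' with hS
  have hST : Sᵀ * G = - (G * S) := by
    rw [hS, Matrix.transpose_sub, sub_mul, h1, h2', mul_sub]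
    abel
  have hSTk : ∀ k : ℕ, (Sᵀ) ^ k * G = (-1) ^ k • (G * S ^ k) := by
    intro k
    induction k with
    | zero => simp
    | succ k ih =>
      rw [pow_succ', mul_assoc, ih, mul_smul_comm, ← mul_assoc, hST, pow_succ', pow_succ']
      simp only [neg_mul, mul_assoc, smul_neg, neg_smul]
      rw [one_mul]
  have hskewM : (G * S ^ l)ᵀ = - (G * S ^ l) := by
    rw [Matrix.transpose_mul, hsym, Matrix.transpose_pow, hSTk l, hl.neg_one_pow, neg_smul,
      one_smul]
  have haltM : ∀ x : ι → F, x ⬝ᵥ (G * S ^ l) *ᵥ x = 0 := by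
    intro x
    have h : x ⬝ᵥ (G * S ^ l) *ᵥ x = x ⬝ᵥ (G * S ^ l)ᵀ *ᵥ x := by
      rw [Matrix.dotProduct_mulVec, ← Matrix.mulVec_transpose, dotProduct_comm]
    rw [hskewM, Matrix.neg_mulVec, dotProduct_neg] at h
    have h' : (2 : F) * (x ⬝ᵥ (G * S ^ l) *ᵥ x) = 0 := by linear_combination h
    exact (mul_eq_zero.mp h').resolve_left h2
  have hr := even_rank_of_alt (G * S ^ l) haltM
  have hcommA : Commute A' A := by rw [Commute, SemiconjBy, hA', hA'']
  have hS2 : S = A' * ((A - 1) * (A + 1)) := by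
    have e : A' * ((A - 1) * (A + 1)) = (A' * A) * A - A' := by noncomm_ring
    rw [e, hA', one_mul]
  have hc1 : Commute A' (A - 1) := hcommA.sub_right (Commute.one_right _)
  have hc2 : Commute A' (A + 1) := hcommA.add_right (Commute.one_right _)
  have hc3 : Commute (A - 1) (A + 1) :=
    ((Commute.refl A).sub_left (Commute.one_left _)).add_right (Commute.one_right _)
  have hpow : S ^ l = A' ^ l * ((A + 1) ^ l * (A - 1) ^ l) := by
    rw [hS2, (hc1.mul_right hc2).mul_pow, hc3.mul_pow, (hc3.pow_pow l l).eq]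
  have hdet : IsUnit (A' ^ l).det := by
    rw [Matrix.det_pow]
    have : IsUnit A'.det := by
      have h := congrArg Matrix.det hA'
      rw [Matrix.det_mul, Matrix.det_one] at h
      exact IsUnit.of_mul_eq_one _ h
    exact this.pow l
  have hunit : IsUnit (A + 1) := by
    have hu : IsUnit ((2 : F) • (1 : Matrix ι ι F)) := by
      refine IsUnit.of_mul_eq_one ((2 : F)⁻¹ • (1 : Matrix ι ι F)) ?_
      rw [smul_mul_smul_comm, mul_inv_cancel₀ h2, one_smul, one_mul]
    have hc : Commute (A - 1) ((2 : F) • (1 : Matrix ι ι F)) :=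
      (Commute.one_right _).smul_right _
    have := hnil.isUnit_add_left_of_commute hu hc
    have he : (2 : F) • (1 : Matrix ι ι F) + (A - 1) = A + 1 := by
      rw [two_smul]; abel
    rwa [he] at this
  have hdet2 : IsUnit ((A + 1) ^ l).det := by
    rw [Matrix.det_pow]
    exact ((Matrix.isUnit_iff_isUnit_det _).mp hunit).pow l
  rwa [Matrix.rank_mul_eq_right_of_isUnit_det _ _ hG, hpow,
    Matrix.rank_mul_eq_right_of_isUnit_det _ _ hdet,
    Matrix.rank_mul_eq_right_of_isUnit_det _ _ hdet2] at hr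

theorem jordanBlock_eq (k : ℕ) :
    Cfsg.jordanBlock k F = 1 + (Cfsg.Agent.S2578.shift k : Matrix (Fin k) (Fin k) F) := by
  ext i j
  simp only [Cfsg.jordanBlock, Matrix.of_apply, Matrix.add_apply, Matrix.one_apply,
    Cfsg.Agent.S2578.shift_apply]
  by_cases h : i = j
  · subst h; simp
  · have h' : (i : ℕ) ≠ j := fun h' => h (Fin.ext h')
    simp [h, h', eq_comm]

theorem jordan_sub_one_pow {t : ℕ} (d : Fin t → ℕ) (l : ℕ) :
    (Cfsg.jordanTypeMatrix d F - 1) ^ l =
      Matrix.blockDiagonal'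
        (fun k => (Cfsg.Agent.S2578.shift (d k) : Matrix (Fin (d k)) (Fin (d k)) F) ^ l) := by
  have hfun : (fun k => (Cfsg.Agent.S2578.shift (d k) : Matrix (Fin (d k)) (Fin (d k)) F) ^ l) =
      (fun k => (Cfsg.Agent.S2578.shift (d k) : Matrix (Fin (d k)) (Fin (d k)) F)) ^ l := rfl
  rw [hfun, Matrix.blockDiagonal'_pow]
  congr 1
  rw [Cfsg.jordanTypeMatrix, ← Matrix.blockDiagonal'_one, ← Matrix.blockDiagonal'_sub]
  congr 1
  funext k
  rw [Pi.sub_apply, jordanBlock_eq, Pi.one_apply, add_sub_cancel_left]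

theorem shift_pow_gram (n l : ℕ) :
    ((Cfsg.Agent.S2578.shift n : Matrix (Fin n) (Fin n) F) ^ l)ᵀ * (Cfsg.Agent.S2578.shift n) ^ l =
      Matrix.diagonal (fun j : Fin n => if (j : ℕ) + l < n then (1 : F) else 0) := by
  ext i j
  rw [Matrix.mul_apply, Matrix.diagonal_apply]
  simp only [Matrix.transpose_apply, Cfsg.Agent.S2578.shift_pow]
  by_cases hij : i = j
  · subst hij
    rw [if_pos rfl]
    by_cases h : (i : ℕ) + l < n
    · rw [if_pos h, Finset.sum_eq_single ⟨i + l, h⟩]
      · simp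
      · intro x _ hx
        rw [if_neg (fun h' => hx (Fin.ext h'.symm)), zero_mul]
      · intro h'; exact absurd (Finset.mem_univ _) h'
    · rw [if_neg h]
      apply Finset.sum_eq_zero
      intro x _
      rw [if_neg (by have := x.isLt; omega), zero_mul]
  · rw [if_neg hij]
    apply Finset.sum_eq_zero
    intro x _
    by_cases h : (i : ℕ) + l = x
    · have h' : ¬ ((j : ℕ) + l = x) := fun h' => hij (Fin.ext (by omega))
      rw [if_neg h', mul_zero]
    · rw [if_neg h, zero_mul]

theorem shift_pow_mul_diag (n l : ℕ) :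
    (Cfsg.Agent.S2578.shift n : Matrix (Fin n) (Fin n) F) ^ l *
      Matrix.diagonal (fun j : Fin n => if (j : ℕ) + l < n then (1 : F) else 0) =
      (Cfsg.Agent.S2578.shift n) ^ l := by
  ext i j
  rw [Matrix.mul_diagonal, Cfsg.Agent.S2578.shift_pow]
  by_cases h : (j : ℕ) + l = i
  · rw [if_pos h, if_pos (by have := i.isLt; omega), mul_one]
  · rw [if_neg h, zero_mul]

theorem sum_fin_lt (n l : ℕ) : ∑ j : Fin n, (if (j : ℕ) + l < n then 1 else 0) = n - l := by
  rw [Fin.sum_univ_eq_sum_range (fun j => if j + l < n then 1 else 0) n, Finset.sum_boole]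
  have : Finset.filter (fun j => j + l < n) (Finset.range n) = Finset.range (n - l) := by
    ext j; simp only [Finset.mem_filter, Finset.mem_range]; omega
  rw [this, Finset.card_range]; simp

/-- the rank of the `l`-th power of the nilpotent part of a unipotent matrix of Jordan type `d` -/
theorem rank_jordan {t : ℕ} (d : Fin t → ℕ) (l : ℕ) :
    ((Cfsg.jordanTypeMatrix d F - 1) ^ l).rank = ∑ k, (d k - l) := by
  classical
  rw [jordan_sub_one_pow]
  set N := Matrix.blockDiagonal'
    (fun k => (Cfsg.Agent.S2578.shift (d k) : Matrix (Fin (d k)) (Fin (d k)) F) ^ l) with hN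
  set w : ((k : Fin t) × Fin (d k)) → F :=
    fun ik => if (ik.2 : ℕ) + l < d ik.1 then 1 else 0 with hw
  have h1 : Nᵀ * N = Matrix.diagonal w := by
    rw [hN, Matrix.blockDiagonal'_transpose, ← Matrix.blockDiagonal'_mul]
    simp only [shift_pow_gram]
    rw [Matrix.blockDiagonal'_diagonal]
  have h2 : N * Matrix.diagonal w = N := by
    have hwd : Matrix.diagonal w = Matrix.blockDiagonal' (fun k =>
        Matrix.diagonal (fun j : Fin (d k) => if (j : ℕ) + l < d k then (1 : F) else 0)) := by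
      rw [Matrix.blockDiagonal'_diagonal]
    rw [hwd, hN, ← Matrix.blockDiagonal'_mul]
    simp only [shift_pow_mul_diag]
  have h3 : N.rank = (Matrix.diagonal w).rank := by
    apply le_antisymm
    · calc N.rank = (N * Matrix.diagonal w).rank := by rw [h2]
        _ ≤ (Matrix.diagonal w).rank := Matrix.rank_mul_le_right _ _
    · rw [← h1]; exact Matrix.rank_mul_le_right _ _
  rw [h3, Matrix.rank_diagonal, Fintype.card_subtype, Finset.card_filter, Fintype.sum_sigma]
  refine Finset.sum_congr rfl fun k _ => ?_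
  rw [← sum_fin_lt (d k) l]
  refine Finset.sum_congr rfl fun j _ => ?_
  simp only [hw]
  by_cases h : (j : ℕ) + l < d k
  · simp [h]
  · simp [h]

/-- conjugation and reindexing do not change the ranks of the powers of the nilpotent part -/
theorem rank_of_isConj {ι κ : Type*} [Fintype ι] [DecidableEq ι] [Fintype κ] [DecidableEq κ]
    (e : ι ≃ κ) (J : Matrix ι ι F) (A : Matrix κ κ F) (h : IsConj (Matrix.reindex e e J) A)
    (l : ℕ) : ((A - 1) ^ l).rank = ((J - 1) ^ l).rank := by
  obtain ⟨c, hc⟩ := h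
  have h1 : SemiconjBy (c : Matrix κ κ F) ((Matrix.reindex e e J - 1) ^ l) ((A - 1) ^ l) :=
    (hc.sub_right (SemiconjBy.one_right _)).pow_right l
  have h2 : (Matrix.reindex e e J - 1) ^ l = Matrix.reindex e e ((J - 1) ^ l) := by
    have hco := Matrix.coe_reindexAlgEquiv F F e
    rw [← hco, map_pow, map_sub, map_one]
  have hdet : IsUnit (c : Matrix κ κ F).det := (Matrix.isUnit_iff_isUnit_det _).mp c.isUnit
  calc ((A - 1) ^ l).rank = ((A - 1) ^ l * c).rank :=
        (Matrix.rank_mul_eq_left_of_isUnit_det _ _ hdet).symm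
    _ = (c * (Matrix.reindex e e J - 1) ^ l).rank := by rw [h1.eq]
    _ = ((Matrix.reindex e e J - 1) ^ l).rank := Matrix.rank_mul_eq_right_of_isUnit_det _ _ hdet
    _ = ((J - 1) ^ l).rank := by rw [h2, Matrix.rank_reindex]

theorem jordan_nilpotent {t : ℕ} (d : Fin t → ℕ) :
    (Cfsg.jordanTypeMatrix d F - 1) ^ (∑ k, d k) = 0 := by
  rw [jordan_sub_one_pow]
  have : (fun k => (Cfsg.Agent.S2578.shift (d k) : Matrix (Fin (d k)) (Fin (d k)) F) ^ (∑ k, d k)) =
      0 := by
    funext k
    have hle : d k ≤ ∑ k, d k := Finset.single_le_sum (fun _ _ => Nat.zero_le _) (Finset.mem_univ k)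
    obtain ⟨c, hc⟩ := Nat.exists_eq_add_of_le hle
    rw [hc, pow_add, Cfsg.Agent.S2578.shift_pow_self, zero_mul]
    rfl
  rw [this, Matrix.blockDiagonal'_zero]

theorem nilpotent_of_isConj {ι κ : Type*} [Fintype ι] [DecidableEq ι] [Fintype κ] [DecidableEq κ]
    (e : ι ≃ κ) (J : Matrix ι ι F) (A : Matrix κ κ F) (h : IsConj (Matrix.reindex e e J) A)
    (l : ℕ) (hJ : (J - 1) ^ l = 0) : IsNilpotent (A - 1) := by
  obtain ⟨c, hc⟩ := h
  have h1 : SemiconjBy (c : Matrix κ κ F) ((Matrix.reindex e e J - 1) ^ l) ((A - 1) ^ l) :=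
    (hc.sub_right (SemiconjBy.one_right _)).pow_right l
  have h2 : (Matrix.reindex e e J - 1) ^ l = Matrix.reindex e e ((J - 1) ^ l) := by
    have hco := Matrix.coe_reindexAlgEquiv F F e
    rw [← hco, map_pow, map_sub, map_one]
  rw [h2, hJ] at h1
  refine ⟨l, ?_⟩
  have h3 : (A - 1) ^ l * (c : Matrix κ κ F) = 0 := by
    rw [← h1.eq]; simp
  calc (A - 1) ^ l = (A - 1) ^ l * (c : Matrix κ κ F) * ((c⁻¹ : (Matrix κ κ F)ˣ) : Matrix κ κ F) := by
        rw [mul_assoc, Units.mul_inv, mul_one]
    _ = 0 := by rw [h3, zero_mul]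

theorem count_identity {t : ℕ} (d : Fin t → ℕ) (j : ℕ) (hj : 1 ≤ j) :
    ∑ k, (d k - (j - 1)) + ∑ k, (d k - (j + 1)) =
      2 * ∑ k, (d k - j) + (Finset.univ.filter (fun k : Fin t => d k = j)).card := by
  rw [Finset.card_filter, Finset.mul_sum, ← Finset.sum_add_distrib, ← Finset.sum_add_distrib]
  refine Finset.sum_congr rfl fun k _ => ?_
  split_ifs with h <;> omega

theorem odd_blocks_even {t : ℕ} (d : Fin t → ℕ) (h : ∀ l, Even (∑ k, (d k - 2 * l))) (j : ℕ)
    (hj : Odd j) : Even (Finset.univ.filter (fun k : Fin t => d k = j)).card := by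
  obtain ⟨l, rfl⟩ := hj
  have h1 := count_identity d (2 * l + 1) (by omega)
  have h2 := h l
  have h3 := h (l + 1)
  rw [show 2 * l + 1 - 1 = 2 * l by omega, show 2 * l + 1 + 1 = 2 * (l + 1) by ring] at h1
  have h4 : Even (2 * ∑ k, (d k - (2 * l + 1)) +
      (Finset.univ.filter (fun k : Fin t => d k = 2 * l + 1)).card) := by
    rw [← h1]; exact h2.add h3
  exact (Nat.even_add.mp h4).mp (even_two_mul _)

theorem even_blocks_even {t : ℕ} (d : Fin t → ℕ) (h : ∀ l, Odd l → Even (∑ k, (d k - l))) (j : ℕ)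
    (hj : Even j) (hj0 : 0 < j) : Even (Finset.univ.filter (fun k : Fin t => d k = j)).card := by
  have h1 := count_identity d j hj0
  have h2 := h (j - 1) (Nat.Even.sub_odd hj0 hj odd_one)
  have h3 := h (j + 1) (hj.add_one)
  have h4 : Even (2 * ∑ k, (d k - j) +
      (Finset.univ.filter (fun k : Fin t => d k = j)).card) := by
    rw [← h1]; exact h2.add h3
  exact (Nat.even_add.mp h4).mp (even_two_mul _)

end Cfsg.Agent.Helper43.JordanRank
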