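import Mathlib
import Cfsg.Agent.Helper43.JordanRank
import Cfsg.Prelude.Def_Classical

set_option autoImplicit false

namespace Cfsg.Agent.Helper43.JordanRank2

open Matrix Cfsg.Agent.Helper43.JordanRank

variable {F : Type*} [Field F]

theorem J_alt (m : ℕ) (x : Fin m ⊕ Fin m → F) : x ⬝ᵥ Matrix.J (Fin m) F *ᵥ x = 0 := by
  simp only [dotProduct, Fintype.sum_sum_type, Matrix.J, Matrix.mulVec,
    Matrix.fromBlocks_apply₁₁, Matrix.fromBlocks_apply₁₂, Matrix.fromBlocks_apply₂₁,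
    Matrix.fromBlocks_apply₂₂, Matrix.zero_apply, zero_mul, Finset.sum_const_zero, zero_add,
    add_zero, Matrix.neg_apply, Matrix.one_apply, ite_mul, one_mul, neg_mul,
    Finset.sum_neg_distrib, Finset.sum_ite_eq, Finset.mem_univ, if_true]
  rw [← Finset.sum_add_distrib]
  apply Finset.sum_eq_zero
  intro i _
  ring

theorem fwd_sp {m t : ℕ} (d : Fin t → ℕ) (e : ((k : Fin t) × Fin (d k)) ≃ (Fin m ⊕ Fin m))
    (A : Matrix.symplecticGroup (Fin m) F)
    (h : IsConj (Matrix.reindex e e (Cfsg.jordanTypeMatrix d F))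
      (A : Matrix (Fin m ⊕ Fin m) (Fin m ⊕ Fin m) F)) :
    ∀ j : ℕ, Odd j → Even (Finset.univ.filter (fun k : Fin t => d k = j)).card := by
  apply odd_blocks_even
  intro l
  rw [← rank_jordan (F := F) d (2 * l), ← rank_of_isConj e _ _ h]
  refine even_rank_alt (Matrix.J (Fin m) F) (A : Matrix (Fin m ⊕ Fin m) (Fin m ⊕ Fin m) F)
    ((A⁻¹ : Matrix.symplecticGroup (Fin m) F) : Matrix (Fin m ⊕ Fin m) (Fin m ⊕ Fin m) F)
    ?_ (J_alt m) (SymplecticGroup.mem_iff'.mp A.2) ?_ l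
  · exact Matrix.isUnit_det_J (Fin m) F
  · exact congrArg Subtype.val (inv_mul_cancel A)

theorem gram_of_isometry {ι : Type} [Fintype ι] [DecidableEq ι] (Q : QuadraticForm F (ι → F))
    (hQ : (QuadraticMap.polarBilin Q).Nondegenerate) (A : ↥(Cfsg.isometryGroup F ⇑Q)) :
    ∃ G A' : Matrix ι ι F, IsUnit G.det ∧ Gᵀ = G ∧ (∀ x : ι → F, x ⬝ᵥ G *ᵥ x = 2 * Q x) ∧
      ((A : Matrix.GeneralLinearGroup ι F) : Matrix ι ι F)ᵀ * G *
        ((A : Matrix.GeneralLinearGroup ι F) : Matrix ι ι F) = G ∧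
      A' * ((A : Matrix.GeneralLinearGroup ι F) : Matrix ι ι F) = 1 := by
  classical
  set G : Matrix ι ι F := LinearMap.BilinForm.toMatrix' (QuadraticMap.polarBilin Q) with hGdef
  have hG : ∀ x y : ι → F, x ⬝ᵥ G *ᵥ y = QuadraticMap.polar Q x y := by
    intro x y
    rw [← Matrix.toBilin'_apply', hGdef, Matrix.toBilin'_toMatrix']; rfl
  set M : Matrix ι ι F := ((A : Matrix.GeneralLinearGroup ι F) : Matrix ι ι F) with hM
  have hAQ : ∀ u : ι → F, Q (M *ᵥ u) = Q u := fun u => A.2 u u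
  have hext : ∀ M₁ M₂ : Matrix ι ι F, (∀ x y : ι → F, x ⬝ᵥ M₁ *ᵥ y = x ⬝ᵥ M₂ *ᵥ y) → M₁ = M₂ := by
    intro M₁ M₂ h
    ext i j
    have := h (Pi.single i 1) (Pi.single j 1)
    simpa [Matrix.mulVec_single_one, single_one_dotProduct] using this
  refine ⟨G, (((A : Matrix.GeneralLinearGroup ι F)⁻¹ : Matrix.GeneralLinearGroup ι F) :
    Matrix ι ι F), ?_, ?_, ?_, ?_, ?_⟩
  · rw [isUnit_iff_ne_zero]
    intro hdet
    obtain ⟨v, hv, hGv⟩ := Matrix.exists_mulVec_eq_zero_iff.mpr hdet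
    apply hv
    apply hQ.1 v
    intro w
    show QuadraticMap.polar Q v w = 0
    rw [QuadraticMap.polar_comm, ← hG, hGv, dotProduct_zero]
  · apply hext
    intro x y
    rw [hG, Matrix.dotProduct_mulVec, ← Matrix.mulVec_transpose, Matrix.transpose_transpose,
      dotProduct_comm, hG, QuadraticMap.polar_comm]
  · intro x
    rw [hG, QuadraticMap.polar_self, two_smul, two_mul]
  · apply hext
    intro x y
    rw [Matrix.mul_assoc, ← Matrix.mulVec_mulVec, Matrix.dotProduct_mulVec,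
      Matrix.vecMul_transpose, ← Matrix.mulVec_mulVec, hG, hG, QuadraticMap.polar,
      QuadraticMap.polar, ← Matrix.mulVec_add, hAQ, hAQ, hAQ]
  · rw [hM, ← Units.val_mul, inv_mul_cancel, Units.val_one]

/-- the "only if" direction for orthogonal groups in odd characteristic -/
theorem fwd_orth_odd (h2 : (2 : F) ≠ 0) {ι : Type} [Fintype ι] [DecidableEq ι] {t : ℕ}
    (d : Fin t → ℕ) (Q : QuadraticForm F (ι → F))
    (hQ : (QuadraticMap.polarBilin Q).Nondegenerate) (e : ((k : Fin t) × Fin (d k)) ≃ ι)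
    (A : ↥(Cfsg.isometryGroup F ⇑Q))
    (h : IsConj (Matrix.reindex e e (Cfsg.jordanTypeMatrix d F))
      ((A : Matrix.GeneralLinearGroup ι F) : Matrix ι ι F)) :
    ∀ j : ℕ, Even j → 0 < j → Even (Finset.univ.filter (fun k : Fin t => d k = j)).card := by
  obtain ⟨G, A', hG, hsym, -, hA, hA'⟩ := gram_of_isometry Q hQ A
  apply even_blocks_even
  intro l hl
  rw [← rank_jordan (F := F) d l, ← rank_of_isConj e _ _ h]
  exact even_rank_sym h2 G _ A' hG hsym hA hA'
    (nilpotent_of_isConj e _ _ h _ (jordan_nilpotent d)) l hl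

/-- the "only if" direction for orthogonal groups in characteristic two -/
theorem fwd_orth_two [CharP F 2] {ι : Type} [Fintype ι] [DecidableEq ι] {t : ℕ}
    (d : Fin t → ℕ) (Q : QuadraticForm F (ι → F))
    (hQ : (QuadraticMap.polarBilin Q).Nondegenerate) (e : ((k : Fin t) × Fin (d k)) ≃ ι)
    (A : ↥(Cfsg.isometryGroup F ⇑Q))
    (h : IsConj (Matrix.reindex e e (Cfsg.jordanTypeMatrix d F))
      ((A : Matrix.GeneralLinearGroup ι F) : Matrix ι ι F)) :
    ∀ j : ℕ, Odd j → Even (Finset.univ.filter (fun k : Fin t => d k = j)).card := by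
  obtain ⟨G, A', hG, -, halt, hA, hA'⟩ := gram_of_isometry Q hQ A
  apply odd_blocks_even
  intro l
  rw [← rank_jordan (F := F) d (2 * l), ← rank_of_isConj e _ _ h]
  exact even_rank_alt G _ A' hG (fun x => by rw [halt, CharTwo.two_eq_zero, zero_mul]) hA hA' l

end Cfsg.Agent.Helper43.JordanRank2
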