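/-
Helper43 library: conjugacy of semisimple elements of the symplectic group, second part.
For a semisimple `A` in `Sp` and a `dag`-symmetric invertible `X` commuting with `A` such that
`J * X` is alternating, there is `h` commuting with `A` with `dag h * h = X`.
-/
import Cfsg.Agent.Helper43.SpSemi

set_option autoImplicit false
set_option linter.unusedSectionVars false

namespace Cfsg.Agent.Helper43
namespace SpSemi

open Matrix NormGen

section Alpha

variable {S : Type*} [CommRing S] [Finite S]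

/-- norm surjectivity away from the kernel of `α ^ 2 - 1`, where `τ α = α⁻¹` -/
theorem norm_surj_alpha (p : ℕ) [Fact p.Prime] (hp0 : (p : S) = 0) (τ : S →+* S)
    (hτ : ∀ s, τ (τ s) = s) (α π κ : S) (hα : α * τ α = 1) (h1 : (1 - α * α) * κ = 1 - π)
    (h2 : (1 - α * α) * π = 0) (hπ : τ π = π) (u : Sˣ) (hu : τ (u : S) = u) :
    ∃ c : S, (1 - π) * (c * τ c) = (1 - π) * u := by
  have hππ : π * π = π := by linear_combination π * h1 - κ * h2
  have hee : (1 - π) * (1 - π) = 1 - π := by linear_combination hππ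
  have hτe : τ (1 - π) = 1 - π := by rw [map_sub, map_one, hπ]
  have hεa : (α - τ α) * (-(α * κ)) = 1 - π := by linear_combination h1 + κ * hα
  have hτε : τ (α - τ α) * (1 - π) = -((α - τ α) * (1 - π)) := by
    rw [map_sub, hτ]
    ring
  have h1τ : (1 - τ α * τ α) * τ κ = 1 - π := by
    have := congrArg τ h1
    rwa [map_mul, map_sub, map_one, map_mul, hτe] at this
  have h3 : (1 - α * α) * τ κ = -(α * α) * (1 - π) := by
    linear_combination (-(α * α)) * h1τ - (τ κ) * (1 + α * τ α) * hα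
  have hlam : (κ + τ κ) * (1 - π) = 1 - π := by
    linear_combination ((1 - π) - τ κ) * h1 + κ * h3 + hee
  exact norm_surj_idem p hp0 τ hτ (1 - π) (α - τ α) (-(α * κ)) κ hee hτe hεa hτε hlam u hu

end Alpha

section Abstract

variable {F : Type*} [Field F] {m : ℕ}

/-- the norm equation in a commutative `dag`-stable finite ring of matrices -/
theorem exists_norm_abstract {S : Type*} [CommRing S] [Finite S]
    (j : S →+* Matrix (Fin m ⊕ Fin m) (Fin m ⊕ Fin m) F) (hj : Function.Injective j)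
    (hdag : ∀ s : S, ∃ s' : S, j s' = dag (j s)) (p : ℕ) [Fact p.Prime] [CharP F p]
    (A X P Q : Matrix (Fin m ⊕ Fin m) (Fin m ⊕ Fin m) F)
    (hAmem : A ∈ Set.range j) (hXmem : X ∈ Set.range j) (hPmem : P ∈ Set.range j)
    (hQmem : Q ∈ Set.range j) (hA : dag A * A = 1) (hX : dag X = X) (hXu : IsUnit X)
    (h1 : (1 - A * A) * Q = 1 - P) (h2 : (1 - A * A) * P = 0) (hdP : dag P = P) :
    ∃ c : S, (1 - P) * (dag (j c) * j c) = (1 - P) * X := by
  choose τf hτf using hdag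
  obtain ⟨τ, hττ⟩ : ∃ τ : S →+* S, ∀ s, τ s = τf s := by
    refine ⟨{ toFun := τf, map_one' := ?_, map_mul' := ?_, map_zero' := ?_, map_add' := ?_ },
      fun s => rfl⟩
    · apply hj
      rw [hτf, map_one, dag_one]
    · intro s t
      apply hj
      rw [hτf, map_mul, dag_mul, ← hτf, ← hτf, ← map_mul, mul_comm]
    · apply hj
      rw [hτf, map_zero, dag_zero]
    · intro s t
      apply hj
      rw [hτf, map_add, dag_add, map_add, hτf, hτf]
  have hτj : ∀ s, j (τ s) = dag (j s) := fun s => by rw [hττ, hτf]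
  have hτ : ∀ s, τ (τ s) = s := by
    intro s
    apply hj
    rw [hτj, hτj, dag_dag]
  obtain ⟨α, rfl⟩ := hAmem
  obtain ⟨ξ, rfl⟩ := hXmem
  obtain ⟨π, rfl⟩ := hPmem
  obtain ⟨κ, rfl⟩ := hQmem
  have hα : α * τ α = 1 := by
    apply hj
    rw [map_mul, hτj, map_one]
    exact mul_eq_one_comm.1 hA
  have h1' : (1 - α * α) * κ = 1 - π := by
    apply hj
    simpa only [map_mul, map_sub, map_one] using h1
  have h2' : (1 - α * α) * π = 0 := by
    apply hj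
    simpa only [map_mul, map_sub, map_one, map_zero] using h2
  have hπ : τ π = π := by
    apply hj
    rw [hτj, hdP]
  have hξ : τ ξ = ξ := by
    apply hj
    rw [hτj, hX]
  have hξu : IsUnit ξ := by
    rw [isUnit_iff_mem_nonZeroDivisors_of_finite, mem_nonZeroDivisors_iff]
    have key : ∀ s : S, s * ξ = 0 → s = 0 := by
      intro s hs
      apply hj
      have h3 := congrArg j hs
      rw [map_mul, map_zero] at h3
      rw [map_zero]
      exact hXu.mul_left_eq_zero.1 h3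
    exact ⟨fun s hs => key s (by rw [mul_comm]; exact hs), key⟩
  obtain ⟨u, hu⟩ := hξu
  have hp0 : ((p : ℕ) : S) = 0 := by
    apply hj
    rw [map_natCast, map_zero]
    have h3 : ((p : ℕ) : Matrix (Fin m ⊕ Fin m) (Fin m ⊕ Fin m) F)
        = algebraMap F (Matrix (Fin m ⊕ Fin m) (Fin m ⊕ Fin m) F) ((p : ℕ) : F) :=
      (map_natCast _ p).symm
    rw [h3, CharP.cast_eq_zero F p, map_zero]
  obtain ⟨c, hc⟩ := norm_surj_alpha p hp0 τ hτ α π κ hα h1' h2' hπ u (by rw [hu]; exact hξ)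
  refine ⟨c, ?_⟩
  have h4 := congrArg j hc
  rw [hu, mul_comm c, map_mul, map_mul, map_mul, map_sub, map_one, hτj] at h4
  exact h4

end Abstract

section Part

variable {F : Type*} [Field F] [Finite F] {m : ℕ}

open scoped IsMulCommutative in
/-- the norm equation in the commutative algebra generated by `A`, `dag A` and `X` -/
theorem exists_norm_part (p : ℕ) [Fact p.Prime] [CharP F p]
    (A X P Q : Matrix (Fin m ⊕ Fin m) (Fin m ⊕ Fin m) F)
    (hA : dag A * A = 1) (hX : dag X = X) (hXu : IsUnit X) (hXA : X * A = A * X)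
    (hP : P ∈ Algebra.adjoin F ({A, dag A, X} : Set (Matrix (Fin m ⊕ Fin m) (Fin m ⊕ Fin m) F)))
    (hQ : Q ∈ Algebra.adjoin F ({A, dag A, X} : Set (Matrix (Fin m ⊕ Fin m) (Fin m ⊕ Fin m) F)))
    (h1 : (1 - A * A) * Q = 1 - P) (h2 : (1 - A * A) * P = 0) (hdP : dag P = P) :
    ∃ c : Matrix (Fin m ⊕ Fin m) (Fin m ⊕ Fin m) F,
      c * A = A * c ∧ c * P = P * c ∧ (1 - P) * (dag c * c) = (1 - P) * X := by
  classical
  have hAd : A * dag A = 1 := mul_eq_one_comm.1 hA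
  have hXAi : X * dag A = dag A * X := by
    calc X * dag A = dag A * (A * X) * dag A := by rw [← mul_assoc, hA, one_mul]
      _ = dag A * (X * A) * dag A := by rw [hXA]
      _ = dag A * X := by rw [mul_assoc, mul_assoc, hAd, mul_one]
  have hcomm : ∀ a ∈ ({A, dag A, X} : Set (Matrix (Fin m ⊕ Fin m) (Fin m ⊕ Fin m) F)),
      ∀ b ∈ ({A, dag A, X} : Set (Matrix (Fin m ⊕ Fin m) (Fin m ⊕ Fin m) F)), a * b = b * a := by
    intro a ha b hb
    simp only [Set.mem_insert_iff, Set.mem_singleton_iff] at ha hb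
    rcases ha with rfl | rfl | rfl <;> rcases hb with rfl | rfl | rfl
    · rfl
    · rw [hAd, hA]
    · exact hXA.symm
    · rw [hAd, hA]
    · rfl
    · exact hXAi.symm
    · exact hXA
    · exact hXAi
    · rfl
  have hmc := Algebra.isMulCommutative_adjoin F hcomm
  obtain ⟨S₀, hS₀⟩ : ∃ S₀ : Subalgebra F (Matrix (Fin m ⊕ Fin m) (Fin m ⊕ Fin m) F),
      S₀ = Algebra.adjoin F ({A, dag A, X} : Set (Matrix (Fin m ⊕ Fin m) (Fin m ⊕ Fin m) F)) :=
    ⟨_, rfl⟩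
  rw [← hS₀] at hP hQ hmc
  have := hmc
  have hAm : A ∈ S₀ := by rw [hS₀]; exact Algebra.subset_adjoin (by simp)
  have hXm : X ∈ S₀ := by rw [hS₀]; exact Algebra.subset_adjoin (by simp)
  have hdagmem : ∀ y ∈ S₀, dag y ∈ S₀ := by
    intro y hy
    rw [hS₀] at hy ⊢
    induction hy using Algebra.adjoin_induction with
    | mem x hx =>
      simp only [Set.mem_insert_iff, Set.mem_singleton_iff] at hx
      rcases hx with rfl | rfl | rfl
      · exact Algebra.subset_adjoin (by simp)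
      · rw [dag_dag]; exact Algebra.subset_adjoin (by simp)
      · rw [hX]; exact Algebra.subset_adjoin (by simp)
    | algebraMap r =>
      rw [Algebra.algebraMap_eq_smul_one, dag_smul, dag_one]
      exact Subalgebra.smul_mem _ (one_mem _) r
    | add y z _ _ hy hz => rw [dag_add]; exact add_mem hy hz
    | mul y z _ _ hy hz => rw [dag_mul]; exact mul_mem hz hy
  have : Finite (Matrix (Fin m ⊕ Fin m) (Fin m ⊕ Fin m) F) := by
    unfold Matrix; infer_instance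
  obtain ⟨c, hc⟩ := exists_norm_abstract (S := ↥S₀)
    (S₀.val : ↥S₀ →+* Matrix (Fin m ⊕ Fin m) (Fin m ⊕ Fin m) F) Subtype.val_injective
    (fun s => ⟨⟨dag s.1, hdagmem _ s.2⟩, rfl⟩) p A X P Q ⟨⟨A, hAm⟩, rfl⟩ ⟨⟨X, hXm⟩, rfl⟩
    ⟨⟨P, hP⟩, rfl⟩ ⟨⟨Q, hQ⟩, rfl⟩ hA hX hXu h1 h2 hdP
  exact ⟨c.1, setLike_mul_comm c.2 hAm, setLike_mul_comm c.2 hP, hc⟩

end Part

section Piece

variable {F : Type*} [Field F] {m : ℕ}

/-- on the image of a self-adjoint idempotent commuting with `X`, the forms `J` and `J * X`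
are isometric -/
theorem exists_piece (E X : Matrix (Fin m ⊕ Fin m) (Fin m ⊕ Fin m) F) (hE : E * E = E)
    (hdE : dag E = E) (hEX : E * X = X * E) (hXu : IsUnit X)
    (halt : ∀ v : Fin m ⊕ Fin m → F, v ⬝ᵥ (J (Fin m) F * X) *ᵥ v = 0) :
    ∃ h : Matrix (Fin m ⊕ Fin m) (Fin m ⊕ Fin m) F, E * h = h ∧ h * E = h ∧
      dag h * h = E * X := by
  classical
  obtain ⟨W, hW⟩ : ∃ W : Submodule F (Fin m ⊕ Fin m → F), W = LinearMap.range (Matrix.toLin' E) :=
    ⟨_, rfl⟩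
  have hWfix : ∀ x ∈ W, E *ᵥ x = x := by
    intro x hx
    rw [hW] at hx
    obtain ⟨y, rfl⟩ := hx
    rw [Matrix.toLin'_apply, mulVec_mulVec, hE]
  have hWmem : ∀ z : Fin m ⊕ Fin m → F, E *ᵥ z ∈ W := by
    intro z
    rw [hW]
    exact ⟨z, Matrix.toLin'_apply E z⟩
  obtain ⟨B₁, hB₁⟩ : ∃ B₁ : LinearMap.BilinForm F W,
      B₁ = (Matrix.toBilin' (J (Fin m) F)).restrict W := ⟨_, rfl⟩
  obtain ⟨B₂, hB₂⟩ : ∃ B₂ : LinearMap.BilinForm F W,
      B₂ = (Matrix.toBilin' (J (Fin m) F * X)).restrict W := ⟨_, rfl⟩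
  have hB₁a : ∀ x y : W, B₁ x y = (x : Fin m ⊕ Fin m → F) ⬝ᵥ J (Fin m) F *ᵥ (y : Fin m ⊕ Fin m → F) := by
    intro x y
    rw [hB₁]
    exact Matrix.toBilin'_apply' (J (Fin m) F) (x : Fin m ⊕ Fin m → F) (y : Fin m ⊕ Fin m → F)
  have hB₂a : ∀ x y : W, B₂ x y
      = (x : Fin m ⊕ Fin m → F) ⬝ᵥ (J (Fin m) F * X) *ᵥ (y : Fin m ⊕ Fin m → F) := by
    intro x y
    rw [hB₂]
    exact Matrix.toBilin'_apply' (J (Fin m) F * X) (x : Fin m ⊕ Fin m → F)
      (y : Fin m ⊕ Fin m → F)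
  have h₁ : B₁.IsAlt := fun x => by rw [hB₁a]; exact J_alt _
  have h₂ : B₂.IsAlt := fun x => by rw [hB₂a]; exact halt _
  have hJXu : IsUnit (J (Fin m) F * X) := by
    have hJu : IsUnit (J (Fin m) F) := (Matrix.isUnit_iff_isUnit_det _).2 (isUnit_det_J (Fin m) F)
    exact hJu.mul hXu
  have n₁ : ∀ x : W, (∀ y : W, B₁ x y = 0) → x = 0 := by
    intro x hx
    apply Subtype.ext
    apply vecMul_J_eq_zero
    apply eq_zero_of_dotProduct
    intro z
    rw [← dotProduct_mulVec]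
    have h3 := hx ⟨E *ᵥ z, hWmem z⟩
    rw [hB₁a] at h3
    have h4 := dag_adj E (x : Fin m ⊕ Fin m → F) z
    rw [hdE, hWfix _ x.2, ← mulVec_mulVec] at h4
    rw [← h4]
    exact h3
  have n₂ : ∀ x : W, (∀ y : W, B₂ x y = 0) → x = 0 := by
    intro x hx
    apply Subtype.ext
    have h5 : (x : Fin m ⊕ Fin m → F) ᵥ* (J (Fin m) F * X) = 0 := by
      apply eq_zero_of_dotProduct
      intro z
      rw [← dotProduct_mulVec]
      have h3 := hx ⟨E *ᵥ z, hWmem z⟩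
      rw [hB₂a] at h3
      have h4 := dag_adj E (x : Fin m ⊕ Fin m → F) (X *ᵥ z)
      rw [hdE, hWfix _ x.2] at h4
      rw [← mulVec_mulVec, ← h4, mulVec_mulVec, Matrix.mul_assoc, hEX, ← Matrix.mul_assoc,
        ← mulVec_mulVec]
      exact h3
    obtain ⟨u, hu⟩ := hJXu
    have h6 : ((x : Fin m ⊕ Fin m → F) ᵥ* (J (Fin m) F * X)) ᵥ*
        ((u⁻¹ : (Matrix (Fin m ⊕ Fin m) (Fin m ⊕ Fin m) F)ˣ) :
          Matrix (Fin m ⊕ Fin m) (Fin m ⊕ Fin m) F) = 0 := by rw [h5, zero_vecMul]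
    rw [vecMul_vecMul, ← hu, Units.mul_inv, vecMul_one] at h6
    exact h6
  obtain ⟨φ, hφ⟩ := exists_isometry_alt B₁ B₂ h₁ h₂ n₁ n₂
  obtain ⟨hl, hhl⟩ : ∃ hl : (Fin m ⊕ Fin m → F) →ₗ[F] (Fin m ⊕ Fin m → F),
      hl = W.subtype ∘ₗ (φ : W →ₗ[F] W) ∘ₗ
        (LinearMap.codRestrict W (Matrix.toLin' E) (fun z => by
          rw [Matrix.toLin'_apply]; exact hWmem z)) := ⟨_, rfl⟩
  have hhl' : ∀ z, hl z = ((φ ⟨E *ᵥ z, hWmem z⟩ : W) : Fin m ⊕ Fin m → F) := by
    intro z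
    rw [hhl]
    simp only [LinearMap.comp_apply, Submodule.subtype_apply, LinearEquiv.coe_coe]
    congr 2
  have hmv : ∀ z, LinearMap.toMatrix' hl *ᵥ z = hl z := by
    intro z
    rw [← Matrix.toLin'_apply, Matrix.toLin'_toMatrix']
  refine ⟨LinearMap.toMatrix' hl, ?_, ?_, ?_⟩
  · apply Matrix.toLin'.injective
    apply LinearMap.ext
    intro z
    rw [Matrix.toLin'_apply, Matrix.toLin'_apply, ← mulVec_mulVec, hmv, hhl']
    exact hWfix _ (φ _).2
  · apply Matrix.toLin'.injective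
    apply LinearMap.ext
    intro z
    rw [Matrix.toLin'_apply, Matrix.toLin'_apply, ← mulVec_mulVec, hmv, hmv, hhl', hhl']
    congr 2
    apply Subtype.ext
    show E *ᵥ (E *ᵥ z) = E *ᵥ z
    rw [mulVec_mulVec, hE]
  · have hJu : IsUnit (J (Fin m) F) := (Matrix.isUnit_iff_isUnit_det _).2 (isUnit_det_J (Fin m) F)
    apply hJu.mul_left_cancel
    apply bilin_ext'
    intro x z
    have h3 := dag_adj (LinearMap.toMatrix' hl) x (LinearMap.toMatrix' hl *ᵥ z)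
    rw [mulVec_mulVec, Matrix.mul_assoc] at h3
    rw [h3, hmv, hmv, hhl', hhl', ← hB₁a, hφ, hB₂a]
    show (E *ᵥ x) ⬝ᵥ (J (Fin m) F * X) *ᵥ (E *ᵥ z) = _
    have h4 := dag_adj E x ((X * E) *ᵥ z)
    rw [hdE] at h4
    calc (E *ᵥ x) ⬝ᵥ (J (Fin m) F * X) *ᵥ (E *ᵥ z)
        = (E *ᵥ x) ⬝ᵥ J (Fin m) F *ᵥ ((X * E) *ᵥ z) := by
          simp only [mulVec_mulVec, Matrix.mul_assoc]
      _ = x ⬝ᵥ (J (Fin m) F * E) *ᵥ ((X * E) *ᵥ z) := h4.symm
      _ = x ⬝ᵥ (J (Fin m) F * (E * X)) *ᵥ z := by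
          rw [mulVec_mulVec]
          congr 2
          calc J (Fin m) F * E * (X * E) = J (Fin m) F * (E * (E * X)) := by
                rw [hEX]; simp only [Matrix.mul_assoc]
            _ = J (Fin m) F * (E * X) := by rw [← Matrix.mul_assoc E, hE]

/-- assembling along three orthogonal self-adjoint idempotents -/
theorem assemble (E₀ E₁ E₂ h₀ h₁ h₂ X : Matrix (Fin m ⊕ Fin m) (Fin m ⊕ Fin m) F)
    (hsum : E₀ + E₁ + E₂ = 1)
    (hd0 : dag E₀ = E₀) (hd1 : dag E₁ = E₁) (hd2 : dag E₂ = E₂)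
    (h01 : E₀ * E₁ = 0) (h02 : E₀ * E₂ = 0) (h10 : E₁ * E₀ = 0) (h12 : E₁ * E₂ = 0)
    (h20 : E₂ * E₀ = 0) (h21 : E₂ * E₁ = 0)
    (he0 : E₀ * h₀ = h₀) (he1 : E₁ * h₁ = h₁) (he2 : E₂ * h₂ = h₂)
    (hn0 : dag h₀ * h₀ = E₀ * X) (hn1 : dag h₁ * h₁ = E₁ * X) (hn2 : dag h₂ * h₂ = E₂ * X) :
    dag (h₀ + h₁ + h₂) * (h₀ + h₁ + h₂) = X := by
  have hz : ∀ (E E' h h' : Matrix (Fin m ⊕ Fin m) (Fin m ⊕ Fin m) F), dag E = E → E * E' = 0 →
      E * h = h → E' * h' = h' → dag h * h' = 0 := by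
    intro E E' h h' hdE hEE' hEh hE'h'
    calc dag h * h' = dag (E * h) * (E' * h') := by rw [hEh, hE'h']
      _ = dag h * (E * E') * h' := by rw [dag_mul, hdE]; simp only [Matrix.mul_assoc]
      _ = 0 := by rw [hEE', Matrix.mul_zero, Matrix.zero_mul]
  rw [dag_add, dag_add]
  simp only [add_mul, mul_add]
  rw [hn0, hn1, hn2, hz E₀ E₁ h₀ h₁ hd0 h01 he0 he1, hz E₀ E₂ h₀ h₂ hd0 h02 he0 he2,
    hz E₁ E₀ h₁ h₀ hd1 h10 he1 he0, hz E₁ E₂ h₁ h₂ hd1 h12 he1 he2,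
    hz E₂ E₀ h₂ h₀ hd2 h20 he2 he0, hz E₂ E₁ h₂ h₁ hd2 h21 he2 he1]
  simp only [add_zero, zero_add]
  rw [← add_mul, ← add_mul, hsum, one_mul]

end Piece

section Main

variable {F : Type*} [Field F] [Finite F] {m : ℕ}

/-- a `dag`-symmetric invertible matrix commuting with a semisimple symplectic matrix `A`, whose
form `J * X` is alternating, is `dag h * h` with `h` commuting with `A` -/
theorem exists_commuting_isometry (p : ℕ) [Fact p.Prime] [CharP F p]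
    (A X : Matrix (Fin m ⊕ Fin m) (Fin m ⊕ Fin m) F) (k : ℕ) (hk : k.Coprime p) (hAk : A ^ k = 1) (hA : dag A * A = 1)
    (hX : dag X = X) (hXu : IsUnit X) (hXA : X * A = A * X)
    (halt : ∀ v : Fin m ⊕ Fin m → F, v ⬝ᵥ (J (Fin m) F * X) *ᵥ v = 0) :
    ∃ h : Matrix (Fin m ⊕ Fin m) (Fin m ⊕ Fin m) F, h * A = A * h ∧ dag h * h = X := by
  have hkF : (k : F) ≠ 0 := by
    rw [Ne, CharP.cast_eq_zero_iff F p]
    intro hdvd
    have hp := (Fact.out : p.Prime)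
    have := Nat.Coprime.eq_one_of_dvd hk.symm hdvd
    exact hp.one_lt.ne' this
  have hAd : A * dag A = 1 := mul_eq_one_comm.1 hA
  obtain ⟨B, hB⟩ : ∃ B : Matrix (Fin m ⊕ Fin m) (Fin m ⊕ Fin m) F, B = A * A := ⟨_, rfl⟩
  have hBk : B ^ k = 1 := by rw [hB, ← pow_two, ← pow_mul, mul_comm, pow_mul, hAk, one_pow]
  have hdB : dag B * B = 1 := by
    rw [hB, dag_mul]
    calc dag A * dag A * (A * A) = dag A * (dag A * A) * A := by simp only [mul_assoc]
      _ = 1 := by rw [hA, mul_one, hA]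
  obtain ⟨P, hPdef⟩ : ∃ P : Matrix (Fin m ⊕ Fin m) (Fin m ⊕ Fin m) F, P = proj F k B := ⟨_, rfl⟩
  obtain ⟨Q, hQdef⟩ : ∃ Q : Matrix (Fin m ⊕ Fin m) (Fin m ⊕ Fin m) F, Q = Qp F k B := ⟨_, rfl⟩
  obtain ⟨P₁, hP₁def⟩ : ∃ P₁ : Matrix (Fin m ⊕ Fin m) (Fin m ⊕ Fin m) F, P₁ = proj F k A := ⟨_, rfl⟩
  have h1 : (1 - A * A) * Q = 1 - P := by
    rw [hQdef, hPdef, ← hB]; exact one_sub_mul_Qp k hkF B
  have h2 : (1 - A * A) * P = 0 := by rw [hPdef, ← hB]; exact one_sub_mul_proj k B hBk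
  have hdP : dag P = P := by rw [hPdef]; exact dag_proj k hkF B hBk hdB
  have hdP₁ : dag P₁ = P₁ := by rw [hP₁def]; exact dag_proj k hkF A hAk hA
  have hPP : P * P = P := by rw [hPdef]; exact proj_idem k hkF B hBk
  have hP₁P₁ : P₁ * P₁ = P₁ := by rw [hP₁def]; exact proj_idem k hkF A hAk
  have hAP₁ : A * P₁ = P₁ := by rw [hP₁def]; exact mul_proj k A hAk
  have hPP₁ : P * P₁ = P₁ := by
    rw [hPdef]
    apply proj_mul_of_fix k hkF
    rw [hB, mul_assoc, hAP₁, hAP₁]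
  have hcAP₁ : Commute A P₁ := by rw [hP₁def]; exact commute_proj k A A (Commute.refl A)
  have hcAP : Commute A P := by
    rw [hPdef]
    exact commute_proj k B A (by rw [hB]; exact (Commute.refl A).mul_right (Commute.refl A))
  have hcP₁P : Commute P₁ P := by
    rw [hPdef]
    apply commute_proj
    rw [hB]
    exact hcAP₁.symm.mul_right hcAP₁.symm
  have hP₁P : P₁ * P = P₁ := by rw [hcP₁P.eq, hPP₁]
  have hcXA : Commute X A := hXA
  have hcXP : Commute X P := by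
    rw [hPdef]; exact commute_proj k B X (by rw [hB]; exact hcXA.mul_right hcXA)
  have hcXP₁ : Commute X P₁ := by rw [hP₁def]; exact commute_proj k A X hcXA
  have h2P : (1 + A) * P = 2 • P₁ := by
    rw [hPdef, hP₁def, hB]; exact one_add_mul_proj_sq k A hAk
  obtain ⟨P₂, hP₂def⟩ : ∃ P₂ : Matrix (Fin m ⊕ Fin m) (Fin m ⊕ Fin m) F, P₂ = P - P₁ := ⟨_, rfl⟩
  have hP₂P₂ : P₂ * P₂ = P₂ := by
    rw [hP₂def, sub_mul, mul_sub, mul_sub, hPP, hPP₁, hP₁P, hP₁P₁]; abel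
  have hdP₂ : dag P₂ = P₂ := by rw [hP₂def, dag_sub, hdP, hdP₁]
  have hAP : A * P = 2 • P₁ - P := by
    rw [← h2P, add_mul, one_mul]; abel
  have hAP₂ : A * P₂ = -P₂ := by
    rw [hP₂def, mul_sub, hAP, hAP₁, two_nsmul]; abel
  have hcXP₂ : Commute X P₂ := by rw [hP₂def]; exact hcXP.sub_right hcXP₁
  have hAmem : A ∈ Algebra.adjoin F ({A, dag A, X} : Set (Matrix (Fin m ⊕ Fin m) (Fin m ⊕ Fin m) F)) :=
    Algebra.subset_adjoin (by simp)
  have hPm : P ∈ Algebra.adjoin F ({A, dag A, X} : Set (Matrix (Fin m ⊕ Fin m) (Fin m ⊕ Fin m) F)) := by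
    rw [hPdef]
    apply proj_mem
    rw [hB]
    exact mul_mem hAmem hAmem
  have hQm : Q ∈ Algebra.adjoin F ({A, dag A, X} : Set (Matrix (Fin m ⊕ Fin m) (Fin m ⊕ Fin m) F)) := by
    rw [hQdef]
    apply Qp_mem
    rw [hB]
    exact mul_mem hAmem hAmem
  obtain ⟨c, hcA, hcP, hc⟩ := exists_norm_part p A X P Q hA hX hXu hXA hPm hQm h1 h2 hdP
  obtain ⟨h₁, h₁a, h₁b, h₁c⟩ := exists_piece P₁ X hP₁P₁ hdP₁ hcXP₁.eq.symm hXu halt
  obtain ⟨h₂, h₂a, h₂b, h₂c⟩ := exists_piece P₂ X hP₂P₂ hdP₂ hcXP₂.eq.symm hXu halt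
  have hidem : (1 - P) * (1 - P) = 1 - P := by
    simp only [sub_mul, mul_sub, mul_one, one_mul, hPP]; abel
  refine ⟨(1 - P) * c + h₁ + h₂, ?_, ?_⟩
  · have e0 : (1 - P) * c * A = A * ((1 - P) * c) := by
      rw [mul_assoc, hcA, ← mul_assoc, ← mul_assoc]
      congr 1
      rw [sub_mul, mul_sub, one_mul, mul_one, hcAP.eq]
    have e1 : h₁ * A = A * h₁ := by
      calc h₁ * A = h₁ * (P₁ * A) := by rw [← mul_assoc, h₁b]
        _ = h₁ * P₁ := by rw [← hcAP₁.eq, hAP₁]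
        _ = h₁ := h₁b
        _ = P₁ * h₁ := h₁a.symm
        _ = A * P₁ * h₁ := by rw [hAP₁]
        _ = A * h₁ := by rw [mul_assoc, h₁a]
    have e2 : h₂ * A = A * h₂ := by
      have hP₂A : P₂ * A = -P₂ := by
        rw [← hAP₂, hP₂def, sub_mul, mul_sub, hcAP.eq, hcAP₁.eq]
      calc h₂ * A = h₂ * (P₂ * A) := by rw [← mul_assoc, h₂b]
        _ = -h₂ := by rw [hP₂A, mul_neg, h₂b]
        _ = -(P₂ * h₂) := by rw [h₂a]
        _ = A * P₂ * h₂ := by rw [hAP₂, neg_mul]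
        _ = A * h₂ := by rw [mul_assoc, h₂a]
    rw [add_mul, add_mul, mul_add, mul_add, e0, e1, e2]
  · apply assemble (1 - P) P₁ P₂ ((1 - P) * c) h₁ h₂ X
    · rw [hP₂def]; abel
    · rw [dag_sub, dag_one, hdP]
    · exact hdP₁
    · exact hdP₂
    · rw [sub_mul, one_mul, hPP₁, sub_self]
    · rw [hP₂def, sub_mul, one_mul, mul_sub, hPP, hPP₁]; abel
    · rw [mul_sub, mul_one, hP₁P, sub_self]
    · rw [hP₂def, mul_sub, hP₁P, hP₁P₁, sub_self]
    · rw [hP₂def, sub_mul, mul_sub, mul_sub, mul_one, mul_one, hPP, hP₁P]; abel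
    · rw [hP₂def, sub_mul, hPP₁, hP₁P₁, sub_self]
    · rw [← mul_assoc, hidem]
    · exact h₁a
    · exact h₂a
    · rw [dag_mul, dag_sub, dag_one, hdP]
      have hcP' : dag c * P = P * dag c := by
        have := congrArg dag hcP
        rw [dag_mul, dag_mul, hdP] at this
        exact this.symm
      have hcP'' : dag c * (1 - P) = (1 - P) * dag c := by
        rw [mul_sub, sub_mul, mul_one, one_mul, hcP']
      calc dag c * (1 - P) * ((1 - P) * c) = dag c * ((1 - P) * (1 - P)) * c := by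
            simp only [mul_assoc]
        _ = (1 - P) * (dag c * c) := by rw [hidem, hcP'', mul_assoc]
        _ = (1 - P) * X := hc
    · exact h₁c
    · exact h₂c

end Main

end SpSemi
end Cfsg.Agent.Helper43
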