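/-
Helper43 library: the norm part of `SpSemi2` for an arbitrary `F`-linear anti-involution `σ` of
a matrix algebra over a finite field (`IsAdj σ`):  for `A` with `σ A * A = 1`, `A ^ k = 1`
(`k` prime to the characteristic) and a `σ`-symmetric invertible `X` commuting with `A`, there
is `c` in the commutative algebra generated by `A`, `σ A`, `X` with
`(1 - P) * (σ c * c) = (1 - P) * X`, `P` the projection onto the kernel of `A ^ 2 - 1`.
-/
import Cfsg.Agent.Helper43.SpSemi2

set_option autoImplicit false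
set_option linter.unusedSectionVars false

namespace Cfsg.Agent.Helper43
namespace SemiAdj

open Matrix NormGen SpSemi

section Adj

variable {F : Type*} [Field F] {ι : Type*} [Fintype ι] [DecidableEq ι]

/-- an `F`-linear anti-involution of the matrix algebra -/
structure IsAdj (σ : Matrix ι ι F → Matrix ι ι F) : Prop where
  add : ∀ Y Z, σ (Y + Z) = σ Y + σ Z
  smul : ∀ (a : F) Y, σ (a • Y) = a • σ Y
  mul : ∀ Y Z, σ (Y * Z) = σ Z * σ Y
  one : σ 1 = 1
  invol : ∀ Y, σ (σ Y) = Y

variable {σ : Matrix ι ι F → Matrix ι ι F} (hσ : IsAdj σ)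

include hσ

theorem IsAdj.zero : σ 0 = 0 := by
  have := hσ.smul 0 0
  rwa [zero_smul, zero_smul] at this

theorem IsAdj.neg (Y : Matrix ι ι F) : σ (-Y) = -σ Y := by
  have := hσ.smul (-1) Y
  rwa [neg_one_smul, neg_one_smul] at this

theorem IsAdj.sub (Y Z : Matrix ι ι F) : σ (Y - Z) = σ Y - σ Z := by
  rw [sub_eq_add_neg, hσ.add, hσ.neg, sub_eq_add_neg]

theorem IsAdj.pow (Y : Matrix ι ι F) (i : ℕ) : σ (Y ^ i) = σ Y ^ i := by
  induction i with
  | zero => rw [pow_zero, pow_zero, hσ.one]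
  | succ i ih => rw [pow_succ, hσ.mul, ih, pow_succ']

theorem IsAdj.sum {κ : Type*} (s : Finset κ) (f : κ → Matrix ι ι F) :
    σ (∑ i ∈ s, f i) = ∑ i ∈ s, σ (f i) := by
  classical
  induction s using Finset.induction_on with
  | empty => simp [hσ.zero]
  | insert a s ha ih => rw [Finset.sum_insert ha, Finset.sum_insert ha, hσ.add, ih]

theorem adj_proj (k : ℕ) (hk : (k : F) ≠ 0) (B : Matrix ι ι F)
    (hB : B ^ k = 1) (hdB : σ B * B = 1) : σ (proj F k B) = proj F k B := by
  have hBd : B * σ B = 1 := mul_eq_one_comm.1 hdB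
  have h1 : σ (proj F k B) = proj F k (σ B) := by
    unfold proj
    rw [hσ.smul, hσ.sum]
    congr 1
    exact Finset.sum_congr rfl fun i _ => hσ.pow B i
  have hdk : σ B ^ k = 1 := by rw [← hσ.pow, hB, hσ.one]
  have h2 : σ B * proj F k B = proj F k B := by
    calc σ B * proj F k B = σ B * (B * proj F k B) := by rw [mul_proj k B hB]
      _ = proj F k B := by rw [← mul_assoc, hdB, one_mul]
  have h3 : B * proj F k (σ B) = proj F k (σ B) := by
    calc B * proj F k (σ B) = B * (σ B * proj F k (σ B)) := by rw [mul_proj k _ hdk]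
      _ = proj F k (σ B) := by rw [← mul_assoc, hBd, one_mul]
  have h4 : proj F k (σ B) * proj F k B = proj F k B := proj_mul_of_fix k hk _ _ h2
  have h5 : proj F k B * proj F k (σ B) = proj F k (σ B) := proj_mul_of_fix k hk _ _ h3
  have hc : Commute (σ B) B := by
    show σ B * B = B * σ B
    rw [hdB, hBd]
  have h6 : Commute (proj F k (σ B)) (proj F k B) :=
    commute_proj k B _ ((commute_proj k (σ B) B hc.symm).symm)
  rw [h1, ← h5, ← h6.eq, h4]

/-- the norm equation in a commutative `σ`-stable finite ring of matrices -/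
theorem exists_norm_abstract_gen {S : Type*} [CommRing S] [Finite S]
    (j : S →+* Matrix ι ι F) (hj : Function.Injective j)
    (hdag : ∀ s : S, ∃ s' : S, j s' = σ (j s)) (p : ℕ) [Fact p.Prime] [CharP F p]
    (A X P Q : Matrix ι ι F)
    (hAmem : A ∈ Set.range j) (hXmem : X ∈ Set.range j) (hPmem : P ∈ Set.range j)
    (hQmem : Q ∈ Set.range j) (hA : σ A * A = 1) (hX : σ X = X) (hXu : IsUnit X)
    (h1 : (1 - A * A) * Q = 1 - P) (h2 : (1 - A * A) * P = 0) (hdP : σ P = P) :
    ∃ c : S, (1 - P) * (σ (j c) * j c) = (1 - P) * X := by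
  choose τf hτf using hdag
  obtain ⟨τ, hττ⟩ : ∃ τ : S →+* S, ∀ s, τ s = τf s := by
    refine ⟨{ toFun := τf, map_one' := ?_, map_mul' := ?_, map_zero' := ?_, map_add' := ?_ },
      fun s => rfl⟩
    · apply hj
      rw [hτf, map_one, hσ.one]
    · intro s t
      apply hj
      rw [hτf, map_mul, hσ.mul, ← hτf, ← hτf, ← map_mul, mul_comm]
    · apply hj
      rw [hτf, map_zero, hσ.zero]
    · intro s t
      apply hj
      rw [hτf, map_add, hσ.add, map_add, hτf, hτf]
  have hτj : ∀ s, j (τ s) = σ (j s) := fun s => by rw [hττ, hτf]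
  have hτ : ∀ s, τ (τ s) = s := by
    intro s
    apply hj
    rw [hτj, hτj, hσ.invol]
  obtain ⟨α, rfl⟩ := hAmem
  obtain ⟨ξ, rfl⟩ := hXmem
  obtain ⟨π, rfl⟩ := hPmem
  obtain ⟨κ, rfl⟩ := hQmem
  have hα : α * τ α = 1 := by
    apply hj
    rw [map_mul, hτj, map_one]
    exact mul_eq_one_comm.1 hA
  have h1' : (1 - α * α) * κ = 1 - π := by
    apply hj
    simpa only [map_mul, map_sub, map_one] using h1
  have h2' : (1 - α * α) * π = 0 := by
    apply hj
    simpa only [map_mul, map_sub, map_one, map_zero] using h2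
  have hπ : τ π = π := by
    apply hj
    rw [hτj, hdP]
  have hξ : τ ξ = ξ := by
    apply hj
    rw [hτj, hX]
  have hξu : IsUnit ξ := by
    rw [isUnit_iff_mem_nonZeroDivisors_of_finite, mem_nonZeroDivisors_iff]
    have key : ∀ s : S, s * ξ = 0 → s = 0 := by
      intro s hs
      apply hj
      have h3 := congrArg j hs
      rw [map_mul, map_zero] at h3
      rw [map_zero]
      exact hXu.mul_left_eq_zero.1 h3
    exact ⟨fun s hs => key s (by rw [mul_comm]; exact hs), key⟩
  obtain ⟨u, hu⟩ := hξu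
  have hp0 : ((p : ℕ) : S) = 0 := by
    apply hj
    rw [map_natCast, map_zero]
    have h3 : ((p : ℕ) : Matrix ι ι F) = algebraMap F (Matrix ι ι F) ((p : ℕ) : F) :=
      (map_natCast _ p).symm
    rw [h3, CharP.cast_eq_zero F p, map_zero]
  obtain ⟨c, hc⟩ := norm_surj_alpha p hp0 τ hτ α π κ hα h1' h2' hπ u (by rw [hu]; exact hξ)
  refine ⟨c, ?_⟩
  have h4 := congrArg j hc
  rw [hu, mul_comm c, map_mul, map_mul, map_mul, map_sub, map_one, hτj] at h4
  exact h4

end Adj

section Part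

variable {F : Type*} [Field F] [Finite F] {ι : Type*} [Fintype ι] [DecidableEq ι]
  {σ : Matrix ι ι F → Matrix ι ι F} (hσ : IsAdj σ)

include hσ

open scoped IsMulCommutative in
/-- the norm equation in the commutative algebra generated by `A`, `σ A` and `X` -/
theorem exists_norm_part_gen (p : ℕ) [Fact p.Prime] [CharP F p]
    (A X P Q : Matrix ι ι F)
    (hA : σ A * A = 1) (hX : σ X = X) (hXu : IsUnit X) (hXA : X * A = A * X)
    (hP : P ∈ Algebra.adjoin F ({A, σ A, X} : Set (Matrix ι ι F)))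
    (hQ : Q ∈ Algebra.adjoin F ({A, σ A, X} : Set (Matrix ι ι F)))
    (h1 : (1 - A * A) * Q = 1 - P) (h2 : (1 - A * A) * P = 0) (hdP : σ P = P) :
    ∃ c : Matrix ι ι F,
      c * A = A * c ∧ c * P = P * c ∧ c * X = X * c ∧ σ c * c = c * σ c ∧
        (1 - P) * (σ c * c) = (1 - P) * X := by
  classical
  have hAd : A * σ A = 1 := mul_eq_one_comm.1 hA
  have hXAi : X * σ A = σ A * X := by
    calc X * σ A = σ A * (A * X) * σ A := by rw [← mul_assoc, hA, one_mul]
      _ = σ A * (X * A) * σ A := by rw [hXA]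
      _ = σ A * X := by rw [mul_assoc, mul_assoc, hAd, mul_one]
  have hcomm : ∀ a ∈ ({A, σ A, X} : Set (Matrix ι ι F)),
      ∀ b ∈ ({A, σ A, X} : Set (Matrix ι ι F)), a * b = b * a := by
    intro a ha b hb
    simp only [Set.mem_insert_iff, Set.mem_singleton_iff] at ha hb
    rcases ha with rfl | rfl | rfl <;> rcases hb with rfl | rfl | rfl
    · rfl
    · rw [hAd, hA]
    · exact hXA.symm
    · rw [hAd, hA]
    · rfl
    · exact hXAi.symm
    · exact hXA
    · exact hXAi
    · rfl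
  have hmc := Algebra.isMulCommutative_adjoin F hcomm
  obtain ⟨S₀, hS₀⟩ : ∃ S₀ : Subalgebra F (Matrix ι ι F),
      S₀ = Algebra.adjoin F ({A, σ A, X} : Set (Matrix ι ι F)) :=
    ⟨_, rfl⟩
  rw [← hS₀] at hP hQ hmc
  have := hmc
  have hAm : A ∈ S₀ := by rw [hS₀]; exact Algebra.subset_adjoin (by simp)
  have hXm : X ∈ S₀ := by rw [hS₀]; exact Algebra.subset_adjoin (by simp)
  have hdagmem : ∀ y ∈ S₀, σ y ∈ S₀ := by
    intro y hy
    rw [hS₀] at hy ⊢
    induction hy using Algebra.adjoin_induction with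
    | mem x hx =>
      simp only [Set.mem_insert_iff, Set.mem_singleton_iff] at hx
      rcases hx with rfl | rfl | rfl
      · exact Algebra.subset_adjoin (by simp)
      · rw [hσ.invol]; exact Algebra.subset_adjoin (by simp)
      · rw [hX]; exact Algebra.subset_adjoin (by simp)
    | algebraMap r =>
      rw [Algebra.algebraMap_eq_smul_one, hσ.smul, hσ.one]
      exact Subalgebra.smul_mem _ (one_mem _) r
    | add y z _ _ hy hz => rw [hσ.add]; exact add_mem hy hz
    | mul y z _ _ hy hz => rw [hσ.mul]; exact mul_mem hz hy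
  have : Finite (Matrix ι ι F) := by
    unfold Matrix; infer_instance
  obtain ⟨c, hc⟩ := exists_norm_abstract_gen hσ (S := ↥S₀)
    (S₀.val : ↥S₀ →+* Matrix ι ι F) Subtype.val_injective
    (fun s => ⟨⟨σ s.1, hdagmem _ s.2⟩, rfl⟩) p A X P Q ⟨⟨A, hAm⟩, rfl⟩ ⟨⟨X, hXm⟩, rfl⟩
    ⟨⟨P, hP⟩, rfl⟩ ⟨⟨Q, hQ⟩, rfl⟩ hA hX hXu h1 h2 hdP
  exact ⟨c.1, setLike_mul_comm c.2 hAm, setLike_mul_comm c.2 hP, setLike_mul_comm c.2 hXm,
    setLike_mul_comm (hdagmem _ c.2) c.2, hc⟩

end Part

end SemiAdj
end Cfsg.Agent.Helper43
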