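/-
Helper43 library: semisimple elements of odd order of a finite orthogonal group (isometry group
of a quadratic form with non-degenerate polar form, any characteristic) that are conjugate as
matrices are conjugate by an isometry.  Uses the norm part `SemiAdj.exists_norm_part_gen` on the
image of `1 - a` and Witt's lemma (`Helper13.witt_quad`) to extend.
-/
import Cfsg.Agent.Helper43.SemiAdj
import Cfsg.Agent.Helper13.WittQuad

set_option autoImplicit false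
set_option linter.unusedSectionVars false

namespace Cfsg.Agent.Helper43
namespace OrthSemi

open Matrix NormGen SpSemi SemiAdj Cfsg.Agent.Helper13

section Gadj

variable {F : Type*} [Field F] {ι : Type*} [Fintype ι] [DecidableEq ι]

/-- the adjoint with respect to the form with (symmetric) Gram matrix `M`, `Mi` its inverse -/
def gadj (M Mi Y : Matrix ι ι F) : Matrix ι ι F := Mi * Yᵀ * M

theorem gadj_isAdj (M Mi : Matrix ι ι F) (hM : Mᵀ = M) (h1 : M * Mi = 1) :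
    IsAdj (gadj M Mi) where
  add Y Z := by unfold gadj; rw [transpose_add, mul_add, add_mul]
  smul a Y := by unfold gadj; rw [transpose_smul, mul_smul_comm, smul_mul_assoc]
  mul Y Z := by
    unfold gadj
    rw [transpose_mul]
    calc Mi * (Zᵀ * Yᵀ) * M = Mi * Zᵀ * 1 * Yᵀ * M := by simp only [mul_one, mul_assoc]
      _ = Mi * Zᵀ * (M * Mi) * Yᵀ * M := by rw [h1]
      _ = Mi * Zᵀ * M * (Mi * Yᵀ * M) := by simp only [mul_assoc]
  one := by unfold gadj; rw [transpose_one, mul_one]; exact mul_eq_one_comm.1 h1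
  invol Y := by
    unfold gadj
    have h2 : Mi * M = 1 := mul_eq_one_comm.1 h1
    have h3 : Miᵀ * M = 1 := by
      calc Miᵀ * M = Miᵀ * Mᵀ := by rw [hM]
        _ = 1 := by rw [← transpose_mul, h1, transpose_one]
    have hMi : Miᵀ = Mi := by
      calc Miᵀ = Miᵀ * (M * Mi) := by rw [h1, mul_one]
        _ = Mi := by rw [← mul_assoc, h3, one_mul]
    rw [transpose_mul, transpose_mul, transpose_transpose, hM, hMi]
    calc Mi * (M * (Y * Mi)) * M = (Mi * M) * Y * (Mi * M) := by simp only [mul_assoc]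
      _ = Y := by rw [h2, one_mul, mul_one]

theorem gadj_adj (M Mi : Matrix ι ι F) (h1 : M * Mi = 1) (Y : Matrix ι ι F) (x w : ι → F) :
    (Y *ᵥ x) ⬝ᵥ M *ᵥ w = x ⬝ᵥ M *ᵥ (gadj M Mi Y *ᵥ w) := by
  unfold gadj
  rw [mulVec_mulVec, ← mul_assoc, ← mul_assoc, h1, one_mul, ← mulVec_mulVec,
    dotProduct_mulVec x, vecMul_transpose]

theorem mulVec_ext' (Y Z : Matrix ι ι F) (h : ∀ w : ι → F, Y *ᵥ w = Z *ᵥ w) : Y = Z := by
  apply bilin_ext'
  intro x z
  rw [h z]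

end Gadj

section Main

variable {F : Type*} [Field F] [Finite F] {ι : Type*} [Fintype ι] [DecidableEq ι]

theorem invariant_sub (Q : QuadraticForm F (ι → F)) (g a : Matrix ι ι F)
    (h : ∀ w, Q (g *ᵥ (a *ᵥ w)) = Q (g *ᵥ w)) (w : ι → F) :
    Q (g *ᵥ ((1 - a) *ᵥ w)) = PB Q (g *ᵥ w) (g *ᵥ ((1 - a) *ᵥ w)) := by
  have h1 : g *ᵥ ((1 - a) *ᵥ w) = g *ᵥ w - g *ᵥ (a *ᵥ w) := by
    rw [sub_mulVec, one_mulVec, mulVec_sub]
  rw [h1, wq_sub, h, map_sub, wq_self]
  ring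

/-- semisimple odd-order isometries conjugate as matrices are conjugate by an isometry -/
theorem exists_orth_conj (p : ℕ) [Fact p.Prime] [CharP F p] (Q : QuadraticForm F (ι → F))
    (hQ : (PB Q).Nondegenerate)
    (a b G Gi : Matrix ι ι F) (hGi : G * Gi = 1) (k : ℕ) (hk : Odd k) (hkp : k.Coprime p)
    (hak : a ^ k = 1) (ha : ∀ x, Q (a *ᵥ x) = Q x) (hb : ∀ x, Q (b *ᵥ x) = Q x)
    (hG : G * a = b * G) :
    ∃ S S' : Matrix ι ι F, S * S' = 1 ∧ (∀ x, Q (S *ᵥ x) = Q x) ∧ S * a = b * S := by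
  classical
  obtain ⟨M, hMdef⟩ : ∃ M : Matrix ι ι F, M = LinearMap.BilinForm.toMatrix' (PB Q) := ⟨_, rfl⟩
  have hβ : ∀ x y, PB Q x y = x ⬝ᵥ M *ᵥ y := by
    intro x y
    rw [hMdef, ← Matrix.toBilin'_apply', Matrix.toBilin'_toMatrix']
  have hMt : Mᵀ = M := by
    apply bilin_ext'
    intro x z
    rw [← hβ, wq_comm, hβ, mulVec_transpose, dotProduct_comm, ← dotProduct_mulVec]
  have hMdet : M.det ≠ 0 := by
    rw [← Matrix.nondegenerate_iff_det_ne_zero, hMdef]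
    exact LinearMap.BilinForm.nondegenerate_toMatrix'_iff.2 hQ
  obtain ⟨Mi, hMi⟩ : ∃ Mi : Matrix ι ι F, M * Mi = 1 :=
    ⟨M⁻¹, Matrix.mul_nonsing_inv M (isUnit_iff_ne_zero.2 hMdet)⟩
  obtain ⟨σ, hσdef⟩ : ∃ σ : Matrix ι ι F → Matrix ι ι F, σ = gadj M Mi := ⟨_, rfl⟩
  have hσ : IsAdj σ := by rw [hσdef]; exact gadj_isAdj M Mi hMt hMi
  have hadj : ∀ (Y : Matrix ι ι F) (x w : ι → F), PB Q (Y *ᵥ x) w = PB Q x (σ Y *ᵥ w) := by
    intro Y x w
    rw [hβ, hβ, hσdef]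
    exact gadj_adj M Mi hMi Y x w
  have hext : ∀ Y Z : Matrix ι ι F, (∀ x w, PB Q x (Y *ᵥ w) = PB Q x (Z *ᵥ w)) → Y = Z := by
    intro Y Z h
    have h1 : M * Y = M * Z := by
      apply bilin_ext'
      intro x w
      rw [← mulVec_mulVec, ← mulVec_mulVec, ← hβ, ← hβ]
      exact h x w
    calc Y = (Mi * M) * Y := by rw [mul_eq_one_comm.1 hMi, one_mul]
      _ = (Mi * M) * Z := by rw [mul_assoc, h1, ← mul_assoc]
      _ = Z := by rw [mul_eq_one_comm.1 hMi, one_mul]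
  have hvec : ∀ v : ι → F, (∀ x, PB Q x v = 0) → v = 0 := fun v h => hQ.2 v h
  have hpol : ∀ (g : Matrix ι ι F), (∀ x, Q (g *ᵥ x) = Q x) →
      ∀ x w, PB Q (g *ᵥ x) (g *ᵥ w) = PB Q x w := by
    intro g hg x w
    have h1 := wq_add Q (g *ᵥ x) (g *ᵥ w)
    have h2 := wq_add Q x w
    rw [← mulVec_add, hg, hg, hg] at h1
    linear_combination h2 - h1
  have hunit : ∀ (g : Matrix ι ι F), (∀ x, Q (g *ᵥ x) = Q x) → σ g * g = 1 := by
    intro g hg
    apply hext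
    intro x w
    rw [← mulVec_mulVec, ← hadj, hpol g hg, one_mulVec]
  have hσa : σ a * a = 1 := hunit a ha
  have hσb : σ b * b = 1 := hunit b hb
  have haσ : a * σ a = 1 := mul_eq_one_comm.1 hσa
  -- the twisted form
  obtain ⟨X, hXdef⟩ : ∃ X : Matrix ι ι F, X = σ G * G := ⟨_, rfl⟩
  have hGi' : Gi * G = 1 := mul_eq_one_comm.1 hGi
  have hX : σ X = X := by rw [hXdef, hσ.mul, hσ.invol]
  obtain ⟨Xi, hXi⟩ : ∃ Xi : Matrix ι ι F, X * Xi = 1 := by
    refine ⟨Gi * σ Gi, ?_⟩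
    rw [hXdef]
    calc σ G * G * (Gi * σ Gi) = σ G * (G * Gi) * σ Gi := by simp only [mul_assoc]
      _ = σ (Gi * G) := by rw [hGi, mul_one, hσ.mul]
      _ = 1 := by rw [hGi', hσ.one]
  have hXi' : Xi * X = 1 := mul_eq_one_comm.1 hXi
  have hXu : IsUnit X := ⟨⟨X, Xi, hXi, hXi'⟩, rfl⟩
  have hinv : σ a * X * a = X := by
    calc σ a * X * a = σ (G * a) * (G * a) := by rw [hσ.mul, hXdef]; simp only [mul_assoc]
      _ = σ G * (σ b * b) * G := by rw [hG, hσ.mul]; simp only [mul_assoc]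
      _ = X := by rw [hσb, mul_one, hXdef]
  have hXA : X * a = a * X := by
    calc X * a = (a * σ a) * X * a := by rw [haσ, one_mul]
      _ = a * (σ a * X * a) := by simp only [mul_assoc]
      _ = a * X := by rw [hinv]
  -- projections
  have hkF : (k : F) ≠ 0 := by
    intro h
    have h1 := (CharP.cast_eq_zero_iff F p k).1 h
    have h2 : p ∣ Nat.gcd k p := Nat.dvd_gcd h1 dvd_rfl
    rw [hkp] at h2
    exact (Fact.out : p.Prime).one_lt.ne' (Nat.dvd_one.1 h2)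
  obtain ⟨P, hPdef⟩ : ∃ P : Matrix ι ι F, P = proj F k (a * a) := ⟨_, rfl⟩
  obtain ⟨Qq, hQqdef⟩ : ∃ Qq : Matrix ι ι F, Qq = Qp F k (a * a) := ⟨_, rfl⟩
  have haak : (a * a) ^ k = 1 := by rw [← pow_two, ← pow_mul, mul_comm, pow_mul, hak, one_pow]
  have h1 : (1 - a * a) * Qq = 1 - P := by
    rw [hQqdef, hPdef]; exact one_sub_mul_Qp k hkF (a * a)
  have h2 : (1 - a * a) * P = 0 := by rw [hPdef]; exact one_sub_mul_proj k (a * a) haak
  have hdP : σ P = P := by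
    rw [hPdef]
    refine adj_proj hσ k hkF (a * a) haak ?_
    rw [hσ.mul]
    calc σ a * σ a * (a * a) = σ a * (σ a * a) * a := by simp only [mul_assoc]
      _ = 1 := by rw [hσa, mul_one, hσa]
  have hPmem : P ∈ Algebra.adjoin F ({a, σ a, X} : Set (Matrix ι ι F)) := by
    rw [hPdef]
    exact proj_mem _ k _
      (mul_mem (Algebra.subset_adjoin (by simp)) (Algebra.subset_adjoin (by simp)))
  have hQmem : Qq ∈ Algebra.adjoin F ({a, σ a, X} : Set (Matrix ι ι F)) := by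
    rw [hQqdef]
    exact Qp_mem _ k _
      (mul_mem (Algebra.subset_adjoin (by simp)) (Algebra.subset_adjoin (by simp)))
  obtain ⟨c, hca, hcP, hcX, hcc, hcn⟩ :=
    exists_norm_part_gen hσ p a X P Qq hσa hX hXu hXA hPmem hQmem h1 h2 hdP
  have haP : a * P = P := by
    obtain ⟨j, hj⟩ := hk
    have h3 : (a * a) ^ (j + 1) = a := by
      rw [← pow_two, ← pow_mul]
      have : 2 * (j + 1) = k + 1 := by omega
      rw [this, pow_succ, hak, one_mul]
    have h4 : (a * a) * P = P := by rw [hPdef]; exact mul_proj k (a * a) haak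
    have h5 : ∀ i : ℕ, (a * a) ^ i * P = P := by
      intro i
      induction i with
      | zero => rw [pow_zero, one_mul]
      | succ i ih => rw [pow_succ, mul_assoc, h4, ih]
    calc a * P = (a * a) ^ (j + 1) * P := by rw [h3]
      _ = P := h5 _
  have hPa : P * a = a * P := by
    rw [hPdef]
    exact ((commute_proj k (a * a) a (show a * (a * a) = a * a * a by rw [mul_assoc])).eq).symm
  have hPX : P * X = X * P := by
    rw [hPdef]
    refine ((commute_proj k (a * a) X ?_).eq).symm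
    show X * (a * a) = a * a * X
    rw [← mul_assoc, hXA, mul_assoc, hXA, mul_assoc]
  have hPP : P * P = P := by rw [hPdef]; exact proj_idem k hkF (a * a) haak
  obtain ⟨e, hedef⟩ : ∃ e : Matrix ι ι F, e = 1 - P := ⟨_, rfl⟩
  have heP : e * P = 0 := by rw [hedef, sub_mul, one_mul, hPP, sub_self]
  have hσe : σ e = e := by rw [hedef, hσ.sub, hσ.one, hdP]
  have hec : e * c = c * e := by rw [hedef, sub_mul, mul_sub, one_mul, mul_one, hcP]
  have hea : e * a = a * e := by rw [hedef, sub_mul, mul_sub, one_mul, mul_one, hPa]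
  have heX : e * X = X * e := by rw [hedef, sub_mul, mul_sub, one_mul, mul_one, hPX]
  have heXi : e * Xi = Xi * e := by
    calc e * Xi = Xi * (X * e) * Xi := by rw [← mul_assoc, hXi', one_mul]
      _ = Xi * (e * X) * Xi := by rw [heX]
      _ = Xi * e := by rw [mul_assoc, mul_assoc, hXi, mul_one]
  have heσc : e * σ c = σ c * e := by
    calc e * σ c = σ e * σ c := by rw [hσe]
      _ = σ (c * e) := by rw [hσ.mul]
      _ = σ (e * c) := by rw [hec]
      _ = σ c * e := by rw [hσ.mul, hσe]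
  have hcn' : e * (σ c * c) = e * X := by rw [hedef]; exact hcn
  obtain ⟨W, hWdef⟩ : ∃ W : Matrix ι ι F, W = (1 + a) * Qq := ⟨_, rfl⟩
  have heW : e = (1 - a) * W := by
    rw [hWdef, ← mul_assoc, hedef, ← h1]
    congr 1
    rw [mul_add, sub_mul, one_mul, mul_one, sub_mul, one_mul]
    abel
  -- the key isometry property on the image of `e`
  have hkey : ∀ x : ι → F, Q ((e * c) *ᵥ x) = Q (G *ᵥ (e *ᵥ x)) := by
    intro x
    have hc1 : ∀ w, Q (c *ᵥ (a *ᵥ w)) = Q (c *ᵥ w) := by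
      intro w
      rw [mulVec_mulVec, hca, ← mulVec_mulVec, ha]
    have hG1 : ∀ w, Q (G *ᵥ (a *ᵥ w)) = Q (G *ᵥ w) := by
      intro w
      rw [mulVec_mulVec, hG, ← mulVec_mulVec, hb]
    have e1 : (e * c) *ᵥ x = c *ᵥ ((1 - a) *ᵥ (W *ᵥ x)) := by
      rw [hec, ← mulVec_mulVec, heW, ← mulVec_mulVec]
    have e2 : G *ᵥ (e *ᵥ x) = G *ᵥ ((1 - a) *ᵥ (W *ᵥ x)) := by
      rw [heW, ← mulVec_mulVec]
    have hv1 : σ c *ᵥ (c *ᵥ ((1 - a) *ᵥ (W *ᵥ x))) = (X * e) *ᵥ x := by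
      simp only [mulVec_mulVec]
      congr 1
      rw [← heW]
      calc σ c * (c * e) = e * (σ c * c) := by rw [← hec, ← mul_assoc, ← heσc, mul_assoc]
        _ = X * e := by rw [hcn', heX]
    have hv2 : σ G *ᵥ (G *ᵥ ((1 - a) *ᵥ (W *ᵥ x))) = (X * e) *ᵥ x := by
      simp only [mulVec_mulVec]
      congr 1
      rw [← heW, ← mul_assoc, ← hXdef]
    rw [e1, e2, invariant_sub Q c a hc1, invariant_sub Q G a hG1, hadj c, hadj G, hv1, hv2]
  have hfe : G * Xi * σ c * (e * c) = G * e := by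
    calc G * Xi * σ c * (e * c) = G * Xi * (e * (σ c * c)) := by
          rw [← mul_assoc e, heσc]; simp only [mul_assoc]
      _ = G * e := by rw [hcn', heX, mul_assoc G, ← mul_assoc Xi, hXi', one_mul]
  obtain ⟨Ψ, hΨ, hΨf⟩ := witt_quad Q hQ (LinearMap.range (Matrix.toLin' (e * c)))
    (Matrix.toLin' (G * Xi * σ c))
    (by
      rintro u ⟨x, rfl⟩
      rw [Matrix.toLin'_apply, Matrix.toLin'_apply, mulVec_mulVec, hfe, ← mulVec_mulVec, hkey])
    (by
      rintro u ⟨x, rfl⟩ h0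
      rw [Matrix.toLin'_apply, Matrix.toLin'_apply, mulVec_mulVec, hfe, ← mulVec_mulVec] at h0
      have h3 : e *ᵥ x = 0 := by
        calc e *ᵥ x = Gi *ᵥ (G *ᵥ (e *ᵥ x)) := by rw [mulVec_mulVec, hGi', one_mulVec]
          _ = 0 := by rw [h0, mulVec_zero]
      rw [Matrix.toLin'_apply, hec, ← mulVec_mulVec, h3, mulVec_zero])
  have hΨe : ∀ x : ι → F, Ψ ((e * c) *ᵥ x) = G *ᵥ (e *ᵥ x) := by
    intro x
    rw [hΨf _ ⟨x, Matrix.toLin'_apply _ _⟩, Matrix.toLin'_apply, mulVec_mulVec, hfe,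
      ← mulVec_mulVec]
  have hΨQ : ∀ x, Q (Ψ x) = Q x := fun x => hΨ x
  obtain ⟨S, hSdef⟩ : ∃ S : Matrix ι ι F, S = LinearMap.toMatrix' (Ψ : (ι → F) →ₗ[F] (ι → F)) :=
    ⟨_, rfl⟩
  obtain ⟨S', hS'def⟩ :
      ∃ S' : Matrix ι ι F, S' = LinearMap.toMatrix' (Ψ.symm : (ι → F) →ₗ[F] (ι → F)) := ⟨_, rfl⟩
  have hS : ∀ x, S *ᵥ x = Ψ x := by
    intro x
    rw [hSdef, ← Matrix.toLin'_apply, Matrix.toLin'_toMatrix']
    rfl
  have hS' : ∀ x, S' *ᵥ x = Ψ.symm x := by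
    intro x
    rw [hS'def, ← Matrix.toLin'_apply, Matrix.toLin'_toMatrix']
    rfl
  refine ⟨S, S', ?_, ?_, ?_⟩
  · apply mulVec_ext'
    intro w
    rw [← mulVec_mulVec, hS, hS', one_mulVec, LinearEquiv.apply_symm_apply]
  · intro x
    rw [hS, hΨQ]
  · apply mulVec_ext'
    intro v
    rw [← mulVec_mulVec, ← mulVec_mulVec, hS, hS]
    have hv : v = e *ᵥ v + P *ᵥ v := by
      rw [← add_mulVec, hedef, sub_add_cancel, one_mulVec]
    -- the `e` part
    have he1 : Ψ (a *ᵥ (e *ᵥ v)) = b *ᵥ Ψ (e *ᵥ v) := by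
      have h3 : e = (e * c) * (σ c * Xi) := by
        calc e = e * X * Xi := by rw [mul_assoc, hXi, mul_one]
          _ = e * (σ c * c) * Xi := by rw [hcn']
          _ = e * (c * σ c) * Xi := by rw [hcc]
          _ = (e * c) * (σ c * Xi) := by simp only [mul_assoc]
      obtain ⟨y0, hy0⟩ : ∃ y0 : ι → F, y0 = (σ c * Xi) *ᵥ v := ⟨_, rfl⟩
      have h4 : e *ᵥ v = (e * c) *ᵥ y0 := by
        rw [hy0, mulVec_mulVec, ← h3]
      have hm : a * (e * c) = (e * c) * a := by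
        calc a * (e * c) = (a * e) * c := (mul_assoc _ _ _).symm
          _ = (e * a) * c := by rw [hea]
          _ = e * (c * a) := by rw [mul_assoc, hca]
          _ = (e * c) * a := (mul_assoc _ _ _).symm
      have h5 : a *ᵥ (e *ᵥ v) = (e * c) *ᵥ (a *ᵥ y0) := by
        calc a *ᵥ (e *ᵥ v) = (a * (e * c)) *ᵥ y0 := by rw [h4, mulVec_mulVec]
          _ = ((e * c) * a) *ᵥ y0 := by rw [hm]
          _ = (e * c) *ᵥ (a *ᵥ y0) := by rw [← mulVec_mulVec]
      have hm2 : G * e * a = b * G * e := by rw [mul_assoc, hea, ← mul_assoc, hG]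
      calc Ψ (a *ᵥ (e *ᵥ v)) = Ψ ((e * c) *ᵥ (a *ᵥ y0)) := by rw [h5]
        _ = G *ᵥ (e *ᵥ (a *ᵥ y0)) := hΨe _
        _ = (G * e * a) *ᵥ y0 := by rw [mulVec_mulVec, mulVec_mulVec]
        _ = (b * G * e) *ᵥ y0 := by rw [hm2]
        _ = b *ᵥ (G *ᵥ (e *ᵥ y0)) := by rw [mulVec_mulVec, mulVec_mulVec]
        _ = b *ᵥ Ψ ((e * c) *ᵥ y0) := by rw [hΨe]
        _ = b *ᵥ Ψ (e *ᵥ v) := by rw [← h4]
    -- the `P` part
    have hP1 : Ψ (a *ᵥ (P *ᵥ v)) = b *ᵥ Ψ (P *ᵥ v) := by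
      rw [mulVec_mulVec, haP]
      obtain ⟨y, hy⟩ : ∃ y : ι → F, y = Gi *ᵥ Ψ (P *ᵥ v) := ⟨_, rfl⟩
      have hGy : G *ᵥ y = Ψ (P *ᵥ v) := by rw [hy, mulVec_mulVec, hGi, one_mulVec]
      have h3 : e *ᵥ (X *ᵥ y) = 0 := by
        apply hvec
        intro z
        have h4 : PB Q z (e *ᵥ (X *ᵥ y)) = PB Q (e *ᵥ z) (X *ᵥ y) := by
          rw [hadj, hσe]
        have h5 : PB Q (e *ᵥ z) (X *ᵥ y) = PB Q (G *ᵥ (e *ᵥ z)) (G *ᵥ y) := by
          rw [hadj G, mulVec_mulVec, ← hXdef]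
        have h6 : PB Q ((e * c) *ᵥ z) (P *ᵥ v) = 0 := by
          rw [← mulVec_mulVec, hadj, hσe, mulVec_mulVec, heP, zero_mulVec, map_zero]
        rw [h4, h5, hGy, ← hΨe, quadIso_polar Q Ψ hΨ, h6]
      have h7 : e *ᵥ y = 0 := by
        calc e *ᵥ y = (e * (Xi * X)) *ᵥ y := by rw [hXi', mul_one]
          _ = Xi *ᵥ (e *ᵥ (X *ᵥ y)) := by
              rw [mulVec_mulVec, mulVec_mulVec, ← mul_assoc e, heXi]
          _ = 0 := by rw [h3, mulVec_zero]
      have h8 : P *ᵥ y = y := by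
        have h9 : y = e *ᵥ y + P *ᵥ y := by
          rw [← add_mulVec, hedef, sub_add_cancel, one_mulVec]
        rw [h7, zero_add] at h9
        exact h9.symm
      have h10 : a *ᵥ y = y := by
        calc a *ᵥ y = a *ᵥ (P *ᵥ y) := by rw [h8]
          _ = y := by rw [mulVec_mulVec, haP, h8]
      calc Ψ (P *ᵥ v) = G *ᵥ y := hGy.symm
        _ = G *ᵥ (a *ᵥ y) := by rw [h10]
        _ = b *ᵥ (G *ᵥ y) := by rw [mulVec_mulVec, hG, ← mulVec_mulVec]
        _ = b *ᵥ Ψ (P *ᵥ v) := by rw [hGy]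
    calc Ψ (a *ᵥ v) = Ψ (a *ᵥ (e *ᵥ v)) + Ψ (a *ᵥ (P *ᵥ v)) := by
          rw [← map_add, ← mulVec_add, ← hv]
      _ = b *ᵥ Ψ (e *ᵥ v) + b *ᵥ Ψ (P *ᵥ v) := by rw [he1, hP1]
      _ = b *ᵥ Ψ v := by rw [← mulVec_add, ← map_add, ← hv]

end Main

end OrthSemi
end Cfsg.Agent.Helper43
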