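import Mathlib
import Cfsg.Agent.Helper43.UReal2
import Cfsg.Agent.Helper43.PrimeOrdMat

set_option autoImplicit false

/-!
# Elements of prime order `r ≠ p` in the unitary group and their characteristic polynomials
(helper43)

* `ustar σ P = star (P.map σ)` : the conjugate reciprocal polynomial; `ustar_ustar`,
  `ustar_mem_cycJ`;
* `upsi_symm`, `upsi_usym` : a `psi` satisfies `f.map σ = star f` iff its exponents are
  `ustar`-symmetric;
* `aeval_pow_map` : `(f.map σ)(x ^ q) = f(x) ^ q`;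
* `ustar_eq_self`, `ustar_ne_self` : `ustar` fixes every irreducible factor of the `r`-th
  cyclotomic polynomial if the order of `q` modulo `r` is `2` modulo `4`, and none otherwise;
* `ucharpoly_of_order`, `uexists_of_psi` : the characteristic polynomials of the elements of
  order `r` of `GU_n(q)`.
-/

namespace Cfsg.Agent.Helper43.PrimeOrdU

open Polynomial Cfsg.Agent.Helper43.SpReal Cfsg.Agent.Helper43.CycFactors
  Cfsg.Agent.Helper43.PrimeOrdMat Cfsg.Agent.Helper43.StarPoly Cfsg.Agent.Helper43.UReal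
  Cfsg.Agent.Helper43.HermAdj Cfsg.Agent.Helper43.NormH90

universe u

section Basic

variable {K : Type u} [Field K] (σ : K →+* K)

/-- the conjugate reciprocal polynomial -/
noncomputable def ustar (P : K[X]) : K[X] := SpReal.star (P.map σ)

theorem reverse_map' (g : K[X]) : (g.map σ).reverse = g.reverse.map σ := by
  ext n
  rw [coeff_reverse, coeff_map, coeff_map, coeff_reverse,
    natDegree_map_eq_of_injective σ.injective]

theorem star_map (g : K[X]) : (SpReal.star g).map σ = SpReal.star (g.map σ) := by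
  rw [SpReal.star, SpReal.star, Polynomial.map_mul, map_C, map_inv₀, coeff_map, reverse_map']

theorem map_map_self (hσσ : ∀ c, σ (σ c) = c) (g : K[X]) : (g.map σ).map σ = g := by
  rw [Polynomial.map_map]
  have : σ.comp σ = RingHom.id K := RingHom.ext hσσ
  rw [this, Polynomial.map_id]

theorem ustar_ustar (hσσ : ∀ c, σ (σ c) = c) {P : K[X]} (hm : P.Monic) (h0 : P.coeff 0 ≠ 0) :
    ustar σ (ustar σ P) = P := by
  rw [ustar, ustar, star_map, map_map_self σ hσσ, star_star hm h0]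

theorem star_one : SpReal.star (1 : K[X]) = 1 := by
  rw [SpReal.star, coeff_one_zero, inv_one, map_one, one_mul, ← C_1, reverse_C]

theorem star_pow (g : K[X]) (k : ℕ) : SpReal.star (g ^ k) = SpReal.star g ^ k := by
  induction k with
  | zero => rw [pow_zero, pow_zero, star_one]
  | succ k ih => rw [pow_succ, pow_succ, UReal.star_mul, ih]

theorem star_prod {ι : Type*} (s : Finset ι) (f : ι → K[X]) :
    SpReal.star (∏ i ∈ s, f i) = ∏ i ∈ s, SpReal.star (f i) := by
  classical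
  induction s using Finset.induction_on with
  | empty => rw [Finset.prod_empty, Finset.prod_empty, star_one]
  | insert a s ha ih => rw [Finset.prod_insert ha, Finset.prod_insert ha, UReal.star_mul, ih]

theorem star_X_sub_one : SpReal.star (X - 1 : K[X]) = X - 1 := by
  have h : (X - 1 : K[X]).coeff 0 = -1 := by simp
  rw [SpReal.star, reverse_X_sub_one, h, inv_neg, inv_one, map_neg, map_one]
  ring

theorem map_mem_cycJ (hσσ : ∀ c, σ (σ c) = c) {r : ℕ} {P : K[X]} (hP : P ∈ cycJ K r) :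
    P.map σ ∈ cycJ K r := by
  have hP' := mem_cycJ.mp hP
  rw [mem_cycJ]
  refine ⟨hP'.1.map σ, ?_, ?_⟩
  · let σE : K ≃+* K := RingEquiv.ofRingHom σ σ (RingHom.ext hσσ) (RingHom.ext hσσ)
    have h : P.map σ = Polynomial.mapEquiv σE P := rfl
    rw [h]
    exact (MulEquiv.irreducible_iff (Polynomial.mapEquiv σE)).mpr hP'.2.1
  · have h := Polynomial.map_dvd σ hP'.2.2
    rwa [map_cyclotomic] at h

theorem ustar_mem_cycJ (hσσ : ∀ c, σ (σ c) = c) {r : ℕ} (hr : r.Prime) (hrK : (r : K) ≠ 0)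
    {P : K[X]} (hP : P ∈ cycJ K r) : ustar σ P ∈ cycJ K r :=
  star_mem_cycJ hr hrK (map_mem_cycJ σ hσσ hP)

/-- exponents of a `psi` with `f.map σ = star f` are `ustar`-symmetric -/
theorem upsi_symm (hσσ : ∀ c, σ (σ c) = c) {r : ℕ} (hr : r.Prime) (hrK : (r : K) ≠ 0) (c₀ : ℕ)
    (c : K[X] → ℕ) (hu : (psi r c₀ c : K[X]).map σ = SpReal.star (psi r c₀ c)) :
    ∀ P ∈ cycJ K r, c (ustar σ P) = c P := by
  have hm := psi_monic (F := K) r c₀ c
  have h0 := coeff_zero_ne_of_usym σ hm.ne_zero hu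
  have key : ∀ P ∈ cycJ K r, c P ≤ c (ustar σ P) := by
    intro P hP
    have h1 : P ^ c P ∣ psi r c₀ c := by
      rw [psi]
      exact Dvd.dvd.mul_left (Finset.dvd_prod_of_mem _ hP) _
    have h2 := ustar_dvd σ hm h0 hu h1
    rw [Polynomial.map_pow, star_pow] at h2
    exact le_of_pow_dvd_psi hr hrK c₀ c (ustar_mem_cycJ σ hσσ hr hrK hP) h2
  intro P hP
  apply le_antisymm
  · have h1 := key (ustar σ P) (ustar_mem_cycJ σ hσσ hr hrK hP)
    rwa [ustar_ustar σ hσσ (mem_cycJ.mp hP).1 (coeff_zero_ne_of_mem hr hP)] at h1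
  · exact key P hP

/-- a `psi` with `ustar`-symmetric exponents satisfies `f.map σ = star f` -/
theorem upsi_usym (hσσ : ∀ c, σ (σ c) = c) {r : ℕ} (hr : r.Prime) (hrK : (r : K) ≠ 0) (c₀ : ℕ)
    (c : K[X] → ℕ) (hc : ∀ P ∈ cycJ K r, c (ustar σ P) = c P) :
    (psi r c₀ c : K[X]).map σ = SpReal.star (psi r c₀ c) := by
  rw [psi, Polynomial.map_mul, Polynomial.map_pow, Polynomial.map_sub, map_X, Polynomial.map_one,
    UReal.star_mul, star_pow, star_X_sub_one, Polynomial.map_prod, star_prod]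
  congr 1
  apply Finset.prod_nbij' (fun P : K[X] => ustar σ P) (fun P : K[X] => ustar σ P)
  · intro P hP
    exact ustar_mem_cycJ σ hσσ hr hrK hP
  · intro P hP
    exact ustar_mem_cycJ σ hσσ hr hrK hP
  · intro P hP
    exact ustar_ustar σ hσσ (mem_cycJ.mp hP).1 (coeff_zero_ne_of_mem hr hP)
  · intro P hP
    exact ustar_ustar σ hσσ (mem_cycJ.mp hP).1 (coeff_zero_ne_of_mem hr hP)
  · intro P hP
    have hQ := map_mem_cycJ σ hσσ hP
    rw [Polynomial.map_pow, star_pow, hc P hP, ustar,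
      star_star (mem_cycJ.mp hQ).1 (coeff_zero_ne_of_mem hr hQ)]

theorem root_pow_eq_one {r : ℕ} (hr : r.Prime) {P : K[X]} (hP : P ∈ cycJ K r) :
    (AdjoinRoot.root P) ^ r = 1 := by
  have h : AdjoinRoot.mk P (X ^ r - 1) = 0 :=
    AdjoinRoot.mk_eq_zero.mpr (dvd_X_pow_sub_one_of_mem hr hP)
  rw [map_sub, map_pow, AdjoinRoot.mk_X, map_one] at h
  exact sub_eq_zero.mp h

end Basic

section NT

/-- if the order of `Q` modulo the prime `r` is `j + j`, then `Q ^ j = -1` -/
theorem pow_half_eq_neg_one {r : ℕ} (hr : r.Prime) (Q : ZMod r) {j : ℕ}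
    (hj : orderOf Q = j + j) (hpos : 0 < orderOf Q) : Q ^ j = -1 := by
  have : Fact r.Prime := ⟨hr⟩
  have hjpos : 0 < j := by omega
  have h1 : (Q ^ j) * (Q ^ j) = 1 := by
    rw [← pow_add, ← hj, pow_orderOf_eq_one]
  have h2 : Q ^ j ≠ 1 := pow_ne_one_of_lt_orderOf hjpos.ne' (by omega)
  have h : (Q ^ j - 1) * (Q ^ j + 1) = 0 := by linear_combination h1
  rcases mul_eq_zero.mp h with h | h
  · exact absurd (sub_eq_zero.mp h) h2
  · exact eq_neg_of_add_eq_zero_left h

/-- if `Q ^ (2 k) = -Q` modulo the odd prime `r`, the order of `Q` is `2` modulo `4` -/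
theorem mod_four_of_pow_eq_neg {r : ℕ} (hr : r.Prime) (hr2 : r ≠ 2) (Q : ZMod r)
    (hpos : 0 < orderOf Q) (k : ℕ) (h : Q ^ (2 * k) = -Q) : orderOf Q % 4 = 2 := by
  have : Fact r.Prime := ⟨hr⟩
  have : Fact (2 < r) := ⟨by have := hr.two_le; omega⟩
  obtain ⟨i, hi⟩ : ∃ i, i = orderOf Q := ⟨_, rfl⟩
  rw [← hi] at hpos ⊢
  have hQi : Q ^ i = 1 := by rw [hi, pow_orderOf_eq_one]
  have hm : Q ^ (2 * k + (i - 1)) = -1 := by
    rw [pow_add, h, neg_mul, ← pow_succ', Nat.sub_add_cancel hpos, hQi]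
  have key : ∀ m, i ∣ m ↔ Q ^ m = 1 := fun m => by
    rw [hi]
    exact orderOf_dvd_iff_pow_eq_one
  have h1 : ¬ i ∣ 2 * k + (i - 1) := by
    rw [key, hm]
    exact ZMod.neg_one_ne_one
  have h2 : i ∣ 2 * (2 * k + (i - 1)) := by
    rw [key, mul_comm, pow_mul, hm]
    norm_num
  have hev : Even i := by
    by_contra hodd
    rw [Nat.not_even_iff_odd] at hodd
    exact h1 ((Nat.coprime_two_right.mpr hodd).dvd_of_dvd_mul_left h2)
  obtain ⟨b, hb⟩ := hev
  have hb2 : i = 2 * b := by omega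
  have h3 : b ∣ 2 * k + (i - 1) := by
    exact Nat.dvd_of_mul_dvd_mul_left two_pos (by rw [← hb2]; exact h2)
  have hmodd : Odd (2 * k + (i - 1)) := ⟨k + b - 1, by omega⟩
  have hbodd : Odd b := Odd.of_dvd_nat hmodd h3
  obtain ⟨w, hw⟩ := hbodd
  omega

theorem orderOf_sq_cast (r q : ℕ) : orderOf (((q ^ 2 : ℕ)) : ZMod r) =
    orderOf (q : ZMod r) / Nat.gcd (orderOf (q : ZMod r)) 2 := by
  rw [Nat.cast_pow, orderOf_pow' _ two_ne_zero]

end NT

section Finite

variable {K : Type u} [Field K] [Fintype K] {q : ℕ} (hK : Fintype.card K = q ^ 2)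
  (σ : K →+* K) (hσ : ∀ c, σ c = c ^ q) (p : ℕ) [Fact p.Prime] [CharP K p]

include hK hσ p

/-- the `q`-Frobenius is semilinear over evaluation -/
theorem aeval_pow_map {L : Type*} [CommRing L] [Algebra K L] (f : K[X]) (x : L) :
    aeval (x ^ q) (f.map σ) = (aeval x f) ^ q := by
  obtain ⟨j, hj⟩ := exists_q_eq hK p
  have hσe : σ = iterateFrobenius K p j := by
    ext c
    rw [hσ, iterateFrobenius_def, hj]
  have h1 := map_iterateFrobenius_expand p f j
  rw [← hσe, ← hj, map_expand] at h1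
  have h2 := congrArg (aeval x) h1
  rw [expand_aeval, map_pow] at h2
  exact h2

/-- if the order of `q` modulo `r` is `2` modulo `4`, the irreducible factors of the `r`-th
cyclotomic polynomial over the field with `q ^ 2` elements are fixed by `ustar` -/
theorem ustar_eq_self {r : ℕ} (hr : r.Prime)
    (h4 : orderOf (q : ZMod r) % 4 = 2) {P : K[X]} (hP : P ∈ cycJ K r) : ustar σ P = P := by
  have : Fact r.Prime := ⟨hr⟩
  have hq0 : q ≠ 0 := by have := two_le_q hK; omega
  obtain ⟨t, ht⟩ : ∃ t, orderOf (q : ZMod r) = (2 * t + 1) + (2 * t + 1) :=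
    ⟨orderOf (q : ZMod r) / 4, by omega⟩
  have h3 : (q : ZMod r) ^ (2 * t + 1) = -1 := pow_half_eq_neg_one hr _ ht (by omega)
  have h4' : r ∣ q ^ (2 * t + 1) + 1 := by
    rw [← ZMod.natCast_eq_zero_iff]
    push_cast
    rw [h3]
    ring
  have hP' := mem_cycJ.mp hP
  have h0 := coeff_zero_ne_of_mem hr hP
  have : Fact (Irreducible P) := ⟨hP'.2.1⟩
  set γ : AdjoinRoot P := AdjoinRoot.root P with hγ
  have hγ0 : γ ≠ 0 := root_ne_zero' h0
  have hγr : γ ^ r = 1 := root_pow_eq_one hr hP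
  have h5 : γ ^ (q ^ (2 * t + 1) + 1) = 1 := by
    obtain ⟨e, he⟩ := h4'
    rw [he, pow_mul, hγr, one_pow]
  have h6 : γ ^ (q ^ (2 * t + 1)) = γ⁻¹ := by
    rw [pow_succ] at h5
    exact eq_inv_of_mul_eq_one_left h5
  have hroot : aeval γ P = 0 := by rw [hγ, AdjoinRoot.aeval_eq, AdjoinRoot.mk_self]
  have hfrob : ∀ k : ℕ, aeval (γ ^ (q * (q ^ 2) ^ k)) (P.map σ) = 0 := by
    intro k
    induction k with
    | zero => rw [pow_zero, mul_one, aeval_pow_map hK σ hσ p, hroot, zero_pow hq0]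
    | succ k ih =>
      have h : aeval ((γ ^ (q * (q ^ 2) ^ k)) ^ (q ^ 2)) (P.map σ) =
          (aeval (γ ^ (q * (q ^ 2) ^ k)) (P.map σ)) ^ (q ^ 2) := by
        rw [← expand_aeval, ← hK, FiniteField.expand_card, map_pow]
      rw [pow_succ, ← mul_assoc, pow_mul, h, ih, zero_pow]
      exact pow_ne_zero _ hq0
  have h7 : aeval γ⁻¹ (P.map σ) = 0 := by
    rw [← h6]
    have h := hfrob t
    have e : q * (q ^ 2) ^ t = q ^ (2 * t + 1) := by
      rw [← pow_mul, pow_succ, mul_comm]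
    rwa [e] at h
  have h8 : eval₂ (algebraMap K (AdjoinRoot P)) γ (P.map σ).reverse = 0 := by
    let _ : Invertible γ⁻¹ := invertibleOfNonzero (inv_ne_zero hγ0)
    have h := eval₂_reverse_mul_pow (algebraMap K (AdjoinRoot P)) γ⁻¹ (P.map σ)
    rw [invOf_eq_inv, inv_inv] at h
    have h7' : eval₂ (algebraMap K (AdjoinRoot P)) γ⁻¹ (P.map σ) = 0 := h7
    rw [h7'] at h
    exact (mul_eq_zero.mp h).resolve_right (pow_ne_zero _ (inv_ne_zero hγ0))
  have h9 : P ∣ ustar σ P := by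
    rw [← AdjoinRoot.mk_eq_zero, ← AdjoinRoot.aeval_eq, ustar, SpReal.star, map_mul]
    have h8' : aeval (AdjoinRoot.root P) (P.map σ).reverse = 0 := h8
    rw [h8', mul_zero]
  have h0' : (P.map σ).coeff 0 ≠ 0 := by
    rw [coeff_map]
    exact (map_ne_zero σ).mpr h0
  exact eq_of_monic_of_dvd_of_natDegree_le hP'.1 (star_monic h0') h9
    (le_of_eq (by rw [ustar, star_natDegree h0', natDegree_map]))

/-- if the order of `q` modulo the odd prime `r` is not `2` modulo `4`, no irreducible factor of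
the `r`-th cyclotomic polynomial over the field with `q ^ 2` elements is fixed by `ustar` -/
theorem ustar_ne_self {r : ℕ} (hr : r.Prime) (hr2 : r ≠ 2) (hrp : r ≠ p)
    (h4 : orderOf (q : ZMod r) % 4 ≠ 2) {P : K[X]} (hP : P ∈ cycJ K r) : ustar σ P ≠ P := by
  classical
  intro hs
  have : Fact r.Prime := ⟨hr⟩
  have hq0 : q ≠ 0 := by have := two_le_q hK; omega
  have hσσ : ∀ c, σ (σ c) = c := fun c => by rw [hσ, hσ, pow_q_q hK]
  have hrK : (r : K) ≠ 0 := natCast_ne_zero_of_ne hr hrp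
  have hP' := mem_cycJ.mp hP
  have h0 := coeff_zero_ne_of_mem hr hP
  have h0' : (P.map σ).coeff 0 ≠ 0 := by
    rw [coeff_map]
    exact (map_ne_zero σ).mpr h0
  have : Fact (Irreducible P) := ⟨hP'.2.1⟩
  set γ : AdjoinRoot P := AdjoinRoot.root P with hγ
  have hγ0 : γ ≠ 0 := root_ne_zero' h0
  have hγr : γ ^ r = 1 := root_pow_eq_one hr hP
  have hroot : aeval γ P = 0 := by rw [hγ, AdjoinRoot.aeval_eq, AdjoinRoot.mk_self]
  have hγ1 : γ ≠ 1 := by
    intro h1
    have h2 : aeval (algebraMap K (AdjoinRoot P) 1) P = 0 := by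
      rw [map_one, ← h1]
      exact hroot
    rw [aeval_algebraMap_apply, coe_aeval_eq_eval] at h2
    exact eval_one_ne_of_mem hr hrK hP ((map_eq_zero _).mp h2)
  have hord : orderOf γ = r := orderOf_eq_prime hγr hγ1
  have hmap : P.map σ = SpReal.star P := by
    have h := congrArg SpReal.star hs
    rw [ustar, star_star (hP'.1.map σ) h0'] at h
    exact h
  have h1 : aeval γ⁻¹ (P.map σ) = 0 := by
    rw [hmap, SpReal.star, map_mul]
    let _ : Invertible γ := invertibleOfNonzero hγ0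
    have h := eval₂_reverse_mul_pow (algebraMap K (AdjoinRoot P)) γ P
    rw [invOf_eq_inv] at h
    have hroot' : eval₂ (algebraMap K (AdjoinRoot P)) γ P = 0 := hroot
    rw [hroot'] at h
    have h' : eval₂ (algebraMap K (AdjoinRoot P)) γ⁻¹ P.reverse = 0 :=
      (mul_eq_zero.mp h).resolve_right (pow_ne_zero _ hγ0)
    have h'' : aeval γ⁻¹ P.reverse = 0 := h'
    rw [h'', mul_zero]
  have h2 : aeval ((γ⁻¹) ^ q) P = 0 := by
    have h := aeval_pow_map hK σ hσ p (P.map σ) γ⁻¹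
    rw [map_map_self σ hσσ, h1, zero_pow hq0] at h
    exact h
  have hdeg : P.natDegree = orderOf (((q ^ 2 : ℕ)) : ZMod r) :=
    cycJ_natDegree (p := p) hK hr hrp hP
  have horb : ∀ k : ℕ, aeval (γ ^ ((q ^ 2) ^ k)) P = 0 := by
    intro k
    induction k with
    | zero => rw [pow_zero, pow_one]; exact hroot
    | succ k ih =>
      have h : aeval ((γ ^ ((q ^ 2) ^ k)) ^ (q ^ 2)) P = (aeval (γ ^ ((q ^ 2) ^ k)) P) ^ (q ^ 2) := by
        rw [← expand_aeval, ← hK, FiniteField.expand_card, map_pow]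
      rw [pow_succ, pow_mul, h, ih, zero_pow]
      exact pow_ne_zero _ hq0
  let O : Finset (AdjoinRoot P) := (Finset.range P.natDegree).image (fun k => γ ^ ((q ^ 2) ^ k))
  have hinj : Set.InjOn (fun k : ℕ => γ ^ ((q ^ 2) ^ k)) (Finset.range P.natDegree) := by
    intro k hk l hl hkl
    have hkl0 : γ ^ ((q ^ 2) ^ k) = γ ^ ((q ^ 2) ^ l) := hkl
    have hu : orderOf (Units.mk0 γ hγ0) = r := by
      rw [← orderOf_units, Units.val_mk0]
      exact hord
    have hkl' : (Units.mk0 γ hγ0) ^ ((q ^ 2) ^ k) = (Units.mk0 γ hγ0) ^ ((q ^ 2) ^ l) := by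
      apply Units.ext
      rw [Units.val_pow_eq_pow_val, Units.val_pow_eq_pow_val, Units.val_mk0]
      exact hkl0
    rw [pow_eq_pow_iff_modEq, hu, ← ZMod.natCast_eq_natCast_iff] at hkl'
    have hkl'' : (((q ^ 2 : ℕ)) : ZMod r) ^ k = (((q ^ 2 : ℕ)) : ZMod r) ^ l := by
      rw [← Nat.cast_pow, ← Nat.cast_pow]
      exact hkl'
    have hk' : k ∈ Set.Iio (orderOf (((q ^ 2 : ℕ)) : ZMod r)) := by
      rw [← hdeg]
      exact Finset.mem_range.mp hk
    have hl' : l ∈ Set.Iio (orderOf (((q ^ 2 : ℕ)) : ZMod r)) := by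
      rw [← hdeg]
      exact Finset.mem_range.mp hl
    exact pow_injOn_Iio_orderOf hk' hl' hkl''
  have hOcard : O.card = P.natDegree := by
    rw [Finset.card_image_of_injOn hinj, Finset.card_range]
  have hPL : P.map (algebraMap K (AdjoinRoot P)) ≠ 0 :=
    (hP'.1.map _).ne_zero
  have hOsub : O ⊆ (P.map (algebraMap K (AdjoinRoot P))).roots.toFinset := by
    intro x hx
    obtain ⟨k, hk, rfl⟩ := Finset.mem_image.mp hx
    rw [Multiset.mem_toFinset, mem_roots hPL, IsRoot, eval_map_algebraMap]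
    exact horb k
  have hcard : (P.map (algebraMap K (AdjoinRoot P))).roots.toFinset.card ≤ P.natDegree := by
    calc (P.map (algebraMap K (AdjoinRoot P))).roots.toFinset.card
        ≤ Multiset.card (P.map (algebraMap K (AdjoinRoot P))).roots := Multiset.toFinset_card_le _
      _ ≤ (P.map (algebraMap K (AdjoinRoot P))).natDegree := card_roots' _
      _ = P.natDegree := natDegree_map _
  have hOeq : O = (P.map (algebraMap K (AdjoinRoot P))).roots.toFinset :=
    Finset.eq_of_subset_of_card_le hOsub (by rw [hOcard]; exact hcard)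
  have hmem : (γ⁻¹) ^ q ∈ O := by
    rw [hOeq, Multiset.mem_toFinset, mem_roots hPL, IsRoot, eval_map_algebraMap]
    exact h2
  obtain ⟨k, -, hk2⟩ := Finset.mem_image.mp hmem
  have h3 : γ ^ ((q ^ 2) ^ k + q) = 1 := by
    rw [pow_add, hk2, inv_pow, inv_mul_cancel₀ (pow_ne_zero _ hγ0)]
  have h4' : r ∣ (q ^ 2) ^ k + q := by
    rw [← hord]
    exact orderOf_dvd_of_pow_eq_one h3
  have h5 : (q : ZMod r) ^ (2 * k) = -(q : ZMod r) := by
    have h := (ZMod.natCast_eq_zero_iff _ _).mpr h4'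
    push_cast at h
    rw [← pow_mul] at h
    exact eq_neg_of_add_eq_zero_left h
  have hpos : 0 < orderOf (q : ZMod r) := by
    have h := orderOf_pos_of_card (p := p) hK hr hrp
    rw [orderOf_sq_cast] at h
    exact Nat.pos_of_ne_zero (fun h0 => by rw [h0] at h; simp at h)
  exact h4 (mod_four_of_pow_eq_neg hr hr2 _ hpos k h5)

/-- the characteristic polynomial of an element of order `r` of `GU_n(q)` -/
theorem ucharpoly_of_order {n r : ℕ} (hr : r.Prime) (hrp : r ≠ p) (g : Cfsg.GU n K q)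
    (hg : orderOf g = r) :
    ∃ (c₀ : ℕ) (c : K[X] → ℕ),
      ((g : GL (Fin n) K) : Matrix (Fin n) (Fin n) K).charpoly = psi r c₀ c ∧
      (∀ P ∈ cycJ K r, c (ustar σ P) = c P) ∧ (∃ P ∈ cycJ K r, c P ≠ 0) ∧
      c₀ + orderOf (((q ^ 2 : ℕ)) : ZMod r) * ∑ P ∈ cycJ K r, c P = n := by
  have hrK : (r : K) ≠ 0 := natCast_ne_zero_of_ne hr hrp
  have hσσ : ∀ c, σ (σ c) = c := fun c => by rw [hσ, hσ, pow_q_q hK]
  obtain ⟨M, hMdef⟩ : ∃ M : Matrix (Fin n) (Fin n) K,
      M = ((g : GL (Fin n) K) : Matrix (Fin n) (Fin n) K) := ⟨_, rfl⟩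
  have hM : M ^ r = 1 := by
    rw [hMdef, ← Units.val_pow_eq_pow_val, ← Subgroup.coe_pow, ← hg, pow_orderOf_eq_one]
    rfl
  obtain ⟨c₀, c, hc⟩ := charpoly_eq_psi p hr hrp M hM
  have hau : hadj q M * M = 1 := by
    rw [hMdef]
    exact (mem_GU_iff hK (g : GL (Fin n) K)).1 g.2
  rw [← hMdef]
  refine ⟨c₀, c, hc, ?_, ?_, ?_⟩
  · apply upsi_symm σ hσσ hr hrK c₀ c
    rw [← hc]
    exact usym_of_hadj σ hσ M hau
  · by_contra hall
    push Not at hall
    have h1 : (psi r c₀ c : K[X]) = (X - 1) ^ c₀ := by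
      rw [psi, Finset.prod_eq_one (fun P hP => by rw [hall P hP, pow_zero]), mul_one]
    have h2 := eq_one_of_charpoly hr hrK M hM c₀ (hc.trans h1)
    have h3 : g = 1 := Subtype.ext (Units.ext (by rw [← hMdef, h2]; rfl))
    rw [h3, orderOf_one] at hg
    exact hr.one_lt.ne hg
  · have h1 := Matrix.charpoly_natDegree_eq_dim M
    rw [hc, psi_natDegree (p := p) hK hr hrp, Fintype.card_fin] at h1
    exact h1

/-- every `psi` with `ustar`-symmetric exponents, not all zero, and the right degree is the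
characteristic polynomial of an element of order `r` of `GU_n(q)` -/
theorem uexists_of_psi {n r : ℕ} (hr : r.Prime) (hrp : r ≠ p) (c₀ : ℕ) (c : K[X] → ℕ)
    (hsym : ∀ P ∈ cycJ K r, c (ustar σ P) = c P) (hnz : ∃ P ∈ cycJ K r, c P ≠ 0)
    (hdeg : c₀ + orderOf (((q ^ 2 : ℕ)) : ZMod r) * ∑ P ∈ cycJ K r, c P = n) :
    ∃ g : Cfsg.GU n K q, orderOf g = r ∧
      ((g : GL (Fin n) K) : Matrix (Fin n) (Fin n) K).charpoly = psi r c₀ c := by
  have : Fact r.Prime := ⟨hr⟩
  have hrK : (r : K) ≠ 0 := natCast_ne_zero_of_ne hr hrp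
  have hσσ : ∀ c, σ (σ c) = c := fun c => by rw [hσ, hσ, pow_q_q hK]
  have husym := upsi_usym σ hσσ hr hrK c₀ c hsym
  have hmon : (psi r c₀ c : K[X]).Monic := psi_monic r c₀ c
  have hnat : (psi r c₀ c : K[X]).natDegree = n := by
    rw [psi_natDegree (p := p) hK hr hrp, hdeg]
  have hU := urealz_of_usym hK σ hσ p n _ hmon hnat husym
  have key : ∀ N, (psi r c₀ c : K[X]).natDegree = N →
      ∃ A : Matrix (Fin N) (Fin N) K, hadj q A * A = 1 ∧
        (∃ k : ℕ, k.Coprime p ∧ A ^ k = 1) ∧ A.charpoly = psi r c₀ c := by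
    rintro N rfl
    exact exists_matrix_of_urealz hK σ hσ p hU
  obtain ⟨A, hA, ⟨k, hk, hAk⟩, hch⟩ := key n hnat
  have hAr := pow_eq_one_of_charpoly_psi p hr hk A hAk c₀ c hch
  have hA' : A * hadj q A = 1 := mul_eq_one_comm.mp hA
  let g0 : GL (Fin n) K := ⟨A, hadj q A, hA', hA⟩
  have hg0 : g0 ∈ Cfsg.GU n K q := (mem_GU_iff hK g0).2 hA
  refine ⟨⟨g0, hg0⟩, ?_, hch⟩
  apply orderOf_eq_prime
  · apply Subtype.ext
    apply Units.ext
    rw [Subgroup.coe_pow, Units.val_pow_eq_pow_val]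
    exact hAr
  · intro h1
    have h2 : A = 1 := congrArg
      (fun x : Cfsg.GU n K q => ((x : GL (Fin n) K) : Matrix (Fin n) (Fin n) K)) h1
    have h3 : (psi r n (fun _ => 0) : K[X]) = psi r c₀ c := by
      rw [← hch, h2, Matrix.charpoly_one, Fintype.card_fin, psi]
      simp
    obtain ⟨P, hP, hPne⟩ := hnz
    exact hPne ((psi_injective hr hrK _ _ _ _ h3).2 P hP).symm

end Finite

end Cfsg.Agent.Helper43.PrimeOrdU
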