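import Mathlib
import Cfsg.Agent.Helper43.PrimeOrdU
import Cfsg.Agent.Helper43.OrthStd
import Cfsg.Agent.Helper43.JordanRank2
import Cfsg.Agent.Helper43.OrthSemi
import Cfsg.Agent.Helper40.SemisimpleMat

set_option autoImplicit false

/-!
# Elements of odd prime order `r ≠ p` in orthogonal groups and their characteristic polynomials
(helper43)

* `charpoly_of_mul_eq_one'` : the characteristic polynomial of the inverse matrix;
* `star_charpoly_isometry` : the characteristic polynomial of an isometry is `star`-symmetric;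
* `ocharpoly_of_order` : the characteristic polynomial of an isometry of order `r` is a `psi` with
  `star`-symmetric exponents, not all zero;
* `qrealz_psi` : in odd characteristic every such `psi` is realized;
* `oexists_of_psi_odd` : ... by an element of order `r` of the isometry group of
  `Cfsg.quadFormOdd m F`;
* `isConj_of_charpoly` : isometries of odd order prime to `p` with the same characteristic
  polynomial are conjugate in the isometry group.
-/

namespace Cfsg.Agent.Helper43.PrimeOrdO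

open Polynomial Matrix Cfsg.Agent.Helper43.SpReal Cfsg.Agent.Helper43.CycFactors
  Cfsg.Agent.Helper43.PrimeOrdMat Cfsg.Agent.Helper43.StarPoly Cfsg.Agent.Helper43.UReal
  Cfsg.Agent.Helper43.PrimeOrdU Cfsg.Agent.Helper43.OrthReal Cfsg.Agent.Helper43.OrthStd

universe u

section Inv

variable {F : Type u} [Field F]

/-- the characteristic polynomial of the inverse of a matrix -/
theorem charpoly_of_mul_eq_one' {ι : Type*} [Fintype ι] [DecidableEq ι] (M S : Matrix ι ι F)
    (h : S * M = 1) : S.charpoly = C (M.charpoly.coeff 0)⁻¹ * M.charpoly.reverse := by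
  have hS : S = M⁻¹ := (Matrix.inv_eq_left_inv h).symm
  have hdetu : IsUnit M.det := by
    have h2 := congrArg Matrix.det h
    rw [Matrix.det_mul, Matrix.det_one] at h2
    exact IsUnit.of_mul_eq_one _ (by rw [mul_comm]; exact h2)
  have hunit : IsUnit M := (Matrix.isUnit_iff_isUnit_det M).mpr hdetu
  have hdet : M.det = (-1) ^ (Fintype.card ι) * M.charpoly.coeff 0 := by
    rw [Matrix.det_eq_sign_charpoly_coeff]
  rw [hS, Matrix.charpoly_inv M hunit, ← Matrix.reverse_charpoly, hdet, Ring.inverse_eq_inv',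
    mul_inv]
  congr 1
  have h5 : ((-1 : F[X])) ^ (Fintype.card ι) = C ((-1 : F) ^ (Fintype.card ι)) := by
    rw [map_pow, map_neg, map_one]
  rw [h5, ← map_mul]
  congr 1
  have h6 : ((-1 : F) ^ (Fintype.card ι)) ≠ 0 := pow_ne_zero _ (neg_ne_zero.mpr one_ne_zero)
  rw [← mul_assoc, mul_inv_cancel₀ h6, one_mul]

/-- the characteristic polynomial of an isometry is `star`-symmetric -/
theorem star_charpoly_isometry {ι : Type} [Fintype ι] [DecidableEq ι]
    (Q : QuadraticForm F (ι → F)) (hQ : (QuadraticMap.polarBilin Q).Nondegenerate)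
    (A : ↥(Cfsg.isometryGroup F ⇑Q)) :
    SpReal.star ((A : Matrix.GeneralLinearGroup ι F) : Matrix ι ι F).charpoly =
      ((A : Matrix.GeneralLinearGroup ι F) : Matrix ι ι F).charpoly := by
  obtain ⟨G, A', hG, -, -, hAG, hA'⟩ := Cfsg.Agent.Helper43.JordanRank2.gram_of_isometry Q hQ A
  obtain ⟨M, hM⟩ : ∃ M : Matrix ι ι F, M = ((A : Matrix.GeneralLinearGroup ι F) : Matrix ι ι F) :=
    ⟨_, rfl⟩
  rw [← hM] at hAG hA' ⊢
  have hMA' : M * A' = 1 := mul_eq_one_comm.mp hA'
  have h1 : Mᵀ * G = G * A' := by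
    calc Mᵀ * G = Mᵀ * G * (M * A') := by rw [hMA', Matrix.mul_one]
      _ = Mᵀ * G * M * A' := by rw [Matrix.mul_assoc, Matrix.mul_assoc, Matrix.mul_assoc]
      _ = G * A' := by rw [hAG]
  have h2 : A' = G⁻¹ * (Mᵀ * G) := by
    rw [h1, ← Matrix.mul_assoc, Matrix.nonsing_inv_mul G hG, Matrix.one_mul]
  rw [SpReal.star, ← charpoly_of_mul_eq_one' M A' hA', h2, Matrix.charpoly_mul_comm,
    Matrix.mul_assoc, Matrix.mul_nonsing_inv G hG, Matrix.mul_one, Matrix.charpoly_transpose]

end Inv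

section Nondeg

variable {F : Type u} [Field F]

/-- the polar form of the standard odd-dimensional form is nondegenerate in odd characteristic -/
theorem oddQF_nondeg (h2 : (2 : F) ≠ 0) (m : ℕ) :
    (QuadraticMap.polarBilin (oddQF m F)).Nondegenerate := by
  classical
  have key : ∀ v : Unit ⊕ (Fin m ⊕ Fin m) → F,
      (∀ w, QuadraticMap.polar (Cfsg.quadFormOdd m F) v w = 0) → v = 0 := by
    intro v hv
    funext i
    rcases i with ⟨⟩ | i | i
    · have h := hv (Pi.single (Sum.inl ()) 1)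
      rw [polar_odd] at h
      simp at h
      exact h.resolve_left h2
    · have h := hv (Pi.single (Sum.inr (Sum.inr i)) 1)
      rw [polar_odd] at h
      simpa [Pi.single_apply] using h
    · have h := hv (Pi.single (Sum.inr (Sum.inl i)) 1)
      rw [polar_odd] at h
      simpa [Pi.single_apply] using h
  refine ⟨fun v hv => key v hv, fun v hv => key v (fun w => ?_)⟩
  rw [QuadraticMap.polar_comm]
  exact hv w

end Nondeg

section Main

variable {F : Type u} [Field F] [Fintype F] {p : ℕ} [Fact p.Prime] [CharP F p]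

/-- the characteristic polynomial of an isometry of prime order `r ≠ p` -/
theorem ocharpoly_of_order {q : ℕ} (hF : Fintype.card F = q) {r : ℕ} (hr : r.Prime)
    (hrp : r ≠ p) {ι : Type} [Fintype ι] [DecidableEq ι] (Q : QuadraticForm F (ι → F))
    (hQ : (QuadraticMap.polarBilin Q).Nondegenerate) (g : ↥(Cfsg.isometryGroup F ⇑Q))
    (hg : orderOf g = r) :
    ∃ (c₀ : ℕ) (c : F[X] → ℕ),
      ((g : Matrix.GeneralLinearGroup ι F) : Matrix ι ι F).charpoly = psi r c₀ c ∧
      (∀ P ∈ cycJ F r, c (SpReal.star P) = c P) ∧ (∃ P ∈ cycJ F r, c P ≠ 0) ∧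
      c₀ + orderOf (q : ZMod r) * ∑ P ∈ cycJ F r, c P = Fintype.card ι := by
  have hrF : (r : F) ≠ 0 := natCast_ne_zero_of_ne hr hrp
  have hstar := star_charpoly_isometry Q hQ g
  obtain ⟨M, hMdef⟩ : ∃ M : Matrix ι ι F,
      M = ((g : Matrix.GeneralLinearGroup ι F) : Matrix ι ι F) := ⟨_, rfl⟩
  rw [← hMdef] at hstar ⊢
  have hM : M ^ r = 1 := by
    rw [hMdef, ← Units.val_pow_eq_pow_val, ← Subgroup.coe_pow, ← hg, pow_orderOf_eq_one]
    rfl
  let e := Fintype.equivFin ι
  have hM' : (Matrix.reindexAlgEquiv F F e M) ^ r = 1 := by rw [← map_pow, hM, map_one]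
  have hch' : (Matrix.reindexAlgEquiv F F e M).charpoly = M.charpoly :=
    Matrix.charpoly_reindex e M
  obtain ⟨c₀, c, hc⟩ := charpoly_eq_psi p hr hrp _ hM'
  rw [hch'] at hc
  refine ⟨c₀, c, hc, ?_, ?_, ?_⟩
  · have h1 := upsi_symm (RingHom.id F) (fun _ => rfl) hr hrF c₀ c
      (by rw [Polynomial.map_id, ← hc, hstar])
    intro P hP
    have h2 := h1 P hP
    rwa [ustar, Polynomial.map_id] at h2
  · by_contra hall
    push Not at hall
    have h1 : (psi r c₀ c : F[X]) = (X - 1) ^ c₀ := by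
      rw [psi, Finset.prod_eq_one (fun P hP => by rw [hall P hP, pow_zero]), mul_one]
    have h2 := eq_one_of_charpoly hr hrF M hM c₀ (hc.trans h1)
    have h3 : g = 1 := Subtype.ext (Units.ext (by rw [← hMdef, h2]; rfl))
    rw [h3, orderOf_one] at hg
    exact hr.one_lt.ne hg
  · have h1 := Matrix.charpoly_natDegree_eq_dim M
    rw [hc, psi_natDegree (p := p) hF hr hrp] at h1
    exact h1

omit [Fintype F] [Fact p.Prime] in
/-- in odd characteristic every `psi` with `star`-symmetric exponents is realized -/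
theorem qrealz_psi [Finite F] (h2 : (2 : F) ≠ 0) {r : ℕ} (hr : r.Prime) (hrF : (r : F) ≠ 0)
    (c₀ : ℕ) (c : F[X] → ℕ) (hc : ∀ P ∈ cycJ F r, c (SpReal.star P) = c P) :
    QRealz p (psi r c₀ c : F[X]) := by
  have husym := upsi_usym (RingHom.id F) (fun _ => rfl) hr hrF c₀ c (by
    intro P hP
    rw [ustar, Polynomial.map_id]
    exact hc P hP)
  rw [Polynomial.map_id] at husym
  exact qrealz_of_sym p _ _ (psi_monic r c₀ c) rfl husym.symm (fun h => absurd h h2)

/-- every `psi` with `star`-symmetric exponents, not all zero, of degree `2 m + 1` is the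
characteristic polynomial of an element of order `r` of the odd-dimensional orthogonal group -/
theorem oexists_of_psi_odd {q : ℕ} (hF : Fintype.card F = q) (h2 : (2 : F) ≠ 0) {m r : ℕ}
    (hr : r.Prime) (hrp : r ≠ p) (c₀ : ℕ) (c : F[X] → ℕ)
    (hsym : ∀ P ∈ cycJ F r, c (SpReal.star P) = c P) (hnz : ∃ P ∈ cycJ F r, c P ≠ 0)
    (hdeg : c₀ + orderOf (q : ZMod r) * ∑ P ∈ cycJ F r, c P = 2 * m + 1) :
    ∃ g : ↥(Cfsg.isometryGroup F (Cfsg.quadFormOdd m F)), orderOf g = r ∧
      ((g : Matrix.GeneralLinearGroup (Unit ⊕ (Fin m ⊕ Fin m)) F) :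
        Matrix (Unit ⊕ (Fin m ⊕ Fin m)) (Unit ⊕ (Fin m ⊕ Fin m)) F).charpoly = psi r c₀ c := by
  have : Fact r.Prime := ⟨hr⟩
  have hrF : (r : F) ≠ 0 := natCast_ne_zero_of_ne hr hrp
  have hnat : (psi r c₀ c : F[X]).natDegree = 2 * m + 1 := by
    rw [psi_natDegree (p := p) hF hr hrp, hdeg]
  obtain ⟨A, hAQ, ⟨k, hk, hAk⟩, hch⟩ :=
    exists_matrix_odd p (qrealz_psi (p := p) h2 hr hrF c₀ c hsym) hnat
  let e := Fintype.equivFin (Unit ⊕ (Fin m ⊕ Fin m))
  have hA'k : (Matrix.reindexAlgEquiv F F e A) ^ k = 1 := by rw [← map_pow, hAk, map_one]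
  have hch' : (Matrix.reindexAlgEquiv F F e A).charpoly = psi r c₀ c :=
    (Matrix.charpoly_reindex e A).trans hch
  have hA'r := pow_eq_one_of_charpoly_psi p hr hk _ hA'k c₀ c hch'
  have hAr : A ^ r = 1 := by
    apply (Matrix.reindexAlgEquiv F F e).injective
    rw [map_pow, hA'r, map_one]
  have hr1 : r - 1 + 1 = r := Nat.sub_add_cancel hr.pos
  let g0 : Matrix.GeneralLinearGroup (Unit ⊕ (Fin m ⊕ Fin m)) F :=
    ⟨A, A ^ (r - 1), by rw [← pow_succ', hr1, hAr], by rw [← pow_succ, hr1, hAr]⟩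
  have hg0 : g0 ∈ Cfsg.isometryGroup F (Cfsg.quadFormOdd m F) := by
    intro u v
    exact hAQ u
  refine ⟨⟨g0, hg0⟩, ?_, hch⟩
  apply orderOf_eq_prime
  · apply Subtype.ext
    apply Units.ext
    rw [Subgroup.coe_pow, Units.val_pow_eq_pow_val]
    exact hAr
  · intro h1
    have h3 : A = 1 := congrArg
      (fun x : ↥(Cfsg.isometryGroup F (Cfsg.quadFormOdd m F)) =>
        ((x : Matrix.GeneralLinearGroup (Unit ⊕ (Fin m ⊕ Fin m)) F) :
          Matrix (Unit ⊕ (Fin m ⊕ Fin m)) (Unit ⊕ (Fin m ⊕ Fin m)) F)) h1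
    have h4 : (psi r (Fintype.card (Unit ⊕ (Fin m ⊕ Fin m))) (fun _ => 0) : F[X]) =
        psi r c₀ c := by
      rw [← hch, h3, Matrix.charpoly_one, psi]
      simp
    obtain ⟨P, hP, hPne⟩ := hnz
    exact hPne ((psi_injective hr hrF _ _ _ _ h4).2 P hP).symm

/-- isometries of odd order prime to `p` with the same characteristic polynomial are conjugate
in the isometry group -/
theorem isConj_of_charpoly {ι : Type} [Fintype ι] [DecidableEq ι] (Q : QuadraticForm F (ι → F))
    (hQ : (QuadraticMap.polarBilin Q).Nondegenerate) (g h : ↥(Cfsg.isometryGroup F ⇑Q))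
    (hodd : Odd (orderOf g)) (hg : (orderOf g).Coprime p) (hh : (orderOf h).Coprime p)
    (hc : ((g : Matrix.GeneralLinearGroup ι F) : Matrix ι ι F).charpoly =
      ((h : Matrix.GeneralLinearGroup ι F) : Matrix ι ι F).charpoly) : IsConj g h := by
  obtain ⟨a, ha⟩ : ∃ a : Matrix ι ι F, a = ((g : Matrix.GeneralLinearGroup ι F) : Matrix ι ι F) :=
    ⟨_, rfl⟩
  obtain ⟨b, hb⟩ : ∃ b : Matrix ι ι F, b = ((h : Matrix.GeneralLinearGroup ι F) : Matrix ι ι F) :=
    ⟨_, rfl⟩
  rw [← ha, ← hb] at hc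
  have haQ : ∀ x, Q (a *ᵥ x) = Q x := by
    intro x
    rw [ha]
    exact g.2 x x
  have hbQ : ∀ x, Q (b *ᵥ x) = Q x := by
    intro x
    rw [hb]
    exact h.2 x x
  have hak : a ^ orderOf g = 1 := by
    rw [ha, ← Units.val_pow_eq_pow_val, ← SubmonoidClass.coe_pow, pow_orderOf_eq_one]
    rfl
  have hbk : b ^ orderOf h = 1 := by
    rw [hb, ← Units.val_pow_eq_pow_val, ← SubmonoidClass.coe_pow, pow_orderOf_eq_one]
    rfl
  let e := Fintype.equivFin ι
  have ha'k : (Matrix.reindexAlgEquiv F F e a) ^ orderOf g = 1 := by rw [← map_pow, hak, map_one]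
  have hb'k : (Matrix.reindexAlgEquiv F F e b) ^ orderOf h = 1 := by rw [← map_pow, hbk, map_one]
  have hc' : (Matrix.reindexAlgEquiv F F e a).charpoly = (Matrix.reindexAlgEquiv F F e b).charpoly :=
    ((Matrix.charpoly_reindex e a).trans hc).trans (Matrix.charpoly_reindex e b).symm
  obtain ⟨P, hPdet, hP⟩ := Cfsg.Agent.Helper40.exists_conj_matrix p hg hh _ _ ha'k hb'k hc'
  obtain ⟨G, hGdef⟩ : ∃ G : Matrix ι ι F, G = (Matrix.reindexAlgEquiv F F e).symm P := ⟨_, rfl⟩
  have hGP : Matrix.reindexAlgEquiv F F e G = P := by rw [hGdef, AlgEquiv.apply_symm_apply]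
  have hGab : G * a = b * G := by
    apply (Matrix.reindexAlgEquiv F F e).injective
    rw [map_mul, map_mul, hGP]
    exact hP
  have hGdet : G.det = 1 := by
    rw [← hPdet, ← hGP, Matrix.det_reindexAlgEquiv]
  have hGi : G * G⁻¹ = 1 := Matrix.mul_nonsing_inv G (by rw [hGdet]; exact isUnit_one)
  obtain ⟨S, S', hSS', hSQ, hSab⟩ := Cfsg.Agent.Helper43.OrthSemi.exists_orth_conj p Q hQ a b G
    G⁻¹ hGi (orderOf g) hodd hg hak haQ hbQ hGab
  have hmem : (⟨S, S', hSS', mul_eq_one_comm.1 hSS'⟩ : Matrix.GeneralLinearGroup ι F) ∈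
      Cfsg.isometryGroup F ⇑Q := by
    intro u v
    exact hSQ u
  refine isConj_iff.2 ⟨⟨⟨S, S', hSS', mul_eq_one_comm.1 hSS'⟩, hmem⟩, ?_⟩
  rw [mul_inv_eq_iff_eq_mul]
  apply Subtype.ext
  apply Units.ext
  show S * ((g : Matrix.GeneralLinearGroup ι F) : Matrix ι ι F) =
    ((h : Matrix.GeneralLinearGroup ι F) : Matrix ι ι F) * S
  rw [← ha, ← hb]
  exact hSab

end Main

end Cfsg.Agent.Helper43.PrimeOrdO
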