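import Mathlib
import Cfsg.Prelude.Def_Classical

set_option autoImplicit false

/-!
# Counting singular vectors of the standard even-dimensional quadratic forms (helper43)

* `card_fiber` : the fibres of a surjective linear functional on a finite space have the same
  cardinality;
* `card_sing` : the number of zeros of `x ⬝ᵥ y + QW w`;
* `card_sing_plus`, `card_sing_minus` : the number of singular vectors of the standard forms;
* `card_sing_modEq` : an isometry of prime order `r` without nonzero fixed vectors forces the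
  number of singular vectors to be `1` modulo `r`.
-/

namespace Cfsg.Agent.Helper43.SingCount

open Matrix

section Fiber

variable {F : Type*} [Field F] [Finite F]

theorem card_fiber {V : Type*} [AddCommGroup V] [Module F V] [Finite V] (φ : V →ₗ[F] F)
    (hφ : Function.Surjective φ) (c : F) :
    Nat.card F * Nat.card {y : V // φ y = c} = Nat.card V := by
  classical
  have := Fintype.ofFinite F
  have e : ∀ c', Nat.card {y : V // φ y = c'} = Nat.card {y : V // φ y = c} := by
    intro c'
    obtain ⟨y₀, hy₀⟩ := hφ (c - c')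
    exact Nat.card_congr (Equiv.subtypeEquiv (Equiv.addRight y₀) (by
      intro y
      show φ y = c' ↔ φ (y + y₀) = c
      rw [map_add, hy₀]
      constructor
      · intro h
        rw [h]
        ring
      · intro h
        linear_combination h))
  rw [← Nat.card_congr (Equiv.sigmaFiberEquiv φ), Nat.card_sigma,
    Finset.sum_congr rfl (fun c' _ => e c'), Finset.sum_const, Finset.card_univ,
    smul_eq_mul, Nat.card_eq_fintype_card]

theorem card_dot (k : ℕ) (x : Fin k → F) (hx : x ≠ 0) (c : F) :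
    Nat.card F * Nat.card {y : Fin k → F // x ⬝ᵥ y = c} = Nat.card F ^ k := by
  classical
  let φ : (Fin k → F) →ₗ[F] F :=
    { toFun := fun y => x ⬝ᵥ y
      map_add' := fun y z => dotProduct_add x y z
      map_smul' := fun r y => by simp [dotProduct_smul] }
  have hφ : Function.Surjective φ := by
    obtain ⟨i, hi⟩ : ∃ i, x i ≠ 0 := by
      by_contra h
      push Not at h
      exact hx (funext h)
    intro d
    refine ⟨Pi.single i (d / x i), ?_⟩
    show x ⬝ᵥ Pi.single i (d / x i) = d
    rw [dotProduct_single]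
    field_simp
  have h := card_fiber φ hφ c
  rw [Nat.card_fun, Nat.card_fin] at h
  exact h

omit [Finite F] in
theorem card_dot_zero [DecidableEq F] (k : ℕ) (c : F) :
    Nat.card {y : Fin k → F // (0 : Fin k → F) ⬝ᵥ y = c} = if c = 0 then Nat.card F ^ k else 0 := by
  classical
  by_cases hc : c = 0
  · rw [if_pos hc]
    have e : {y : Fin k → F // (0 : Fin k → F) ⬝ᵥ y = c} ≃ (Fin k → F) :=
      Equiv.subtypeUnivEquiv (fun y => by rw [zero_dotProduct, hc])
    rw [Nat.card_congr e, Nat.card_fun, Nat.card_fin]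
  · rw [if_neg hc]
    have : IsEmpty {y : Fin k → F // (0 : Fin k → F) ⬝ᵥ y = c} := by
      constructor
      rintro ⟨y, hy⟩
      rw [zero_dotProduct] at hy
      exact hc hy.symm
    exact Nat.card_of_isEmpty

/-- the number of zeros of `x ⬝ᵥ y + QW w` -/
theorem card_sing (k : ℕ) (W : Type*) [Finite W] (QW : W → F) :
    Nat.card F * Nat.card {p : ((Fin k → F) × (Fin k → F)) × W // p.1.1 ⬝ᵥ p.1.2 + QW p.2 = 0} =
      Nat.card F ^ (k + 1) * Nat.card {w : W // QW w = 0} +
        Nat.card W * (Nat.card F ^ k - 1) * Nat.card F ^ k := by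
  classical
  have := Fintype.ofFinite F
  have := Fintype.ofFinite W
  let e : {p : ((Fin k → F) × (Fin k → F)) × W // p.1.1 ⬝ᵥ p.1.2 + QW p.2 = 0} ≃
      Σ xw : W × (Fin k → F), {y : Fin k → F // xw.2 ⬝ᵥ y = -QW xw.1} :=
    { toFun := fun p => ⟨(p.1.2, p.1.1.1), ⟨p.1.1.2, eq_neg_of_add_eq_zero_left p.2⟩⟩
      invFun := fun s => ⟨((s.1.2, s.2.1), s.1.1), by
        show s.1.2 ⬝ᵥ s.2.1 + QW s.1.1 = 0
        rw [s.2.2, neg_add_cancel]⟩
      left_inv := fun p => rfl
      right_inv := fun s => rfl }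
  have hterm : ∀ (w : W) (x : Fin k → F),
      Nat.card F * Nat.card {y : Fin k → F // x ⬝ᵥ y = -QW w} =
        if x = 0 then (if QW w = 0 then Nat.card F ^ (k + 1) else 0) else Nat.card F ^ k := by
    intro w x
    by_cases hx : x = 0
    · rw [if_pos hx, hx, card_dot_zero]
      by_cases hw : QW w = 0
      · rw [if_pos hw, if_pos (show -QW w = 0 by rw [hw, neg_zero]), pow_succ, mul_comm]
      · rw [if_neg hw, if_neg (show ¬ -QW w = 0 by rwa [neg_eq_zero]), mul_zero]
    · rw [if_neg hx]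
      exact card_dot k x hx _
  have hsumx : ∀ w : W, ∑ x : Fin k → F,
      (if x = 0 then (if QW w = 0 then Nat.card F ^ (k + 1) else 0) else Nat.card F ^ k) =
      (if QW w = 0 then Nat.card F ^ (k + 1) else 0) + (Nat.card F ^ k - 1) * Nat.card F ^ k := by
    intro w
    rw [Finset.sum_ite, Finset.sum_const, Finset.sum_const, Finset.filter_eq',
      if_pos (Finset.mem_univ _), Finset.card_singleton, one_smul, Finset.filter_ne',
      Finset.card_erase_of_mem (Finset.mem_univ _), Finset.card_univ, smul_eq_mul]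
    congr 2
    rw [Nat.card_eq_fintype_card, Fintype.card_fun, Fintype.card_fin]
  rw [Nat.card_congr e, Nat.card_sigma, Finset.mul_sum, Fintype.sum_prod_type]
  rw [Finset.sum_congr rfl (fun w _ => Finset.sum_congr rfl (fun x _ => hterm w x)),
    Finset.sum_congr rfl (fun w _ => hsumx w), Finset.sum_add_distrib, Finset.sum_const,
    Finset.card_univ, smul_eq_mul, ← Finset.sum_filter, Finset.sum_const, smul_eq_mul,
    Nat.card_eq_fintype_card (α := W), Nat.card_eq_fintype_card (α := {w : W // QW w = 0}),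
    Fintype.card_subtype, mul_assoc]
  ring

end Fiber

section Std

variable {F : Type*} [Field F] [Finite F]

theorem card_sing_plus (m : ℕ) :
    Nat.card F * Nat.card {v : Fin m ⊕ Fin m → F // Cfsg.quadFormPlus m F v = 0} =
      Nat.card F ^ (m + 1) + (Nat.card F ^ m - 1) * Nat.card F ^ m := by
  have h := card_sing (F := F) m Unit (fun _ => 0)
  have e : {v : Fin m ⊕ Fin m → F // Cfsg.quadFormPlus m F v = 0} ≃
      {p : ((Fin m → F) × (Fin m → F)) × Unit // p.1.1 ⬝ᵥ p.1.2 + (0 : F) = 0} :=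
    Equiv.subtypeEquiv ((Equiv.sumArrowEquivProdArrow (Fin m) (Fin m) F).trans
      (Equiv.prodPUnit _).symm) (fun v => by
        show Cfsg.quadFormPlus m F v = 0 ↔
          (fun i => v (Sum.inl i)) ⬝ᵥ (fun i => v (Sum.inr i)) + 0 = 0
        rw [add_zero]
        rfl)
  rw [Nat.card_congr e, h]
  have h1 : Nat.card {w : Unit // (0 : F) = 0} = 1 := by
    rw [Nat.card_congr (Equiv.subtypeUnivEquiv (fun _ => rfl)), Nat.card_unique]
  have hU : Nat.card Unit = 1 := Nat.card_unique
  rw [h1, hU]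
  ring

theorem card_sing_minus (n : ℕ) (a c : F)
    (hac : ∀ z₁ z₂ : F, z₁ ^ 2 + a * z₁ * z₂ + c * z₂ ^ 2 = 0 → z₁ = 0 ∧ z₂ = 0) :
    Nat.card F * Nat.card {v : (Fin n ⊕ Fin n) ⊕ Fin 2 → F // Cfsg.quadFormMinus n F a c v = 0} =
      Nat.card F ^ (n + 1) + Nat.card F ^ 2 * (Nat.card F ^ n - 1) * Nat.card F ^ n := by
  have h := card_sing (F := F) n (Fin 2 → F) (fun z => z 0 ^ 2 + a * z 0 * z 1 + c * z 1 ^ 2)
  have e : {v : (Fin n ⊕ Fin n) ⊕ Fin 2 → F // Cfsg.quadFormMinus n F a c v = 0} ≃
      {p : ((Fin n → F) × (Fin n → F)) × (Fin 2 → F) //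
        p.1.1 ⬝ᵥ p.1.2 + (p.2 0 ^ 2 + a * p.2 0 * p.2 1 + c * p.2 1 ^ 2) = 0} :=
    Equiv.subtypeEquiv ((Equiv.sumArrowEquivProdArrow (Fin n ⊕ Fin n) (Fin 2) F).trans
      (Equiv.prodCongr (Equiv.sumArrowEquivProdArrow (Fin n) (Fin n) F) (Equiv.refl _)))
      (fun v => Iff.rfl)
  rw [Nat.card_congr e, h]
  have h1 : Nat.card {z : Fin 2 → F // z 0 ^ 2 + a * z 0 * z 1 + c * z 1 ^ 2 = 0} = 1 := by
    rw [Nat.card_eq_one_iff_unique]
    refine ⟨⟨?_⟩, ⟨⟨0, by simp⟩⟩⟩
    rintro ⟨z, hz⟩ ⟨z', hz'⟩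
    apply Subtype.ext
    funext i
    have h2 := hac _ _ hz
    have h3 := hac _ _ hz'
    fin_cases i
    · exact h2.1.trans h3.1.symm
    · exact h2.2.trans h3.2.symm
  rw [h1, Nat.card_fun, Nat.card_fin]
  ring

end Std

section Free

variable {F : Type*} [Field F] [Finite F]

/-- an isometry of prime order `r` without nonzero fixed vectors forces the number of singular
vectors to be `1` modulo `r` -/
theorem card_sing_modEq {ι : Type*} [Fintype ι] [DecidableEq ι] (Q : (ι → F) → F) (hQ0 : Q 0 = 0)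
    (M : Matrix ι ι F) (hM : ∀ x, Q (M *ᵥ x) = Q x) (r : ℕ) [Fact r.Prime] (hMr : M ^ r = 1)
    (hfix : ∀ v, M *ᵥ v = v → v = 0) : Nat.card {v : ι → F // Q v = 0} ≡ 1 [MOD r] := by
  classical
  have := Fintype.ofFinite F
  let f : Function.End {v : ι → F // Q v = 0} := fun v => ⟨M *ᵥ v.1, by rw [hM]; exact v.2⟩
  have hpow : ∀ (n : ℕ) (v : {v : ι → F // Q v = 0}), ((f ^ n) v).1 = (M ^ n) *ᵥ v.1 := by
    intro n
    induction n with
    | zero =>
      intro v
      rw [pow_zero, pow_zero, Matrix.one_mulVec]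
      rfl
    | succ n ih =>
      intro v
      have h1 : (f ^ (n + 1)) v = (f ^ n) (f v) := by
        rw [pow_succ]
        rfl
      rw [h1, ih, pow_succ, ← Matrix.mulVec_mulVec]
  have hf : f ^ r ^ 1 = 1 := by
    rw [pow_one]
    funext v
    apply Subtype.ext
    rw [hpow, hMr, Matrix.one_mulVec]
    rfl
  have h := Equiv.Perm.card_fixedPoints_modEq (p := r) (n := 1) hf
  have h1 : Fintype.card ↑(Function.fixedPoints f) = 1 := by
    rw [Fintype.card_eq_one_iff]
    refine ⟨⟨⟨0, hQ0⟩, ?_⟩, ?_⟩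
    · show f ⟨0, hQ0⟩ = ⟨0, hQ0⟩
      apply Subtype.ext
      show M *ᵥ (0 : ι → F) = 0
      rw [Matrix.mulVec_zero]
    · rintro ⟨v, hv⟩
      apply Subtype.ext
      apply Subtype.ext
      have h2 : f v = v := hv
      exact hfix v.1 (congrArg Subtype.val h2)
  rw [h1] at h
  rw [Nat.card_eq_fintype_card]
  exact h

end Free

end Cfsg.Agent.Helper43.SingCount
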