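import Mathlib
import Cfsg.Agent.Helper43.PrimeOrdO
import Cfsg.Agent.Helper43.OrthRealH
import Cfsg.Agent.Helper43.SingCount

set_option autoImplicit false

/-!
# Elements of odd prime order `r ≠ p` in the even-dimensional orthogonal groups (helper43)

* `plus_parity`, `minus_parity` : arithmetic consequences of the counts of singular vectors;
* `no_fixed_of_psi` : an isometry with characteristic polynomial `psi r 0 c` has no nonzero fixed
  vector;
* `exists_isometry_of_matrix` : from a matrix to an element of the isometry group of order `r`;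
* `plus_c0_zero_even`, `minus_c0_zero_odd` : the parity of the number of elliptic blocks of a
  fixed-point-free element of `O⁺` / `O⁻` (the order of `q` modulo `r` being even);
* `exists_space_psi0`, `prod_fixed_facts`, `hasTS_neg_minus_prod`, `oexists_plus` : realization
  in `O⁺`.
-/

namespace Cfsg.Agent.Helper43.PrimeOrdO

open Polynomial Matrix Cfsg.Agent.Helper43.SpReal Cfsg.Agent.Helper43.CycFactors
  Cfsg.Agent.Helper43.PrimeOrdMat Cfsg.Agent.Helper43.StarPoly Cfsg.Agent.Helper43.UReal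
  Cfsg.Agent.Helper43.PrimeOrdU Cfsg.Agent.Helper43.OrthReal Cfsg.Agent.Helper43.OrthStd
  Cfsg.Agent.Helper43.OrthEven Cfsg.Agent.Helper43.SingCount

universe u

section Arith

theorem two_ne_zero_zmod {r : ℕ} (hr : r.Prime) (hr2 : r ≠ 2) : (2 : ZMod r) ≠ 0 := by
  intro h
  have h1 : ((2 : ℕ) : ZMod r) = 0 := by exact_mod_cast h
  rw [ZMod.natCast_eq_zero_iff] at h1
  have h2 := Nat.le_of_dvd (by norm_num) h1
  have h3 := hr.two_le
  omega

theorem plus_parity {q r : ℕ} (hr : r.Prime) (hr2 : r ≠ 2) {j K m : ℕ} (hq : 1 ≤ q)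
    (hord : orderOf (q : ZMod r) = j + j) (hj : 0 < j) (hm : m = j * K) (Z : ℕ)
    (hZ : q * Z = q ^ (m + 1) + (q ^ m - 1) * q ^ m) (hmod : Z ≡ 1 [MOD r]) : Even K := by
  have : Fact r.Prime := ⟨hr⟩
  by_contra hK
  rw [Nat.not_even_iff_odd] at hK
  have hQj : (q : ZMod r) ^ j = -1 := pow_half_eq_neg_one hr _ hord (by omega)
  have hQm : (q : ZMod r) ^ m = -1 := by rw [hm, pow_mul, hQj, hK.neg_one_pow]
  have hZ1 : (Z : ZMod r) = 1 := by
    have h := (ZMod.natCast_eq_natCast_iff Z 1 r).mpr hmod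
    rw [Nat.cast_one] at h
    exact h
  have h1 := congrArg (fun n : ℕ => (n : ZMod r)) hZ
  simp only [Nat.cast_mul, Nat.cast_add, Nat.cast_pow] at h1
  rw [Nat.cast_sub (Nat.one_le_pow _ _ hq), Nat.cast_pow, Nat.cast_one, hZ1, pow_succ, hQm] at h1
  have h2 : (2 : ZMod r) * ((q : ZMod r) - 1) = 0 := by linear_combination h1
  have h3 : (q : ZMod r) = 1 := by
    rcases mul_eq_zero.mp h2 with h | h
    · exact absurd h (two_ne_zero_zmod hr hr2)
    · exact sub_eq_zero.mp h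
  rw [h3, orderOf_one] at hord
  omega

theorem minus_parity {q r : ℕ} (hr : r.Prime) (hr2 : r ≠ 2) {j K m : ℕ} (hq : 1 ≤ q)
    (hord : orderOf (q : ZMod r) = j + j) (hj : 0 < j) (hm : m = j * K) (hm1 : 1 ≤ m) (Z : ℕ)
    (hZ : q * Z = q ^ (m - 1 + 1) + q ^ 2 * (q ^ (m - 1) - 1) * q ^ (m - 1))
    (hmod : Z ≡ 1 [MOD r]) : Odd K := by
  have : Fact r.Prime := ⟨hr⟩
  by_contra hK
  rw [Nat.not_odd_iff_even] at hK
  have hQj : (q : ZMod r) ^ j = -1 := pow_half_eq_neg_one hr _ hord (by omega)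
  have hQm : (q : ZMod r) ^ m = 1 := by rw [hm, pow_mul, hQj, hK.neg_one_pow]
  obtain ⟨n, hn⟩ : ∃ n, m = n + 1 := ⟨m - 1, by omega⟩
  have hn' : m - 1 = n := by omega
  rw [hn'] at hZ
  rw [hn] at hQm
  have hZ1 : (Z : ZMod r) = 1 := by
    have h := (ZMod.natCast_eq_natCast_iff Z 1 r).mpr hmod
    rw [Nat.cast_one] at h
    exact h
  have h1 := congrArg (fun n : ℕ => (n : ZMod r)) hZ
  simp only [Nat.cast_mul, Nat.cast_add, Nat.cast_pow] at h1
  rw [Nat.cast_sub (Nat.one_le_pow _ _ hq), Nat.cast_pow, Nat.cast_one, hZ1, hQm] at h1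
  have hu : (q : ZMod r) ^ n * (q : ZMod r) = 1 := by rw [← pow_succ, hQm]
  have h2 : (2 : ZMod r) * ((q : ZMod r) - 1) = 0 := by
    linear_combination h1 + ((q : ZMod r) ^ n * (q : ZMod r) + 1 - (q : ZMod r)) * hu
  have h3 : (q : ZMod r) = 1 := by
    rcases mul_eq_zero.mp h2 with h | h
    · exact absurd h (two_ne_zero_zmod hr hr2)
    · exact sub_eq_zero.mp h
  rw [h3, orderOf_one] at hord
  omega

end Arith

section Fixed

variable {F : Type u} [Field F]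

theorem eval_one_psi_ne {r : ℕ} (hr : r.Prime) (hrF : (r : F) ≠ 0) (c : F[X] → ℕ) :
    (psi r 0 c : F[X]).eval 1 ≠ 0 := by
  rw [psi, pow_zero, one_mul, eval_prod, Finset.prod_ne_zero_iff]
  intro P hP
  rw [eval_pow]
  exact pow_ne_zero _ (eval_one_ne_of_mem hr hrF hP)

theorem not_dvd_psi_zero {r : ℕ} (hr : r.Prime) (hrF : (r : F) ≠ 0) (c : F[X] → ℕ) :
    ¬ ((X - 1 : F[X]) ∣ psi r 0 c) := by
  intro h
  have h1 : (X - C 1 : F[X]) ∣ psi r 0 c := by rwa [map_one]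
  exact eval_one_psi_ne hr hrF c (dvd_iff_isRoot.mp h1)

theorem no_fixed_of_psi {ι : Type*} [Fintype ι] [DecidableEq ι] {r : ℕ} (hr : r.Prime)
    (hrF : (r : F) ≠ 0) (M : Matrix ι ι F) (c : F[X] → ℕ) (hch : M.charpoly = psi r 0 c)
    (v : ι → F) (hv : M *ᵥ v = v) : v = 0 := by
  by_contra hv0
  have h1 : (1 - M).det = 0 := Matrix.exists_mulVec_eq_zero_iff.mp
    ⟨v, hv0, by rw [Matrix.sub_mulVec, Matrix.one_mulVec, hv, sub_self]⟩
  have h2 := Matrix.eval_charpoly M 1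
  rw [map_one, h1, hch] at h2
  exact eval_one_psi_ne hr hrF c h2

theorem psi_fixed_mul (r n : ℕ) (c : F[X] → ℕ) :
    (X - 1 : F[X]) ^ n * psi r 0 c = psi r n c := by
  rw [psi, psi, pow_zero, one_mul]

end Fixed

section Grp

variable {F : Type u} [Field F] [Fintype F] {p : ℕ} [Fact p.Prime] [CharP F p]

omit [Fintype F] in
/-- from a matrix preserving `q₀` with characteristic polynomial `psi r c₀ c` to an element of
order `r` of the isometry group -/
theorem exists_isometry_of_matrix {ι : Type} [Fintype ι] [DecidableEq ι] (q₀ : (ι → F) → F)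
    {r : ℕ} (hr : r.Prime) (hrp : r ≠ p) (A : Matrix ι ι F) (hAQ : ∀ x, q₀ (A *ᵥ x) = q₀ x)
    {k : ℕ} (hk : k.Coprime p) (hAk : A ^ k = 1) (c₀ : ℕ) (c : F[X] → ℕ)
    (hch : A.charpoly = psi r c₀ c) (hnz : ∃ P ∈ cycJ F r, c P ≠ 0) :
    ∃ g : ↥(Cfsg.isometryGroup F q₀), orderOf g = r ∧
      ((g : Matrix.GeneralLinearGroup ι F) : Matrix ι ι F).charpoly = psi r c₀ c := by
  have : Fact r.Prime := ⟨hr⟩
  have hrF : (r : F) ≠ 0 := natCast_ne_zero_of_ne hr hrp
  let e := Fintype.equivFin ι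
  have hA'k : (Matrix.reindexAlgEquiv F F e A) ^ k = 1 := by rw [← map_pow, hAk, map_one]
  have hch' : (Matrix.reindexAlgEquiv F F e A).charpoly = psi r c₀ c :=
    (Matrix.charpoly_reindex e A).trans hch
  have hA'r := pow_eq_one_of_charpoly_psi p hr hk _ hA'k c₀ c hch'
  have hAr : A ^ r = 1 := by
    apply (Matrix.reindexAlgEquiv F F e).injective
    rw [map_pow, hA'r, map_one]
  have hr1 : r - 1 + 1 = r := Nat.sub_add_cancel hr.pos
  let g0 : Matrix.GeneralLinearGroup ι F :=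
    ⟨A, A ^ (r - 1), by rw [← pow_succ', hr1, hAr], by rw [← pow_succ, hr1, hAr]⟩
  have hg0 : g0 ∈ Cfsg.isometryGroup F q₀ := by
    intro u v
    exact hAQ u
  refine ⟨⟨g0, hg0⟩, ?_, hch⟩
  apply orderOf_eq_prime
  · apply Subtype.ext
    apply Units.ext
    rw [Subgroup.coe_pow, Units.val_pow_eq_pow_val]
    exact hAr
  · intro h1
    have h3 : A = 1 := congrArg
      (fun x : ↥(Cfsg.isometryGroup F q₀) =>
        ((x : Matrix.GeneralLinearGroup ι F) : Matrix ι ι F)) h1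
    have h4 : (psi r (Fintype.card ι) (fun _ => 0) : F[X]) = psi r c₀ c := by
      rw [← hch, h3, Matrix.charpoly_one, psi]
      simp
    obtain ⟨P, hP, hPne⟩ := hnz
    exact hPne ((psi_injective hr hrF _ _ _ _ h4).2 P hP).symm

/-- a fixed-point-free element of order `r` of `O⁺_2m(q)`, the order of `q` modulo `r` being
even, has an even number of elliptic blocks -/
theorem plus_c0_zero_even {q : ℕ} (hF : Fintype.card F = q) {m r : ℕ} (hr : r.Prime)
    (hr2 : r ≠ 2) (hrp : r ≠ p) (g : ↥(Cfsg.isometryGroup F (Cfsg.quadFormPlus m F)))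
    (hg : orderOf g = r) (c : F[X] → ℕ)
    (hch : ((g : Matrix.GeneralLinearGroup (Fin m ⊕ Fin m) F) :
      Matrix (Fin m ⊕ Fin m) (Fin m ⊕ Fin m) F).charpoly = psi r 0 c) {j : ℕ}
    (hord : orderOf (q : ZMod r) = j + j)
    (hdeg : (j + j) * ∑ P ∈ cycJ F r, c P = 2 * m) : Even (∑ P ∈ cycJ F r, c P) := by
  have : Fact r.Prime := ⟨hr⟩
  have hrF : (r : F) ≠ 0 := natCast_ne_zero_of_ne hr hrp
  obtain ⟨M, hMdef⟩ : ∃ M : Matrix (Fin m ⊕ Fin m) (Fin m ⊕ Fin m) F,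
      M = ((g : Matrix.GeneralLinearGroup (Fin m ⊕ Fin m) F) :
        Matrix (Fin m ⊕ Fin m) (Fin m ⊕ Fin m) F) := ⟨_, rfl⟩
  rw [← hMdef] at hch
  have hM : M ^ r = 1 := by
    rw [hMdef, ← Units.val_pow_eq_pow_val, ← Subgroup.coe_pow, ← hg, pow_orderOf_eq_one]
    rfl
  have hMQ : ∀ x, Cfsg.quadFormPlus m F (M *ᵥ x) = Cfsg.quadFormPlus m F x := by
    intro x
    rw [hMdef]
    exact g.2 x x
  have hmod := card_sing_modEq (Cfsg.quadFormPlus m F) (by simp [Cfsg.quadFormPlus]) M hMQ r hM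
    (no_fixed_of_psi hr hrF M c hch)
  have hZ := card_sing_plus (F := F) m
  rw [Nat.card_eq_fintype_card (α := F), hF] at hZ
  have hpos := orderOf_pos_of_card (p := p) hF hr hrp
  have hq : 1 ≤ q := by
    rw [← hF]
    exact Fintype.card_pos
  have e : (j + j) * ∑ P ∈ cycJ F r, c P = 2 * (j * ∑ P ∈ cycJ F r, c P) := by ring
  exact plus_parity hr hr2 hq hord (by omega) (by omega) _ hZ hmod

/-- a fixed-point-free element of order `r` of `O⁻_2m(q)`, the order of `q` modulo `r` being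
even, has an odd number of elliptic blocks -/
theorem minus_c0_zero_odd {q : ℕ} (hF : Fintype.card F = q) {m r : ℕ} (hm : 1 ≤ m)
    (hr : r.Prime) (hr2 : r ≠ 2) (hrp : r ≠ p) (a c' : F)
    (hac : ∀ z₁ z₂ : F, z₁ ^ 2 + a * z₁ * z₂ + c' * z₂ ^ 2 = 0 → z₁ = 0 ∧ z₂ = 0)
    (g : ↥(Cfsg.isometryGroup F (Cfsg.quadFormMinus (m - 1) F a c')))
    (hg : orderOf g = r) (c : F[X] → ℕ)
    (hch : ((g : Matrix.GeneralLinearGroup ((Fin (m - 1) ⊕ Fin (m - 1)) ⊕ Fin 2) F) :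
      Matrix ((Fin (m - 1) ⊕ Fin (m - 1)) ⊕ Fin 2) ((Fin (m - 1) ⊕ Fin (m - 1)) ⊕ Fin 2)
        F).charpoly = psi r 0 c) {j : ℕ}
    (hord : orderOf (q : ZMod r) = j + j)
    (hdeg : (j + j) * ∑ P ∈ cycJ F r, c P = 2 * m) : Odd (∑ P ∈ cycJ F r, c P) := by
  have : Fact r.Prime := ⟨hr⟩
  have hrF : (r : F) ≠ 0 := natCast_ne_zero_of_ne hr hrp
  obtain ⟨M, hMdef⟩ : ∃ M : Matrix ((Fin (m - 1) ⊕ Fin (m - 1)) ⊕ Fin 2)
      ((Fin (m - 1) ⊕ Fin (m - 1)) ⊕ Fin 2) F,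
      M = ((g : Matrix.GeneralLinearGroup ((Fin (m - 1) ⊕ Fin (m - 1)) ⊕ Fin 2) F) :
        Matrix ((Fin (m - 1) ⊕ Fin (m - 1)) ⊕ Fin 2) ((Fin (m - 1) ⊕ Fin (m - 1)) ⊕ Fin 2)
          F) := ⟨_, rfl⟩
  rw [← hMdef] at hch
  have hM : M ^ r = 1 := by
    rw [hMdef, ← Units.val_pow_eq_pow_val, ← Subgroup.coe_pow, ← hg, pow_orderOf_eq_one]
    rfl
  have hMQ : ∀ x, Cfsg.quadFormMinus (m - 1) F a c' (M *ᵥ x) =
      Cfsg.quadFormMinus (m - 1) F a c' x := by
    intro x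
    rw [hMdef]
    exact g.2 x x
  have hmod := card_sing_modEq (Cfsg.quadFormMinus (m - 1) F a c')
    (by simp [Cfsg.quadFormMinus]) M hMQ r hM (no_fixed_of_psi hr hrF M c hch)
  have hZ := card_sing_minus (F := F) (m - 1) a c' hac
  rw [Nat.card_eq_fintype_card (α := F), hF] at hZ
  have hpos := orderOf_pos_of_card (p := p) hF hr hrp
  have hq : 1 ≤ q := by
    rw [← hF]
    exact Fintype.card_pos
  have e : (j + j) * ∑ P ∈ cycJ F r, c P = 2 * (j * ∑ P ∈ cycJ F r, c P) := by ring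
  exact minus_parity hr hr2 hq hord (by omega) (by omega) hm _ hZ hmod

end Grp

section Spaces

variable {F : Type u} [Field F] [Fintype F] {p : ℕ} [Fact p.Prime] [CharP F p]

/-- the part without fixed vectors: a quadratic space with an isometry of characteristic
polynomial `psi r 0 c`, hyperbolic if the order of `q` modulo `r` is odd -/
theorem exists_space_psi0 {q : ℕ} (hF : Fintype.card F = q) {r : ℕ} (hr : r.Prime) (hr2 : r ≠ 2)
    (hrp : r ≠ p) (c : F[X] → ℕ) (hsym : ∀ P ∈ cycJ F r, c (SpReal.star P) = c P) :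
    ∃ (V : Type u) (_ : AddCommGroup V) (_ : Module F V) (_ : FiniteDimensional F V)
      (Q : QuadraticForm F V) (T : Module.End F V) (l : ℕ),
      PolarNondeg Q ∧ (∀ v, Q (T v) = Q v) ∧ (∃ k : ℕ, k.Coprime p ∧ T ^ k = 1) ∧
      T.charpoly = psi r 0 c ∧ Module.finrank F V = 2 * l ∧
      (Odd (orderOf (q : ZMod r)) → HasTS Q l) := by
  have hrF : (r : F) ≠ 0 := natCast_ne_zero_of_ne hr hrp
  have hstar : SpReal.star (psi r 0 c : F[X]) = psi r 0 c := by
    have husym := upsi_usym (RingHom.id F) (fun _ => rfl) hr hrF 0 c (by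
      intro P hP
      rw [ustar, Polynomial.map_id]
      exact hsym P hP)
    rw [Polynomial.map_id] at husym
    exact husym.symm
  by_cases hodd : Odd (orderOf (q : ZMod r))
  · have hfac : ∀ g : F[X], g.Monic → Irreducible g → g ∣ psi r 0 c → SpReal.star g ≠ g := by
      intro g hgm hgi hgd
      rw [psi, pow_zero, one_mul] at hgd
      obtain ⟨P, hP, hgP⟩ := Prime.exists_mem_finset_dvd hgi.prime hgd
      have hgP' := hgi.prime.dvd_of_dvd_pow hgP
      have hP' := mem_cycJ.mp hP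
      have hgeq : g = P := eq_of_monic_of_associated hgm hP'.1 (hgi.associated_of_dvd hP'.2.1 hgP')
      rw [hgeq]
      exact star_ne_self_of_odd (p := p) hF hr hr2 hrp hodd hP
    obtain ⟨V, i1, i2, i3, Q, T, hnd, hT, hk, hch, l, hl, hts⟩ :=
      qrealzH_of_sym p _ _ (psi_monic r 0 c) rfl hstar hfac
    exact ⟨V, i1, i2, i3, Q, T, l, hnd, hT, hk, hch, hl, fun _ => hts⟩
  · obtain ⟨V, i1, i2, i3, Q, T, hnd, hT, hk, hch⟩ :=
      qrealz_of_sym p _ _ (psi_monic r 0 c) rfl hstar (fun _ => not_dvd_psi_zero hr hrF c)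
    have hev : Even (orderOf (q : ZMod r)) := Nat.not_odd_iff_even.mp hodd
    obtain ⟨j, hj⟩ := hev
    refine ⟨V, i1, i2, i3, Q, T, j * ∑ P ∈ cycJ F r, c P, hnd, hT, hk, hch, ?_, fun h => absurd h hodd⟩
    have h1 := LinearMap.charpoly_natDegree T
    rw [hch, psi_natDegree (p := p) hF hr hrp, zero_add, hj] at h1
    rw [← h1]
    ring

omit [Fintype F] [Fact p.Prime] [CharP F p] in
/-- the orthogonal sum of a space with the identity and a space with an isometry of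
characteristic polynomial `psi r 0 c` -/
theorem prod_fixed_facts {V₀ V₁ : Type u} [AddCommGroup V₀] [Module F V₀] [FiniteDimensional F V₀]
    [AddCommGroup V₁] [Module F V₁] [FiniteDimensional F V₁] (Q₀ : QuadraticForm F V₀)
    (hnd₀ : PolarNondeg Q₀) (Q₁ : QuadraticForm F V₁) (hnd₁ : PolarNondeg Q₁)
    (T₁ : Module.End F V₁) (hT₁ : ∀ v, Q₁ (T₁ v) = Q₁ v) {k : ℕ} (hTk : T₁ ^ k = 1) {r : ℕ}
    {c : F[X] → ℕ} (hch : T₁.charpoly = psi r 0 c) :
    PolarNondeg (Q₀.prod Q₁) ∧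
      (∀ v, (Q₀.prod Q₁) ((LinearMap.prodMap (1 : Module.End F V₀) T₁) v) = (Q₀.prod Q₁) v) ∧
      (LinearMap.prodMap (1 : Module.End F V₀) T₁) ^ k = 1 ∧
      (LinearMap.prodMap (1 : Module.End F V₀) T₁).charpoly = psi r (Module.finrank F V₀) c := by
  refine ⟨?_, ?_, ?_, ?_⟩
  · intro v hv
    apply Prod.ext
    · apply hnd₀
      intro w
      have h := hv (w, 0)
      rw [QuadraticMap.polar_prod] at h
      simpa using h
    · apply hnd₁
      intro w
      have h := hv (0, w)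
      rw [QuadraticMap.polar_prod] at h
      simpa using h
  · intro v
    rw [QuadraticMap.prod_apply, QuadraticMap.prod_apply, LinearMap.prodMap_apply, hT₁]
    rfl
  · rw [Cfsg.Agent.Helper42.SpModels.prodMap_pow',
      Cfsg.Agent.Helper42.SpModels.prodMap_eq_one_iff]
    exact ⟨one_pow k, hTk⟩
  · rw [LinearMap.charpoly_prodMap, LinearMap.charpoly_one, hch, psi_fixed_mul]

omit [Fintype F] [Fact p.Prime] [CharP F p] in
/-- the orthogonal sum of two minus spaces with opposite anisotropic parts has a totally singular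
subspace of half the dimension -/
theorem hasTS_neg_minus_prod {V₁ : Type*} [AddCommGroup V₁] [Module F V₁]
    (Q₁ : QuadraticForm F V₁) {k₀ l : ℕ} (hk₀ : 1 ≤ k₀) (hl : 1 ≤ l) (a c : F)
    (Ψ₁ : ((Fin (l - 1) ⊕ Fin (l - 1)) ⊕ Fin 2 → F) ≃ₗ[F] V₁)
    (hΨ₁ : ∀ z, Q₁ (Ψ₁ z) = Cfsg.quadFormMinus (l - 1) F a c z) :
    HasTS ((-(minusQF (k₀ - 1) F a c)).prod Q₁) (k₀ + l) := by
  classical
  let E : ∀ n : ℕ, ((Fin n → F) × (Fin 2 → F)) →ₗ[F] ((Fin n ⊕ Fin n) ⊕ Fin 2 → F) := fun n =>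
    { toFun := fun x => Sum.elim (Sum.elim x.1 0) x.2
      map_add' := fun x y => by
        funext s
        rcases s with (i | i) | i <;> simp
      map_smul' := fun t x => by
        funext s
        rcases s with (i | i) | i <;> simp }
  have hE : ∀ (n : ℕ) (x : (Fin n → F) × (Fin 2 → F)),
      Cfsg.quadFormMinus n F a c (E n x) = x.2 0 ^ 2 + a * x.2 0 * x.2 1 + c * x.2 1 ^ 2 := by
    intro n x
    simp [Cfsg.quadFormMinus, E]
  have hEinj : ∀ (n : ℕ) (x : (Fin n → F) × (Fin 2 → F)), E n x = 0 → x = 0 := by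
    intro n x hx
    apply Prod.ext
    · funext i
      exact congrFun hx (Sum.inl (Sum.inl i))
    · funext i
      exact congrFun hx (Sum.inr i)
  let L : ((Fin (k₀ - 1) → F) × ((Fin (l - 1) → F) × (Fin 2 → F))) →ₗ[F]
      ((Fin (k₀ - 1) ⊕ Fin (k₀ - 1)) ⊕ Fin 2 → F) × V₁ :=
    ((E (k₀ - 1)).comp ((LinearMap.fst F (Fin (k₀ - 1) → F) ((Fin (l - 1) → F) × (Fin 2 → F))).prod
      ((LinearMap.snd F (Fin (l - 1) → F) (Fin 2 → F)).comp
        (LinearMap.snd F (Fin (k₀ - 1) → F) ((Fin (l - 1) → F) × (Fin 2 → F)))))).prod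
    ((Ψ₁ : ((Fin (l - 1) ⊕ Fin (l - 1)) ⊕ Fin 2 → F) →ₗ[F] V₁).comp ((E (l - 1)).comp
      (LinearMap.snd F (Fin (k₀ - 1) → F) ((Fin (l - 1) → F) × (Fin 2 → F)))))
  have hL : ∀ x, L x = (E (k₀ - 1) (x.1, x.2.2), Ψ₁ (E (l - 1) x.2)) := fun x => rfl
  have h := hasTS_of_map ((-(minusQF (k₀ - 1) F a c)).prod Q₁) L (by
    rw [injective_iff_map_eq_zero]
    intro x hx
    rw [hL] at hx
    have h1 := hEinj _ _ (congrArg Prod.fst hx)
    have h2 : Ψ₁ (E (l - 1) x.2) = 0 := congrArg Prod.snd hx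
    have h3 := hEinj _ _ (Ψ₁.map_eq_zero_iff.mp h2)
    have h4 : x.1 = 0 := congrArg Prod.fst h1
    exact Prod.ext h4 h3) (by
    intro x
    rw [hL, QuadraticMap.prod_apply]
    show -(Cfsg.quadFormMinus (k₀ - 1) F a c (E (k₀ - 1) (x.1, x.2.2))) + Q₁ (Ψ₁ (E (l - 1) x.2)) = 0
    rw [hΨ₁, hE, hE]
    ring)
  have hfr : Module.finrank F ((Fin (k₀ - 1) → F) × ((Fin (l - 1) → F) × (Fin 2 → F))) = k₀ + l := by
    rw [Module.finrank_prod, Module.finrank_prod, Module.finrank_fin_fun, Module.finrank_fin_fun,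
      Module.finrank_fin_fun]
    omega
  rwa [hfr] at h

/-- from a hyperbolic realization to an element of `O⁺` -/
theorem finish_plus {m r : ℕ} (hm : 1 ≤ m) (hr : r.Prime) (hrp : r ≠ p) {V : Type u}
    [AddCommGroup V] [Module F V] [FiniteDimensional F V] (Q : QuadraticForm F V)
    (T : Module.End F V) (hnd : PolarNondeg Q) (hT : ∀ v, Q (T v) = Q v) {k : ℕ}
    (hk : k.Coprime p) (hTk : T ^ k = 1) (c₀ : ℕ) (c : F[X] → ℕ) (hch : T.charpoly = psi r c₀ c)
    (hV : Module.finrank F V = 2 * m) (hTS : HasTS Q m) (hnz : ∃ P ∈ cycJ F r, c P ≠ 0) :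
    ∃ g : ↥(Cfsg.isometryGroup F (Cfsg.quadFormPlus m F)), orderOf g = r ∧
      ((g : Matrix.GeneralLinearGroup (Fin m ⊕ Fin m) F) :
        Matrix (Fin m ⊕ Fin m) (Fin m ⊕ Fin m) F).charpoly = psi r c₀ c := by
  obtain ⟨Ψ, hΨ⟩ := exists_plus_of_hasTS hm hV Q hnd hTS
  obtain ⟨A, hAQ, hAk, hAch⟩ := exists_matrix_of_equiv Q T hT hTk Ψ (Cfsg.quadFormPlus m F) hΨ
  exact exists_isometry_of_matrix (Cfsg.quadFormPlus m F) hr hrp A hAQ hk hAk c₀ c
    (hAch.trans hch) hnz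

/-- realization in `O⁺_2m(q)` -/
theorem oexists_plus {q : ℕ} (hF : Fintype.card F = q) {m r : ℕ} (hm : 1 ≤ m) (hr : r.Prime)
    (hr2 : r ≠ 2) (hrp : r ≠ p) (c₀ : ℕ) (c : F[X] → ℕ)
    (hsym : ∀ P ∈ cycJ F r, c (SpReal.star P) = c P) (hnz : ∃ P ∈ cycJ F r, c P ≠ 0)
    (hdeg : c₀ + orderOf (q : ZMod r) * ∑ P ∈ cycJ F r, c P = 2 * m)
    (hcond : Odd (orderOf (q : ZMod r)) ∨ 0 < c₀ ∨ Even (∑ P ∈ cycJ F r, c P)) :
    ∃ g : ↥(Cfsg.isometryGroup F (Cfsg.quadFormPlus m F)), orderOf g = r ∧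
      ((g : Matrix.GeneralLinearGroup (Fin m ⊕ Fin m) F) :
        Matrix (Fin m ⊕ Fin m) (Fin m ⊕ Fin m) F).charpoly = psi r c₀ c := by
  obtain ⟨V₁, _, _, _, Q₁, T₁, l, hnd₁, hT₁, ⟨k, hk, hTk⟩, hch₁, hl, hodd⟩ :=
    exists_space_psi0 (p := p) hF hr hr2 hrp c hsym
  have hipos := orderOf_pos_of_card (p := p) hF hr hrp
  have hdeg₁ : orderOf (q : ZMod r) * ∑ P ∈ cycJ F r, c P = 2 * l := by
    have h1 := LinearMap.charpoly_natDegree T₁
    rw [hch₁, psi_natDegree (p := p) hF hr hrp, zero_add, hl] at h1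
    exact h1
  have hKpos : 0 < ∑ P ∈ cycJ F r, c P := by
    obtain ⟨P, hP, hPne⟩ := hnz
    exact lt_of_lt_of_le (Nat.pos_of_ne_zero hPne) (Finset.single_le_sum (fun _ _ => Nat.zero_le _) hP)
  have hlpos : 1 ≤ l := by
    have h1 := Nat.mul_pos hipos hKpos
    omega
  obtain ⟨k₀, hk₀⟩ : ∃ k₀, c₀ = 2 * k₀ := ⟨c₀ / 2, by omega⟩
  have hm' : m = k₀ + l := by omega
  by_cases hts : HasTS Q₁ l
  · have facts := prod_fixed_facts (plusQF k₀ F)
      (polarNondeg_of_nondegenerate _ (plusQF_nondeg k₀)) Q₁ hnd₁ T₁ hT₁ hTk hch₁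
    have hfr₀ : Module.finrank F (Fin k₀ ⊕ Fin k₀ → F) = c₀ := by
      rw [Module.finrank_fintype_fun_eq_card, Fintype.card_sum, Fintype.card_fin]
      omega
    have hTS : HasTS ((plusQF k₀ F).prod Q₁) m := by
      rw [hm']
      exact hasTS_prod (hasTS_plus k₀) hts
    exact finish_plus hm hr hrp _ _ facts.1 facts.2.1 hk facts.2.2.1 c₀ c
      (by rw [facts.2.2.2, hfr₀]) (by rw [Module.finrank_prod, hfr₀, hl]; omega) hTS hnz
  · have hev : ¬ Odd (orderOf (q : ZMod r)) := fun h => hts (hodd h)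
    obtain ⟨ζ, hζ, Ψ₁, hΨ₁⟩ := exists_minus_of_not_hasTS hlpos hl Q₁ hnd₁ hts
    have hac := Cfsg.Agent.S2617.aniso ζ hζ
    rcases Nat.eq_zero_or_pos c₀ with h0 | hpos
    · exfalso
      obtain ⟨A, hAQ, hAk, hAch⟩ := exists_matrix_of_equiv Q₁ T₁ hT₁ hTk Ψ₁
        (Cfsg.quadFormMinus (l - 1) F 1 ζ) hΨ₁
      obtain ⟨g, hg, hgch⟩ := exists_isometry_of_matrix (Cfsg.quadFormMinus (l - 1) F 1 ζ) hr hrp
        A hAQ hk hAk 0 c (hAch.trans hch₁) hnz
      have hK : Even (∑ P ∈ cycJ F r, c P) := by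
        rcases hcond with h | h | h
        · exact absurd h hev
        · omega
        · exact h
      obtain ⟨j, hj⟩ := Nat.not_odd_iff_even.mp hev
      have hK' := minus_c0_zero_odd (p := p) hF hlpos hr hr2 hrp 1 ζ hac g hg c hgch hj
        (by rw [← hj]; exact hdeg₁)
      exact (Nat.not_even_iff_odd.mpr hK') hK
    · have hk₀pos : 1 ≤ k₀ := by omega
      have hnd₀ : PolarNondeg (-(minusQF (k₀ - 1) F 1 ζ)) := by
        intro v hv
        apply polarNondeg_of_nondegenerate _ (minusQF_nondeg (k₀ - 1) 1 ζ hac) v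
        intro w
        have h := hv w
        unfold QuadraticMap.polar at h ⊢
        simp only [_root_.neg_apply] at h
        linear_combination -h
      have facts := prod_fixed_facts (-(minusQF (k₀ - 1) F 1 ζ)) hnd₀ Q₁ hnd₁ T₁ hT₁ hTk hch₁
      have hfr₀ : Module.finrank F ((Fin (k₀ - 1) ⊕ Fin (k₀ - 1)) ⊕ Fin 2 → F) = c₀ := by
        rw [Module.finrank_fintype_fun_eq_card, Fintype.card_sum, Fintype.card_sum,
          Fintype.card_fin, Fintype.card_fin]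
        omega
      have hTS : HasTS ((-(minusQF (k₀ - 1) F 1 ζ)).prod Q₁) m := by
        rw [hm']
        exact hasTS_neg_minus_prod Q₁ hk₀pos hlpos 1 ζ Ψ₁ hΨ₁
      exact finish_plus hm hr hrp _ _ facts.1 facts.2.1 hk facts.2.2.1 c₀ c
        (by rw [facts.2.2.2, hfr₀]) (by rw [Module.finrank_prod, hfr₀, hl]; omega) hTS hnz

end Spaces

end Cfsg.Agent.Helper43.PrimeOrdO
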