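import Mathlib

set_option autoImplicit false
set_option linter.unusedSectionVars false

/-!
# Fixed-point-free involutions on a finite type: transversals and symmetric functions (helper43)

* `exists_transversal` : a set `s` containing exactly one point of each pair `{x, σ x}`;
* `two_mul_card_transversal`;
* `symExt σ s b` : the `σ`-symmetric extension of a function on `s`, with `symExt_symm`,
  `sum_symExt`, `symExt_injective`, `symExt_restrict`.
-/

namespace Cfsg.Agent.Helper43.InvolPairs

variable {α : Type*} [Fintype α] [DecidableEq α]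

theorem exists_transversal (σ : α → α) (hσ : ∀ x, σ (σ x) = x) (hfix : ∀ x, σ x ≠ x) :
    ∃ s : Finset α, ∀ x, (x ∈ s ↔ σ x ∉ s) := by
  classical
  let e := Fintype.equivFin α
  refine ⟨Finset.univ.filter (fun x => e x < e (σ x)), fun x => ?_⟩
  simp only [Finset.mem_filter, Finset.mem_univ, true_and, hσ, not_lt]
  constructor
  · intro h
    exact le_of_lt h
  · intro h
    exact lt_of_le_of_ne h (fun heq => hfix x (e.injective heq).symm)

theorem two_mul_card_transversal (σ : α → α) (hσ : ∀ x, σ (σ x) = x) (s : Finset α)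
    (hs : ∀ x, (x ∈ s ↔ σ x ∉ s)) : 2 * s.card = Fintype.card α := by
  have hinj : Function.Injective σ := fun x y h => by rw [← hσ x, ← hσ y, h]
  have h1 : sᶜ = s.image σ := by
    ext x
    rw [Finset.mem_compl, Finset.mem_image]
    constructor
    · intro hx
      refine ⟨σ x, ?_, hσ x⟩
      by_contra h
      exact hx ((hs x).mpr h)
    · rintro ⟨y, hy, rfl⟩
      exact (hs y).mp hy
  have h2 := Finset.card_add_card_compl s
  rw [h1, Finset.card_image_of_injective s hinj] at h2
  omega

/-- the symmetric extension of a function on a transversal -/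
def symExt (σ : α → α) (s : Finset α) (b : ↥s → ℕ) : α → ℕ :=
  fun x => if h : x ∈ s then b ⟨x, h⟩ else if h' : σ x ∈ s then b ⟨σ x, h'⟩ else 0

theorem symExt_of_mem (σ : α → α) (s : Finset α) (b : ↥s → ℕ) (y : ↥s) :
    symExt σ s b y.1 = b y := by
  rw [symExt, dif_pos y.2]

theorem symExt_of_notMem (σ : α → α) (s : Finset α) (b : ↥s → ℕ) {x : α} (hx : x ∉ s)
    (hx' : σ x ∈ s) : symExt σ s b x = b ⟨σ x, hx'⟩ := by
  rw [symExt, dif_neg hx, dif_pos hx']

theorem symExt_symm (σ : α → α) (hσ : ∀ x, σ (σ x) = x) (s : Finset α)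
    (hs : ∀ x, (x ∈ s ↔ σ x ∉ s)) (b : ↥s → ℕ) (x : α) :
    symExt σ s b (σ x) = symExt σ s b x := by
  by_cases hx : x ∈ s
  · have h1 : σ x ∉ s := (hs x).mp hx
    have h2 : σ (σ x) ∈ s := by rw [hσ]; exact hx
    have e : symExt σ s b x = b ⟨x, hx⟩ := symExt_of_mem σ s b ⟨x, hx⟩
    rw [symExt_of_notMem σ s b h1 h2, e]
    exact congrArg b (Subtype.ext (hσ x))
  · have h1 : σ x ∈ s := by
      by_contra h
      exact hx ((hs x).mpr h)
    rw [symExt_of_notMem σ s b hx h1, ← symExt_of_mem σ s b ⟨σ x, h1⟩]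

theorem sum_symExt (σ : α → α) (hσ : ∀ x, σ (σ x) = x) (s : Finset α)
    (hs : ∀ x, (x ∈ s ↔ σ x ∉ s)) (b : ↥s → ℕ) :
    ∑ x, symExt σ s b x = 2 * ∑ y, b y := by
  have hinj : Function.Injective σ := fun x y h => by rw [← hσ x, ← hσ y, h]
  have h1 : sᶜ = s.image σ := by
    ext x
    rw [Finset.mem_compl, Finset.mem_image]
    constructor
    · intro hx
      refine ⟨σ x, ?_, hσ x⟩
      by_contra h
      exact hx ((hs x).mpr h)
    · rintro ⟨y, hy, rfl⟩
      exact (hs y).mp hy
  have h2 : ∑ x ∈ s, symExt σ s b x = ∑ y, b y := by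
    rw [← Finset.sum_coe_sort]
    exact Finset.sum_congr rfl fun y _ => symExt_of_mem σ s b y
  rw [← Finset.sum_add_sum_compl s, h1, Finset.sum_image (fun x _ y _ h => hinj h)]
  have h3 : ∑ x ∈ s, symExt σ s b (σ x) = ∑ x ∈ s, symExt σ s b x :=
    Finset.sum_congr rfl fun x _ => symExt_symm σ hσ s hs b x
  rw [h3, h2]
  ring

theorem symExt_injective (σ : α → α) (s : Finset α) {b b' : ↥s → ℕ}
    (h : symExt σ s b = symExt σ s b') : b = b' := by
  funext y
  rw [← symExt_of_mem σ s b y, ← symExt_of_mem σ s b' y, h]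

theorem symExt_zero (σ : α → α) (s : Finset α) : symExt σ s (0 : ↥s → ℕ) = 0 := by
  funext x
  simp only [symExt, Pi.zero_apply]
  split_ifs <;> rfl

theorem symExt_restrict (σ : α → α) (s : Finset α) (hs : ∀ x, (x ∈ s ↔ σ x ∉ s)) (a : α → ℕ)
    (ha : ∀ x, a (σ x) = a x) : symExt σ s (fun y => a y.1) = a := by
  funext x
  by_cases hx : x ∈ s
  · exact symExt_of_mem σ s (fun y => a y.1) ⟨x, hx⟩
  · have h1 : σ x ∈ s := by
      by_contra h
      exact hx ((hs x).mpr h)
    rw [symExt_of_notMem σ s _ hx h1]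
    exact ha x

end Cfsg.Agent.Helper43.InvolPairs
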