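import Mathlib
import Cfsg.Agent.Helper43.PrimeOrdO2
import Cfsg.Agent.Helper43.OrthPlane
import Cfsg.Agent.Helper43.InvolPairs
import Cfsg.Agent.Helper43.QuadFin2

set_option autoImplicit false

/-!
# Elements of odd prime order `r ≠ p` in `O⁻_2m(q)` (helper43)

* `ts_of_coprime_reverse` : for an isometry `g` of order dividing `r` without fixed vectors, the
  kernel of `h(g)` is totally singular if `h` is coprime to its reverse;
* `minus_c0_zero_not_odd` : if the order of `q` modulo `r` is odd, no element of order `r` of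
  `O⁻_2m(q)` is fixed-point-free;
* `finish_minus`, `oexists_minus` : realization in `O⁻`.
-/

namespace Cfsg.Agent.Helper43.PrimeOrdO

open Polynomial Matrix Cfsg.Agent.Helper43.SpReal Cfsg.Agent.Helper43.CycFactors
  Cfsg.Agent.Helper43.PrimeOrdMat Cfsg.Agent.Helper43.StarPoly Cfsg.Agent.Helper43.UReal
  Cfsg.Agent.Helper43.PrimeOrdU Cfsg.Agent.Helper43.OrthReal Cfsg.Agent.Helper43.OrthStd
  Cfsg.Agent.Helper43.OrthEven Cfsg.Agent.Helper43.SingCount Cfsg.Agent.Helper43.InvolPairs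

universe u

section TSKer

variable {F : Type*} [Field F] {V : Type*} [AddCommGroup V] [Module F V]

theorem polar_pow_invariant (Q : QuadraticForm F V) (g : Module.End F V)
    (hg : ∀ v, Q (g v) = Q v) (j : ℕ) (x y : V) :
    QuadraticMap.polar Q ((g ^ j) x) ((g ^ j) y) = QuadraticMap.polar Q x y := by
  induction j with
  | zero => simp
  | succ j ih =>
    rw [pow_succ', Module.End.mul_apply, Module.End.mul_apply]
    have h1 : ∀ a b : V, QuadraticMap.polar Q (g a) (g b) = QuadraticMap.polar Q a b := by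
      intro a b
      unfold QuadraticMap.polar
      rw [← map_add, hg, hg, hg]
    rw [h1, ih]

theorem polar_reflect (Q : QuadraticForm F V) (g : Module.End F V)
    (hg : ∀ v, Q (g v) = Q v) (N : ℕ) (f : F[X]) (hf : f.natDegree ≤ N) (x y : V) :
    QuadraticMap.polar Q x (aeval g (f.reflect N) y) =
      QuadraticMap.polar Q (aeval g f x) ((g ^ N) y) := by
  revert hf
  refine Polynomial.induction_with_natDegree_le (fun f =>
    QuadraticMap.polar Q x (aeval g (f.reflect N) y) =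
      QuadraticMap.polar Q (aeval g f x) ((g ^ N) y)) N ?_ ?_ ?_ f
  · simp
  · intro n a ha hn
    rw [reflect_C_mul_X_pow, revAt_le hn]
    simp only [map_mul, aeval_C, map_pow, aeval_X, Module.End.mul_apply,
      Module.algebraMap_end_apply]
    rw [QuadraticMap.polar_smul_right, QuadraticMap.polar_smul_left]
    have h1 : (g ^ N) y = (g ^ n) ((g ^ (N - n)) y) := by
      rw [← Module.End.mul_apply, ← pow_add, Nat.add_sub_cancel' hn]
    rw [h1, polar_pow_invariant Q g hg]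
  · intro f₁ f₂ _ _ h1 h2
    rw [reflect_add, map_add, map_add, LinearMap.add_apply, LinearMap.add_apply,
      QuadraticMap.polar_add_right, QuadraticMap.polar_add_left, h1, h2]

/-- for an isometry `g` with `g ^ r = 1` (`r` invertible) and without nonzero fixed vectors, the
kernel of `h(g)` is totally singular whenever `h` is coprime to its reverse -/
theorem ts_of_coprime_reverse (Q : QuadraticForm F V) (g : Module.End F V)
    (hg : ∀ v, Q (g v) = Q v) {r : ℕ} (hgr : g ^ r = 1) (hrF : (r : F) ≠ 0)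
    (hfix : ∀ v, g v = v → v = 0) (h : F[X]) (hcop : IsCoprime h h.reverse) :
    ∀ u ∈ LinearMap.ker (aeval g h), Q u = 0 := by
  classical
  obtain ⟨a, b, hab⟩ := hcop
  have hpol : ∀ u u', aeval g h u = 0 → aeval g h u' = 0 → QuadraticMap.polar Q u u' = 0 := by
    intro u u' hu hu'
    have h1 : u' = aeval g h.reverse (aeval g b u') := by
      have h2 := congrArg (fun f => aeval g f u') hab
      simp only [map_add, map_mul, map_one, LinearMap.add_apply, Module.End.mul_apply,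
        Module.End.one_apply] at h2
      rw [hu', map_zero, zero_add] at h2
      rw [← Module.End.mul_apply, ← map_mul, mul_comm, map_mul, Module.End.mul_apply]
      exact h2.symm
    rw [h1]
    have h3 := polar_reflect Q g hg h.natDegree h le_rfl u (aeval g b u')
    rw [show h.reflect h.natDegree = h.reverse from rfl] at h3
    rw [h3, hu, QuadraticMap.polar_zero_left]
  intro u hu
  rw [LinearMap.mem_ker] at hu
  have hpow : ∀ j : ℕ, aeval g h ((g ^ j) u) = 0 := by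
    intro j
    have hc : aeval g h * g ^ j = g ^ j * aeval g h := by
      have : g ^ j = aeval g (X ^ j : F[X]) := by rw [map_pow, aeval_X]
      rw [this, ← map_mul, ← map_mul, mul_comm]
    rw [← Module.End.mul_apply, hc, Module.End.mul_apply, hu, map_zero]
  have hsum := Cfsg.Agent.Helper43.map_sum_of_ortho Q (Finset.range r)
    (fun j => (g ^ j) u) (fun i j _ => hpol _ _ (hpow i) (hpow j)) (fun _ => 1)
  simp only [one_smul, one_mul] at hsum
  have hQj : ∀ j : ℕ, Q ((g ^ j) u) = Q u := by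
    intro j
    induction j with
    | zero => simp
    | succ j ih => rw [pow_succ', Module.End.mul_apply, hg, ih]
  have hfixsum : g (∑ j ∈ Finset.range r, (g ^ j) u) = ∑ j ∈ Finset.range r, (g ^ j) u := by
    rw [map_sum]
    have e1 : ∀ j, g ((g ^ j) u) = (g ^ (j + 1)) u := fun j => by
      rw [pow_succ', Module.End.mul_apply]
    simp only [e1]
    have e2 := Finset.sum_range_succ' (fun j => (g ^ j) u) r
    have e3 := Finset.sum_range_succ (fun j => (g ^ j) u) r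
    rw [e3] at e2
    simp only [hgr, pow_zero] at e2
    exact (add_right_cancel e2).symm
  have h0 := hfix _ hfixsum
  rw [h0, map_zero] at hsum
  simp only [hQj, Finset.sum_const, Finset.card_range, nsmul_eq_mul] at hsum
  exact (mul_eq_zero.mp hsum.symm).resolve_left hrF

end TSKer

section MinusOdd

variable {F : Type u} [Field F] [Fintype F] {p : ℕ} [Fact p.Prime] [CharP F p]

/-- if the order of `q` modulo `r` is odd, no element of order `r` of `O⁻_2m(q)` is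
fixed-point-free -/
theorem minus_c0_zero_not_odd {q : ℕ} (hF : Fintype.card F = q) {m r : ℕ} (hm : 1 ≤ m)
    (hr : r.Prime) (hr2 : r ≠ 2) (hrp : r ≠ p) (a c' : F)
    (hac : ∀ z₁ z₂ : F, z₁ ^ 2 + a * z₁ * z₂ + c' * z₂ ^ 2 = 0 → z₁ = 0 ∧ z₂ = 0)
    (g : ↥(Cfsg.isometryGroup F (Cfsg.quadFormMinus (m - 1) F a c')))
    (hg : orderOf g = r) (c : F[X] → ℕ) (hsym : ∀ P ∈ cycJ F r, c (SpReal.star P) = c P)
    (hch : ((g : Matrix.GeneralLinearGroup ((Fin (m - 1) ⊕ Fin (m - 1)) ⊕ Fin 2) F) :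
      Matrix ((Fin (m - 1) ⊕ Fin (m - 1)) ⊕ Fin 2) ((Fin (m - 1) ⊕ Fin (m - 1)) ⊕ Fin 2)
        F).charpoly = psi r 0 c)
    (hodd : Odd (orderOf (q : ZMod r))) : False := by
  classical
  have : Fact r.Prime := ⟨hr⟩
  have hrF : (r : F) ≠ 0 := natCast_ne_zero_of_ne hr hrp
  obtain ⟨M, hMdef⟩ : ∃ M : Matrix ((Fin (m - 1) ⊕ Fin (m - 1)) ⊕ Fin 2)
      ((Fin (m - 1) ⊕ Fin (m - 1)) ⊕ Fin 2) F,
      M = ((g : Matrix.GeneralLinearGroup ((Fin (m - 1) ⊕ Fin (m - 1)) ⊕ Fin 2) F) :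
        Matrix ((Fin (m - 1) ⊕ Fin (m - 1)) ⊕ Fin 2) ((Fin (m - 1) ⊕ Fin (m - 1)) ⊕ Fin 2)
          F) := ⟨_, rfl⟩
  rw [← hMdef] at hch
  have hM : M ^ r = 1 := by
    rw [hMdef, ← Units.val_pow_eq_pow_val, ← Subgroup.coe_pow, ← hg, pow_orderOf_eq_one]
    rfl
  have hMQ : ∀ x, Cfsg.quadFormMinus (m - 1) F a c' (M *ᵥ x) =
      Cfsg.quadFormMinus (m - 1) F a c' x := by
    intro x
    rw [hMdef]
    exact g.2 x x
  let gL : Module.End F ((Fin (m - 1) ⊕ Fin (m - 1)) ⊕ Fin 2 → F) := Matrix.toLin' M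
  have hgL : ∀ v, gL v = M *ᵥ v := fun v => Matrix.toLin'_apply M v
  have hgLr : gL ^ r = 1 := by
    show (Matrix.toLin' M) ^ r = 1
    rw [← Matrix.toLin'_pow, hM, Matrix.toLin'_one]
    rfl
  have hgLQ : ∀ v, minusQF (m - 1) F a c' (gL v) = minusQF (m - 1) F a c' v := fun v => by
    rw [hgL]
    exact hMQ v
  have hgLfix : ∀ v, gL v = v → v = 0 := fun v hv =>
    no_fixed_of_psi hr hrF M c hch v (by rw [← hgL]; exact hv)
  have hgLch : gL.charpoly = psi r 0 c := by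
    rw [← hch]
    exact Matrix.charpoly_toLin' M
  let σ : ↥(cycJ F r) → ↥(cycJ F r) := fun P => ⟨SpReal.star P.1, star_mem_cycJ hr hrF P.2⟩
  have hσ : ∀ x, σ (σ x) = x := fun x =>
    Subtype.ext (StarPoly.star_star (mem_cycJ.mp x.2).1 (coeff_zero_ne_of_mem hr x.2))
  have hσfix : ∀ x, σ x ≠ x := fun x hx =>
    star_ne_self_of_odd (p := p) hF hr hr2 hrp hodd x.2 (congrArg Subtype.val hx)
  obtain ⟨s, hs⟩ := exists_transversal σ hσ hσfix
  obtain ⟨h₁, hh₁⟩ : ∃ h₁ : F[X], h₁ = ∏ y ∈ s, y.1 ^ c y.1 := ⟨_, rfl⟩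
  obtain ⟨h₂, hh₂⟩ : ∃ h₂ : F[X], h₂ = ∏ y ∈ s, (SpReal.star y.1) ^ c y.1 := ⟨_, rfl⟩
  have hstar12 : SpReal.star h₁ = h₂ := by
    rw [hh₁, hh₂, PrimeOrdU.star_prod]
    exact Finset.prod_congr rfl (fun y _ => PrimeOrdU.star_pow _ _)
  have hmonic₁ : h₁.Monic := by
    rw [hh₁]
    exact monic_prod_of_monic _ _ (fun y _ => (mem_cycJ.mp y.2).1.pow _)
  have hcoeff₁ : h₁.coeff 0 ≠ 0 := by
    rw [hh₁, coeff_zero_eq_eval_zero, eval_prod, Finset.prod_ne_zero_iff]
    intro y _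
    rw [eval_pow, ← coeff_zero_eq_eval_zero]
    exact pow_ne_zero _ (coeff_zero_ne_of_mem hr y.2)
  have hstar21 : SpReal.star h₂ = h₁ := by
    rw [← hstar12]
    exact StarPoly.star_star hmonic₁ hcoeff₁
  have hcoeff₂ : h₂.coeff 0 ≠ 0 := by
    rw [← hstar12, star_coeff_zero hmonic₁]
    exact inv_ne_zero hcoeff₁
  have hcop : IsCoprime h₁ h₂ := by
    rw [hh₁, hh₂]
    apply IsCoprime.prod_left
    intro y hy
    apply IsCoprime.prod_right
    intro z hz
    apply IsCoprime.pow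
    have hy' := mem_cycJ.mp y.2
    have hz' := mem_cycJ.mp (σ z).2
    apply isCoprime_of_ne hy'.1 hy'.2.1 hz'.1 hz'.2.1
    intro heq
    have h3 : y = σ z := Subtype.ext heq
    exact (hs z).mp hz (h3 ▸ hy)
  have hprod : (psi r 0 c : F[X]) = h₁ * h₂ := by
    rw [psi, pow_zero, one_mul, ← Finset.prod_coe_sort (cycJ F r) (fun P => P ^ c P),
      ← Finset.prod_mul_prod_compl s, hh₁, hh₂]
    congr 1
    apply Finset.prod_nbij' σ σ
    · intro x hx
      rw [Finset.mem_compl] at hx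
      rw [hs (σ x), hσ]
      exact hx
    · intro x hx
      rw [Finset.mem_compl]
      exact (hs x).mp hx
    · intro x _
      exact hσ x
    · intro x _
      exact hσ x
    · intro x _
      show x.1 ^ c x.1 = SpReal.star (SpReal.star x.1) ^ c (SpReal.star x.1)
      rw [hsym x.1 x.2, StarPoly.star_star (mem_cycJ.mp x.2).1 (coeff_zero_ne_of_mem hr x.2)]
  have hker : LinearMap.ker (aeval gL h₁) ⊔ LinearMap.ker (aeval gL h₂) = ⊤ := by
    rw [Polynomial.sup_ker_aeval_eq_ker_aeval_mul_of_coprime gL hcop, ← hprod, ← hgLch,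
      LinearMap.aeval_self_charpoly]
    exact LinearMap.ker_zero
  have hdisj : LinearMap.ker (aeval gL h₁) ⊓ LinearMap.ker (aeval gL h₂) = ⊥ :=
    disjoint_iff.mp (Polynomial.disjoint_ker_aeval_of_isCoprime gL hcop)
  have hdim := Submodule.finrank_sup_add_finrank_inf_eq (LinearMap.ker (aeval gL h₁))
    (LinearMap.ker (aeval gL h₂))
  rw [hker, hdisj, finrank_top, finrank_bot, Module.finrank_fintype_fun_eq_card] at hdim
  have hcard : Fintype.card ((Fin (m - 1) ⊕ Fin (m - 1)) ⊕ Fin 2) = 2 * m := by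
    simp only [Fintype.card_sum, Fintype.card_fin]
    omega
  rw [hcard] at hdim
  have hcop₁ : IsCoprime h₁ h₁.reverse := by
    rw [reverse_eq_C_mul_star hcoeff₁, hstar12]
    exact (isCoprime_mul_unit_left_right (isUnit_C.mpr (isUnit_iff_ne_zero.mpr hcoeff₁)) h₁ h₂).mpr
      hcop
  have hcop₂ : IsCoprime h₂ h₂.reverse := by
    rw [reverse_eq_C_mul_star hcoeff₂, hstar21]
    exact (isCoprime_mul_unit_left_right (isUnit_C.mpr (isUnit_iff_ne_zero.mpr hcoeff₂)) h₂ h₁).mpr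
      hcop.symm
  apply not_hasTS_minus hm a c' hac
  rcases Nat.lt_or_ge (Module.finrank F ↥(LinearMap.ker (aeval gL h₁))) m with hlt | hge
  · exact ⟨LinearMap.ker (aeval gL h₂), by omega,
      ts_of_coprime_reverse (minusQF (m - 1) F a c') gL hgLQ hgLr hrF hgLfix h₂ hcop₂⟩
  · exact ⟨LinearMap.ker (aeval gL h₁), hge,
      ts_of_coprime_reverse (minusQF (m - 1) F a c') gL hgLQ hgLr hrF hgLfix h₁ hcop₁⟩

omit [Fintype F] in
/-- from a realization on a space of minus type to an element of `O⁻` -/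
theorem finish_minus {m r n : ℕ} (hn : n = m - 1) (hr : r.Prime) (hrp : r ≠ p) (a c' : F)
    {V : Type u} [AddCommGroup V] [Module F V] [FiniteDimensional F V] (Q : QuadraticForm F V)
    (T : Module.End F V) (hT : ∀ v, Q (T v) = Q v) {k : ℕ}
    (hk : k.Coprime p) (hTk : T ^ k = 1) (c₀ : ℕ) (c : F[X] → ℕ) (hch : T.charpoly = psi r c₀ c)
    (Ψ : ((Fin n ⊕ Fin n) ⊕ Fin 2 → F) ≃ₗ[F] V)
    (hΨ : ∀ z, Q (Ψ z) = Cfsg.quadFormMinus n F a c' z) (hnz : ∃ P ∈ cycJ F r, c P ≠ 0) :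
    ∃ g : ↥(Cfsg.isometryGroup F (Cfsg.quadFormMinus (m - 1) F a c')), orderOf g = r ∧
      ((g : Matrix.GeneralLinearGroup ((Fin (m - 1) ⊕ Fin (m - 1)) ⊕ Fin 2) F) :
        Matrix ((Fin (m - 1) ⊕ Fin (m - 1)) ⊕ Fin 2) ((Fin (m - 1) ⊕ Fin (m - 1)) ⊕ Fin 2)
          F).charpoly = psi r c₀ c := by
  subst hn
  obtain ⟨A, hAQ, hAk, hAch⟩ := exists_matrix_of_equiv Q T hT hTk Ψ
    (Cfsg.quadFormMinus (m - 1) F a c') hΨ
  exact exists_isometry_of_matrix (Cfsg.quadFormMinus (m - 1) F a c') hr hrp A hAQ hk hAk c₀ c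
    (hAch.trans hch) hnz

/-- realization in `O⁻_2m(q)` -/
theorem oexists_minus {q : ℕ} (hF : Fintype.card F = q) {m r : ℕ} (hm : 1 ≤ m) (hr : r.Prime)
    (hr2 : r ≠ 2) (hrp : r ≠ p) (a c' : F)
    (hac : ∀ z₁ z₂ : F, z₁ ^ 2 + a * z₁ * z₂ + c' * z₂ ^ 2 = 0 → z₁ = 0 ∧ z₂ = 0)
    (c₀ : ℕ) (c : F[X] → ℕ)
    (hsym : ∀ P ∈ cycJ F r, c (SpReal.star P) = c P) (hnz : ∃ P ∈ cycJ F r, c P ≠ 0)
    (hdeg : c₀ + orderOf (q : ZMod r) * ∑ P ∈ cycJ F r, c P = 2 * m)
    (hcond : 0 < c₀ ∨ (¬ Odd (orderOf (q : ZMod r)) ∧ Odd (∑ P ∈ cycJ F r, c P))) :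
    ∃ g : ↥(Cfsg.isometryGroup F (Cfsg.quadFormMinus (m - 1) F a c')), orderOf g = r ∧
      ((g : Matrix.GeneralLinearGroup ((Fin (m - 1) ⊕ Fin (m - 1)) ⊕ Fin 2) F) :
        Matrix ((Fin (m - 1) ⊕ Fin (m - 1)) ⊕ Fin 2) ((Fin (m - 1) ⊕ Fin (m - 1)) ⊕ Fin 2)
          F).charpoly = psi r c₀ c := by
  obtain ⟨V₁, _, _, _, Q₁, T₁, l, hnd₁, hT₁, ⟨k, hk, hTk⟩, hch₁, hl, hodd⟩ :=
    exists_space_psi0 (p := p) hF hr hr2 hrp c hsym
  have hipos := orderOf_pos_of_card (p := p) hF hr hrp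
  have hdeg₁ : orderOf (q : ZMod r) * ∑ P ∈ cycJ F r, c P = 2 * l := by
    have h1 := LinearMap.charpoly_natDegree T₁
    rw [hch₁, psi_natDegree (p := p) hF hr hrp, zero_add, hl] at h1
    exact h1
  have hKpos : 0 < ∑ P ∈ cycJ F r, c P := by
    obtain ⟨P, hP, hPne⟩ := hnz
    exact lt_of_lt_of_le (Nat.pos_of_ne_zero hPne)
      (Finset.single_le_sum (fun _ _ => Nat.zero_le _) hP)
  have hlpos : 1 ≤ l := by
    have h1 := Nat.mul_pos hipos hKpos
    omega
  obtain ⟨k₀, hk₀⟩ : ∃ k₀, c₀ = 2 * k₀ := ⟨c₀ / 2, by omega⟩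
  have hm' : m = k₀ + l := by omega
  by_cases hts : HasTS Q₁ l
  · obtain ⟨Ψ₁, hΨ₁⟩ := exists_plus_of_hasTS hlpos hl Q₁ hnd₁ hts
    rcases Nat.eq_zero_or_pos c₀ with h0 | hpos
    · exfalso
      obtain ⟨A, hAQ, hAk, hAch⟩ := exists_matrix_of_equiv Q₁ T₁ hT₁ hTk Ψ₁
        (Cfsg.quadFormPlus l F) hΨ₁
      obtain ⟨g, hg, hgch⟩ := exists_isometry_of_matrix (Cfsg.quadFormPlus l F) hr hrp
        A hAQ hk hAk 0 c (hAch.trans hch₁) hnz
      rcases hcond with h | ⟨hev, hK⟩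
      · omega
      · obtain ⟨j, hj⟩ := Nat.not_odd_iff_even.mp hev
        have hK' := plus_c0_zero_even (p := p) hF hr hr2 hrp g hg c hgch hj
          (by rw [← hj]; exact hdeg₁)
        exact (Nat.not_even_iff_odd.mpr hK) hK'
    · have hk₀pos : 1 ≤ k₀ := by omega
      have facts := prod_fixed_facts (minusQF (k₀ - 1) F a c')
        (polarNondeg_of_nondegenerate _ (minusQF_nondeg (k₀ - 1) a c' hac)) Q₁ hnd₁ T₁ hT₁ hTk
        hch₁
      have hfr₀ : Module.finrank F ((Fin (k₀ - 1) ⊕ Fin (k₀ - 1)) ⊕ Fin 2 → F) = c₀ := by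
        rw [Module.finrank_fintype_fun_eq_card, Fintype.card_sum, Fintype.card_sum,
          Fintype.card_fin, Fintype.card_fin]
        omega
      obtain ⟨Ψ, hΨ⟩ := glue_minus_plus Q₁ (minusQF (k₀ - 1) F a c') a c' hac Ψ₁ hΨ₁
        (LinearEquiv.refl F _) (fun z => rfl)
      exact finish_minus (by omega) hr hrp a c' _ _ facts.2.1 hk facts.2.2.1 c₀ c
        (by rw [facts.2.2.2, hfr₀]) Ψ hΨ hnz
  · obtain ⟨Ψ₁, hΨ₁⟩ := exists_minus_of_not_hasTS' hlpos hl Q₁ hnd₁ hts a c' hac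
    have facts := prod_fixed_facts (plusQF k₀ F)
      (polarNondeg_of_nondegenerate _ (plusQF_nondeg k₀)) Q₁ hnd₁ T₁ hT₁ hTk hch₁
    have hfr₀ : Module.finrank F (Fin k₀ ⊕ Fin k₀ → F) = c₀ := by
      rw [Module.finrank_fintype_fun_eq_card, Fintype.card_sum, Fintype.card_fin]
      omega
    obtain ⟨Ψ, hΨ⟩ := glue_plus_minus (plusQF k₀ F) Q₁ a c' hac (LinearEquiv.refl F _)
      (fun z => rfl) Ψ₁ hΨ₁
    exact finish_minus (by omega) hr hrp a c' _ _ facts.2.1 hk facts.2.2.1 c₀ c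
      (by rw [facts.2.2.2, hfr₀]) Ψ hΨ hnz

end MinusOdd

end Cfsg.Agent.Helper43.PrimeOrdO
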