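import Mathlib
import Cfsg.Prelude.Def_GeometricClasses
import Cfsg.Prelude.Def_LieTypeDatum
import Cfsg.Agent.Helper43.QuadFin

set_option autoImplicit false

/-!
# Gram matrices of quadratic forms on `ι → F` (helper43)

Definitions shared by the pieces of CALL S2700 (graph automorphisms of `PSL_n`).
-/

namespace Cfsg.Agent.Helper43.GraphForm

open Matrix Module

variable {F : Type*} [Field F]

/-- the Gram matrix of the polar form of a quadratic form on `ι → F` -/
def gram {ι : Type*} [Fintype ι] [DecidableEq ι] (Q : QuadraticForm F (ι → F)) : Matrix ι ι F :=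
  Matrix.of fun i j => QuadraticMap.polar Q (Pi.single i 1) (Pi.single j 1)

theorem gram_apply {ι : Type*} [Fintype ι] [DecidableEq ι] (Q : QuadraticForm F (ι → F))
    (i j : ι) : gram Q i j = QuadraticMap.polar Q (Pi.single i 1) (Pi.single j 1) := rfl

/-- similitude equations are invariant under reindexing -/
theorem reindex_sim_iff {ι κ : Type*} [Fintype ι] [DecidableEq ι] [Fintype κ] [DecidableEq κ]
    (e : ι ≃ κ) (g G G' : Matrix ι ι F) (c : F) :
    (Matrix.reindex e e g)ᵀ * Matrix.reindex e e G * Matrix.reindex e e g
        = c • Matrix.reindex e e G' ↔ gᵀ * G * g = c • G' := by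
  have h1 : (Matrix.reindex e e g)ᵀ * Matrix.reindex e e G * Matrix.reindex e e g
      = Matrix.reindex e e (gᵀ * G * g) := by
    simp only [Matrix.reindex_apply, Matrix.transpose_submatrix, Matrix.submatrix_mul_equiv]
  have h2 : c • Matrix.reindex e e G' = Matrix.reindex e e (c • G') := by
    simp only [Matrix.reindex_apply, Matrix.submatrix_smul]
    rfl
  rw [h1, h2, (Matrix.reindex e e).injective.eq_iff]

end Cfsg.Agent.Helper43.GraphForm
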