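import Mathlib
import Cfsg.Agent.Helper43.GraphForm

set_option autoImplicit false

/-!
# Basic properties of the Gram matrix (helper43)
-/

namespace Cfsg.Agent.Helper43.GraphForm

open Matrix Module

variable {F : Type*} [Field F]

theorem gram_eq_toMatrix' {ι : Type*} [Fintype ι] [DecidableEq ι] (Q : QuadraticForm F (ι → F)) :
    gram Q = LinearMap.BilinForm.toMatrix' (QuadraticMap.polarBilin Q) := by
  ext i j
  rw [LinearMap.BilinForm.toMatrix'_apply]
  rfl

/-- the polar form in terms of the Gram matrix -/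
theorem polar_eq_gram {ι : Type*} [Fintype ι] [DecidableEq ι]
    (Q : QuadraticForm F (ι → F)) (u v : ι → F) :
    QuadraticMap.polar Q u v = u ⬝ᵥ (gram Q *ᵥ v) := by
  rw [gram_eq_toMatrix', ← Matrix.toBilin'_apply', Matrix.toBilin'_toMatrix']
  rfl

theorem gram_transpose {ι : Type*} [Fintype ι] [DecidableEq ι]
    (Q : QuadraticForm F (ι → F)) : (gram Q)ᵀ = gram Q := by
  ext i j
  rw [Matrix.transpose_apply, gram_apply, gram_apply, QuadraticMap.polar_comm]

theorem gram_det_ne_zero {ι : Type*} [Fintype ι] [DecidableEq ι]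
    (Q : QuadraticForm F (ι → F)) (h : Cfsg.Agent.Helper43.PolarNondeg Q) : (gram Q).det ≠ 0 := by
  intro h0
  obtain ⟨v, hv, hv0⟩ := Matrix.exists_mulVec_eq_zero_iff.mpr h0
  apply hv
  apply h
  intro w
  rw [QuadraticMap.polar_comm, polar_eq_gram, hv0, dotProduct_zero]

end Cfsg.Agent.Helper43.GraphForm
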