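/-
Helper43 library: Cayley transform count in a finite commutative local algebra with an
algebra endomorphism `τ`: the number of `g` with `τ g * g = 1` is twice the number of
`τ`-skew elements.
-/
import Mathlib

set_option autoImplicit false

namespace Cfsg.Agent.Helper43

section cayley

variable {F A : Type*} [Field F] [CommRing A] [Algebra F A]

/-- the Cayley transform -/
noncomputable def cay (x : A) : A := (1 - x) * Ring.inverse (1 + x)

theorem half_mul (h2 : (2 : F) ≠ 0) : (2 : A) * algebraMap F A (2⁻¹) = 1 := by
  have : (2 : A) = algebraMap F A 2 := (map_ofNat (algebraMap F A) 2).symm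
  rw [this, ← map_mul, mul_inv_cancel₀ h2, map_one]

theorem cay_mul (x : A) (hx : IsUnit (1 + x)) : cay x * (1 + x) = 1 - x := by
  unfold cay
  rw [mul_assoc, Ring.inverse_mul_cancel _ hx, mul_one]

theorem isUnit_one_add_cay (h2 : (2 : F) ≠ 0) (x : A) (hx : IsUnit (1 + x)) :
    IsUnit (1 + cay x) := by
  apply IsUnit.of_mul_eq_one ((1 + x) * algebraMap F A 2⁻¹)
  have h1 := cay_mul x hx
  have h3 := half_mul (A := A) h2
  linear_combination (algebraMap F A 2⁻¹) * h1 + h3

theorem cay_cay (h2 : (2 : F) ≠ 0) (x : A) (hx : IsUnit (1 + x)) : cay (cay x) = x := by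
  have hu := isUnit_one_add_cay h2 x hx
  have h1 := cay_mul x hx
  have h2' := cay_mul (cay x) hu
  apply hu.mul_right_cancel
  rw [h2']
  apply hx.mul_right_cancel
  linear_combination (-1 - x) * h1

theorem nil_scalar [Nontrivial A] (c : F) (h : IsNilpotent (algebraMap F A c)) : c = 0 := by
  by_contra hc
  exact h.not_isUnit ((isUnit_iff_ne_zero.mpr hc).map (algebraMap F A))

theorem nil_of_skew [Nontrivial A] (h2 : (2 : F) ≠ 0) (τ : A →ₐ[F] A)
    (hloc : ∀ g : A, ∃ c : F, IsNilpotent (g - algebraMap F A c)) (s : A) (hs : τ s = -s) :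
    IsNilpotent s := by
  obtain ⟨c, hc⟩ := hloc s
  have h1 : IsNilpotent (τ (s - algebraMap F A c)) := hc.map τ
  have h3 : IsNilpotent ((s - algebraMap F A c) + τ (s - algebraMap F A c)) :=
    Commute.isNilpotent_add (Commute.all _ _) hc h1
  have h4 : (s - algebraMap F A c) + τ (s - algebraMap F A c) = algebraMap F A (-2 * c) := by
    rw [map_sub, hs, AlgHom.commutes, map_mul, map_neg]
    have : algebraMap F A 2 = 2 := map_ofNat (algebraMap F A) 2
    rw [this]; ring
  rw [h4] at h3
  have h5 := nil_scalar _ h3
  have hc0 : c = 0 := by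
    rcases mul_eq_zero.mp h5 with h | h
    · exact absurd (neg_eq_zero.mp h) h2
    · exact h
  rw [hc0, map_zero, sub_zero] at hc
  exact hc

theorem norm_one_scalar [Nontrivial A] (τ : A →ₐ[F] A) (g : A) (hg : τ g * g = 1) (c : F)
    (hc : IsNilpotent (g - algebraMap F A c)) : c = 1 ∨ c = -1 := by
  have h1 : IsNilpotent (τ (g - algebraMap F A c)) := hc.map τ
  have hr : g - algebraMap F A c ∈ nilradical A := mem_nilradical.mpr hc
  have hr' : τ (g - algebraMap F A c) ∈ nilradical A := mem_nilradical.mpr h1
  have h3 : algebraMap F A (c * c - 1) ∈ nilradical A := by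
    have e : algebraMap F A (c * c - 1) =
        -(algebraMap F A c * (g - algebraMap F A c) +
          algebraMap F A c * τ (g - algebraMap F A c) +
          τ (g - algebraMap F A c) * (g - algebraMap F A c)) := by
      have e1 : τ (g - algebraMap F A c) = τ g - algebraMap F A c := by
        rw [map_sub, AlgHom.commutes]
      rw [e1, map_sub, map_mul, map_one]
      linear_combination hg
    rw [e]
    exact neg_mem (add_mem (add_mem (Ideal.mul_mem_left _ _ hr) (Ideal.mul_mem_left _ _ hr'))
      (Ideal.mul_mem_left _ _ hr))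
  have h4 := nil_scalar _ (mem_nilradical.mp h3)
  have h5 : (c - 1) * (c + 1) = 0 := by linear_combination h4
  rcases mul_eq_zero.mp h5 with h | h
  · left; linear_combination h
  · right; linear_combination h

theorem unit_cases [Nontrivial A] (h2 : (2 : F) ≠ 0) (τ : A →ₐ[F] A)
    (hloc : ∀ g : A, ∃ c : F, IsNilpotent (g - algebraMap F A c)) (g : A) (hg : τ g * g = 1) :
    (IsUnit (1 + g) ∧ ¬ IsUnit (1 - g)) ∨ (¬ IsUnit (1 + g) ∧ IsUnit (1 - g)) := by
  obtain ⟨c, hc⟩ := hloc g
  have hu2 : IsUnit (algebraMap F A 2) := (isUnit_iff_ne_zero.mpr h2).map (algebraMap F A)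
  have h2A : algebraMap F A 2 = 2 := map_ofNat (algebraMap F A) 2
  rcases norm_one_scalar τ g hg c hc with h | h
  · subst h
    left
    constructor
    · have := hc.isUnit_add_left_of_commute hu2 (Commute.all _ _)
      have e : algebraMap F A 2 + (g - algebraMap F A 1) = 1 + g := by
        rw [h2A, map_one]; ring
      rwa [e] at this
    · have e : 1 - g = -(g - algebraMap F A 1) := by rw [map_one]; ring
      rw [e]
      exact hc.neg.not_isUnit
  · subst h
    right
    constructor
    · have e : 1 + g = g - algebraMap F A (-1) := by rw [map_neg, map_one]; ring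
      rw [e]
      exact hc.not_isUnit
    · have := hc.neg.isUnit_add_left_of_commute hu2 (Commute.all _ _)
      have e : algebraMap F A 2 + -(g - algebraMap F A (-1)) = 1 - g := by
        rw [h2A, map_neg, map_one]; ring
      rwa [e] at this

theorem cay_mem_unitary (τ : A →ₐ[F] A) (s : A) (hs : τ s = -s) (hu : IsUnit (1 + s)) :
    τ (cay s) * cay s = 1 := by
  have h1 := cay_mul s hu
  have h2' : τ (cay s) * (1 - s) = 1 + s := by
    have := congrArg τ h1
    rw [map_mul, map_add, map_sub, map_one, hs] at this
    rw [sub_neg_eq_add] at this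
    rw [← sub_eq_add_neg] at this
    exact this
  have hu' : IsUnit (1 - s) := by
    have : IsUnit (τ (1 + s)) := hu.map τ
    rw [map_add, map_one, hs, ← sub_eq_add_neg] at this
    exact this
  apply hu.mul_right_cancel
  apply hu'.mul_right_cancel
  linear_combination (cay s * (1 + s)) * h2' + (1 + s) * h1

theorem cay_mem_skew (τ : A →ₐ[F] A) (g : A) (hg : τ g * g = 1) (hu : IsUnit (1 + g)) :
    τ (cay g) = -cay g := by
  have h1 := cay_mul g hu
  have h2' : τ (cay g) * (1 + τ g) = 1 - τ g := by
    have := congrArg τ h1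
    rw [map_mul, map_add, map_sub, map_one] at this
    exact this
  have hg' : IsUnit g := IsUnit.of_mul_eq_one_right (τ g) hg
  apply hu.mul_right_cancel
  apply hg'.mul_right_cancel
  linear_combination g ^ 2 * h2' - g * (1 + τ (cay g)) * hg + g * h1

/-- In a finite commutative local `F`-algebra (residue field `F`, `2 ≠ 0`) with an algebra
endomorphism `τ`, the elements with `τ g * g = 1` are twice as many as the `τ`-skew elements. -/
theorem cayley_count [Nontrivial A] [Finite A] (h2 : (2 : F) ≠ 0) (τ : A →ₐ[F] A)
    (hloc : ∀ g : A, ∃ c : F, IsNilpotent (g - algebraMap F A c)) :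
    Nat.card {g : A // τ g * g = 1} = 2 * Nat.card {s : A // τ s = -s} := by
  classical
  have := Fintype.ofFinite A
  rw [Nat.card_eq_fintype_card, Nat.card_eq_fintype_card, Fintype.card_subtype,
    Fintype.card_subtype]
  have hsplit : (Finset.univ.filter (fun g : A => τ g * g = 1)).card =
      (Finset.univ.filter (fun g : A => τ g * g = 1 ∧ IsUnit (1 + g))).card +
      (Finset.univ.filter (fun g : A => τ g * g = 1 ∧ ¬ IsUnit (1 + g))).card := by
    rw [← Finset.card_filter_add_card_filter_not (fun g : A => IsUnit (1 + g)),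
      Finset.filter_filter, Finset.filter_filter]
  have hneg : (Finset.univ.filter (fun g : A => τ g * g = 1 ∧ ¬ IsUnit (1 + g))).card =
      (Finset.univ.filter (fun g : A => τ g * g = 1 ∧ IsUnit (1 + g))).card := by
    apply Finset.card_nbij' (fun g => -g) (fun g => -g)
    · intro g hg
      simp only [Finset.coe_filter, Finset.mem_univ, true_and, Set.mem_ofPred_eq] at hg ⊢
      refine ⟨by rw [map_neg]; linear_combination hg.1, ?_⟩
      rcases unit_cases h2 τ hloc g hg.1 with h | h
      · exact absurd h.1 hg.2
      · rw [← sub_eq_add_neg]; exact h.2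
    · intro g hg
      simp only [Finset.coe_filter, Finset.mem_univ, true_and, Set.mem_ofPred_eq] at hg ⊢
      refine ⟨by rw [map_neg]; linear_combination hg.1, ?_⟩
      rcases unit_cases h2 τ hloc g hg.1 with h | h
      · rw [← sub_eq_add_neg]; exact h.2
      · exact absurd hg.2 h.1
    · intro g _; simp
    · intro g _; simp
  have hcay : (Finset.univ.filter (fun g : A => τ g * g = 1 ∧ IsUnit (1 + g))).card =
      (Finset.univ.filter (fun s : A => τ s = -s)).card := by
    apply Finset.card_nbij' cay cay
    · intro g hg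
      simp only [Finset.coe_filter, Finset.mem_univ, true_and, Set.mem_ofPred_eq] at hg ⊢
      exact cay_mem_skew τ g hg.1 hg.2
    · intro s hs
      simp only [Finset.coe_filter, Finset.mem_univ, true_and, Set.mem_ofPred_eq] at hs ⊢
      have hu : IsUnit (1 + s) := (nil_of_skew h2 τ hloc s hs).isUnit_one_add
      exact ⟨cay_mem_unitary τ s hs hu, isUnit_one_add_cay h2 s hu⟩
    · intro g hg
      simp only [Finset.coe_filter, Finset.mem_univ, true_and, Set.mem_ofPred_eq] at hg
      exact cay_cay h2 g hg.2
    · intro s hs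
      simp only [Finset.coe_filter, Finset.mem_univ, true_and, Set.mem_ofPred_eq] at hs
      have hu : IsUnit (1 + s) := (nil_of_skew h2 τ hloc s hs).isUnit_one_add
      exact cay_cay h2 s hu
  rw [hsplit, hneg, hcay]; ring

end cayley

end Cfsg.Agent.Helper43
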