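/-
Helper43 library: norm-type equations `τ x * a' * x = a` in a commutative local algebra with an
algebra endomorphism `τ` (continuation of `Cayley.lean`).
-/
import Mathlib
import Cfsg.Agent.Helper43.Cayley

set_option autoImplicit false

namespace Cfsg.Agent.Helper43

section norm

variable {F A : Type*} [Field F] [CommRing A] [Algebra F A]

theorem norm_scalar_eq [Nontrivial A] (τ : A →ₐ[F] A) (a a' x : A) (c c' e : F)
    (ha : IsNilpotent (a - algebraMap F A c)) (ha' : IsNilpotent (a' - algebraMap F A c'))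
    (hx : IsNilpotent (x - algebraMap F A e)) (h : τ x * a' * x = a) : c = e * c' * e := by
  have hτx : IsNilpotent (τ x - algebraMap F A e) := by
    have := hx.map τ
    rwa [map_sub, AlgHom.commutes] at this
  have h1 : a - algebraMap F A c ∈ nilradical A := mem_nilradical.mpr ha
  have h2 : a' - algebraMap F A c' ∈ nilradical A := mem_nilradical.mpr ha'
  have h3 : x - algebraMap F A e ∈ nilradical A := mem_nilradical.mpr hx
  have h4 : τ x - algebraMap F A e ∈ nilradical A := mem_nilradical.mpr hτx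
  have h5 : algebraMap F A (c - e * c' * e) ∈ nilradical A := by
    have e1 : algebraMap F A (c - e * c' * e) = -(a - algebraMap F A c) +
        ((τ x - algebraMap F A e) * (a' * x) +
          algebraMap F A e * ((a' - algebraMap F A c') * x) +
          algebraMap F A e * algebraMap F A c' * (x - algebraMap F A e)) := by
      rw [map_sub, map_mul, map_mul]
      linear_combination (-1 : A) * h
    rw [e1]
    exact add_mem (neg_mem h1) (add_mem (add_mem (Ideal.mul_mem_right _ _ h4)
      (Ideal.mul_mem_left _ _ (Ideal.mul_mem_right _ _ h2))) (Ideal.mul_mem_left _ _ h3))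
  have := nil_scalar _ (mem_nilradical.mp h5)
  linear_combination this

theorem exists_norm_eq [Nontrivial A] (p : ℕ) [Fact p.Prime] [CharP F p] (hp : p ≠ 2)
    (τ : A →ₐ[F] A) (b : A) (hb : τ b = b) (d : F) (hd : d ≠ 0)
    (hnil : IsNilpotent (b - algebraMap F A (d * d))) : ∃ x : A, τ x * x = b := by
  have : CharP A p := charP_of_injective_algebraMap (algebraMap F A).injective p
  obtain ⟨b₁, hb₁⟩ : ∃ b₁ : A, b₁ = algebraMap F A (d * d)⁻¹ * b := ⟨_, rfl⟩
  have hr : IsNilpotent (b₁ - 1) := by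
    have e : b₁ - 1 = algebraMap F A (d * d)⁻¹ * (b - algebraMap F A (d * d)) := by
      rw [hb₁, mul_sub, ← map_mul, inv_mul_cancel₀ (mul_ne_zero hd hd), map_one]
    rw [e]
    exact (Commute.all _ _).isNilpotent_mul_left hnil
  obtain ⟨e, he⟩ := hr
  have hpk : b₁ ^ (p ^ e) = 1 := by
    have h1 : b₁ = 1 + (b₁ - 1) := by ring
    rw [h1, add_pow_char_pow, one_pow,
      pow_eq_zero_of_le (Nat.lt_pow_self (Fact.out : p.Prime).one_lt).le he, add_zero]
  have hodd : Odd (p ^ e) := Odd.pow ((Fact.out : p.Prime).odd_of_ne_two hp)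
  obtain ⟨j, hj⟩ := hodd
  have hτb₁ : τ b₁ = b₁ := by rw [hb₁, map_mul, AlgHom.commutes, hb]
  refine ⟨algebraMap F A d * b₁ ^ (j + 1), ?_⟩
  rw [map_mul, AlgHom.commutes, map_pow, hτb₁]
  have h1 : b₁ ^ (j + 1) * b₁ ^ (j + 1) = b₁ := by
    rw [← pow_add]
    have : j + 1 + (j + 1) = p ^ e + 1 := by omega
    rw [this, pow_succ, hpk, one_mul]
  have h2 : algebraMap F A d * algebraMap F A d * b₁ = b := by
    rw [hb₁, ← map_mul, ← mul_assoc, ← map_mul, mul_inv_cancel₀ (mul_ne_zero hd hd), map_one,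
      one_mul]
  calc algebraMap F A d * b₁ ^ (j + 1) * (algebraMap F A d * b₁ ^ (j + 1))
      = algebraMap F A d * algebraMap F A d * (b₁ ^ (j + 1) * b₁ ^ (j + 1)) := by ring
    _ = b := by rw [h1, h2]

theorem exists_norm_quot [Nontrivial A] (p : ℕ) [Fact p.Prime] [CharP F p] (hp : p ≠ 2)
    (τ : A →ₐ[F] A) (a a' : A) (hτa : τ a = a) (hτa' : τ a' = a') (c c' d : F)
    (hc' : c' ≠ 0) (hd : d ≠ 0) (hcd : c = d * d * c')
    (ha : IsNilpotent (a - algebraMap F A c)) (ha' : IsNilpotent (a' - algebraMap F A c')) :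
    ∃ x : A, τ x * a' * x = a := by
  have hu : IsUnit a' := by
    have := ha'.isUnit_add_left_of_commute
      ((isUnit_iff_ne_zero.mpr hc').map (algebraMap F A)) (Commute.all _ _)
    rwa [add_sub_cancel] at this
  obtain ⟨w, hw⟩ := hu
  have hy : a' * (↑w⁻¹ : A) = 1 := by rw [← hw]; exact w.mul_inv
  have hτy : τ (↑w⁻¹ : A) = (↑w⁻¹ : A) := by
    have h1 : a' * τ (↑w⁻¹ : A) = 1 := by
      have := congrArg τ hy
      rwa [map_mul, hτa', map_one] at this
    calc τ (↑w⁻¹ : A) = ((↑w⁻¹ : A) * a') * τ (↑w⁻¹ : A) := by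
          rw [mul_comm (↑w⁻¹ : A) a', hy, one_mul]
      _ = (↑w⁻¹ : A) * (a' * τ (↑w⁻¹ : A)) := by ring
      _ = (↑w⁻¹ : A) := by rw [h1, mul_one]
  have hb : τ (a * (↑w⁻¹ : A)) = a * (↑w⁻¹ : A) := by rw [map_mul, hτa, hτy]
  have hnil : IsNilpotent (a * (↑w⁻¹ : A) - algebraMap F A (d * d)) := by
    have e : a * (↑w⁻¹ : A) - algebraMap F A (d * d) =
        (↑w⁻¹ : A) * ((a - algebraMap F A c) -
          algebraMap F A (d * d) * (a' - algebraMap F A c')) := by
      rw [hcd, map_mul (algebraMap F A) (d * d) c']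
      linear_combination (algebraMap F A (d * d)) * hy
    rw [e]
    apply (Commute.all _ _).isNilpotent_mul_left
    rw [sub_eq_add_neg]
    apply Commute.isNilpotent_add (Commute.all _ _) ha
    exact ((Commute.all _ _).isNilpotent_mul_left ha').neg
  obtain ⟨x, hx⟩ := exists_norm_eq p hp τ _ hb d hd hnil
  refine ⟨x, ?_⟩
  calc τ x * a' * x = (τ x * x) * a' := by ring
    _ = a * ((↑w⁻¹ : A) * a') := by rw [hx]; ring
    _ = a := by rw [mul_comm (↑w⁻¹ : A) a', hy, mul_one]

end norm

end Cfsg.Agent.Helper43
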