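/-
Helper43 library: the commutant of a regular unipotent element of `Sp_{2m}(F)` (char ≠ 2),
with the adjoint involution of the symplectic form.
-/
import Mathlib
import Cfsg.Agent.Helper43.RegNilp2
import Cfsg.Agent.Helper43.Cayley
import Cfsg.Agent.Helper5.Symp

set_option autoImplicit false

namespace Cfsg.Agent.Helper43

open Matrix Cfsg.Agent

section adj

variable {F : Type*} [Field F] {m : ℕ}

/-- adjoint of a matrix with respect to the symplectic form `Cfsg.sympForm` -/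
def adj (g : Matrix (Fin m ⊕ Fin m) (Fin m ⊕ Fin m) F) :
    Matrix (Fin m ⊕ Fin m) (Fin m ⊕ Fin m) F :=
  -(J (Fin m) F * gᵀ * J (Fin m) F)

theorem adj_spec (g : Matrix (Fin m ⊕ Fin m) (Fin m ⊕ Fin m) F) (x y : Fin m ⊕ Fin m → F) :
    Cfsg.sympForm m F (g *ᵥ x) y = Cfsg.sympForm m F x (adj g *ᵥ y) := by
  rw [Helper13.sympForm_def, Helper13.sympForm_def, adj, Matrix.mulVec_mulVec]
  have h1 : J (Fin m) F * -(J (Fin m) F * gᵀ * J (Fin m) F) = gᵀ * J (Fin m) F := by
    rw [Matrix.mul_neg, ← Matrix.mul_assoc, ← Matrix.mul_assoc, J_squared]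
    simp
  rw [h1, ← Matrix.mulVec_mulVec, Matrix.dotProduct_mulVec x gᵀ, Matrix.vecMul_transpose]

theorem adj_mul (g h : Matrix (Fin m ⊕ Fin m) (Fin m ⊕ Fin m) F) :
    adj (g * h) = adj h * adj g := by
  unfold adj
  rw [Matrix.transpose_mul, neg_mul_neg]
  have : J (Fin m) F * hᵀ * J (Fin m) F * (J (Fin m) F * gᵀ * J (Fin m) F) =
      J (Fin m) F * hᵀ * (J (Fin m) F * J (Fin m) F) * gᵀ * J (Fin m) F := by
    simp only [Matrix.mul_assoc]
  rw [this, J_squared]
  simp [Matrix.mul_assoc]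

theorem adj_one : adj (1 : Matrix (Fin m ⊕ Fin m) (Fin m ⊕ Fin m) F) = 1 := by
  unfold adj
  rw [Matrix.transpose_one, Matrix.mul_one, J_squared, neg_neg]

theorem adj_add (g h : Matrix (Fin m ⊕ Fin m) (Fin m ⊕ Fin m) F) :
    adj (g + h) = adj g + adj h := by
  unfold adj
  rw [Matrix.transpose_add, Matrix.mul_add, Matrix.add_mul, neg_add]

theorem adj_smul (c : F) (g : Matrix (Fin m ⊕ Fin m) (Fin m ⊕ Fin m) F) :
    adj (c • g) = c • adj g := by
  unfold adj
  rw [Matrix.transpose_smul, Matrix.mul_smul, Matrix.smul_mul, smul_neg]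

theorem adj_neg (g : Matrix (Fin m ⊕ Fin m) (Fin m ⊕ Fin m) F) : adj (-g) = -adj g := by
  unfold adj
  rw [Matrix.transpose_neg, Matrix.mul_neg, Matrix.neg_mul]

theorem adj_sub (g h : Matrix (Fin m ⊕ Fin m) (Fin m ⊕ Fin m) F) :
    adj (g - h) = adj g - adj h := by
  rw [sub_eq_add_neg, adj_add, adj_neg, sub_eq_add_neg]

theorem adj_zero : adj (0 : Matrix (Fin m ⊕ Fin m) (Fin m ⊕ Fin m) F) = 0 := by
  unfold adj
  simp

theorem adj_adj (g : Matrix (Fin m ⊕ Fin m) (Fin m ⊕ Fin m) F) : adj (adj g) = g := by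
  unfold adj
  rw [Matrix.transpose_neg, Matrix.transpose_mul, Matrix.transpose_mul, Matrix.transpose_transpose,
    J_transpose]
  have : J (Fin m) F * -(-J (Fin m) F * (g * -J (Fin m) F)) * J (Fin m) F =
      -((J (Fin m) F * J (Fin m) F) * g * (J (Fin m) F * J (Fin m) F)) := by
    simp only [Matrix.mul_assoc, Matrix.mul_neg, Matrix.neg_mul, neg_neg]
  rw [this, J_squared]
  simp

theorem adj_mul_self_iff (g : Matrix (Fin m ⊕ Fin m) (Fin m ⊕ Fin m) F) :
    adj g * g = 1 ↔ g ∈ symplecticGroup (Fin m) F := by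
  rw [SymplecticGroup.mem_iff']
  unfold adj
  constructor
  · intro h
    have h1 : J (Fin m) F * (-(J (Fin m) F * gᵀ * J (Fin m) F) * g) = J (Fin m) F := by
      rw [h, Matrix.mul_one]
    have h2 : J (Fin m) F * (-(J (Fin m) F * gᵀ * J (Fin m) F) * g) =
        -((J (Fin m) F * J (Fin m) F) * (gᵀ * J (Fin m) F * g)) := by
      simp only [Matrix.mul_assoc, Matrix.mul_neg, Matrix.neg_mul]
    rw [h2, J_squared] at h1
    simpa using h1
  · intro h
    have h2 : -(J (Fin m) F * gᵀ * J (Fin m) F) * g =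
        -(J (Fin m) F * (gᵀ * J (Fin m) F * g)) := by
      simp only [Matrix.mul_assoc, Matrix.neg_mul]
    rw [h2, h, J_squared, neg_neg]

theorem adj_ext (a b : Matrix (Fin m ⊕ Fin m) (Fin m ⊕ Fin m) F)
    (h : ∀ x y, Cfsg.sympForm m F x (a *ᵥ y) = Cfsg.sympForm m F x (b *ᵥ y)) : a = b := by
  apply Helper13.mulVec_ext
  intro y
  have : a *ᵥ y - b *ᵥ y = 0 := by
    apply Helper5.sympForm_nondeg_right
    intro x
    have := h x y
    rw [sub_eq_add_neg, Helper13.sympForm_add_right, ← neg_one_smul F (b *ᵥ y),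
      Helper13.sympForm_smul_right, this]
    ring
  exact sub_eq_zero.mp this

end adj

section commutant

variable {F : Type*} [Field F] {ι : Type*} [Fintype ι] [DecidableEq ι]

/-- `N` is regular nilpotent with cyclic vector `v` -/
structure CycData (N : Matrix ι ι F) (v : ι → F) : Prop where
  reg : RegNilp (Matrix.mulVecLin N)
  cyc : (Matrix.mulVecLin N ^ (Module.finrank F (ι → F) - 1)) v ≠ 0

theorem CycData.eq_zero {N : Matrix ι ι F} {v : ι → F} (h : CycData N v) (g : Matrix ι ι F)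
    (hg : g * N = N * g) (hv : g *ᵥ v = 0) : g = 0 := by
  have h1 : Matrix.mulVecLin g * Matrix.mulVecLin N = Matrix.mulVecLin N * Matrix.mulVecLin g := by
    rw [Module.End.mul_eq_comp, Module.End.mul_eq_comp, ← Matrix.mulVecLin_mul,
      ← Matrix.mulVecLin_mul, hg]
  have h2 := h.reg.eq_zero_of_apply h.cyc (Matrix.mulVecLin g) h1 (by simpa using hv)
  ext i j
  have := congrFun (LinearMap.congr_fun h2 (Pi.single j 1)) i
  simpa using this

theorem CycData.exists_comm {N : Matrix ι ι F} {v : ι → F} (h : CycData N v) (x : ι → F) :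
    ∃ g : Matrix ι ι F, g * N = N * g ∧ g *ᵥ v = x := by
  obtain ⟨g', hg', hx⟩ := h.reg.exists_commuting h.cyc x
  refine ⟨LinearMap.toMatrix' g', ?_, ?_⟩
  · have e : LinearMap.toMatrix' (Matrix.mulVecLin N) = N := by
      rw [← Matrix.toLin'_apply', LinearMap.toMatrix'_toLin']
    calc LinearMap.toMatrix' g' * N
        = LinearMap.toMatrix' g' * LinearMap.toMatrix' (Matrix.mulVecLin N) := by rw [e]
      _ = LinearMap.toMatrix' (g' * Matrix.mulVecLin N) := (LinearMap.toMatrix'_mul _ _).symm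
      _ = LinearMap.toMatrix' (Matrix.mulVecLin N * g') := by rw [hg']
      _ = LinearMap.toMatrix' (Matrix.mulVecLin N) * LinearMap.toMatrix' g' :=
          LinearMap.toMatrix'_mul _ _
      _ = N * LinearMap.toMatrix' g' := by rw [e]
  · rw [← Matrix.toLin'_apply, Matrix.toLin'_toMatrix']; exact hx

theorem CycData.decomp {N : Matrix ι ι F} {v : ι → F} (h : CycData N v) (g : Matrix ι ι F)
    (hg : g * N = N * g) :
    ∃ (c : F) (k : Matrix ι ι F), k * N = N * k ∧ g = c • 1 + N * k := by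
  let W : Submodule F (ι → F) :=
    { carrier := {y | ∃ (c : F) (x : ι → F), y = c • v + N *ᵥ x}
      add_mem' := by
        rintro _ _ ⟨c, x, rfl⟩ ⟨c', x', rfl⟩
        exact ⟨c + c', x + x', by rw [add_smul, Matrix.mulVec_add]; abel⟩
      zero_mem' := ⟨0, 0, by simp⟩
      smul_mem' := by
        rintro a _ ⟨c, x, rfl⟩
        exact ⟨a * c, a • x, by rw [smul_add, smul_smul, Matrix.mulVec_smul]⟩ }
  have hW : W = ⊤ := by
    apply h.reg.eq_top_of_mem h.cyc
    · intro w _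
      exact ⟨0, w, by simp⟩
    · exact ⟨1, 0, by simp⟩
  have hgv : g *ᵥ v ∈ W := by rw [hW]; trivial
  obtain ⟨c, x, hcx⟩ := hgv
  obtain ⟨k, hk, hkx⟩ := h.exists_comm x
  refine ⟨c, k, hk, ?_⟩
  have h0 : g - c • 1 - N * k = 0 := by
    apply h.eq_zero
    · rw [sub_mul, sub_mul, mul_sub, mul_sub, hg, Matrix.smul_mul, Matrix.one_mul,
        Matrix.mul_smul, Matrix.mul_one, Matrix.mul_assoc, hk]
    · rw [Matrix.sub_mulVec, Matrix.sub_mulVec, Matrix.smul_mulVec, Matrix.one_mulVec,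
        ← Matrix.mulVec_mulVec, hkx, hcx]
      abel
  have := sub_eq_zero.mp h0
  rw [sub_eq_iff_eq_add] at this
  rw [this]; abel

theorem CycData.exists_pow_eq_zero {N : Matrix ι ι F} {v : ι → F} (h : CycData N v) :
    ∃ e : ℕ, N ^ e = 0 := by
  obtain ⟨e, he⟩ := h.reg.nil
  refine ⟨e, ?_⟩
  rw [← mulVecLin_pow] at he
  ext i j
  have := congrFun (LinearMap.congr_fun he (Pi.single j 1)) i
  simpa using this

theorem CycData.comm {N : Matrix ι ι F} {v : ι → F} (h : CycData N v) (g k : Matrix ι ι F)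
    (hg : g * N = N * g) (hk : k * N = N * k) : g * k = k * g := by
  obtain ⟨e, he⟩ := h.exists_pow_eq_zero
  have key : ∀ j : ℕ, j ≤ e → ∀ g k : Matrix ι ι F, g * N = N * g → k * N = N * k →
      N ^ (e - j) * (g * k - k * g) = 0 := by
    intro j
    induction j with
    | zero =>
      intro _ g k _ _
      rw [Nat.sub_zero, he, Matrix.zero_mul]
    | succ j ih =>
      intro hj g k hg hk
      obtain ⟨c, g', hg', rfl⟩ := h.decomp g hg
      obtain ⟨d, k', hk', rfl⟩ := h.decomp k hk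
      have e1 : (c • (1 : Matrix ι ι F) + N * g') * (d • (1 : Matrix ι ι F) + N * k') -
          (d • (1 : Matrix ι ι F) + N * k') * (c • (1 : Matrix ι ι F) + N * g') =
          N * N * (g' * k' - k' * g') := by
        have a1 : N * g' * (N * k') = N * N * (g' * k') := by
          rw [Matrix.mul_assoc, ← Matrix.mul_assoc g', hg']
          simp only [Matrix.mul_assoc]
        have a2 : N * k' * (N * g') = N * N * (k' * g') := by
          rw [Matrix.mul_assoc, ← Matrix.mul_assoc k', hk']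
          simp only [Matrix.mul_assoc]
        rw [add_mul, mul_add, mul_add, add_mul, mul_add, mul_add, a1, a2, mul_sub]
        simp only [Matrix.smul_mul, Matrix.mul_smul, Matrix.one_mul, Matrix.mul_one]
        rw [smul_comm d c]
        abel
      have e2 : N ^ (e - (j + 1)) * (N * N) = N * N ^ (e - j) := by
        have : e - j = (e - (j + 1)) + 1 := by omega
        rw [this, pow_succ, ← Matrix.mul_assoc, ← Matrix.mul_assoc, pow_mul_comm']
      rw [e1, ← Matrix.mul_assoc, e2, Matrix.mul_assoc, ih (by omega) g' k' hg' hk',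
        Matrix.mul_zero]
  have := key e le_rfl g k hg hk
  rw [Nat.sub_self, pow_zero, Matrix.one_mul] at this
  exact sub_eq_zero.mp this

theorem CycData.nil {N : Matrix ι ι F} {v : ι → F} (h : CycData N v) (k : Matrix ι ι F)
    (hk : k * N = N * k) : IsNilpotent (N * k) := by
  obtain ⟨e, he⟩ := h.exists_pow_eq_zero
  refine ⟨e, ?_⟩
  have hc : Commute N k := hk.symm
  rw [hc.mul_pow, he, Matrix.zero_mul]

end commutant

section cen

variable {F : Type*} [Field F] {ι : Type*} [Fintype ι] [DecidableEq ι]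

/-- the commutant subalgebra -/
abbrev Cen (N : Matrix ι ι F) : Subalgebra F (Matrix ι ι F) := Subalgebra.centralizer F {N}

theorem mem_cen (N g : Matrix ι ι F) : g ∈ Cen N ↔ g * N = N * g := by
  rw [Subalgebra.mem_centralizer_iff]
  constructor
  · intro h; exact (h N rfl).symm
  · intro h x hx
    rw [Set.mem_singleton_iff] at hx
    subst hx
    exact h.symm

/-- the commutant of a regular nilpotent matrix is commutative -/
@[reducible] def cenCommRing {N : Matrix ι ι F} {v : ι → F} (h : CycData N v) :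
    CommRing ↥(Cen N) :=
  { (inferInstance : Ring ↥(Cen N)) with
    mul_comm := fun a b => Subtype.ext
      (h.comm a.1 b.1 ((mem_cen N _).mp a.2) ((mem_cen N _).mp b.2)) }

theorem cen_loc {N : Matrix ι ι F} {v : ι → F} (h : CycData N v) (g : ↥(Cen N)) :
    ∃ c : F, IsNilpotent (g - algebraMap F ↥(Cen N) c) := by
  obtain ⟨c, k, hk, hgk⟩ := h.decomp g.1 ((mem_cen N _).mp g.2)
  obtain ⟨e, he⟩ := h.nil k hk
  refine ⟨c, e, ?_⟩
  apply Subtype.ext
  rw [Subalgebra.coe_pow, Subalgebra.coe_sub, Subalgebra.coe_algebraMap,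
    Algebra.algebraMap_eq_smul_one, hgk, add_sub_cancel_left, he]
  rfl

end cen

section spreg

variable {F : Type*} [Field F] {m : ℕ}

/-- `u` is a symplectic matrix with `u - 1` regular nilpotent, `v` a cyclic vector -/
structure SpReg (u : Matrix (Fin m ⊕ Fin m) (Fin m ⊕ Fin m) F) (v : Fin m ⊕ Fin m → F) :
    Prop where
  sp : adj u * u = 1
  cyc : CycData (u - 1) v

theorem comm_sub_one_iff (u g : Matrix (Fin m ⊕ Fin m) (Fin m ⊕ Fin m) F) :
    g * (u - 1) = (u - 1) * g ↔ g * u = u * g := by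
  rw [mul_sub, sub_mul, mul_one, one_mul, sub_left_inj]

theorem SpReg.adj_mem {u : Matrix (Fin m ⊕ Fin m) (Fin m ⊕ Fin m) F} {v : Fin m ⊕ Fin m → F}
    (h : SpReg u v) (g : Matrix (Fin m ⊕ Fin m) (Fin m ⊕ Fin m) F) (hg : g ∈ Cen (u - 1)) :
    adj g ∈ Cen (u - 1) := by
  rw [mem_cen, comm_sub_one_iff] at hg ⊢
  have h1 : adj u * adj g = adj g * adj u := by
    rw [← adj_mul, ← adj_mul, hg]
  have hu' : u * adj u = 1 := mul_eq_one_comm.mp h.sp
  calc adj g * u = (u * adj u) * adj g * u := by rw [hu', Matrix.one_mul]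
    _ = u * (adj u * adj g) * u := by simp only [Matrix.mul_assoc]
    _ = u * (adj g * adj u) * u := by rw [h1]
    _ = u * adj g * (adj u * u) := by simp only [Matrix.mul_assoc]
    _ = u * adj g := by rw [h.sp, Matrix.mul_one]

/-- the adjoint involution on the commutant -/
def SpReg.tau {u : Matrix (Fin m ⊕ Fin m) (Fin m ⊕ Fin m) F} {v : Fin m ⊕ Fin m → F}
    (h : SpReg u v) : ↥(Cen (u - 1)) →ₐ[F] ↥(Cen (u - 1)) where
  toFun g := ⟨adj g.1, h.adj_mem g.1 g.2⟩
  map_one' := Subtype.ext adj_one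
  map_mul' a b := Subtype.ext (by
    show adj (a.1 * b.1) = adj a.1 * adj b.1
    rw [adj_mul]
    exact h.cyc.comm _ _ ((mem_cen _ _).mp (h.adj_mem b.1 b.2))
      ((mem_cen _ _).mp (h.adj_mem a.1 a.2)))
  map_zero' := Subtype.ext adj_zero
  map_add' a b := Subtype.ext (adj_add _ _)
  commutes' c := Subtype.ext (by
    show adj ((algebraMap F ↥(Cen (u - 1)) c : ↥(Cen (u - 1))) :
      Matrix (Fin m ⊕ Fin m) (Fin m ⊕ Fin m) F) = _
    rw [Subalgebra.coe_algebraMap, Algebra.algebraMap_eq_smul_one, adj_smul, adj_one])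

theorem SpReg.tau_coe {u : Matrix (Fin m ⊕ Fin m) (Fin m ⊕ Fin m) F} {v : Fin m ⊕ Fin m → F}
    (h : SpReg u v) (g : ↥(Cen (u - 1))) :
    ((h.tau g : ↥(Cen (u - 1))) : Matrix (Fin m ⊕ Fin m) (Fin m ⊕ Fin m) F) = adj g.1 := rfl

theorem SpReg.iso_plus {u : Matrix (Fin m ⊕ Fin m) (Fin m ⊕ Fin m) F} {v : Fin m ⊕ Fin m → F}
    (_h : SpReg u v) (h2 : (2 : F) ≠ 0) (g : Matrix (Fin m ⊕ Fin m) (Fin m ⊕ Fin m) F)
    (hg : adj g = g) : Cfsg.sympForm m F v (g *ᵥ v) = 0 := by
  have h1 := adj_spec g v v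
  rw [hg, Helper13.sympForm_swap] at h1
  have h3 : (2 : F) * Cfsg.sympForm m F v (g *ᵥ v) = 0 := by linear_combination -h1
  rcases mul_eq_zero.mp h3 with h | h
  · exact absurd h h2
  · exact h

theorem SpReg.iso {u : Matrix (Fin m ⊕ Fin m) (Fin m ⊕ Fin m) F} {v : Fin m ⊕ Fin m → F}
    (h : SpReg u v) (h2 : (2 : F) ≠ 0) (s t : Matrix (Fin m ⊕ Fin m) (Fin m ⊕ Fin m) F)
    (hs : s ∈ Cen (u - 1)) (ht : t ∈ Cen (u - 1))
    (hst : (adj s = -s ∧ adj t = -t) ∨ (adj s = s ∧ adj t = t)) :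
    Cfsg.sympForm m F (s *ᵥ v) (t *ᵥ v) = 0 := by
  have hcomm : s * t = t * s :=
    h.cyc.comm s t ((mem_cen _ _).mp hs) ((mem_cen _ _).mp ht)
  rw [adj_spec, Matrix.mulVec_mulVec]
  rcases hst with ⟨h1, h3⟩ | ⟨h1, h3⟩
  · have hg : adj (s * t) = s * t := by rw [adj_mul, h1, h3, neg_mul_neg, hcomm]
    have := h.iso_plus h2 (s * t) hg
    rw [h1, Matrix.neg_mul, Matrix.neg_mulVec, ← neg_one_smul F ((s * t) *ᵥ v),
      Helper13.sympForm_smul_right, this, mul_zero]
  · have hg : adj (s * t) = s * t := by rw [adj_mul, h1, h3, hcomm]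
    rw [h1]
    exact h.iso_plus h2 (s * t) hg

theorem SpReg.card_skew [Fintype F] {u : Matrix (Fin m ⊕ Fin m) (Fin m ⊕ Fin m) F}
    {v : Fin m ⊕ Fin m → F} (h : SpReg u v) (h2 : (2 : F) ≠ 0) :
    Nat.card {s : ↥(Cen (u - 1)) // h.tau s = -s} = Fintype.card F ^ m := by
  let ev : Matrix (Fin m ⊕ Fin m) (Fin m ⊕ Fin m) F →ₗ[F] (Fin m ⊕ Fin m → F) :=
    { toFun := fun g => g *ᵥ v
      map_add' := fun a b => Matrix.add_mulVec a b v
      map_smul' := fun c a => Matrix.smul_mulVec c a v }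
  have hev : ∀ g, ev g = g *ᵥ v := fun _ => rfl
  let Am : Submodule F (Matrix (Fin m ⊕ Fin m) (Fin m ⊕ Fin m) F) :=
    { carrier := {s | s ∈ Cen (u - 1) ∧ adj s = -s}
      add_mem' := by
        rintro a b ⟨ha, ha'⟩ ⟨hb, hb'⟩
        exact ⟨add_mem ha hb, by rw [adj_add, ha', hb', neg_add]⟩
      zero_mem' := ⟨zero_mem _, by rw [adj_zero, neg_zero]⟩
      smul_mem' := by
        rintro c a ⟨ha, ha'⟩
        exact ⟨Subalgebra.smul_mem _ ha c, by rw [adj_smul, ha', smul_neg]⟩ }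
  let Ap : Submodule F (Matrix (Fin m ⊕ Fin m) (Fin m ⊕ Fin m) F) :=
    { carrier := {s | s ∈ Cen (u - 1) ∧ adj s = s}
      add_mem' := by
        rintro a b ⟨ha, ha'⟩ ⟨hb, hb'⟩
        exact ⟨add_mem ha hb, by rw [adj_add, ha', hb']⟩
      zero_mem' := ⟨zero_mem _, adj_zero⟩
      smul_mem' := by
        rintro c a ⟨ha, ha'⟩
        exact ⟨Subalgebra.smul_mem _ ha c, by rw [adj_smul, ha']⟩ }
  have hinj : Set.InjOn ev (Am : Set (Matrix (Fin m ⊕ Fin m) (Fin m ⊕ Fin m) F)) := by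
    intro a ha b hb hab
    have hab' : a *ᵥ v = b *ᵥ v := hab
    have h0 : a - b = 0 := by
      apply h.cyc.eq_zero
      · exact (mem_cen _ _).mp (sub_mem ha.1 hb.1)
      · rw [Matrix.sub_mulVec, hab', sub_self]
    exact sub_eq_zero.mp h0
  have hAm_iso : Am.map ev ≤ (Helper5.sympBil m F).orthogonal (Am.map ev) := by
    rintro _ ⟨t, ht, rfl⟩ _ ⟨s, hs, rfl⟩
    exact h.iso h2 s t hs.1 ht.1 (Or.inl ⟨hs.2, ht.2⟩)
  have hAp_iso : Ap.map ev ≤ (Helper5.sympBil m F).orthogonal (Ap.map ev) := by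
    rintro _ ⟨t, ht, rfl⟩ _ ⟨s, hs, rfl⟩
    exact h.iso h2 s t hs.1 ht.1 (Or.inr ⟨hs.2, ht.2⟩)
  have hsup : Ap.map ev ⊔ Am.map ev = ⊤ := by
    rw [eq_top_iff]
    intro x _
    obtain ⟨g, hg, rfl⟩ := h.cyc.exists_comm x
    have hgc : g ∈ Cen (u - 1) := (mem_cen _ _).mpr hg
    have hac : adj g ∈ Cen (u - 1) := h.adj_mem g hgc
    have e : g *ᵥ v = ev ((2 : F)⁻¹ • (g + adj g)) + ev ((2 : F)⁻¹ • (g - adj g)) := by
      rw [← map_add, ← smul_add, add_add_sub_cancel, ← two_smul F g, smul_smul,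
        inv_mul_cancel₀ h2, one_smul]
      rfl
    rw [e]
    apply Submodule.add_mem_sup
    · refine ⟨_, ⟨Subalgebra.smul_mem _ (add_mem hgc hac) _, ?_⟩, rfl⟩
      rw [adj_smul, adj_add, adj_adj, add_comm]
    · refine ⟨_, ⟨Subalgebra.smul_mem _ (sub_mem hgc hac) _, ?_⟩, rfl⟩
      rw [adj_smul, adj_sub, adj_adj, ← smul_neg, neg_sub]
  have hdimV : Module.finrank F (Fin m ⊕ Fin m → F) = 2 * m := by
    rw [Module.finrank_fintype_fun_eq_card]
    simp [two_mul]
  have hle : ∀ W : Submodule F (Fin m ⊕ Fin m → F),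
      W ≤ (Helper5.sympBil m F).orthogonal W → Module.finrank F W ≤ m := by
    intro W hW
    have h1 := LinearMap.BilinForm.finrank_orthogonal (Helper5.sympBil_nondegenerate (m := m)
      (F := F)) W
    have h3 := Submodule.finrank_mono hW
    have h4 := Submodule.finrank_le W
    rw [hdimV] at h1 h4
    omega
  have h1 := hle _ hAm_iso
  have h3 := hle _ hAp_iso
  have h4 := Submodule.finrank_add_le_finrank_add_finrank (Ap.map ev) (Am.map ev)
  rw [hsup, finrank_top, hdimV] at h4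
  have h5 : Module.finrank F (Am.map ev) = m := by omega
  have hc1 : Nat.card (Am.map ev) = Fintype.card F ^ m := by
    rw [Module.natCard_eq_pow_finrank (K := F), h5, Nat.card_eq_fintype_card]
  have hc2 : Nat.card (Am.map ev) = Nat.card Am := by
    exact Nat.card_image_of_injOn hinj
  have hc3 : Nat.card {s : ↥(Cen (u - 1)) // h.tau s = -s} = Nat.card Am :=
    Nat.card_congr
      { toFun := fun s => ⟨s.1.1, s.1.2, by
          have := congrArg Subtype.val s.2
          exact this⟩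
        invFun := fun s => ⟨⟨s.1, s.2.1⟩, Subtype.ext s.2.2⟩
        left_inv := fun s => rfl
        right_inv := fun s => rfl }
  rw [hc3, ← hc2, hc1]

theorem SpReg.card_unitary [Fintype F] {u : Matrix (Fin m ⊕ Fin m) (Fin m ⊕ Fin m) F}
    {v : Fin m ⊕ Fin m → F} (h : SpReg u v) (h2 : (2 : F) ≠ 0) (hm : 1 ≤ m) :
    Nat.card {g : ↥(Cen (u - 1)) // h.tau g * g = 1} = 2 * Fintype.card F ^ m := by
  have : Nonempty (Fin m ⊕ Fin m) := ⟨Sum.inl ⟨0, hm⟩⟩
  let _ := cenCommRing h.cyc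
  have := cayley_count (F := F) (A := ↥(Cen (u - 1))) h2 h.tau (cen_loc h.cyc)
  rw [this, h.card_skew h2]

end spreg

end Cfsg.Agent.Helper43
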