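/-
Helper43 library: conjugacy of regular unipotent elements of `Sp_{2m}(F)` (char ≠ 2) in terms of
the Gram element `adj P * P` of an intertwiner `P` with a fixed base element.
-/
import Mathlib
import Cfsg.Agent.Helper43.RegUnipSp
import Cfsg.Agent.Helper43.Cayley2
import Cfsg.Agent.S2578
import Cfsg.Agent.Helper5.SympPerfect

set_option autoImplicit false

namespace Cfsg.Agent.Helper43

open Matrix Cfsg.Agent

section intertwine

variable {F : Type*} [Field F] {ι : Type*} [Fintype ι] [DecidableEq ι]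

/-- two regular nilpotent matrices are similar -/
theorem exists_intertwiner (n : ℕ) (hcard : Fintype.card ι = n) (hn : 0 < n)
    (N N' : Matrix ι ι F) (hN : N ^ n = 0) (hr : N.rank = n - 1) (hN' : N' ^ n = 0)
    (hr' : N'.rank = n - 1) : ∃ P : Matrix ι ι F, IsUnit P.det ∧ P * N = N' * P := by
  let e : ι ≃ Fin n := Fintype.equivFinOfCardEq hcard
  let φ := Matrix.reindexAlgEquiv F F e
  have hφ : ∀ M : Matrix ι ι F, φ M = Matrix.reindex e e M := fun _ => rfl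
  obtain ⟨Q, hQ, hQM⟩ := S2578.exists_conj_shift n hn (φ N)
    (by rw [← map_pow, hN, map_zero]) (by rw [hφ, Matrix.rank_reindex, hr])
  obtain ⟨Q', hQ', hQM'⟩ := S2578.exists_conj_shift n hn (φ N')
    (by rw [← map_pow, hN', map_zero]) (by rw [hφ, Matrix.rank_reindex, hr'])
  have h1 : Q⁻¹ * Q = 1 := Matrix.nonsing_inv_mul Q hQ
  have h2 : Q * Q⁻¹ = 1 := Matrix.mul_nonsing_inv Q hQ
  have h3 : Q⁻¹ * φ N = S2578.shift n * Q⁻¹ := by
    calc Q⁻¹ * φ N = Q⁻¹ * (φ N * Q) * Q⁻¹ := by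
          rw [Matrix.mul_assoc, Matrix.mul_assoc, h2, Matrix.mul_one]
      _ = Q⁻¹ * (Q * S2578.shift n) * Q⁻¹ := by rw [hQM]
      _ = S2578.shift n * Q⁻¹ := by rw [← Matrix.mul_assoc, h1, Matrix.one_mul]
  refine ⟨φ.symm (Q' * Q⁻¹), ?_, ?_⟩
  · have hdet : (φ.symm (Q' * Q⁻¹)).det = (Q' * Q⁻¹).det := by
      have := Matrix.det_reindexAlgEquiv F F e (φ.symm (Q' * Q⁻¹))
      rw [← this]
      congr 1
      exact φ.apply_symm_apply _
    rw [hdet, Matrix.det_mul]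
    exact hQ'.mul (Matrix.isUnit_nonsing_inv_det Q hQ)
  · apply φ.injective
    simp only [map_mul, AlgEquiv.apply_symm_apply]
    calc Q' * Q⁻¹ * φ N = Q' * (Q⁻¹ * φ N) := by rw [Matrix.mul_assoc]
      _ = Q' * S2578.shift n * Q⁻¹ := by rw [h3, Matrix.mul_assoc]
      _ = φ N' * Q' * Q⁻¹ := by rw [hQM']
      _ = φ N' * (Q' * Q⁻¹) := by rw [Matrix.mul_assoc]

theorem cen_nil_iff {N : Matrix ι ι F} (g : ↥(Cen N)) :
    IsNilpotent g ↔ IsNilpotent (g : Matrix ι ι F) := by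
  constructor
  · rintro ⟨e, he⟩
    refine ⟨e, ?_⟩
    have := congrArg Subtype.val he
    rwa [Subalgebra.coe_pow] at this
  · rintro ⟨e, he⟩
    refine ⟨e, Subtype.ext ?_⟩
    rw [Subalgebra.coe_pow, he]
    rfl

end intertwine

section spconj

variable {F : Type*} [Field F] {m : ℕ}

/-- `P` conjugates the base element `u₀` to `u` -/
def GoodSp (u₀ u P : Matrix (Fin m ⊕ Fin m) (Fin m ⊕ Fin m) F) : Prop :=
  IsUnit P.det ∧ P * u₀ = u * P

theorem GoodSp.inv_mul {u₀ u P : Matrix (Fin m ⊕ Fin m) (Fin m ⊕ Fin m) F}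
    (h : GoodSp u₀ u P) : P⁻¹ * u = u₀ * P⁻¹ := by
  have h1 : P⁻¹ * P = 1 := Matrix.nonsing_inv_mul P h.1
  have h2 : P * P⁻¹ = 1 := Matrix.mul_nonsing_inv P h.1
  calc P⁻¹ * u = P⁻¹ * (u * P) * P⁻¹ := by
        rw [Matrix.mul_assoc, Matrix.mul_assoc, h2, Matrix.mul_one]
    _ = P⁻¹ * (P * u₀) * P⁻¹ := by rw [h.2]
    _ = u₀ * P⁻¹ := by rw [← Matrix.mul_assoc, h1, Matrix.one_mul]

theorem gram_adj (P : Matrix (Fin m ⊕ Fin m) (Fin m ⊕ Fin m) F) :
    adj (adj P * P) = adj P * P := by rw [adj_mul, adj_adj]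

theorem gram_mem {u₀ : Matrix (Fin m ⊕ Fin m) (Fin m ⊕ Fin m) F} {v₀ : Fin m ⊕ Fin m → F}
    (h₀ : SpReg u₀ v₀) {u P : Matrix (Fin m ⊕ Fin m) (Fin m ⊕ Fin m) F}
    (hu : adj u * u = 1) (hP : GoodSp u₀ u P) : adj P * P ∈ Cen (u₀ - 1) := by
  rw [mem_cen, comm_sub_one_iff]
  have hu₀' : u₀ * adj u₀ = 1 := mul_eq_one_comm.mp h₀.sp
  have h1 : adj u₀ * adj P = adj P * adj u := by rw [← adj_mul, ← adj_mul, hP.2]
  have h2 : adj P * u = u₀ * adj P := by
    calc adj P * u = (u₀ * adj u₀) * adj P * u := by rw [hu₀', Matrix.one_mul]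
      _ = u₀ * (adj u₀ * adj P) * u := by simp only [Matrix.mul_assoc]
      _ = u₀ * (adj P * adj u) * u := by rw [h1]
      _ = u₀ * adj P * (adj u * u) := by simp only [Matrix.mul_assoc]
      _ = u₀ * adj P := by rw [hu, Matrix.mul_one]
  calc adj P * P * u₀ = adj P * (P * u₀) := by rw [Matrix.mul_assoc]
    _ = adj P * u * P := by rw [hP.2, Matrix.mul_assoc]
    _ = u₀ * (adj P * P) := by rw [h2, Matrix.mul_assoc]

theorem gram_scalar_ne_zero (hm : 1 ≤ m) (P : Matrix (Fin m ⊕ Fin m) (Fin m ⊕ Fin m) F)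
    (hP : IsUnit P.det) (c : F) (hc : IsNilpotent (adj P * P - c • 1)) : c ≠ 0 := by
  have : Nonempty (Fin m ⊕ Fin m) := ⟨Sum.inl ⟨0, hm⟩⟩
  rintro rfl
  rw [zero_smul, sub_zero] at hc
  have h1 : P⁻¹ * P = 1 := Matrix.nonsing_inv_mul P hP
  have h2 : P * P⁻¹ = 1 := Matrix.mul_nonsing_inv P hP
  have hu : IsUnit (adj P * P) := by
    apply IsUnit.of_mul_eq_one (P⁻¹ * adj P⁻¹)
    calc adj P * P * (P⁻¹ * adj P⁻¹) = adj P * (P * P⁻¹) * adj P⁻¹ := by
          simp only [Matrix.mul_assoc]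
      _ = adj (P⁻¹ * P) := by rw [h2, Matrix.mul_one, adj_mul]
      _ = 1 := by rw [h1, adj_one]
  exact hc.not_isUnit hu

/-- Conjugacy in `Sp` of two conjugates of the base element in terms of the scalar parts of the
Gram elements. -/
theorem SpReg.conj_iff {u₀ : Matrix (Fin m ⊕ Fin m) (Fin m ⊕ Fin m) F} {v₀ : Fin m ⊕ Fin m → F}
    (h₀ : SpReg u₀ v₀) (p : ℕ) [Fact p.Prime] [CharP F p] (hp : p ≠ 2) (hm : 1 ≤ m)
    (u u' : Matrix.symplecticGroup (Fin m) F)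
    (P P' : Matrix (Fin m ⊕ Fin m) (Fin m ⊕ Fin m) F)
    (hP : GoodSp u₀ (u : Matrix (Fin m ⊕ Fin m) (Fin m ⊕ Fin m) F) P)
    (hP' : GoodSp u₀ (u' : Matrix (Fin m ⊕ Fin m) (Fin m ⊕ Fin m) F) P')
    (c c' : F) (hc : IsNilpotent (adj P * P - c • 1))
    (hc' : IsNilpotent (adj P' * P' - c' • 1)) :
    IsConj u u' ↔ ∃ d : Fˣ, c' = c * (d : F) ^ 2 := by
  have : Nonempty (Fin m ⊕ Fin m) := ⟨Sum.inl ⟨0, hm⟩⟩
  let _ := cenCommRing h₀.cyc
  have hu : adj (u : Matrix (Fin m ⊕ Fin m) (Fin m ⊕ Fin m) F) * u = 1 :=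
    (adj_mul_self_iff _).mpr u.2
  have hu' : adj (u' : Matrix (Fin m ⊕ Fin m) (Fin m ⊕ Fin m) F) * u' = 1 :=
    (adj_mul_self_iff _).mpr u'.2
  have hc0 : c ≠ 0 := gram_scalar_ne_zero hm P hP.1 c hc
  have hc'0 : c' ≠ 0 := gram_scalar_ne_zero hm P' hP'.1 c' hc'
  have hPi2 : P * P⁻¹ = 1 := Matrix.mul_nonsing_inv P hP.1
  have hP'i2 : P' * P'⁻¹ = 1 := Matrix.mul_nonsing_inv P' hP'.1
  obtain ⟨a, haE⟩ : ∃ a : ↥(Cen (u₀ - 1)),
      (a : Matrix (Fin m ⊕ Fin m) (Fin m ⊕ Fin m) F) = adj P * P :=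
    ⟨⟨adj P * P, gram_mem h₀ hu hP⟩, rfl⟩
  obtain ⟨a', ha'E⟩ : ∃ a' : ↥(Cen (u₀ - 1)),
      (a' : Matrix (Fin m ⊕ Fin m) (Fin m ⊕ Fin m) F) = adj P' * P' :=
    ⟨⟨adj P' * P', gram_mem h₀ hu' hP'⟩, rfl⟩
  have ha : IsNilpotent (a - algebraMap F ↥(Cen (u₀ - 1)) c) := by
    rw [cen_nil_iff, Subalgebra.coe_sub, Subalgebra.coe_algebraMap,
      Algebra.algebraMap_eq_smul_one, haE]
    exact hc
  have ha' : IsNilpotent (a' - algebraMap F ↥(Cen (u₀ - 1)) c') := by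
    rw [cen_nil_iff, Subalgebra.coe_sub, Subalgebra.coe_algebraMap,
      Algebra.algebraMap_eq_smul_one, ha'E]
    exact hc'
  have hτa : h₀.tau a = a := Subtype.ext (by rw [SpReg.tau_coe, haE, gram_adj])
  have hτa' : h₀.tau a' = a' := Subtype.ext (by rw [SpReg.tau_coe, ha'E, gram_adj])
  constructor
  · intro hconj
    obtain ⟨s, hs⟩ := isConj_iff.mp hconj
    have hs' : (s : Matrix (Fin m ⊕ Fin m) (Fin m ⊕ Fin m) F) * u = u' * s := by
      have h0 : s * u = u' * s := by rw [← hs]; group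
      exact congrArg Subtype.val h0
    have hss : adj (s : Matrix (Fin m ⊕ Fin m) (Fin m ⊕ Fin m) F) * s = 1 :=
      (adj_mul_self_iff _).mpr s.2
    have hxm : P'⁻¹ * (s : Matrix (Fin m ⊕ Fin m) (Fin m ⊕ Fin m) F) * P ∈ Cen (u₀ - 1) := by
      rw [mem_cen, comm_sub_one_iff]
      calc P'⁻¹ * (s : Matrix (Fin m ⊕ Fin m) (Fin m ⊕ Fin m) F) * P * u₀
          = P'⁻¹ * (s : Matrix (Fin m ⊕ Fin m) (Fin m ⊕ Fin m) F) * (P * u₀) := by
            simp only [Matrix.mul_assoc]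
        _ = P'⁻¹ * ((s : Matrix (Fin m ⊕ Fin m) (Fin m ⊕ Fin m) F) *
              (u : Matrix (Fin m ⊕ Fin m) (Fin m ⊕ Fin m) F)) * P := by
            rw [hP.2]; simp only [Matrix.mul_assoc]
        _ = (P'⁻¹ * (u' : Matrix (Fin m ⊕ Fin m) (Fin m ⊕ Fin m) F)) *
              (s : Matrix (Fin m ⊕ Fin m) (Fin m ⊕ Fin m) F) * P := by
            rw [hs']; simp only [Matrix.mul_assoc]
        _ = u₀ * (P'⁻¹ * (s : Matrix (Fin m ⊕ Fin m) (Fin m ⊕ Fin m) F) * P) := by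
            rw [hP'.inv_mul]; simp only [Matrix.mul_assoc]
    obtain ⟨x, hxE⟩ : ∃ x : ↥(Cen (u₀ - 1)),
        (x : Matrix (Fin m ⊕ Fin m) (Fin m ⊕ Fin m) F) =
          P'⁻¹ * (s : Matrix (Fin m ⊕ Fin m) (Fin m ⊕ Fin m) F) * P := ⟨⟨_, hxm⟩, rfl⟩
    have hxa : h₀.tau x * a' * x = a := by
      apply Subtype.ext
      show adj (x : Matrix (Fin m ⊕ Fin m) (Fin m ⊕ Fin m) F) *
        (a' : Matrix (Fin m ⊕ Fin m) (Fin m ⊕ Fin m) F) *
        (x : Matrix (Fin m ⊕ Fin m) (Fin m ⊕ Fin m) F) =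
        (a : Matrix (Fin m ⊕ Fin m) (Fin m ⊕ Fin m) F)
      rw [haE, ha'E]
      have e1 : P' * (x : Matrix (Fin m ⊕ Fin m) (Fin m ⊕ Fin m) F) =
          (s : Matrix (Fin m ⊕ Fin m) (Fin m ⊕ Fin m) F) * P := by
        rw [hxE, ← Matrix.mul_assoc, ← Matrix.mul_assoc, hP'i2, Matrix.one_mul]
      calc adj (x : Matrix (Fin m ⊕ Fin m) (Fin m ⊕ Fin m) F) * (adj P' * P') *
            (x : Matrix (Fin m ⊕ Fin m) (Fin m ⊕ Fin m) F)
          = adj (P' * (x : Matrix (Fin m ⊕ Fin m) (Fin m ⊕ Fin m) F)) *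
              (P' * (x : Matrix (Fin m ⊕ Fin m) (Fin m ⊕ Fin m) F)) := by
            rw [adj_mul]; simp only [Matrix.mul_assoc]
        _ = adj ((s : Matrix (Fin m ⊕ Fin m) (Fin m ⊕ Fin m) F) * P) *
              ((s : Matrix (Fin m ⊕ Fin m) (Fin m ⊕ Fin m) F) * P) := by rw [e1]
        _ = adj P * (adj (s : Matrix (Fin m ⊕ Fin m) (Fin m ⊕ Fin m) F) *
              (s : Matrix (Fin m ⊕ Fin m) (Fin m ⊕ Fin m) F)) * P := by
            rw [adj_mul]; simp only [Matrix.mul_assoc]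
        _ = adj P * P := by rw [hss, Matrix.mul_one]
    obtain ⟨e, he⟩ := cen_loc h₀.cyc x
    have hce := norm_scalar_eq h₀.tau a a' x c c' e ha ha' he hxa
    have he0 : e ≠ 0 := by
      rintro rfl
      apply hc0
      rw [hce]; ring
    refine ⟨(Units.mk0 e he0)⁻¹, ?_⟩
    rw [hce, Units.val_inv_eq_inv_val, Units.val_mk0]
    field_simp
  · rintro ⟨d, hd⟩
    have hd0 : (d : F) ≠ 0 := d.ne_zero
    have hcd : c = (d : F)⁻¹ * (d : F)⁻¹ * c' := by rw [hd]; field_simp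
    obtain ⟨x, hx⟩ := exists_norm_quot p hp h₀.tau a a' hτa hτa' c c' (d : F)⁻¹ hc'0
      (inv_ne_zero hd0) hcd ha ha'
    have hxm : adj (x : Matrix (Fin m ⊕ Fin m) (Fin m ⊕ Fin m) F) * (adj P' * P') *
        (x : Matrix (Fin m ⊕ Fin m) (Fin m ⊕ Fin m) F) = adj P * P := by
      have := congrArg Subtype.val hx
      rw [haE] at this
      rw [← this, ← ha'E]
      rfl
    have hxc : (x : Matrix (Fin m ⊕ Fin m) (Fin m ⊕ Fin m) F) * u₀ =
        u₀ * (x : Matrix (Fin m ⊕ Fin m) (Fin m ⊕ Fin m) F) :=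
      (comm_sub_one_iff _ _).mp ((mem_cen _ _).mp x.2)
    have hsm : adj (P' * (x : Matrix (Fin m ⊕ Fin m) (Fin m ⊕ Fin m) F) * P⁻¹) *
        (P' * (x : Matrix (Fin m ⊕ Fin m) (Fin m ⊕ Fin m) F) * P⁻¹) = 1 := by
      calc adj (P' * (x : Matrix (Fin m ⊕ Fin m) (Fin m ⊕ Fin m) F) * P⁻¹) *
            (P' * (x : Matrix (Fin m ⊕ Fin m) (Fin m ⊕ Fin m) F) * P⁻¹)
          = adj P⁻¹ * (adj (x : Matrix (Fin m ⊕ Fin m) (Fin m ⊕ Fin m) F) * (adj P' * P') *
              (x : Matrix (Fin m ⊕ Fin m) (Fin m ⊕ Fin m) F)) * P⁻¹ := by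
            rw [adj_mul, adj_mul]; simp only [Matrix.mul_assoc]
        _ = adj P⁻¹ * (adj P * P) * P⁻¹ := by rw [hxm]
        _ = adj (P * P⁻¹) * (P * P⁻¹) := by rw [adj_mul]; simp only [Matrix.mul_assoc]
        _ = 1 := by rw [hPi2, adj_one, Matrix.mul_one]
    have hsu : (P' * (x : Matrix (Fin m ⊕ Fin m) (Fin m ⊕ Fin m) F) * P⁻¹) * u =
        u' * (P' * (x : Matrix (Fin m ⊕ Fin m) (Fin m ⊕ Fin m) F) * P⁻¹) := by
      calc P' * (x : Matrix (Fin m ⊕ Fin m) (Fin m ⊕ Fin m) F) * P⁻¹ *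
            (u : Matrix (Fin m ⊕ Fin m) (Fin m ⊕ Fin m) F)
          = P' * (x : Matrix (Fin m ⊕ Fin m) (Fin m ⊕ Fin m) F) *
              (P⁻¹ * (u : Matrix (Fin m ⊕ Fin m) (Fin m ⊕ Fin m) F)) := by
            simp only [Matrix.mul_assoc]
        _ = P' * ((x : Matrix (Fin m ⊕ Fin m) (Fin m ⊕ Fin m) F) * u₀) * P⁻¹ := by
            rw [hP.inv_mul]; simp only [Matrix.mul_assoc]
        _ = (P' * u₀) * (x : Matrix (Fin m ⊕ Fin m) (Fin m ⊕ Fin m) F) * P⁻¹ := by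
            rw [hxc]; simp only [Matrix.mul_assoc]
        _ = (u' : Matrix (Fin m ⊕ Fin m) (Fin m ⊕ Fin m) F) *
              (P' * (x : Matrix (Fin m ⊕ Fin m) (Fin m ⊕ Fin m) F) * P⁻¹) := by
            rw [hP'.2]; simp only [Matrix.mul_assoc]
    let s : Matrix.symplecticGroup (Fin m) F := ⟨_, (adj_mul_self_iff _).mp hsm⟩
    have hs : s * u = u' * s := Subtype.ext hsu
    exact isConj_iff.mpr ⟨s, mul_inv_eq_iff_eq_mul.mpr hs⟩

end spconj

section base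

variable {F : Type*} [Field F] {m : ℕ}

theorem exists_similitude (d : F) (hd : d ≠ 0) :
    ∃ P : Matrix (Fin m ⊕ Fin m) (Fin m ⊕ Fin m) F, IsUnit P.det ∧ adj P * P = d • 1 := by
  refine ⟨Matrix.fromBlocks (d • 1) 0 0 1, ?_, ?_⟩
  · rw [Matrix.det_fromBlocks_zero₂₁, Matrix.det_one, mul_one, Matrix.det_smul, Matrix.det_one,
      mul_one]
    exact (isUnit_iff_ne_zero.mpr hd).pow _
  · unfold adj
    rw [Matrix.fromBlocks_transpose, J, Matrix.fromBlocks_multiply, Matrix.fromBlocks_multiply,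
      Matrix.fromBlocks_neg, Matrix.fromBlocks_multiply, ← Matrix.fromBlocks_one,
      Matrix.fromBlocks_smul]
    simp

theorem fromBlocks_upper_pow {n l : Type*} [Fintype n] [DecidableEq n] [Fintype l]
    [DecidableEq l] (X : Matrix n n F) (Y : Matrix n l F) (Z : Matrix l l F) (k : ℕ) :
    ∃ Y' : Matrix n l F,
      (Matrix.fromBlocks X Y 0 Z) ^ k = Matrix.fromBlocks (X ^ k) Y' 0 (Z ^ k) := by
  induction k with
  | zero => exact ⟨0, by rw [pow_zero, pow_zero, pow_zero, Matrix.fromBlocks_one]⟩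
  | succ k ih =>
    obtain ⟨Y', hY'⟩ := ih
    refine ⟨X ^ k * Y + Y' * Z, ?_⟩
    rw [pow_succ, hY', Matrix.fromBlocks_multiply, pow_succ, pow_succ]
    simp

theorem shiftT_mulVec (y : Fin m → F) (j : Fin m) (hj : (j : ℕ) + 1 < m) :
    ((S2578.shift m : Matrix (Fin m) (Fin m) F)ᵀ *ᵥ y) j = y ⟨(j : ℕ) + 1, hj⟩ := by
  rw [Matrix.mulVec, dotProduct, Finset.sum_eq_single ⟨(j : ℕ) + 1, hj⟩]
  · rw [Matrix.transpose_apply, S2578.shift_apply, if_pos rfl, one_mul]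
  · intro l _ hl
    rw [Matrix.transpose_apply, S2578.shift_apply, if_neg, zero_mul]
    intro h'
    exact hl (Fin.ext h'.symm)
  · intro h'; exact absurd (Finset.mem_univ _) h'

theorem shift_mulVec_zero (hm : 1 ≤ m) (x : Fin m → F) :
    ((S2578.shift m : Matrix (Fin m) (Fin m) F) *ᵥ x) ⟨0, hm⟩ = 0 := by
  rw [Matrix.mulVec, dotProduct]
  apply Finset.sum_eq_zero
  intro l _
  rw [S2578.shift_apply, if_neg (by simp), zero_mul]

/-- a regular unipotent element of `Sp_{2m}(F)` -/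
theorem exists_base (hm : 1 ≤ m) : ∃ u₀ : Matrix.symplecticGroup (Fin m) F,
    ((u₀ : Matrix (Fin m ⊕ Fin m) (Fin m ⊕ Fin m) F) - 1) ^ (2 * m) = 0 ∧
    ((u₀ : Matrix (Fin m ⊕ Fin m) (Fin m ⊕ Fin m) F) - 1).rank = 2 * m - 1 := by
  obtain ⟨S, hS⟩ : ∃ S : Matrix (Fin m) (Fin m) F, S = S2578.shift m := ⟨_, rfl⟩
  obtain ⟨A, hA⟩ : ∃ A : Matrix (Fin m) (Fin m) F, A = 1 + S := ⟨_, rfl⟩
  have hAdet : IsUnit A.det := by rw [hA, hS, S2578.det_one_add_shift]; exact isUnit_one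
  have hA1 : A⁻¹ * A = 1 := Matrix.nonsing_inv_mul A hAdet
  have hA2 : A * A⁻¹ = 1 := Matrix.mul_nonsing_inv A hAdet
  obtain ⟨z, hz⟩ : ∃ z : Fin m, z = ⟨0, hm⟩ := ⟨_, rfl⟩
  obtain ⟨B, hB⟩ : ∃ B : Matrix (Fin m) (Fin m) F, B = Matrix.single z z 1 := ⟨_, rfl⟩
  have hBT : Bᵀ = B := by rw [hB, Matrix.transpose_single]
  obtain ⟨Q, hQ⟩ : ∃ Q : Matrix (Fin m) (Fin m) F, Q = (A⁻¹)ᵀ := ⟨_, rfl⟩
  have hAQ : Aᵀ * Q = 1 := by rw [hQ, ← Matrix.transpose_mul, hA1, Matrix.transpose_one]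
  have hmem : (Matrix.fromBlocks A (A * B) 0 Q : Matrix (Fin m ⊕ Fin m) (Fin m ⊕ Fin m) F) ∈
      Matrix.symplecticGroup (Fin m) F := by
    have h1 := Helper5.diag_mem A Q hAQ
    have h2 := Helper5.upper_mem B hBT
    have := mul_mem h1 h2
    rw [Matrix.fromBlocks_multiply] at this
    simpa using this
  have hN : (Matrix.fromBlocks A (A * B) 0 Q : Matrix (Fin m ⊕ Fin m) (Fin m ⊕ Fin m) F) - 1 =
      Matrix.fromBlocks S (A * B) 0 (Q - 1) := by
    rw [sub_eq_add_neg, ← Matrix.fromBlocks_one, Matrix.fromBlocks_neg, Matrix.fromBlocks_add]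
    have e1 : A + -1 = S := by rw [hA]; abel
    have e2 : A * B + -0 = A * B := by simp
    have e3 : (0 : Matrix (Fin m) (Fin m) F) + -0 = 0 := by simp
    have e4 : Q + -1 = Q - 1 := (sub_eq_add_neg Q 1).symm
    rw [e1, e2, e3, e4]
  have hSm : S ^ m = 0 := by rw [hS]; exact S2578.shift_pow_self m
  have hZm : (Q - 1) ^ m = 0 := by
    have e1 : A⁻¹ - 1 = -(A⁻¹ * S) := by
      have : A⁻¹ * (1 + S) = 1 := by rw [← hA]; exact hA1
      rw [mul_add, mul_one] at this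
      rw [← this]; abel
    have e2 : A⁻¹ - 1 = -(S * A⁻¹) := by
      have : (1 + S) * A⁻¹ = 1 := by rw [← hA]; exact hA2
      rw [add_mul, one_mul] at this
      rw [← this]; abel
    have hcomm : Commute A⁻¹ S := neg_injective (e1.symm.trans e2)
    have e3 : Q - 1 = (A⁻¹ - 1)ᵀ := by rw [hQ, Matrix.transpose_sub, Matrix.transpose_one]
    rw [e3, ← Matrix.transpose_pow, e1, neg_pow, hcomm.mul_pow, hSm, Matrix.mul_zero, mul_zero,
      Matrix.transpose_zero]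
  have hnil : (Matrix.fromBlocks S (A * B) 0 (Q - 1) :
      Matrix (Fin m ⊕ Fin m) (Fin m ⊕ Fin m) F) ^ (2 * m) = 0 := by
    obtain ⟨Y', hY'⟩ := fromBlocks_upper_pow S (A * B) (Q - 1) m
    rw [mul_comm 2 m, pow_mul, hY', hSm, hZm, pow_two, Matrix.fromBlocks_multiply]
    simp
  refine ⟨⟨_, hmem⟩, ?_, ?_⟩
  · show ((Matrix.fromBlocks A (A * B) 0 Q : Matrix (Fin m ⊕ Fin m) (Fin m ⊕ Fin m) F) - 1) ^
      (2 * m) = 0
    rw [hN]; exact hnil
  · show ((Matrix.fromBlocks A (A * B) 0 Q : Matrix (Fin m ⊕ Fin m) (Fin m ⊕ Fin m) F) -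
      1).rank = 2 * m - 1
    rw [hN]
    obtain ⟨N, hNdef⟩ : ∃ N : Matrix (Fin m ⊕ Fin m) (Fin m ⊕ Fin m) F,
        N = Matrix.fromBlocks S (A * B) 0 (Q - 1) := ⟨_, rfl⟩
    rw [← hNdef] at hnil ⊢
    have hdimV : Module.finrank F (Fin m ⊕ Fin m → F) = 2 * m := by
      rw [Module.finrank_fintype_fun_eq_card]
      simp [two_mul]
    have h1 := LinearMap.finrank_range_add_finrank_ker (Matrix.mulVecLin N)
    rw [hdimV] at h1
    have h2 : 1 ≤ Module.finrank F (LinearMap.ker (Matrix.mulVecLin N)) := by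
      have h := finrank_ker_pow_le (Matrix.mulVecLin N) (2 * m)
      rw [← mulVecLin_pow, hnil] at h
      have h0 : LinearMap.ker (Matrix.mulVecLin
          (0 : Matrix (Fin m ⊕ Fin m) (Fin m ⊕ Fin m) F)) = ⊤ := by
        rw [Matrix.mulVecLin_zero]; exact LinearMap.ker_zero
      rw [h0, finrank_top, hdimV] at h
      by_contra hcon
      have h00 : Module.finrank F (LinearMap.ker (Matrix.mulVecLin N)) = 0 := by omega
      rw [h00] at h; omega
    have h3 : Module.finrank F (LinearMap.ker (Matrix.mulVecLin N)) ≤ 1 := by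
      let f : LinearMap.ker (Matrix.mulVecLin N) →ₗ[F] F :=
        (LinearMap.proj (Sum.inl ⟨m - 1, by omega⟩ : Fin m ⊕ Fin m)).comp (Submodule.subtype _)
      have hf : Function.Injective f := by
        rw [← LinearMap.ker_eq_bot, LinearMap.ker_eq_bot']
        intro w hw
        have hw0 : N *ᵥ (w : Fin m ⊕ Fin m → F) = 0 := w.2
        have hlast : (w : Fin m ⊕ Fin m → F) (Sum.inl ⟨m - 1, by omega⟩) = 0 := hw
        obtain ⟨x, hx⟩ : ∃ x : Fin m → F, x = (w : Fin m ⊕ Fin m → F) ∘ Sum.inl := ⟨_, rfl⟩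
        obtain ⟨y, hy⟩ : ∃ y : Fin m → F, y = (w : Fin m ⊕ Fin m → F) ∘ Sum.inr := ⟨_, rfl⟩
        have hw_eq : (w : Fin m ⊕ Fin m → F) = Sum.elim x y := by
          rw [hx, hy]; exact (Sum.elim_comp_inl_inr _).symm
        rw [hw_eq, hNdef, Matrix.fromBlocks_mulVec] at hw0
        have hinl : S *ᵥ x + (A * B) *ᵥ y = 0 := by
          funext i; exact congrFun hw0 (Sum.inl i)
        have hinr : (Q - 1) *ᵥ y = 0 := by
          funext i
          have := congrFun hw0 (Sum.inr i)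
          simpa using this
        have hQy : Q *ᵥ y = y := by
          rw [Matrix.sub_mulVec, Matrix.one_mulVec] at hinr
          exact sub_eq_zero.mp hinr
        have hSTy : Sᵀ *ᵥ y = 0 := by
          have h5 : Aᵀ *ᵥ (Q *ᵥ y) = y := by
            rw [Matrix.mulVec_mulVec, hAQ, Matrix.one_mulVec]
          rw [hQy, hA, Matrix.transpose_add, Matrix.transpose_one, Matrix.add_mulVec,
            Matrix.one_mulVec] at h5
          exact add_left_cancel (a := y) (by rw [h5, add_zero])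
        have hy_pos : ∀ l : Fin m, (l : ℕ) ≠ 0 → y l = 0 := by
          intro l hl
          have hj : (l : ℕ) - 1 + 1 < m := by have := l.isLt; omega
          have h6 := congrFun hSTy ⟨(l : ℕ) - 1, by omega⟩
          rw [hS, shiftT_mulVec y ⟨(l : ℕ) - 1, by omega⟩ hj] at h6
          have e : (⟨(l : ℕ) - 1 + 1, hj⟩ : Fin m) = l := Fin.ext (by simp; omega)
          rw [e] at h6
          exact h6
        have hyz : y z = 0 := by
          have h6 := congrFun hinl z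
          rw [Pi.add_apply, hS, hz, shift_mulVec_zero hm x, zero_add, ← hz,
            ← Matrix.mulVec_mulVec, hB, Matrix.single_mulVec, one_mul] at h6
          have h7 : (A *ᵥ Function.update (0 : Fin m → F) z (y z)) z = A z z * y z := by
            rw [Matrix.mulVec, dotProduct, Finset.sum_eq_single z]
            · rw [Function.update_self]
            · intro l _ hl
              rw [Function.update_of_ne hl]
              simp
            · intro h'; exact absurd (Finset.mem_univ _) h'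
          rw [h7, hA, Matrix.add_apply, Matrix.one_apply_eq, hS, S2578.shift_apply, if_neg (by omega),
            add_zero, one_mul] at h6
          exact h6
        have hy0 : y = 0 := by
          funext l
          by_cases hl : (l : ℕ) = 0
          · have : l = z := by rw [hz]; exact Fin.ext hl
            rw [this]; exact hyz
          · exact hy_pos l hl
        have hSx : S *ᵥ x = 0 := by
          rw [hy0, Matrix.mulVec_zero, add_zero] at hinl; exact hinl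
        have hx0 : x = 0 := by
          funext j
          by_cases hj : (j : ℕ) + 1 < m
          · have h6 := congrFun hSx ⟨(j : ℕ) + 1, hj⟩
            rw [hS, S2578.shift_mulVec_succ] at h6
            exact h6
          · have hj' : j = ⟨m - 1, by omega⟩ := Fin.ext (by have := j.isLt; simp; omega)
            rw [hj', hx]; exact hlast
        apply Subtype.ext
        rw [hw_eq, hx0, hy0]
        funext i
        rcases i with i | i <;> rfl
      have := LinearMap.finrank_le_finrank_of_injective hf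
      rwa [Module.finrank_self] at this
    show Module.finrank F (LinearMap.range (Matrix.mulVecLin N)) = 2 * m - 1
    omega

/-- conjugating a regular unipotent symplectic matrix by a symplectic similitude -/
theorem exists_conj_of_similitude (u₀ : Matrix.symplecticGroup (Fin m) F) (n : ℕ)
    (hnil : ((u₀ : Matrix (Fin m ⊕ Fin m) (Fin m ⊕ Fin m) F) - 1) ^ n = 0)
    (P : Matrix (Fin m ⊕ Fin m) (Fin m ⊕ Fin m) F) (hPdet : IsUnit P.det) (d : F) (hd : d ≠ 0)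
    (hPd : adj P * P = d • 1) :
    ∃ u : Matrix.symplecticGroup (Fin m) F,
      ((u : Matrix (Fin m ⊕ Fin m) (Fin m ⊕ Fin m) F) - 1) ^ n = 0 ∧
      ((u : Matrix (Fin m ⊕ Fin m) (Fin m ⊕ Fin m) F) - 1).rank =
        ((u₀ : Matrix (Fin m ⊕ Fin m) (Fin m ⊕ Fin m) F) - 1).rank ∧
      GoodSp (u₀ : Matrix (Fin m ⊕ Fin m) (Fin m ⊕ Fin m) F)
        (u : Matrix (Fin m ⊕ Fin m) (Fin m ⊕ Fin m) F) P := by
  have h1 : P⁻¹ * P = 1 := Matrix.nonsing_inv_mul P hPdet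
  have h2 : P * P⁻¹ = 1 := Matrix.mul_nonsing_inv P hPdet
  have hu₀ : adj (u₀ : Matrix (Fin m ⊕ Fin m) (Fin m ⊕ Fin m) F) * u₀ = 1 :=
    (adj_mul_self_iff _).mpr u₀.2
  have hPd' : P * adj P = d • 1 := by
    have e1 : (d⁻¹ • adj P) * P = 1 := by
      rw [Matrix.smul_mul, hPd, smul_smul, inv_mul_cancel₀ hd, one_smul]
    have e2 := mul_eq_one_comm.mp e1
    rw [Matrix.mul_smul] at e2
    rw [← one_smul F (P * adj P), ← mul_inv_cancel₀ hd, mul_smul, e2]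
  have hinv : adj P⁻¹ * P⁻¹ = d⁻¹ • 1 := by
    have e1 : adj P⁻¹ * P⁻¹ * (P * adj P) = 1 := by
      calc adj P⁻¹ * P⁻¹ * (P * adj P) = adj P⁻¹ * (P⁻¹ * P) * adj P := by
            simp only [Matrix.mul_assoc]
        _ = adj (P * P⁻¹) := by rw [h1, Matrix.mul_one, adj_mul]
        _ = 1 := by rw [h2, adj_one]
    rw [hPd', Matrix.mul_smul, Matrix.mul_one] at e1
    rw [← one_smul F (adj P⁻¹ * P⁻¹), ← inv_mul_cancel₀ hd, mul_smul, e1]
  have hsp : adj (P * (u₀ : Matrix (Fin m ⊕ Fin m) (Fin m ⊕ Fin m) F) * P⁻¹) *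
      (P * (u₀ : Matrix (Fin m ⊕ Fin m) (Fin m ⊕ Fin m) F) * P⁻¹) = 1 := by
    calc adj (P * (u₀ : Matrix (Fin m ⊕ Fin m) (Fin m ⊕ Fin m) F) * P⁻¹) *
          (P * (u₀ : Matrix (Fin m ⊕ Fin m) (Fin m ⊕ Fin m) F) * P⁻¹)
        = adj P⁻¹ * adj (u₀ : Matrix (Fin m ⊕ Fin m) (Fin m ⊕ Fin m) F) * (adj P * P) *
            (u₀ : Matrix (Fin m ⊕ Fin m) (Fin m ⊕ Fin m) F) * P⁻¹ := by
          rw [adj_mul, adj_mul]; simp only [Matrix.mul_assoc]
      _ = d • (adj P⁻¹ * (adj (u₀ : Matrix (Fin m ⊕ Fin m) (Fin m ⊕ Fin m) F) *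
            (u₀ : Matrix (Fin m ⊕ Fin m) (Fin m ⊕ Fin m) F)) * P⁻¹) := by
          rw [hPd]
          simp only [Matrix.mul_smul, Matrix.smul_mul, Matrix.mul_one, Matrix.mul_assoc]
      _ = 1 := by
          rw [hu₀, Matrix.mul_one, hinv, smul_smul, mul_inv_cancel₀ hd, one_smul]
  have hsub : P * (u₀ : Matrix (Fin m ⊕ Fin m) (Fin m ⊕ Fin m) F) * P⁻¹ - 1 =
      P * ((u₀ : Matrix (Fin m ⊕ Fin m) (Fin m ⊕ Fin m) F) - 1) * P⁻¹ := by
    rw [mul_sub, mul_one, sub_mul, h2]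
  have hpow : ∀ k : ℕ, (P * ((u₀ : Matrix (Fin m ⊕ Fin m) (Fin m ⊕ Fin m) F) - 1) * P⁻¹) ^ k =
      P * ((u₀ : Matrix (Fin m ⊕ Fin m) (Fin m ⊕ Fin m) F) - 1) ^ k * P⁻¹ := by
    intro k
    induction k with
    | zero => simp [h2]
    | succ k ih =>
      rw [pow_succ, ih, pow_succ]
      calc P * ((u₀ : Matrix (Fin m ⊕ Fin m) (Fin m ⊕ Fin m) F) - 1) ^ k * P⁻¹ *
            (P * ((u₀ : Matrix (Fin m ⊕ Fin m) (Fin m ⊕ Fin m) F) - 1) * P⁻¹)
          = P * ((u₀ : Matrix (Fin m ⊕ Fin m) (Fin m ⊕ Fin m) F) - 1) ^ k * (P⁻¹ * P) *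
              ((u₀ : Matrix (Fin m ⊕ Fin m) (Fin m ⊕ Fin m) F) - 1) * P⁻¹ := by
            simp only [Matrix.mul_assoc]
        _ = _ := by rw [h1, Matrix.mul_one]; simp only [Matrix.mul_assoc]
  refine ⟨⟨_, (adj_mul_self_iff _).mp hsp⟩, ?_, ?_, hPdet, ?_⟩
  · show (P * (u₀ : Matrix (Fin m ⊕ Fin m) (Fin m ⊕ Fin m) F) * P⁻¹ - 1) ^ n = 0
    rw [hsub, hpow, hnil]; simp
  · show (P * (u₀ : Matrix (Fin m ⊕ Fin m) (Fin m ⊕ Fin m) F) * P⁻¹ - 1).rank = _
    rw [hsub, Matrix.rank_mul_eq_left_of_isUnit_det _ _ (Matrix.isUnit_nonsing_inv_det P hPdet),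
      Matrix.rank_mul_eq_right_of_isUnit_det _ _ hPdet]
  · show P * (u₀ : Matrix (Fin m ⊕ Fin m) (Fin m ⊕ Fin m) F) =
      P * (u₀ : Matrix (Fin m ⊕ Fin m) (Fin m ⊕ Fin m) F) * P⁻¹ * P
    rw [Matrix.mul_assoc, h1, Matrix.mul_one]

end base

end Cfsg.Agent.Helper43
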