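import Mathlib
import Cfsg.Agent.Helper43.JordanRank
import Cfsg.Agent.Helper43.RegUnipSp2

set_option autoImplicit false

namespace Cfsg.Agent.Helper43.JordanForms

open Matrix

/-- a class of square matrices ("forms") closed under the operations we need -/
structure FormClass (F : Type*) [Field F] where
  P : ∀ {ι : Type} [Fintype ι], Matrix ι ι F → Prop
  sub : ∀ {ι ι' : Type} [Fintype ι] [Fintype ι'] (e : ι' ≃ ι) (G : Matrix ι ι F),
    P G → P (G.submatrix e e)
  congr : ∀ {ι : Type} [Fintype ι] (G A : Matrix ι ι F), P G → P (Aᵀ * G * A)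
  blocks : ∀ {ι₁ ι₂ : Type} [Fintype ι₁] [Fintype ι₂] (G₁ : Matrix ι₁ ι₁ F)
    (G₂ : Matrix ι₂ ι₂ F), P G₁ → P G₂ → P (Matrix.fromBlocks G₁ 0 0 G₂)
  empty : ∀ {ι : Type} [Fintype ι] [IsEmpty ι] (G : Matrix ι ι F), P G
  sgn : F
  sgn_ne : sgn ≠ 0
  dbl : ∀ {ι : Type} [Fintype ι] (H : Matrix ι ι F), P (Matrix.fromBlocks 0 H (sgn • Hᵀ) 0)

variable {F : Type*} [Field F]

/-- alternating matrices -/
def altClass (F : Type*) [Field F] : FormClass F where
  P := fun {ι} _ G => ∀ x : ι → F, x ⬝ᵥ G *ᵥ x = 0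
  sub := by
    intro ι ι' _ _ e G h x
    have := h (x ∘ e.symm)
    rw [Matrix.submatrix_mulVec_equiv, ← this]
    exact (comp_equiv_symm_dotProduct _ _ e).symm
  congr := by
    intro ι _ G A h x
    have := h (A *ᵥ x)
    rw [Matrix.mul_assoc, ← Matrix.mulVec_mulVec, Matrix.dotProduct_mulVec,
      Matrix.vecMul_transpose, ← Matrix.mulVec_mulVec]
    exact this
  blocks := by
    intro ι₁ ι₂ _ _ G₁ G₂ h₁ h₂ x
    have key : ∀ (a : ι₁ → F) (b : ι₂ → F),
        (Sum.elim a b) ⬝ᵥ Matrix.fromBlocks G₁ 0 0 G₂ *ᵥ (Sum.elim a b) = 0 := by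
      intro a b
      rw [Matrix.fromBlocks_mulVec, sumElim_dotProduct_sumElim]
      simp [h₁, h₂]
    rw [← Sum.elim_comp_inl_inr x]
    exact key _ _
  empty := by
    intro ι _ _ G x
    simp [dotProduct]
  sgn := -1
  sgn_ne := by simp
  dbl := by
    intro ι _ H x
    have key : ∀ (a b : ι → F),
        (Sum.elim a b) ⬝ᵥ Matrix.fromBlocks 0 H ((-1 : F) • Hᵀ) 0 *ᵥ (Sum.elim a b) = 0 := by
      intro a b
      rw [Matrix.fromBlocks_mulVec, sumElim_dotProduct_sumElim]
      simp only [Matrix.zero_mulVec, zero_add, add_zero, neg_smul, one_smul, Matrix.neg_mulVec,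
        dotProduct_neg, Sum.elim_comp_inl, Sum.elim_comp_inr]
      rw [dotProduct_comm b, Matrix.mulVec_transpose, ← Matrix.dotProduct_mulVec, add_neg_cancel]
    rw [← Sum.elim_comp_inl_inr x]
    exact key _ _

/-- symmetric matrices -/
def symClass (F : Type*) [Field F] : FormClass F where
  P := fun {ι} _ G => Gᵀ = G
  sub := by
    intro ι ι' _ _ e G h
    rw [Matrix.transpose_submatrix, h]
  congr := by
    intro ι _ G A h
    rw [Matrix.transpose_mul, Matrix.transpose_mul, Matrix.transpose_transpose, h, Matrix.mul_assoc]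
  blocks := by
    intro ι₁ ι₂ _ _ G₁ G₂ h₁ h₂
    rw [Matrix.fromBlocks_transpose, h₁, h₂]
    simp
  empty := by
    intro ι _ _ G
    exact Subsingleton.elim _ _
  sgn := 1
  sgn_ne := one_ne_zero
  dbl := by
    intro ι _ H
    rw [Matrix.fromBlocks_transpose]
    simp

/-- `M` preserves an invertible form of the class `C` -/
def Inv (C : FormClass F) {ι : Type} [Fintype ι] [DecidableEq ι] (M : Matrix ι ι F) : Prop :=
  ∃ G : Matrix ι ι F, IsUnit G.det ∧ C.P G ∧ Mᵀ * G * M = G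

/-- `M` preserves an invertible bilinear form -/
def InvAny {ι : Type} [Fintype ι] [DecidableEq ι] (M : Matrix ι ι F) : Prop :=
  ∃ G : Matrix ι ι F, IsUnit G.det ∧ Mᵀ * G * M = G

theorem Inv.submatrix {C : FormClass F} {ι ι' : Type} [Fintype ι] [DecidableEq ι] [Fintype ι']
    [DecidableEq ι'] {M : Matrix ι ι F} (h : Inv C M) (e : ι' ≃ ι) : Inv C (M.submatrix e e) := by
  obtain ⟨G, hG, hP, hM⟩ := h
  refine ⟨G.submatrix e e, ?_, C.sub e G hP, ?_⟩
  · rwa [Matrix.det_submatrix_equiv_self]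
  · rw [Matrix.transpose_submatrix, Matrix.submatrix_mul_equiv, Matrix.submatrix_mul_equiv, hM]

theorem InvAny.submatrix {ι ι' : Type} [Fintype ι] [DecidableEq ι] [Fintype ι']
    [DecidableEq ι'] {M : Matrix ι ι F} (h : InvAny M) (e : ι' ≃ ι) :
    InvAny (M.submatrix e e) := by
  obtain ⟨G, hG, hM⟩ := h
  refine ⟨G.submatrix e e, ?_, ?_⟩
  · rwa [Matrix.det_submatrix_equiv_self]
  · rw [Matrix.transpose_submatrix, Matrix.submatrix_mul_equiv, Matrix.submatrix_mul_equiv, hM]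

theorem Inv.fromBlocks {C : FormClass F} {ι₁ ι₂ : Type} [Fintype ι₁] [DecidableEq ι₁] [Fintype ι₂]
    [DecidableEq ι₂] {M₁ : Matrix ι₁ ι₁ F} {M₂ : Matrix ι₂ ι₂ F} (h₁ : Inv C M₁) (h₂ : Inv C M₂) :
    Inv C (Matrix.fromBlocks M₁ 0 0 M₂) := by
  obtain ⟨G₁, hG₁, hP₁, hM₁⟩ := h₁
  obtain ⟨G₂, hG₂, hP₂, hM₂⟩ := h₂
  refine ⟨Matrix.fromBlocks G₁ 0 0 G₂, ?_, C.blocks G₁ G₂ hP₁ hP₂, ?_⟩
  · rw [Matrix.det_fromBlocks_zero₂₁]; exact hG₁.mul hG₂
  · rw [Matrix.fromBlocks_transpose, Matrix.fromBlocks_multiply, Matrix.fromBlocks_multiply]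
    simp [hM₁, hM₂]

theorem InvAny.double (C : FormClass F) {ι : Type} [Fintype ι] [DecidableEq ι] {M : Matrix ι ι F}
    (h : InvAny M) : Inv C (Matrix.fromBlocks M 0 0 M) := by
  obtain ⟨H, hH, hM⟩ := h
  have hMT : Mᵀ * Hᵀ * M = Hᵀ := by
    have := congrArg Matrix.transpose hM
    rw [Matrix.transpose_mul, Matrix.transpose_mul, Matrix.transpose_transpose,
      ← Matrix.mul_assoc] at this
    exact this
  refine ⟨Matrix.fromBlocks 0 H (C.sgn • Hᵀ) 0, ?_, C.dbl H, ?_⟩
  · apply Matrix.isUnit_det_of_right_inverse (B := Matrix.fromBlocks 0 (C.sgn⁻¹ • (H⁻¹)ᵀ) H⁻¹ 0)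
    rw [Matrix.fromBlocks_multiply]
    have h1 : H * H⁻¹ = 1 := Matrix.mul_nonsing_inv H hH
    have h2 : Hᵀ * (H⁻¹)ᵀ = 1 := by
      rw [← Matrix.transpose_mul, Matrix.nonsing_inv_mul H hH, Matrix.transpose_one]
    simp only [Matrix.zero_mul, Matrix.mul_zero, zero_add, add_zero, h1, Matrix.smul_mul,
      Matrix.mul_smul, h2, smul_smul, inv_mul_cancel₀ C.sgn_ne, one_smul, smul_zero]
    rw [Matrix.fromBlocks_one]
  · rw [Matrix.fromBlocks_transpose, Matrix.fromBlocks_multiply, Matrix.fromBlocks_multiply]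
    simp only [Matrix.zero_mul, Matrix.mul_zero, zero_add, add_zero, Matrix.transpose_zero,
      Matrix.smul_mul, Matrix.mul_smul, hM, hMT, smul_zero]

theorem submatrix_pow' {ι ι' : Type*} [Fintype ι] [DecidableEq ι] [Fintype ι'] [DecidableEq ι']
    (M : Matrix ι ι F) (e : ι' ≃ ι) (k : ℕ) : (M.submatrix e e) ^ k = (M ^ k).submatrix e e := by
  induction k with
  | zero => rw [pow_zero, pow_zero, Matrix.submatrix_one_equiv]
  | succ k ih => rw [pow_succ, pow_succ, ih, Matrix.submatrix_mul_equiv]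

/-- transfer lemma: a regular unipotent isometry of a form of class `C` yields an invariant form
of class `C` for the Jordan block -/
theorem transfer (C : FormClass F) {ι : Type} [Fintype ι] [DecidableEq ι] (j : ℕ) (hj : 0 < j)
    (ε : ι ≃ Fin j) (u G : Matrix ι ι F) (hG : IsUnit G.det) (hP : C.P G)
    (hu : uᵀ * G * u = G) (hnil : (u - 1) ^ j = 0) (hrank : (u - 1).rank = j - 1) :
    Inv C (Cfsg.jordanBlock j F) := by
  set u' : Matrix (Fin j) (Fin j) F := u.submatrix ε.symm ε.symm with hu'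
  set G' : Matrix (Fin j) (Fin j) F := G.submatrix ε.symm ε.symm with hG'
  have hG'det : IsUnit G'.det := by rwa [hG', Matrix.det_submatrix_equiv_self]
  have hu'G : u'ᵀ * G' * u' = G' := by
    rw [hu', hG', Matrix.transpose_submatrix, Matrix.submatrix_mul_equiv,
      Matrix.submatrix_mul_equiv, hu]
  have hsub : u' - 1 = (u - 1).submatrix ε.symm ε.symm := by
    rw [hu']
    ext a b
    simp [Matrix.submatrix_apply, Matrix.sub_apply, Matrix.one_apply]
  have hnil' : (u' - 1) ^ j = 0 := by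
    rw [hsub, submatrix_pow', hnil]
    rfl
  have hrank' : (u' - 1).rank = j - 1 := by
    rw [hsub, Matrix.rank_submatrix, hrank]
  obtain ⟨P, hPdet, hPN⟩ := Cfsg.Agent.S2578.exists_conj_shift j hj (u' - 1) hnil' hrank'
  have hPJ : P * Cfsg.jordanBlock j F = u' * P := by
    rw [JordanRank.jordanBlock_eq, mul_add, mul_one, hPN, sub_mul, one_mul]; abel
  refine ⟨Pᵀ * G' * P, ?_, C.congr G' P (C.sub ε.symm G hP), ?_⟩
  · rw [Matrix.det_mul, Matrix.det_mul, Matrix.det_transpose]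
    exact (hPdet.mul hG'det).mul hPdet
  · calc (Cfsg.jordanBlock j F)ᵀ * (Pᵀ * G' * P) * Cfsg.jordanBlock j F
        = (P * Cfsg.jordanBlock j F)ᵀ * G' * (P * Cfsg.jordanBlock j F) := by
          rw [Matrix.transpose_mul]; simp only [Matrix.mul_assoc]
      _ = Pᵀ * (u'ᵀ * G' * u') * P := by
          rw [hPJ, Matrix.transpose_mul]; simp only [Matrix.mul_assoc]
      _ = Pᵀ * G' * P := by rw [hu'G]

/-- every Jordan block preserves an invertible bilinear form -/
theorem invAny_jordanBlock (j : ℕ) (hj : 0 < j) : InvAny (Cfsg.jordanBlock j F) := by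
  obtain ⟨N, hN⟩ : ∃ N : Matrix (Fin j) (Fin j) F, N = Cfsg.Agent.S2578.shift j := ⟨_, rfl⟩
  obtain ⟨J, hJ⟩ : ∃ J : Matrix (Fin j) (Fin j) F, J = 1 + N := ⟨_, rfl⟩
  have hJB : Cfsg.jordanBlock j F = J := by rw [hJ, hN, JordanRank.jordanBlock_eq]
  have hdet : IsUnit J.det := by
    rw [hJ, hN, Cfsg.Agent.S2578.det_one_add_shift]; exact isUnit_one
  have hJW : J * J⁻¹ = 1 := Matrix.mul_nonsing_inv J hdet
  have hWJ : J⁻¹ * J = 1 := Matrix.nonsing_inv_mul J hdet
  have hNJ : Commute N J := by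
    rw [hJ]; exact (Commute.one_right N).add_right (Commute.refl N)
  have hNW : Commute N J⁻¹ := by
    have h1 : J⁻¹ * N * J = N := by
      rw [mul_assoc, hNJ.eq, ← mul_assoc, hWJ, one_mul]
    have h2 : J⁻¹ * N = N * J⁻¹ := by
      calc J⁻¹ * N = J⁻¹ * N * (J * J⁻¹) := by rw [hJW, mul_one]
        _ = (J⁻¹ * N * J) * J⁻¹ := by simp only [mul_assoc]
        _ = N * J⁻¹ := by rw [h1]
    exact h2.symm
  have hW1 : J⁻¹ - 1 = (-J⁻¹) * N := by
    have : J⁻¹ * (1 + N) = 1 := by rw [← hJ, hWJ]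
    rw [mul_add, mul_one] at this
    rw [neg_mul]
    rw [← this]; abel
  have hnil : ((J⁻¹)ᵀ - 1) ^ j = 0 := by
    have : (J⁻¹)ᵀ - 1 = (J⁻¹ - 1)ᵀ := by rw [Matrix.transpose_sub, Matrix.transpose_one]
    rw [this, ← Matrix.transpose_pow, hW1, (hNW.symm.neg_left).mul_pow, hN,
      Cfsg.Agent.S2578.shift_pow_self, mul_zero, Matrix.transpose_zero]
  have hrank : ((J⁻¹)ᵀ - 1).rank = j - 1 := by
    have : (J⁻¹)ᵀ - 1 = (J⁻¹ - 1)ᵀ := by rw [Matrix.transpose_sub, Matrix.transpose_one]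
    have hu : IsUnit (-J⁻¹).det := by
      have h1 : IsUnit (-J⁻¹ : Matrix (Fin j) (Fin j) F) :=
        (IsUnit.of_mul_eq_one _ hWJ).neg
      exact (Matrix.isUnit_iff_isUnit_det _).mp h1
    rw [this, Matrix.rank_transpose, hW1, Matrix.rank_mul_eq_right_of_isUnit_det _ _ hu, hN,
      Cfsg.Agent.S2578.shift_rank j hj]
  obtain ⟨P, hPdet, hPN⟩ := Cfsg.Agent.S2578.exists_conj_shift j hj _ hnil hrank
  refine ⟨P, hPdet, ?_⟩
  rw [hJB]
  have hPJ : P * J = (J⁻¹)ᵀ * P := by
    have e1 : P * J = P + P * N := by rw [hJ, mul_add, mul_one]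
    rw [e1, hN, hPN, sub_mul, one_mul]; abel
  rw [mul_assoc, hPJ, ← mul_assoc, ← Matrix.transpose_mul, hWJ, Matrix.transpose_one, one_mul]

/-- an even Jordan block preserves an invertible alternating form -/
theorem inv_alt_jordanBlock (m : ℕ) (hm : 1 ≤ m) :
    Inv (altClass F) (Cfsg.jordanBlock (2 * m) F) := by
  obtain ⟨u₀, h1, h2⟩ := Cfsg.Agent.Helper43.exists_base (F := F) hm
  refine transfer (altClass F) (2 * m) (by omega)
    (finSumFinEquiv.trans (finCongr (two_mul m).symm))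
    (u₀ : Matrix (Fin m ⊕ Fin m) (Fin m ⊕ Fin m) F) (Matrix.J (Fin m) F)
    (Matrix.isUnit_det_J (Fin m) F) ?_ (SymplecticGroup.mem_iff'.mp u₀.2) h1 h2
  intro x
  exact Cfsg.Agent.Helper43.SpSemi.J_alt x

/-- the anti-diagonal matrix with alternating signs -/
def symG (j : ℕ) (F : Type*) [Field F] : Matrix (Fin j) (Fin j) F :=
  Matrix.of fun a b => if (a : ℕ) + b + 1 = j then (-1 : F) ^ (a : ℕ) else 0

theorem symG_apply (j : ℕ) (a b : Fin j) :
    symG j F a b = if (a : ℕ) + b + 1 = j then (-1 : F) ^ (a : ℕ) else 0 := rfl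

theorem symG_transpose (j : ℕ) (hj : Odd j) : (symG j F)ᵀ = symG j F := by
  ext a b
  rw [Matrix.transpose_apply, symG_apply, symG_apply]
  by_cases h : (a : ℕ) + b + 1 = j
  · rw [if_pos h, if_pos (by omega)]
    obtain ⟨l, hl⟩ := hj
    have hab : (b : ℕ) = (a : ℕ) + 2 * (l - a) ∨ (a : ℕ) = (b : ℕ) + 2 * (l - b) := by omega
    rcases hab with hab | hab
    · rw [hab, pow_add, pow_mul]; simp
    · conv_rhs => rw [hab]
      rw [pow_add, pow_mul]; simp
  · rw [if_neg h, if_neg (by omega)]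

theorem symG_mul_transpose (j : ℕ) : symG j F * (symG j F)ᵀ = 1 := by
  ext a c
  rw [Matrix.mul_apply, Matrix.one_apply]
  simp only [Matrix.transpose_apply, symG_apply]
  have ha := a.isLt
  rw [Finset.sum_eq_single ⟨j - 1 - a, by omega⟩]
  · rw [if_pos (by simp; omega)]
    by_cases hac : a = c
    · subst hac
      rw [if_pos (by simp; omega), if_pos rfl, ← mul_pow]; simp
    · rw [if_neg hac, if_neg, mul_zero]
      intro h
      apply hac
      apply Fin.ext
      simp at h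
      omega
  · intro b _ hb
    rw [if_neg, zero_mul]
    intro h
    apply hb
    apply Fin.ext
    simp
    omega
  · intro h; exact absurd (Finset.mem_univ _) h

theorem symG_skew (j : ℕ) :
    (Cfsg.Agent.S2578.shift j : Matrix (Fin j) (Fin j) F)ᵀ * symG j F =
      -(symG j F * Cfsg.Agent.S2578.shift j) := by
  ext a b
  rw [Matrix.mul_apply, Matrix.neg_apply, Matrix.mul_apply]
  simp only [Matrix.transpose_apply, Cfsg.Agent.S2578.shift_apply, symG_apply]
  by_cases h : (a : ℕ) + b + 2 = j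
  · have ha : (a : ℕ) + 1 < j := by omega
    have hb : (b : ℕ) + 1 < j := by omega
    rw [Finset.sum_eq_single ⟨a + 1, ha⟩, Finset.sum_eq_single ⟨b + 1, hb⟩]
    · rw [if_pos rfl, if_pos (by simp; omega), if_pos (by simp; omega), if_pos rfl]
      simp only [one_mul, mul_one]
      rw [pow_succ]; ring
    · intro c _ hc
      rw [if_neg (c := (b : ℕ) + 1 = c), mul_zero]
      intro h'
      exact hc (Fin.ext h'.symm)
    · intro h'; exact absurd (Finset.mem_univ _) h'
    · intro c _ hc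
      rw [if_neg (c := (a : ℕ) + 1 = c), zero_mul]
      intro h'
      exact hc (Fin.ext h'.symm)
    · intro h'; exact absurd (Finset.mem_univ _) h'
  · rw [Finset.sum_eq_zero, Finset.sum_eq_zero, neg_zero]
    · intro c _
      by_cases h1 : (b : ℕ) + 1 = c
      · rw [if_neg (by omega), zero_mul]
      · rw [if_neg h1, mul_zero]
    · intro c _
      by_cases h1 : (a : ℕ) + 1 = c
      · rw [if_neg (c := (c : ℕ) + b + 1 = j) (by omega), mul_zero]
      · rw [if_neg h1, zero_mul]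

/-- an odd Jordan block preserves an invertible symmetric form (characteristic not two) -/
theorem inv_sym_jordanBlock (h2 : (2 : F) ≠ 0) (j : ℕ) (hj : Odd j) :
    Inv (symClass F) (Cfsg.jordanBlock j F) := by
  have hj0 : 0 < j := hj.pos
  obtain ⟨N, hN⟩ : ∃ N : Matrix (Fin j) (Fin j) F, N = Cfsg.Agent.S2578.shift j := ⟨_, rfl⟩
  obtain ⟨G, hG⟩ : ∃ G : Matrix (Fin j) (Fin j) F, G = symG j F := ⟨_, rfl⟩
  have hskew : Nᵀ * G = -(G * N) := by rw [hN, hG]; exact symG_skew j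
  have hNnil : IsNilpotent N := ⟨j, by rw [hN]; exact Cfsg.Agent.S2578.shift_pow_self j⟩
  obtain ⟨W, hW1, hW2⟩ : ∃ W : Matrix (Fin j) (Fin j) F, W * (1 - N) = 1 ∧ (1 - N) * W = 1 := by
    have hu : IsUnit (1 - N) := hNnil.isUnit_one_sub
    obtain ⟨w, hw⟩ := hu
    exact ⟨((w⁻¹ : (Matrix (Fin j) (Fin j) F)ˣ) : Matrix (Fin j) (Fin j) F),
      by rw [← hw, Units.inv_mul], by rw [← hw, Units.mul_inv]⟩
  have hcUN : Commute (1 - N) N := (Commute.one_left N).sub_left (Commute.refl N)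
  have hWN : Commute W N := by
    have h1 : W * N * (1 - N) = N := by
      rw [mul_assoc, ← hcUN.eq, ← mul_assoc, hW1, one_mul]
    have h3 : W * N = N * W := by
      calc W * N = W * N * ((1 - N) * W) := by rw [hW2, mul_one]
        _ = (W * N * (1 - N)) * W := by simp only [mul_assoc]
        _ = N * W := by rw [h1]
    exact h3
  obtain ⟨u, hu⟩ : ∃ u : Matrix (Fin j) (Fin j) F, u = (1 + N) * W := ⟨_, rfl⟩
  have hu1 : u - 1 = ((2 : F) • W) * N := by
    have : u - 1 = (1 + N) * W - (1 - N) * W := by rw [hu, hW2]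
    rw [this, ← sub_mul, smul_mul_assoc, hWN.eq, two_smul]
    have : (1 + N - (1 - N)) = N + N := by abel
    rw [this, add_mul]
  have hcomm2 : Commute ((2 : F) • W) N := hWN.smul_left 2
  have hnil : (u - 1) ^ j = 0 := by
    rw [hu1, hcomm2.mul_pow, hN, Cfsg.Agent.S2578.shift_pow_self, mul_zero]
  have hrank : (u - 1).rank = j - 1 := by
    have hdet : IsUnit ((2 : F) • W).det := by
      have hWu : IsUnit W := IsUnit.of_mul_eq_one _ hW1
      have : IsUnit ((2 : F) • W) := by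
        refine IsUnit.of_mul_eq_one ((2 : F)⁻¹ • (1 - N)) ?_
        rw [smul_mul_smul_comm, mul_inv_cancel₀ h2, one_smul, hW1]
      exact (Matrix.isUnit_iff_isUnit_det _).mp this
    rw [hu1, Matrix.rank_mul_eq_right_of_isUnit_det _ _ hdet, hN,
      Cfsg.Agent.S2578.shift_rank j hj0]
  have hGsym : Gᵀ = G := by rw [hG]; exact symG_transpose j hj
  have hGdet : IsUnit G.det := by
    apply Matrix.isUnit_det_of_right_inverse (B := Gᵀ)
    rw [hG]; exact symG_mul_transpose j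
  have hVG : (1 + N)ᵀ * G = G * (1 - N) := by
    rw [Matrix.transpose_add, Matrix.transpose_one, add_mul, one_mul, hskew, mul_sub, mul_one]
    abel
  have hUG : (1 - N)ᵀ * G = G * (1 + N) := by
    rw [Matrix.transpose_sub, Matrix.transpose_one, sub_mul, one_mul, hskew, mul_add, mul_one]
    abel
  have hUV : (1 - N) * (1 + N) = (1 + N) * (1 - N) := by noncomm_ring
  have huG : uᵀ * G * u = G := by
    calc uᵀ * G * u = Wᵀ * ((1 + N)ᵀ * G) * ((1 + N) * W) := by
          rw [hu, Matrix.transpose_mul]; simp only [Matrix.mul_assoc]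
      _ = Wᵀ * G * ((1 - N) * (1 + N)) * W := by rw [hVG]; simp only [Matrix.mul_assoc]
      _ = Wᵀ * G * (1 + N) * ((1 - N) * W) := by rw [hUV]; simp only [Matrix.mul_assoc]
      _ = Wᵀ * ((1 - N)ᵀ * G) := by rw [hW2, mul_one, hUG]; simp only [Matrix.mul_assoc]
      _ = ((1 - N) * W)ᵀ * G := by rw [Matrix.transpose_mul]; simp only [Matrix.mul_assoc]
      _ = G := by rw [hW2, Matrix.transpose_one, one_mul]
  exact transfer (symClass F) j hj0 (Equiv.refl _) u G hGdet hGsym huG hnil hrank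

end Cfsg.Agent.Helper43.JordanForms
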