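import Mathlib
import Cfsg.Agent.Helper43.JordanForms

set_option autoImplicit false

namespace Cfsg.Agent.Helper43.JordanForms

open Matrix

variable {F : Type*} [Field F]

/-- Jordan-type matrix over an arbitrary index type -/
def JT {κ : Type} [DecidableEq κ] (d : κ → ℕ) (F : Type*) [Field F] :
    Matrix ((k : κ) × Fin (d k)) ((k : κ) × Fin (d k)) F :=
  Matrix.blockDiagonal' fun k => Cfsg.jordanBlock (d k) F

theorem JT_eq {t : ℕ} (d : Fin t → ℕ) : Cfsg.jordanTypeMatrix d F = JT d F := rfl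

/-- the index equivalence for a sum of two families -/
def sumEquiv {κ₁ κ₂ : Type} (d₁ : κ₁ → ℕ) (d₂ : κ₂ → ℕ) :
    ((k : κ₁ ⊕ κ₂) × Fin (Sum.elim d₁ d₂ k)) ≃ ((k : κ₁) × Fin (d₁ k)) ⊕ ((k : κ₂) × Fin (d₂ k)) :=
  Equiv.sumSigmaDistrib (fun k => Fin (Sum.elim d₁ d₂ k))

theorem sumEquiv_inl {κ₁ κ₂ : Type} (d₁ : κ₁ → ℕ) (d₂ : κ₂ → ℕ) (k : κ₁) (i : Fin (d₁ k)) :
    sumEquiv d₁ d₂ ⟨Sum.inl k, i⟩ = Sum.inl ⟨k, i⟩ := rfl

theorem sumEquiv_inr {κ₁ κ₂ : Type} (d₁ : κ₁ → ℕ) (d₂ : κ₂ → ℕ) (k : κ₂) (i : Fin (d₂ k)) :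
    sumEquiv d₁ d₂ ⟨Sum.inr k, i⟩ = Sum.inr ⟨k, i⟩ := rfl

theorem JT_sum {κ₁ κ₂ : Type} [DecidableEq κ₁] [DecidableEq κ₂] (d₁ : κ₁ → ℕ) (d₂ : κ₂ → ℕ) :
    JT (Sum.elim d₁ d₂) F =
      (Matrix.fromBlocks (JT d₁ F) 0 0 (JT d₂ F)).submatrix (sumEquiv d₁ d₂) (sumEquiv d₁ d₂) := by
  ext ⟨k, i⟩ ⟨k', i'⟩
  rw [Matrix.submatrix_apply]
  rcases k with k | k <;> rcases k' with k' | k'
  · change _ = Matrix.fromBlocks (JT d₁ F) 0 0 (JT d₂ F) (Sum.inl ⟨k, i⟩) (Sum.inl ⟨k', i'⟩)
    rw [Matrix.fromBlocks_apply₁₁]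
    by_cases h : k = k'
    · subst h
      rw [JT, JT, Matrix.blockDiagonal'_apply_eq]
      exact (Matrix.blockDiagonal'_apply_eq (fun k => Cfsg.jordanBlock (d₁ k) F) k i i').symm
    · rw [JT, JT, Matrix.blockDiagonal'_apply_ne _ _ _ (by simpa using h)]
      exact (Matrix.blockDiagonal'_apply_ne (fun k => Cfsg.jordanBlock (d₁ k) F) i i' h).symm
  · change _ = Matrix.fromBlocks (JT d₁ F) 0 0 (JT d₂ F) (Sum.inl ⟨k, i⟩) (Sum.inr ⟨k', i'⟩)
    rw [Matrix.fromBlocks_apply₁₂, JT, Matrix.blockDiagonal'_apply_ne _ _ _ (by simp)]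
    rfl
  · change _ = Matrix.fromBlocks (JT d₁ F) 0 0 (JT d₂ F) (Sum.inr ⟨k, i⟩) (Sum.inl ⟨k', i'⟩)
    rw [Matrix.fromBlocks_apply₂₁, JT, Matrix.blockDiagonal'_apply_ne _ _ _ (by simp)]
    rfl
  · change _ = Matrix.fromBlocks (JT d₁ F) 0 0 (JT d₂ F) (Sum.inr ⟨k, i⟩) (Sum.inr ⟨k', i'⟩)
    rw [Matrix.fromBlocks_apply₂₂]
    by_cases h : k = k'
    · subst h
      rw [JT, JT, Matrix.blockDiagonal'_apply_eq]
      exact (Matrix.blockDiagonal'_apply_eq (fun k => Cfsg.jordanBlock (d₂ k) F) k i i').symm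
    · rw [JT, JT, Matrix.blockDiagonal'_apply_ne _ _ _ (by simpa using h)]
      exact (Matrix.blockDiagonal'_apply_ne (fun k => Cfsg.jordanBlock (d₂ k) F) i i' h).symm

theorem JT_comp {κ κ' : Type} [DecidableEq κ] [DecidableEq κ'] (d' : κ' → ℕ) (σ : κ ≃ κ') :
    JT (fun k => d' (σ k)) F =
      (JT d' F).submatrix (Equiv.sigmaCongrLeft (β := fun k' => Fin (d' k')) σ)
        (Equiv.sigmaCongrLeft (β := fun k' => Fin (d' k')) σ) := by
  ext ⟨k, i⟩ ⟨k', i'⟩
  simp only [Matrix.submatrix_apply, Equiv.sigmaCongrLeft_apply]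
  by_cases h : k = k'
  · subst h
    rw [JT, JT, Matrix.blockDiagonal'_apply_eq, Matrix.blockDiagonal'_apply_eq]
  · rw [JT, JT, Matrix.blockDiagonal'_apply_ne _ _ _ h,
      Matrix.blockDiagonal'_apply_ne _ _ _ (by simpa using h)]

/-- the index equivalence for a single block -/
def unitEquiv (j : ℕ) : ((_ : Unit) × Fin j) ≃ Fin j where
  toFun x := x.2
  invFun i := ⟨(), i⟩
  left_inv := fun ⟨_, _⟩ => rfl
  right_inv := fun _ => rfl

theorem JT_unit (j : ℕ) :
    JT (fun _ : Unit => j) F = (Cfsg.jordanBlock j F).submatrix (unitEquiv j) (unitEquiv j) := by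
  ext ⟨k, i⟩ ⟨k', i'⟩
  rw [JT, Matrix.blockDiagonal'_apply_eq]
  rfl

/-- the multiset `s` of block sizes is realized by a Jordan-type matrix with an invariant form -/
def Real (C : FormClass F) (s : Multiset ℕ) : Prop :=
  ∃ (κ : Type) (_ : Fintype κ) (_ : DecidableEq κ) (d : κ → ℕ),
    Multiset.map d Finset.univ.val = s ∧ Inv C (JT d F)

theorem real_zero (C : FormClass F) : Real C 0 := by
  refine ⟨Empty, inferInstance, inferInstance, fun _ => 0, by simp, 0, ?_, C.empty _, ?_⟩
  · rw [Matrix.det_isEmpty]; exact isUnit_one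
  · exact Subsingleton.elim _ _

theorem real_add (C : FormClass F) {s₁ s₂ : Multiset ℕ} (h₁ : Real C s₁) (h₂ : Real C s₂) :
    Real C (s₁ + s₂) := by
  obtain ⟨κ₁, _, _, d₁, hd₁, hI₁⟩ := h₁
  obtain ⟨κ₂, _, _, d₂, hd₂, hI₂⟩ := h₂
  refine ⟨κ₁ ⊕ κ₂, inferInstance, inferInstance, Sum.elim d₁ d₂, ?_, ?_⟩
  · rw [← hd₁, ← hd₂, ← Finset.univ_disjSum_univ, Finset.val_disjSum, Multiset.disjSum,
      Multiset.map_add, Multiset.map_map, Multiset.map_map]
    rfl
  · rw [JT_sum]
    exact (hI₁.fromBlocks hI₂).submatrix _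

theorem real_single (C : FormClass F) (j : ℕ) (h : Inv C (Cfsg.jordanBlock j F)) :
    Real C {j} := by
  refine ⟨Unit, inferInstance, inferInstance, fun _ => j, by simp, ?_⟩
  rw [JT_unit]
  exact h.submatrix _

theorem real_pair (C : FormClass F) (j : ℕ) (h : InvAny (Cfsg.jordanBlock j F)) :
    Real C ({j} + {j}) := by
  refine ⟨Unit ⊕ Unit, inferInstance, inferInstance, Sum.elim (fun _ => j) (fun _ => j), ?_, ?_⟩
  · rw [← Finset.univ_disjSum_univ, Finset.val_disjSum, Multiset.disjSum,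
      Multiset.map_add, Multiset.map_map, Multiset.map_map]
    simp
  · rw [JT_sum, JT_unit]
    exact ((h.submatrix _).double C).submatrix _

/-- combinatorial assembly -/
theorem real_of_parity (C : FormClass F) (good : ℕ → Prop)
    (hgood : ∀ j, 1 ≤ j → good j → Inv C (Cfsg.jordanBlock j F)) (n : ℕ) :
    ∀ (s : Multiset ℕ), Multiset.card s = n → (∀ j ∈ s, 1 ≤ j) →
      (∀ j, j ∈ s → ¬ good j → Even (s.count j)) → Real C s := by
  classical
  induction n using Nat.strong_induction_on with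
  | _ n ih =>
    intro s hcard hs hpar
    by_cases hs0 : s = 0
    · subst hs0; exact real_zero C
    obtain ⟨a, ha⟩ := Multiset.exists_mem_of_ne_zero hs0
    obtain ⟨t, rfl⟩ := Multiset.exists_cons_of_mem ha
    rw [Multiset.card_cons] at hcard
    by_cases hga : good a
    · have h1 : Real C ({a} : Multiset ℕ) := real_single C a (hgood a (hs a ha) hga)
      have h2 : Real C t := by
        refine ih (Multiset.card t) (by omega) t rfl (fun j hj => hs j (Multiset.mem_cons_of_mem hj))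
          ?_
        intro j hj hgj
        have hja : j ≠ a := fun h => hgj (h ▸ hga)
        have := hpar j (Multiset.mem_cons_of_mem hj) hgj
        rwa [Multiset.count_cons_of_ne hja] at this
      have := real_add C h1 h2
      rwa [Multiset.singleton_add] at this
    · have hev := hpar a ha hga
      rw [Multiset.count_cons_self] at hev
      have hat : a ∈ t := by
        rw [← Multiset.count_pos]
        rcases hev with ⟨r, hr⟩
        omega
      obtain ⟨t', rfl⟩ := Multiset.exists_cons_of_mem hat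
      rw [Multiset.card_cons] at hcard
      have h1 : Real C (({a} : Multiset ℕ) + {a}) :=
        real_pair C a (invAny_jordanBlock a (hs a ha))
      have h2 : Real C t' := by
        refine ih (Multiset.card t') (by omega) t' rfl
          (fun j hj => hs j (Multiset.mem_cons_of_mem (Multiset.mem_cons_of_mem hj))) ?_
        intro j hj hgj
        have := hpar j (Multiset.mem_cons_of_mem (Multiset.mem_cons_of_mem hj)) hgj
        by_cases hja : j = a
        · subst hja
          rw [Multiset.count_cons_self, Multiset.count_cons_self] at this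
          rcases this with ⟨r, hr⟩
          exact ⟨r - 1, by omega⟩
        · rwa [Multiset.count_cons_of_ne hja, Multiset.count_cons_of_ne hja] at this
      have := real_add C h1 h2
      rwa [Multiset.singleton_add, Multiset.cons_add, Multiset.singleton_add] at this

/-- two families with the same multiset of values differ by an equivalence of the index types -/
theorem exists_equiv_of_map_eq {κ κ' : Type} [Fintype κ] [Fintype κ'] [DecidableEq κ]
    [DecidableEq κ'] (d : κ → ℕ) (d' : κ' → ℕ)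
    (h : Multiset.map d Finset.univ.val = Multiset.map d' Finset.univ.val) :
    ∃ σ : κ ≃ κ', ∀ k, d' (σ k) = d k := by
  classical
  have hcard : ∀ j : ℕ, Fintype.card {k // d k = j} = Fintype.card {k' // d' k' = j} := by
    intro j
    have h1 := congrArg (Multiset.count j) h
    rw [Multiset.count_map, Multiset.count_map] at h1
    rw [Fintype.card_subtype, Fintype.card_subtype]
    simp only [Finset.card, Finset.filter_val]
    convert h1 using 3 <;> exact eq_comm
  let e : ∀ j : ℕ, {k // d k = j} ≃ {k' // d' k' = j} := fun j => Fintype.equivOfCardEq (hcard j)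
  refine ⟨(Equiv.sigmaFiberEquiv d).symm.trans
    ((Equiv.sigmaCongrRight e).trans (Equiv.sigmaFiberEquiv d')), ?_⟩
  intro k
  exact ((e (d k)) ⟨k, rfl⟩).2

/-- existence of invariant forms on unipotent matrices of a given Jordan type -/
theorem inv_of_parity (C : FormClass F) (good : ℕ → Prop)
    (hgood : ∀ j, 1 ≤ j → good j → Inv C (Cfsg.jordanBlock j F)) {t : ℕ} (d : Fin t → ℕ)
    (hd : ∀ k, 1 ≤ d k)
    (hpar : ∀ j, 1 ≤ j → ¬ good j → Even (Finset.univ.filter (fun k : Fin t => d k = j)).card) :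
    Inv C (Cfsg.jordanTypeMatrix d F) := by
  classical
  have hreal : Real C (Multiset.map d Finset.univ.val) := by
    refine real_of_parity C good hgood _ _ rfl ?_ ?_
    · intro j hj
      obtain ⟨k, -, rfl⟩ := Multiset.mem_map.mp hj
      exact hd k
    · intro j hj hgj
      obtain ⟨k, -, hk⟩ := Multiset.mem_map.mp hj
      have := hpar j (hk ▸ hd k) hgj
      rw [Multiset.count_map]
      have e : (Finset.univ.filter (fun k : Fin t => d k = j)).card =
          Multiset.card (Multiset.filter (fun a => j = d a) Finset.univ.val) := by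
        rw [Finset.card, Finset.filter_val]
        congr 1
        refine Multiset.filter_congr ?_
        intro x _
        exact eq_comm
      rwa [e] at this
  obtain ⟨κ, _, _, d', hd', hI⟩ := hreal
  obtain ⟨σ, hσ⟩ := exists_equiv_of_map_eq d d' hd'.symm
  obtain rfl : d = fun k => d' (σ k) := funext fun k => (hσ k).symm
  rw [JT_eq, JT_comp]
  exact hI.submatrix _

end Cfsg.Agent.Helper43.JordanForms
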