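import Mathlib
import Cfsg.Agent.Helper43.JordanForms2
import Cfsg.Agent.Helper43.JordanRank2
import Cfsg.Agent.S2585

set_option autoImplicit false

namespace Cfsg.Agent.Helper43.JordanForms

open Matrix

variable {F : Type*} [Field F]

theorem card_sigma_fin {t : ℕ} (d : Fin t → ℕ) :
    Fintype.card ((k : Fin t) × Fin (d k)) = ∑ k, d k := by
  rw [Fintype.card_sigma]
  simp

/-- a matrix preserving an invertible alternating form is conjugate to a symplectic matrix -/
theorem exists_symplectic_conj {m : ℕ} (G' J' : Matrix (Fin m ⊕ Fin m) (Fin m ⊕ Fin m) F)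
    (hG : IsUnit G'.det) (halt : ∀ x : Fin m ⊕ Fin m → F, x ⬝ᵥ G' *ᵥ x = 0)
    (hJ : J'ᵀ * G' * J' = G') :
    ∃ A : Matrix.symplecticGroup (Fin m) F,
      IsConj J' (A : Matrix (Fin m ⊕ Fin m) (Fin m ⊕ Fin m) F) := by
  classical
  set B : LinearMap.BilinForm F (Fin m ⊕ Fin m → F) := Matrix.toBilin' G' with hB
  have hBapp : ∀ x y, B x y = x ⬝ᵥ G' *ᵥ y := fun x y => Matrix.toBilin'_apply' G' x y
  have halt' : ∀ v, B v v = 0 := fun v => by rw [hBapp]; exact halt v
  have hnd : ∀ v, (∀ w, B v w = 0) → v = 0 := by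
    intro v hv
    have h1 : v ᵥ* G' = 0 := by
      funext i
      have := hv (Pi.single i 1)
      rw [hBapp, Matrix.dotProduct_mulVec, dotProduct_single_one] at this
      exact this
    have h2 := congrArg (fun w => w ᵥ* G'⁻¹) h1
    simp only [Matrix.vecMul_vecMul, Matrix.mul_nonsing_inv G' hG, Matrix.vecMul_one,
      Matrix.zero_vecMul] at h2
    exact h2
  have hdim : Module.finrank F (Fin m ⊕ Fin m → F) = 2 * m := by
    rw [Module.finrank_fintype_fun_eq_card, Fintype.card_sum, Fintype.card_fin]; ring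
  obtain ⟨Φ, hΦ⟩ := Cfsg.Agent.Helper42.SpForm.exists_equiv_std m (Fin m ⊕ Fin m → F) B halt' hnd
    hdim
  set T : Module.End F (Fin m ⊕ Fin m → F) := Matrix.toLin' J' with hT
  have hTB : ∀ x y, B (T x) (T y) = B x y := by
    intro x y
    rw [hBapp, hBapp, hT, Matrix.toLin'_apply, Matrix.toLin'_apply]
    conv_rhs => rw [← hJ]
    rw [Matrix.mul_assoc, ← Matrix.mulVec_mulVec, Matrix.dotProduct_mulVec x,
      Matrix.vecMul_transpose, ← Matrix.mulVec_mulVec]
  let Gd : Module.End F (Fin m ⊕ Fin m → F) := Φ.toLinearMap ∘ₗ T ∘ₗ Φ.symm.toLinearMap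
  have hGdapp : ∀ x, Gd x = Φ (T (Φ.symm x)) := fun x => rfl
  have hGd : Cfsg.Agent.Helper42.SpGroup.Preserves (Cfsg.Agent.Helper42.SpForm.stdForm m) Gd := by
    intro x y
    rw [hGdapp, hGdapp, hΦ, hTB, ← hΦ, Φ.apply_symm_apply, Φ.apply_symm_apply]
  refine ⟨Cfsg.Agent.Helper42.SpGroup.ofEnd Gd hGd, ?_⟩
  have h1 : LinearMap.toMatrix' Φ.toLinearMap * LinearMap.toMatrix' Φ.symm.toLinearMap = 1 := by
    rw [← LinearMap.toMatrix'_comp, LinearEquiv.comp_symm, LinearMap.toMatrix'_id]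
  have h2 : LinearMap.toMatrix' Φ.symm.toLinearMap * LinearMap.toMatrix' Φ.toLinearMap = 1 := by
    rw [← LinearMap.toMatrix'_comp, LinearEquiv.symm_comp, LinearMap.toMatrix'_id]
  refine ⟨⟨LinearMap.toMatrix' Φ.toLinearMap, LinearMap.toMatrix' Φ.symm.toLinearMap, h1, h2⟩, ?_⟩
  show LinearMap.toMatrix' Φ.toLinearMap * J' =
    LinearMap.toMatrix' Gd * LinearMap.toMatrix' Φ.toLinearMap
  have h3 : J' = LinearMap.toMatrix' T := by rw [hT, LinearMap.toMatrix'_toLin']
  rw [h3, ← LinearMap.toMatrix'_comp, ← LinearMap.toMatrix'_comp]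
  congr 1
  apply LinearMap.ext
  intro x
  simp only [LinearMap.comp_apply, LinearEquiv.coe_coe, Gd, Φ.symm_apply_apply]

/-- the "if" direction for the symplectic group -/
theorem sp_of_parity {m t : ℕ} (d : Fin t → ℕ) (hd : ∀ k, 1 ≤ d k) (hsum : ∑ k, d k = 2 * m)
    (hpar : ∀ j : ℕ, Odd j → Even (Finset.univ.filter (fun k : Fin t => d k = j)).card) :
    ∃ e : ((k : Fin t) × Fin (d k)) ≃ (Fin m ⊕ Fin m), ∃ A : Matrix.symplecticGroup (Fin m) F,
      IsConj (Matrix.reindex e e (Cfsg.jordanTypeMatrix d F))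
        (A : Matrix (Fin m ⊕ Fin m) (Fin m ⊕ Fin m) F) := by
  classical
  have hinv : Inv (altClass F) (Cfsg.jordanTypeMatrix d F) := by
    refine inv_of_parity (altClass F) Even ?_ d hd ?_
    · intro j hj hev
      obtain ⟨r, hr⟩ := hev
      have : j = 2 * r := by omega
      subst this
      exact inv_alt_jordanBlock r (by omega)
    · intro j _ hj
      exact hpar j (Nat.not_even_iff_odd.mp hj)
  have hcard : Fintype.card ((k : Fin t) × Fin (d k)) = Fintype.card (Fin m ⊕ Fin m) := by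
    rw [card_sigma_fin, hsum, Fintype.card_sum, Fintype.card_fin]; ring
  let e : ((k : Fin t) × Fin (d k)) ≃ (Fin m ⊕ Fin m) := Fintype.equivOfCardEq hcard
  obtain ⟨G, hG, hP, hJ⟩ := hinv.submatrix e.symm
  obtain ⟨A, hA⟩ := exists_symplectic_conj _ _ hG hP hJ
  exact ⟨e, A, hA⟩

/-- the "if" direction for orthogonal groups in odd characteristic -/
theorem orth_of_parity (h2 : (2 : F) ≠ 0) {n t : ℕ} (d : Fin t → ℕ) (hd : ∀ k, 1 ≤ d k)
    (hsum : ∑ k, d k = n)
    (hpar : ∀ j : ℕ, Even j → 0 < j → Even (Finset.univ.filter (fun k : Fin t => d k = j)).card) :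
    ∃ Q : QuadraticForm F (Fin n → F), (QuadraticMap.polarBilin Q).Nondegenerate ∧
      ∃ e : ((k : Fin t) × Fin (d k)) ≃ Fin n, ∃ A : ↥(Cfsg.isometryGroup F ⇑Q),
        IsConj (Matrix.reindex e e (Cfsg.jordanTypeMatrix d F))
          ((A : Matrix.GeneralLinearGroup (Fin n) F) : Matrix (Fin n) (Fin n) F) := by
  classical
  have hinv : Inv (symClass F) (Cfsg.jordanTypeMatrix d F) := by
    refine inv_of_parity (symClass F) Odd ?_ d hd ?_
    · intro j _ hodd
      exact inv_sym_jordanBlock h2 j hodd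
    · intro j hj hnodd
      exact hpar j (Nat.not_odd_iff_even.mp hnodd) hj
  have hcard : Fintype.card ((k : Fin t) × Fin (d k)) = n := by
    rw [card_sigma_fin, hsum]
  let e : ((k : Fin t) × Fin (d k)) ≃ Fin n := Fintype.equivFinOfCardEq hcard
  obtain ⟨G, hG, hP, hJ⟩ := hinv.submatrix e.symm
  set J' : Matrix (Fin n) (Fin n) F := Matrix.reindex e e (Cfsg.jordanTypeMatrix d F) with hJ'
  have hJ'' : J'ᵀ * G * J' = G := hJ
  have hsym : Gᵀ = G := hP
  let Q : QuadraticForm F (Fin n → F) := LinearMap.BilinMap.toQuadraticMap (Matrix.toBilin' G)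
  have hQ : ∀ x : Fin n → F, Q x = x ⬝ᵥ G *ᵥ x := by
    intro x
    show (Matrix.toBilin' G) x x = _
    rw [Matrix.toBilin'_apply']
  have hGsymm : ∀ x y : Fin n → F, y ⬝ᵥ G *ᵥ x = x ⬝ᵥ G *ᵥ y := by
    intro x y
    rw [Matrix.dotProduct_mulVec, ← Matrix.mulVec_transpose, hsym, dotProduct_comm]
  have hpolar : ∀ x y : Fin n → F, QuadraticMap.polar Q x y = 2 * (x ⬝ᵥ G *ᵥ y) := by
    intro x y
    rw [QuadraticMap.polar, hQ, hQ, hQ]
    simp only [Matrix.mulVec_add, add_dotProduct, dotProduct_add]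
    rw [hGsymm x y]
    ring
  have hsep : ∀ v : Fin n → F, (∀ w, v ⬝ᵥ G *ᵥ w = 0) → v = 0 := by
    intro v hv
    have h1 : v ᵥ* G = 0 := by
      funext i
      have := hv (Pi.single i 1)
      rw [Matrix.dotProduct_mulVec, dotProduct_single_one] at this
      exact this
    have h3 := congrArg (fun w => w ᵥ* G⁻¹) h1
    simp only [Matrix.vecMul_vecMul, Matrix.mul_nonsing_inv G hG, Matrix.vecMul_one,
      Matrix.zero_vecMul] at h3
    exact h3
  have hdetJ : IsUnit J'.det := by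
    have h := congrArg Matrix.det hJ''
    rw [Matrix.det_mul, Matrix.det_mul, Matrix.det_transpose] at h
    rw [isUnit_iff_ne_zero]
    intro h0
    rw [h0, zero_mul, zero_mul] at h
    exact hG.ne_zero h.symm
  have hJu : IsUnit J' := (Matrix.isUnit_iff_isUnit_det _).mpr hdetJ
  have hmem : hJu.unit ∈ Cfsg.isometryGroup F ⇑Q := by
    intro u v
    show Q (J' *ᵥ u) = Q u
    rw [hQ, hQ]
    conv_rhs => rw [← hJ'']
    rw [Matrix.mul_assoc, ← Matrix.mulVec_mulVec, Matrix.dotProduct_mulVec u,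
      Matrix.vecMul_transpose, ← Matrix.mulVec_mulVec]
  refine ⟨Q, ⟨?_, ?_⟩, e, ⟨hJu.unit, hmem⟩, ?_⟩
  · intro v hv
    apply hsep v
    intro w
    have := hv w
    rw [QuadraticMap.polarBilin_apply_apply, hpolar] at this
    exact (mul_eq_zero.mp this).resolve_left h2
  · intro v hv
    apply hsep v
    intro w
    have := hv w
    rw [QuadraticMap.polarBilin_apply_apply, hpolar, hGsymm] at this
    exact (mul_eq_zero.mp this).resolve_left h2
  · exact IsConj.refl _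

theorem sep_of_det {ι : Type*} [Fintype ι] [DecidableEq ι] (G : Matrix ι ι F) (hG : IsUnit G.det)
    (v : ι → F) (hv : ∀ w, v ⬝ᵥ G *ᵥ w = 0) : v = 0 := by
  have h1 : v ᵥ* G = 0 := by
    funext i
    have := hv (Pi.single i 1)
    rw [Matrix.dotProduct_mulVec, dotProduct_single_one] at this
    exact this
  have h3 := congrArg (fun w => w ᵥ* G⁻¹) h1
  simp only [Matrix.vecMul_vecMul, Matrix.mul_nonsing_inv G hG, Matrix.vecMul_one,
    Matrix.zero_vecMul] at h3
  exact h3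

/-- the "if" direction for orthogonal groups in characteristic two -/
theorem orth2_of_parity [Fintype F] [CharP F 2] {m t : ℕ} (d : Fin t → ℕ) (hd : ∀ k, 1 ≤ d k)
    (hsum : ∑ k, d k = 2 * m)
    (hpar : ∀ j : ℕ, Odd j → Even (Finset.univ.filter (fun k : Fin t => d k = j)).card) :
    ∃ Q : QuadraticForm F (Fin (2 * m) → F), (QuadraticMap.polarBilin Q).Nondegenerate ∧
      ∃ e : ((k : Fin t) × Fin (d k)) ≃ Fin (2 * m), ∃ A : ↥(Cfsg.isometryGroup F ⇑Q),
        IsConj (Matrix.reindex e e (Cfsg.jordanTypeMatrix d F))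
          ((A : Matrix.GeneralLinearGroup (Fin (2 * m)) F) :
            Matrix (Fin (2 * m)) (Fin (2 * m)) F) := by
  classical
  obtain ⟨e₀, A₀, hconj⟩ := sp_of_parity (F := F) d hd hsum hpar
  obtain ⟨Q₀, hpol, hQ₀⟩ := Cfsg.Agent.S2585.result A₀
  let ε : Fin m ⊕ Fin m ≃ Fin (2 * m) := finSumFinEquiv.trans (finCongr (two_mul m).symm)
  let Q : QuadraticForm F (Fin (2 * m) → F) := Q₀.comp (LinearMap.funLeft F F ε)
  have hQ : ∀ x, Q x = Q₀ (x ∘ ε) := fun x => rfl
  obtain ⟨M₀, hM₀⟩ : ∃ M₀ : Matrix (Fin m ⊕ Fin m) (Fin m ⊕ Fin m) F,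
    M₀ = (A₀ : Matrix (Fin m ⊕ Fin m) (Fin m ⊕ Fin m) F) := ⟨_, rfl⟩
  rw [← hM₀] at hconj
  have hQ₀' : ∀ v, Q₀ (M₀ *ᵥ v) = Q₀ v := by rw [hM₀]; exact hQ₀
  obtain ⟨M, hM⟩ : ∃ M : Matrix (Fin (2 * m)) (Fin (2 * m)) F, M = Matrix.reindex ε ε M₀ :=
    ⟨_, rfl⟩
  have hMv : ∀ x : Fin (2 * m) → F, (M *ᵥ x) ∘ ε = M₀ *ᵥ (x ∘ ε) := by
    intro x
    rw [hM, Matrix.reindex_apply, Matrix.submatrix_mulVec_equiv]
    funext i
    simp
  have hM₀u : IsUnit M₀ := by
    rw [hM₀]
    exact IsUnit.of_mul_eq_one _ (congrArg Subtype.val (mul_inv_cancel A₀))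
  have hMu : IsUnit M := by
    rw [hM, ← Matrix.coe_reindexAlgEquiv F F ε]
    exact hM₀u.map (Matrix.reindexAlgEquiv F F ε)
  have hmem : hMu.unit ∈ Cfsg.isometryGroup F ⇑Q := by
    intro u v
    show Q (M *ᵥ u) = Q u
    rw [hQ, hQ, hMv, hQ₀']
  have hpolQ : ∀ x y, QuadraticMap.polar Q x y = Cfsg.sympForm m F (x ∘ ε) (y ∘ ε) := by
    intro x y
    rw [← hpol]
    rfl
  have hsepL : ∀ v : Fin (2 * m) → F, (∀ w, QuadraticMap.polar Q v w = 0) → v = 0 := by
    intro v hv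
    have h1 : v ∘ ε = 0 := by
      apply sep_of_det (Matrix.J (Fin m) F) (Matrix.isUnit_det_J (Fin m) F)
      intro w
      have := hv (w ∘ ε.symm)
      rw [hpolQ] at this
      have e1 : (w ∘ ε.symm) ∘ ε = w := by funext i; simp
      rw [e1] at this
      exact this
    funext i
    have := congrFun h1 (ε.symm i)
    simpa using this
  refine ⟨Q, ⟨?_, ?_⟩, e₀.trans ε, ⟨hMu.unit, hmem⟩, ?_⟩
  · intro v hv
    exact hsepL v fun w => by
      have := hv w
      rwa [QuadraticMap.polarBilin_apply_apply] at this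
  · intro v hv
    exact hsepL v fun w => by
      have := hv w
      rwa [QuadraticMap.polarBilin_apply_apply, QuadraticMap.polar_comm] at this
  · show IsConj (Matrix.reindex (e₀.trans ε) (e₀.trans ε) (Cfsg.jordanTypeMatrix d F)) M
    have h1 : Matrix.reindex (e₀.trans ε) (e₀.trans ε) (Cfsg.jordanTypeMatrix d F) =
        Matrix.reindexAlgEquiv F F ε (Matrix.reindex e₀ e₀ (Cfsg.jordanTypeMatrix d F)) := by
      rw [Matrix.coe_reindexAlgEquiv]
      ext a b
      simp [Matrix.reindex_apply, Matrix.submatrix_apply]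
    have h2 : M = Matrix.reindexAlgEquiv F F ε M₀ := by
      rw [hM, Matrix.coe_reindexAlgEquiv]
    rw [h1, h2]
    exact MonoidHom.map_isConj
      ((Matrix.reindexAlgEquiv F F ε : Matrix (Fin m ⊕ Fin m) (Fin m ⊕ Fin m) F ≃ₐ[F]
        Matrix (Fin (2 * m)) (Fin (2 * m)) F) : Matrix (Fin m ⊕ Fin m) (Fin m ⊕ Fin m) F →*
        Matrix (Fin (2 * m)) (Fin (2 * m)) F) hconj

end Cfsg.Agent.Helper43.JordanForms
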