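import Mathlib
import Cfsg.Agent.Helper43.OrthEven
import Cfsg.Agent.Helper43.JordanForms3
import Cfsg.Agent.Helper43.JordanRank
import Cfsg.Agent.Helper51.U5996ParityInd

set_option autoImplicit false

/-!
# Unipotent isometries of prescribed Jordan type (helper43)

* `kdim μ l` : the dimension of the kernel of the `l`-th power of a nilpotent map of Jordan type `μ`;
* `UnipO F μ` : `μ` is the Jordan type of a unipotent isometry of a nondegenerate quadratic space;
* `UnipH F μ` : the same, with a totally singular subspace of half the dimension;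
* `unipH_zero`, `unipH_add`, `unipO_add`, `unipO_of_unipH`.
-/

namespace Cfsg.Agent.Helper43.UniIso

open Module Cfsg.Agent.Helper43.OrthEven

universe u

/-- the dimension of the kernel of the `l`-th power of a nilpotent map of Jordan type `μ` -/
def kdim (μ : Multiset ℕ) (l : ℕ) : ℕ := (μ.map (fun e => min e l)).sum

theorem kdim_add (μ₁ μ₂ : Multiset ℕ) (l : ℕ) : kdim (μ₁ + μ₂) l = kdim μ₁ l + kdim μ₂ l := by
  unfold kdim
  rw [Multiset.map_add, Multiset.sum_add]

theorem kdim_zero (l : ℕ) : kdim 0 l = 0 := rfl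

section Defs

variable (F : Type u) [Field F]

/-- `μ` is the Jordan type of a unipotent isometry of a nondegenerate quadratic space -/
def UnipO (μ : Multiset ℕ) : Prop :=
  ∃ (V : Type u) (_ : AddCommGroup V) (_ : Module F V) (_ : FiniteDimensional F V)
    (Q : QuadraticForm F V) (T : Module.End F V),
    PolarNondeg Q ∧ (∀ v, Q (T v) = Q v) ∧ finrank F V = μ.sum ∧
      ∀ l, finrank F ↥(LinearMap.ker ((T - 1) ^ l)) = kdim μ l

/-- `μ` is the Jordan type of a unipotent isometry of a nondegenerate quadratic space with a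
totally singular subspace of half the dimension -/
def UnipH (μ : Multiset ℕ) : Prop :=
  ∃ (V : Type u) (_ : AddCommGroup V) (_ : Module F V) (_ : FiniteDimensional F V)
    (Q : QuadraticForm F V) (T : Module.End F V),
    PolarNondeg Q ∧ (∀ v, Q (T v) = Q v) ∧ finrank F V = μ.sum ∧
      (∀ l, finrank F ↥(LinearMap.ker ((T - 1) ^ l)) = kdim μ l) ∧
      ∃ h : ℕ, μ.sum = 2 * h ∧ HasTS Q h

end Defs

section Basic

variable {F : Type u} [Field F]

/-- a product of submodules is the product of the submodules -/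
def prodSubEquiv {V₁ V₂ : Type*} [AddCommGroup V₁] [Module F V₁] [AddCommGroup V₂] [Module F V₂]
    (p : Submodule F V₁) (q : Submodule F V₂) : ↥(p.prod q) ≃ₗ[F] ↥p × ↥q where
  toFun x := (⟨x.1.1, x.2.1⟩, ⟨x.1.2, x.2.2⟩)
  invFun y := ⟨(y.1.1, y.2.1), ⟨y.1.2, y.2.2⟩⟩
  map_add' := by intros; rfl
  map_smul' := by intros; rfl
  left_inv := by intro; rfl
  right_inv := by intro; rfl

theorem finrank_ker_prodMap {V₁ V₂ : Type*} [AddCommGroup V₁] [Module F V₁] [AddCommGroup V₂]
    [Module F V₂] [FiniteDimensional F V₁] [FiniteDimensional F V₂] (T₁ : Module.End F V₁)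
    (T₂ : Module.End F V₂) (l : ℕ) :
    finrank F ↥(LinearMap.ker ((T₁.prodMap T₂ - 1) ^ l)) =
      finrank F ↥(LinearMap.ker ((T₁ - 1) ^ l)) + finrank F ↥(LinearMap.ker ((T₂ - 1) ^ l)) := by
  have h1 : (T₁.prodMap T₂ - 1 : Module.End F (V₁ × V₂)) = (T₁ - 1).prodMap (T₂ - 1) := by
    apply LinearMap.ext
    intro x
    rfl
  rw [h1, Cfsg.Agent.Helper42.SpModels.prodMap_pow', LinearMap.ker_prodMap,
    (prodSubEquiv _ _).finrank_eq, Module.finrank_prod]

theorem unipO_of_unipH {μ : Multiset ℕ} (h : UnipH F μ) : UnipO F μ := by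
  obtain ⟨V, i1, i2, i3, Q, T, hnd, hT, hdim, hk, -⟩ := h
  exact ⟨V, i1, i2, i3, Q, T, hnd, hT, hdim, hk⟩

theorem unipH_zero : UnipH F 0 := by
  refine ⟨PUnit.{u + 1}, inferInstance, inferInstance, inferInstance, 0, 1,
    fun v _ => Subsingleton.elim _ _, fun v => rfl, ?_, ?_, 0, rfl, ⊥, Nat.zero_le _,
    fun u _ => rfl⟩
  · rw [Multiset.sum_zero]
    exact Module.finrank_zero_of_subsingleton
  · intro l
    rw [kdim_zero]
    exact Module.finrank_zero_of_subsingleton

theorem polarNondeg_prod {V₁ V₂ : Type*} [AddCommGroup V₁] [Module F V₁] [AddCommGroup V₂]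
    [Module F V₂] {Q₁ : QuadraticForm F V₁} {Q₂ : QuadraticForm F V₂} (hnd₁ : PolarNondeg Q₁)
    (hnd₂ : PolarNondeg Q₂) : PolarNondeg (Q₁.prod Q₂) := by
  intro v hv
  apply Prod.ext
  · apply hnd₁
    intro w
    have h := hv (w, 0)
    rw [QuadraticMap.polar_prod] at h
    simpa using h
  · apply hnd₂
    intro w
    have h := hv (0, w)
    rw [QuadraticMap.polar_prod] at h
    simpa using h

theorem unipO_add {μ₁ μ₂ : Multiset ℕ} (h₁ : UnipO F μ₁) (h₂ : UnipO F μ₂) :
    UnipO F (μ₁ + μ₂) := by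
  obtain ⟨V₁, _, _, _, Q₁, T₁, hnd₁, hT₁, hdim₁, hk₁⟩ := h₁
  obtain ⟨V₂, _, _, _, Q₂, T₂, hnd₂, hT₂, hdim₂, hk₂⟩ := h₂
  refine ⟨V₁ × V₂, inferInstance, inferInstance, inferInstance, Q₁.prod Q₂, T₁.prodMap T₂,
    polarNondeg_prod hnd₁ hnd₂, ?_, ?_, ?_⟩
  · intro v
    rw [QuadraticMap.prod_apply, QuadraticMap.prod_apply, LinearMap.prodMap_apply, hT₁, hT₂]
  · rw [Module.finrank_prod, hdim₁, hdim₂, Multiset.sum_add]
  · intro l
    rw [finrank_ker_prodMap, hk₁, hk₂, kdim_add]

theorem unipH_add {μ₁ μ₂ : Multiset ℕ} (h₁ : UnipH F μ₁) (h₂ : UnipH F μ₂) :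
    UnipH F (μ₁ + μ₂) := by
  obtain ⟨V₁, _, _, _, Q₁, T₁, hnd₁, hT₁, hdim₁, hk₁, a₁, ha₁, hts₁⟩ := h₁
  obtain ⟨V₂, _, _, _, Q₂, T₂, hnd₂, hT₂, hdim₂, hk₂, a₂, ha₂, hts₂⟩ := h₂
  refine ⟨V₁ × V₂, inferInstance, inferInstance, inferInstance, Q₁.prod Q₂, T₁.prodMap T₂,
    polarNondeg_prod hnd₁ hnd₂, ?_, ?_, ?_, a₁ + a₂, ?_, hasTS_prod hts₁ hts₂⟩
  · intro v
    rw [QuadraticMap.prod_apply, QuadraticMap.prod_apply, LinearMap.prodMap_apply, hT₁, hT₂]
  · rw [Module.finrank_prod, hdim₁, hdim₂, Multiset.sum_add]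
  · intro l
    rw [finrank_ker_prodMap, hk₁, hk₂, kdim_add]
  · rw [Multiset.sum_add, ha₁, ha₂]
    ring

end Basic


section Model

variable {F : Type u} [Field F]

open Matrix Cfsg.Agent.Helper43.JordanForms

theorem finrank_ker_toLin' {ι : Type*} [Fintype ι] [DecidableEq ι] (M : Matrix ι ι F) (l : ℕ) :
    finrank F ↥(LinearMap.ker ((Matrix.toLin' M - 1) ^ l)) + ((M - 1) ^ l).rank =
      Fintype.card ι := by
  have h1 : (Matrix.toLin' M - 1) ^ l = Matrix.toLin' ((M - 1) ^ l) := by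
    rw [Matrix.toLin'_pow, map_sub, Matrix.toLin'_one]
    rfl
  rw [h1]
  have h := LinearMap.finrank_range_add_finrank_ker (Matrix.toLin' ((M - 1) ^ l))
  rw [Module.finrank_fintype_fun_eq_card] at h
  rw [← h, add_comm]
  rfl

theorem kdim_map {t : ℕ} (d : Fin t → ℕ) (l : ℕ) :
    kdim (Multiset.map d Finset.univ.val) l = ∑ k, min (d k) l := by
  unfold kdim
  rw [Multiset.map_map]
  rfl

theorem finrank_ker_jordan {t : ℕ} (d : Fin t → ℕ) (l : ℕ) :
    finrank F ↥(LinearMap.ker ((Matrix.toLin' (Cfsg.jordanTypeMatrix d F) - 1) ^ l)) =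
      kdim (Multiset.map d Finset.univ.val) l := by
  have h := finrank_ker_toLin' (Cfsg.jordanTypeMatrix d F) l
  rw [Cfsg.Agent.Helper43.JordanRank.rank_jordan, card_sigma_fin] at h
  rw [kdim_map]
  have h2 : ∑ k, min (d k) l + ∑ k, (d k - l) = ∑ k, d k := by
    rw [← Finset.sum_add_distrib]
    refine Finset.sum_congr rfl fun k _ => ?_
    omega
  omega

theorem unipO_of_inv (h2 : (2 : F) ≠ 0) {t : ℕ} (d : Fin t → ℕ)
    (hinv : Inv (symClass F) (Cfsg.jordanTypeMatrix d F)) :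
    UnipO F (Multiset.map d Finset.univ.val) := by
  classical
  obtain ⟨G, hG, hP, hJ⟩ := hinv
  have hsym : Gᵀ = G := hP
  set M := Cfsg.jordanTypeMatrix d F with hM
  let Q : QuadraticForm F (((k : Fin t) × Fin (d k)) → F) :=
    LinearMap.BilinMap.toQuadraticMap (Matrix.toBilin' G)
  have hQ : ∀ x : ((k : Fin t) × Fin (d k)) → F, Q x = x ⬝ᵥ G *ᵥ x := by
    intro x
    show (Matrix.toBilin' G) x x = _
    rw [Matrix.toBilin'_apply']
  have hGsymm : ∀ x y : ((k : Fin t) × Fin (d k)) → F, y ⬝ᵥ G *ᵥ x = x ⬝ᵥ G *ᵥ y := by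
    intro x y
    rw [Matrix.dotProduct_mulVec, ← Matrix.mulVec_transpose, hsym, dotProduct_comm]
  have hpolar : ∀ x y : ((k : Fin t) × Fin (d k)) → F,
      QuadraticMap.polar Q x y = 2 * (x ⬝ᵥ G *ᵥ y) := by
    intro x y
    rw [QuadraticMap.polar, hQ, hQ, hQ]
    simp only [Matrix.mulVec_add, add_dotProduct, dotProduct_add]
    rw [hGsymm x y]
    ring
  refine ⟨((k : Fin t) × Fin (d k)) → F, inferInstance, inferInstance, inferInstance, Q,
    Matrix.toLin' M, ?_, ?_, ?_, ?_⟩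
  · intro v hv
    apply sep_of_det G hG v
    intro w
    have := hv w
    rw [hpolar] at this
    exact (mul_eq_zero.mp this).resolve_left h2
  · intro v
    rw [Matrix.toLin'_apply, hQ, hQ]
    conv_rhs => rw [← hJ]
    rw [Matrix.mul_assoc, ← Matrix.mulVec_mulVec, Matrix.dotProduct_mulVec v,
      Matrix.vecMul_transpose, ← Matrix.mulVec_mulVec]
  · rw [Module.finrank_fintype_fun_eq_card, card_sigma_fin]
    rfl
  · intro l
    exact finrank_ker_jordan d l

theorem double_space {ι : Type*} [Fintype ι] [DecidableEq ι] (G M : Matrix ι ι F)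
    (hG : IsUnit G.det) (hJ : Mᵀ * G * M = G) :
    ∃ Q : QuadraticForm F ((ι → F) × (ι → F)), PolarNondeg Q ∧
      (∀ v, Q ((Matrix.toLin' M).prodMap (Matrix.toLin' M) v) = Q v) ∧
      HasTS Q (Fintype.card ι) := by
  classical
  let B : LinearMap.BilinForm F ((ι → F) × (ι → F)) :=
    (Matrix.toBilin' G).compl₁₂ (LinearMap.fst F (ι → F) (ι → F)) (LinearMap.snd F (ι → F) (ι → F))
  let Q : QuadraticForm F ((ι → F) × (ι → F)) := LinearMap.BilinMap.toQuadraticMap B
  have hQ : ∀ x : (ι → F) × (ι → F), Q x = x.1 ⬝ᵥ G *ᵥ x.2 := by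
    intro x
    show (Matrix.toBilin' G) x.1 x.2 = _
    rw [Matrix.toBilin'_apply']
  have hpolar : ∀ x y : (ι → F) × (ι → F),
      QuadraticMap.polar Q x y = x.1 ⬝ᵥ G *ᵥ y.2 + y.1 ⬝ᵥ G *ᵥ x.2 := by
    intro x y
    rw [QuadraticMap.polar, hQ, hQ, hQ]
    simp only [Prod.fst_add, Prod.snd_add, Matrix.mulVec_add, add_dotProduct, dotProduct_add]
    ring
  refine ⟨Q, ?_, ?_, ?_⟩
  · intro v hv
    apply Prod.ext
    · apply sep_of_det G hG v.1
      intro w
      have := hv (0, w)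
      rw [hpolar] at this
      simpa using this
    · apply sep_of_det Gᵀ (by rwa [Matrix.det_transpose]) v.2
      intro w
      have := hv (w, 0)
      rw [hpolar] at this
      rw [Matrix.dotProduct_mulVec, Matrix.vecMul_transpose, dotProduct_comm]
      simpa using this
  · intro v
    rw [hQ, hQ, LinearMap.prodMap_apply, Matrix.toLin'_apply, Matrix.toLin'_apply]
    conv_rhs => rw [← hJ]
    rw [Matrix.mul_assoc, ← Matrix.mulVec_mulVec, Matrix.dotProduct_mulVec v.1,
      Matrix.vecMul_transpose, ← Matrix.mulVec_mulVec]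
  · have h := hasTS_of_map Q (LinearMap.inl F (ι → F) (ι → F)) LinearMap.inl_injective (by
      intro w
      rw [hQ]
      simp)
    rwa [Module.finrank_fintype_fun_eq_card] at h

theorem unipH_double {t : ℕ} (d : Fin t → ℕ) (hinv : InvAny (Cfsg.jordanTypeMatrix d F)) :
    UnipH F (Multiset.map d Finset.univ.val + Multiset.map d Finset.univ.val) := by
  classical
  obtain ⟨G, hG, hJ⟩ := hinv
  obtain ⟨Q, hnd, hT, hts⟩ := double_space G (Cfsg.jordanTypeMatrix d F) hG hJ
  refine ⟨(((k : Fin t) × Fin (d k)) → F) × (((k : Fin t) × Fin (d k)) → F), inferInstance,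
    inferInstance, inferInstance, Q,
    (Matrix.toLin' (Cfsg.jordanTypeMatrix d F)).prodMap (Matrix.toLin' (Cfsg.jordanTypeMatrix d F)),
    hnd, hT, ?_, ?_, Fintype.card ((k : Fin t) × Fin (d k)), ?_, hts⟩
  · rw [Module.finrank_prod, Module.finrank_fintype_fun_eq_card, card_sigma_fin, Multiset.sum_add]
    rfl
  · intro l
    rw [finrank_ker_prodMap, finrank_ker_jordan, kdim_add]
  · rw [Multiset.sum_add, card_sigma_fin, two_mul]
    rfl

end Model


section Blocks

variable {F : Type u} [Field F]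

open Matrix Cfsg.Agent.Helper43.JordanForms Cfsg.Agent.Helper43.OrthStd

theorem unipH_pair (j : ℕ) (hj : 1 ≤ j) : UnipH F ({j} + {j}) := by
  have hinv : InvAny (Cfsg.jordanTypeMatrix (fun _ : Fin 1 => j) F) := by
    have h1 := invAny_jordanBlock (F := F) j hj
    have h2 : InvAny (JT (fun _ : Unit => j) F) := by
      rw [JT_unit]
      exact h1.submatrix _
    rw [JT_eq]
    have h3 := JT_comp (F := F) (fun _ : Unit => j) (Equiv.ofUnique (Fin 1) Unit)
    rw [h3]
    exact h2.submatrix _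
  have h := unipH_double (fun _ : Fin 1 => j) hinv
  have e : Multiset.map (fun _ : Fin 1 => j) Finset.univ.val = {j} := by
    simp
  rwa [e] at h

theorem unipO_of_parity (h2 : (2 : F) ≠ 0) (μ : Multiset ℕ) (hpos : ∀ e ∈ μ, 0 < e)
    (hpar : ∀ e : ℕ, Even e → Even (μ.count e)) : UnipO F μ := by
  classical
  obtain ⟨L, rfl⟩ := Quot.exists_rep μ
  let d : Fin L.length → ℕ := fun k => L.get k
  have hd : Multiset.map d Finset.univ.val = (Quot.mk _ L : Multiset ℕ) := by
    rw [Fin.univ_val_map, List.ofFn_get]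
    rfl
  rw [← hd] at hpos hpar ⊢
  apply unipO_of_inv h2
  refine inv_of_parity (symClass F) Odd ?_ d ?_ ?_
  · intro j _ hodd
    exact inv_sym_jordanBlock h2 j hodd
  · intro k
    exact hpos _ (Multiset.mem_map_of_mem d (Finset.mem_univ_val k))
  · intro j _ hnodd
    have := hpar j (Nat.not_odd_iff_even.mp hnodd)
    rw [Multiset.count_map] at this
    have e : (Finset.univ.filter (fun k : Fin L.length => d k = j)).card =
        Multiset.card (Multiset.filter (fun a => j = d a) Finset.univ.val) := by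
      rw [Finset.card, Finset.filter_val]
      congr 1
      refine Multiset.filter_congr ?_
      intro x _
      exact eq_comm
    rwa [e]

/-- the embedding of a totally singular subspace together with the anisotropic line -/
def oddEmb (m : ℕ) (F : Type u) [Field F] :
    (Fin m → F) × F →ₗ[F] (Unit ⊕ (Fin m ⊕ Fin m) → F) where
  toFun x := Sum.elim (fun _ => x.2) (Sum.elim x.1 0)
  map_add' x y := by
    funext i
    rcases i with _ | i | i <;> simp
  map_smul' c x := by
    funext i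
    rcases i with _ | i | i <;> simp

theorem oddEmb_quad (m : ℕ) (x : (Fin m → F) × F) :
    Cfsg.quadFormOdd m F (oddEmb m F x) = x.2 ^ 2 := by
  simp [Cfsg.quadFormOdd, oddEmb]

theorem oddEmb_fst (m : ℕ) (x : (Fin m → F) × F) (i : Fin m) :
    oddEmb m F x (Sum.inr (Sum.inl i)) = x.1 i := rfl

theorem oddEmb_snd (m : ℕ) (x : (Fin m → F) × F) :
    oddEmb m F x (Sum.inl ()) = x.2 := rfl

theorem unipH_of_odd_odd [Finite F] {μ₁ μ₂ : Multiset ℕ} (h₁ : UnipO F μ₁) (h₂ : UnipO F μ₂)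
    (ho₁ : Odd μ₁.sum) (ho₂ : Odd μ₂.sum) : UnipH F (μ₁ + μ₂) := by
  obtain ⟨V₁, _, _, _, Q₁, T₁, hnd₁, hT₁, hdim₁, hk₁⟩ := h₁
  obtain ⟨V₂, _, _, _, Q₂, T₂, hnd₂, hT₂, hdim₂, hk₂⟩ := h₂
  obtain ⟨m₁, hm₁⟩ := ho₁
  obtain ⟨m₂, hm₂⟩ := ho₂
  obtain ⟨b₁, d₁, hd₁, hb₁⟩ := exists_basis_odd (m := m₁) (by rw [hdim₁, hm₁]) Q₁ hnd₁
  obtain ⟨b₂, d₂, hd₂, hb₂⟩ := exists_basis_odd (m := m₂) (by rw [hdim₂, hm₂]) Q₂ hnd₂
  set c : F := -d₁ / d₂ with hc
  have hc0 : c ≠ 0 := div_ne_zero (neg_ne_zero.mpr hd₁) hd₂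
  have hnd₂' : PolarNondeg (c • Q₂) := by
    intro v hv
    apply hnd₂
    intro w
    have e : QuadraticMap.polar (⇑(c • Q₂)) v w = c * QuadraticMap.polar (⇑Q₂) v w := by
      unfold QuadraticMap.polar
      simp only [_root_.smul_apply, smul_eq_mul]
      ring
    have := hv w
    rw [e] at this
    exact (mul_eq_zero.mp this).resolve_left hc0
  let π₁ : ((Fin m₁ → F) × (Fin m₂ → F)) × F →ₗ[F] (Fin m₁ → F) × F :=
    (LinearMap.fst F (Fin m₁ → F) (Fin m₂ → F) ∘ₗ LinearMap.fst F _ F).prod (LinearMap.snd F _ F)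
  let π₂ : ((Fin m₁ → F) × (Fin m₂ → F)) × F →ₗ[F] (Fin m₂ → F) × F :=
    (LinearMap.snd F (Fin m₁ → F) (Fin m₂ → F) ∘ₗ LinearMap.fst F _ F).prod (LinearMap.snd F _ F)
  let L : ((Fin m₁ → F) × (Fin m₂ → F)) × F →ₗ[F] V₁ × V₂ :=
    ((b₁.equivFun.symm : _ →ₗ[F] V₁) ∘ₗ oddEmb m₁ F ∘ₗ π₁).prod
      ((b₂.equivFun.symm : _ →ₗ[F] V₂) ∘ₗ oddEmb m₂ F ∘ₗ π₂)
  have hL1 : ∀ x, (L x).1 = b₁.equivFun.symm (oddEmb m₁ F (x.1.1, x.2)) := fun x => rfl
  have hL2 : ∀ x, (L x).2 = b₂.equivFun.symm (oddEmb m₂ F (x.1.2, x.2)) := fun x => rfl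
  have hinj : Function.Injective L := by
    rw [injective_iff_map_eq_zero]
    intro x hx
    have e1 : oddEmb m₁ F (x.1.1, x.2) = 0 := by
      have := congrArg Prod.fst hx
      rw [hL1, Prod.fst_zero] at this
      exact b₁.equivFun.symm.map_eq_zero_iff.mp this
    have e2 : oddEmb m₂ F (x.1.2, x.2) = 0 := by
      have := congrArg Prod.snd hx
      rw [hL2, Prod.snd_zero] at this
      exact b₂.equivFun.symm.map_eq_zero_iff.mp this
    apply Prod.ext
    · apply Prod.ext
      · funext i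
        have := congrFun e1 (Sum.inr (Sum.inl i))
        rw [oddEmb_fst] at this
        exact this
      · funext i
        have := congrFun e2 (Sum.inr (Sum.inl i))
        rw [oddEmb_fst] at this
        exact this
    · have := congrFun e1 (Sum.inl ())
      rw [oddEmb_snd] at this
      exact this
  have h0 : ∀ x, (Q₁.prod (c • Q₂)) (L x) = 0 := by
    intro x
    rw [QuadraticMap.prod_apply, hL1, hL2, _root_.smul_apply, hb₁, hb₂,
      LinearEquiv.apply_symm_apply, LinearEquiv.apply_symm_apply, oddEmb_quad, oddEmb_quad, hc,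
      smul_eq_mul]
    field_simp
    ring
  have hts := hasTS_of_map (Q₁.prod (c • Q₂)) L hinj h0
  have hfr : finrank F (((Fin m₁ → F) × (Fin m₂ → F)) × F) = m₁ + m₂ + 1 := by
    rw [Module.finrank_prod, Module.finrank_prod, Module.finrank_fintype_fun_eq_card,
      Module.finrank_fintype_fun_eq_card, Fintype.card_fin, Fintype.card_fin, Module.finrank_self]
  rw [hfr] at hts
  refine ⟨V₁ × V₂, inferInstance, inferInstance, inferInstance, Q₁.prod (c • Q₂), T₁.prodMap T₂,
    polarNondeg_prod hnd₁ hnd₂', ?_, ?_, ?_, m₁ + m₂ + 1, ?_, hts⟩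
  · intro v
    rw [QuadraticMap.prod_apply, QuadraticMap.prod_apply, LinearMap.prodMap_apply, hT₁,
      _root_.smul_apply, _root_.smul_apply, hT₂]
  · rw [Module.finrank_prod, hdim₁, hdim₂, Multiset.sum_add]
  · intro l
    rw [finrank_ker_prodMap, hk₁, hk₂, kdim_add]
  · rw [Multiset.sum_add, hm₁, hm₂]
    ring

end Blocks


section Parity

variable {F : Type u} [Field F]

theorem unipO_single (h2 : (2 : F) ≠ 0) (j : ℕ) (hj : Odd j) : UnipO F {j} := by
  apply unipO_of_parity h2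
  · intro e he
    rw [Multiset.mem_singleton] at he
    rw [he]
    exact hj.pos
  · intro e he
    rw [Multiset.count_singleton]
    split_ifs with h
    · exfalso
      rw [h] at he
      exact (Nat.not_even_iff_odd.mpr hj) he
    · exact Even.zero

theorem unipH_of_parity [Finite F] (h2 : (2 : F) ≠ 0) (μ : Multiset ℕ) (hpos : ∀ e ∈ μ, 0 < e)
    (hpar : ∀ e : ℕ, Even e → Even (μ.count e)) (hsum : Even μ.sum) : UnipH F μ := by
  refine Cfsg.Agent.Helper51.parity_induction (UnipH F) unipH_zero ?_ ?_ μ hpos hpar hsum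
  · intro j hj ν hν
    have h := unipH_add (unipH_pair (F := F) j hj) hν
    have e : ({j} + {j} + ν : Multiset ℕ) = j ::ₘ j ::ₘ ν := by
      rw [Multiset.singleton_add, Multiset.cons_add, Multiset.singleton_add]
    rwa [e] at h
  · intro j j' hj hj' ν hν
    have h := unipH_add (unipH_of_odd_odd (unipO_single h2 j hj) (unipO_single h2 j' hj')
      (by rwa [Multiset.sum_singleton]) (by rwa [Multiset.sum_singleton])) hν
    have e : ({j} + {j'} + ν : Multiset ℕ) = j ::ₘ j' ::ₘ ν := by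
      rw [Multiset.singleton_add, Multiset.cons_add, Multiset.singleton_add]
    rwa [e] at h

end Parity

section Transfer

variable {F : Type u} [Field F]

/-- transport of an isometry along a similitude from a standard space, keeping the kernel
dimensions -/
theorem exists_matrix_kdim {ι : Type*} [Fintype ι] [DecidableEq ι] {V : Type*}
    [AddCommGroup V] [Module F V] [FiniteDimensional F V] (Q : QuadraticForm F V)
    (T : Module.End F V) (hT : ∀ v, Q (T v) = Q v)
    (Ψ : (ι → F) ≃ₗ[F] V) (q₀ : (ι → F) → F) (c : F) (hc : c ≠ 0)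
    (hΨ : ∀ z, Q (Ψ z) = c * q₀ z) :
    ∃ A : Matrix ι ι F, (∀ x, q₀ (A.mulVec x) = q₀ x) ∧
      ∀ l, finrank F ↥(LinearMap.ker ((Matrix.toLin' A - 1) ^ l)) =
        finrank F ↥(LinearMap.ker ((T - 1) ^ l)) := by
  set T' : Module.End F (ι → F) := (Ψ.symm : V →ₗ[F] (ι → F)) ∘ₗ T ∘ₗ (Ψ : (ι → F) →ₗ[F] V)
    with hT'
  have hΨT : ∀ x, Ψ (T' x) = T (Ψ x) := by
    intro x
    rw [hT']
    simp
  refine ⟨LinearMap.toMatrix' T', ?_, ?_⟩
  · intro x
    have h1 : (LinearMap.toMatrix' T').mulVec x = T' x := by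
      rw [← Matrix.toLin'_apply, Matrix.toLin'_toMatrix']
    rw [h1]
    apply mul_left_cancel₀ hc
    rw [← hΨ, ← hΨ, hΨT, hT]
  · intro l
    rw [Matrix.toLin'_toMatrix']
    have key : ∀ (l : ℕ) (x : ι → F), Ψ (((T' - 1) ^ l) x) = ((T - 1) ^ l) (Ψ x) := by
      intro l
      induction l with
      | zero => intro x; simp
      | succ l ih =>
        intro x
        rw [pow_succ, pow_succ, Module.End.mul_apply, Module.End.mul_apply, ih]
        congr 1
        rw [LinearMap.sub_apply, LinearMap.sub_apply, map_sub, hΨT]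
        rfl
    have e : LinearMap.ker ((T - 1) ^ l) =
        (LinearMap.ker ((T' - 1) ^ l)).map (Ψ : (ι → F) →ₗ[F] V) := by
      ext v
      rw [LinearMap.mem_ker, Submodule.mem_map]
      constructor
      · intro hv
        refine ⟨Ψ.symm v, ?_, by simp⟩
        rw [LinearMap.mem_ker]
        apply Ψ.injective
        rw [key, map_zero]
        simpa using hv
      · rintro ⟨x, hx, rfl⟩
        rw [LinearMap.mem_ker] at hx
        have := key l x
        rw [hx, map_zero] at this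
        exact this.symm
    rw [e, LinearEquiv.finrank_map_eq]

end Transfer

end Cfsg.Agent.Helper43.UniIso
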