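import Mathlib
import Cfsg.Prelude.Def_GeometricClasses
import Cfsg.Prelude.Def_Classical
import Cfsg.Agent.Helper43.OrthEven

set_option autoImplicit false

/-!
# Definitions for sub-CALL S88OE (helper43): stages OEG / OEB of CALL S88 (row S5988)

Abstract quadratic spaces `(V, Q)` with an isometry `T`:
* `Blk r Q T`: a block - the polar form is nondegenerate, `T` is an isometry and
  `aeval T (cyclotomic r F) = 0` (so `T ^ r = 1` and `T` has no nonzero fixed vector);
* `Flag Q T i n`: for every `s ≤ n` there is a `T`-invariant subspace of dimension `i * s` on which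
  the polar form is nondegenerate;
* `InvEllSub Q T l W`: `W` is a `T`-invariant subspace of dimension `2 * l`, nondegenerate and of
  minus type (no totally singular subspace of dimension `l`);
* `Val A k₀ s w₂`: the admissible pairs `(s, w₂)` of the profile `(A, k₀)`.
-/

namespace Cfsg.Agent.Helper43.S88OE

open Module Polynomial Cfsg.Agent.Helper43 Cfsg.Agent.Helper43.OrthEven

variable {F : Type*} [Field F] {V : Type*} [AddCommGroup V] [Module F V]

/-- a block: nondegenerate polar form, `T` an isometry annihilated by the `r`-th cyclotomic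
polynomial -/
def Blk (r : ℕ) (Q : QuadraticForm F V) (T : Module.End F V) : Prop :=
  PolarNondeg Q ∧ (∀ v, Q (T v) = Q v) ∧ aeval T (cyclotomic r F) = 0

/-- for every `s ≤ n` an invariant nondegenerate subspace of dimension `i * s` -/
def Flag (Q : QuadraticForm F V) (T : Module.End F V) (i n : ℕ) : Prop :=
  ∀ s, s ≤ n → ∃ U : Submodule F V, U.map T ≤ U ∧ PolarNondeg (Q.comp U.subtype) ∧
    finrank F U = i * s

/-- `W` is a `T`-invariant nondegenerate subspace of dimension `2 * l` of minus type -/
def InvEllSub (Q : QuadraticForm F V) (T : Module.End F V) (l : ℕ) (W : Submodule F V) : Prop :=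
  W.map T ≤ W ∧ finrank F W = 2 * l ∧ PolarNondeg (Q.comp W.subtype) ∧
    ¬ HasTS (Q.comp W.subtype) l

/-- the pairs `(s, w₂)` allowed by the profile `(A, k₀)` -/
def Val (A k₀ s w₂ : ℕ) : Prop :=
  s ≤ A ∧ w₂ ≤ k₀ ∧ ((0 < w₂ ∧ w₂ < k₀) ∨ (w₂ = 0 ∧ Odd s) ∨ (w₂ = k₀ ∧ Odd (s + A)))

end Cfsg.Agent.Helper43.S88OE
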