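import Mathlib
import Cfsg.Prelude.Def_Classical
import Cfsg.Prelude.Def_GeometricClasses
import Cfsg.Agent.Helper90.HTDefs
import Cfsg.Agent.Helper43.C3ODefs
import Cfsg.Agent.Helper43.PrimeOrdO

/-!
# Definitions for CALL OT (S5972: `Ω_{2d+1}(q)` on totally singular `m`-spaces), helper43

The polar form of a quadratic form `Q`, seen as a plain function `ph Q : V → V → F`, is a
"Hermitian form" in the sense of helper90's `IsHerm` for `σ = RingHom.id F`; so all generic pieces of
CALL S5953 (`ht_orth`, `ht_fix`, `ht_sum`, `ht_cyc`, `ht_cw`, `ht_max`, `ht_bound`) apply to it.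
In odd characteristic `HTI (ph Q) W` is the same as `Q` vanishing on `W`.
-/

set_option autoImplicit false

namespace Cfsg.Agent.Helper43.OT

open Module Cfsg.Agent.Helper90.HT

universe u

section gen

variable {F : Type*} [Field F] {V : Type*} [AddCommGroup V] [Module F V]

/-- the polar form of `Q` as a plain function -/
def ph (Q : QuadraticForm F V) : V → V → F := fun u v => QuadraticMap.polar Q u v

theorem ph_apply (Q : QuadraticForm F V) (u v : V) : ph Q u v = QuadraticMap.polar Q u v := rfl

theorem isHerm_ph (Q : QuadraticForm F V) : IsHerm (RingHom.id F) (ph Q) where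
  add_left u u' v := QuadraticMap.polar_add_left Q u u' v
  smul_left a u v := by
    show QuadraticMap.polar Q (a • u) v = a * QuadraticMap.polar Q u v
    rw [QuadraticMap.polar_smul_left, smul_eq_mul]
  symm u v := QuadraticMap.polar_comm Q v u
  invol _ := rfl

theorem ph_self (Q : QuadraticForm F V) (v : V) : ph Q v v = 2 * Q v := by
  rw [ph, QuadraticMap.polar_self, two_smul, two_mul]

/-- in odd characteristic, totally isotropic for the polar form = totally singular -/
theorem hti_ph_iff (h2 : (2 : F) ≠ 0) (Q : QuadraticForm F V) (W : Submodule F V) :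
    HTI (ph Q) W ↔ ∀ w ∈ W, Q w = 0 := by
  constructor
  · intro h w hw
    have h1 := h w hw w hw
    rw [ph_self] at h1
    exact (mul_eq_zero.mp h1).resolve_left h2
  · intro h u hu v hv
    rw [ph, QuadraticMap.polar, h _ (W.add_mem hu hv), h u hu, h v hv]
    simp

/-- an endomorphism preserving `Q` preserves its polar form -/
theorem hpres_ph (Q : QuadraticForm F V) (T : Module.End F V) (hT : ∀ v, Q (T v) = Q v) :
    HPres (ph Q) T := by
  intro u v
  rw [ph, ph, QuadraticMap.polar, QuadraticMap.polar, ← map_add, hT, hT, hT]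

end gen

section std

variable {F : Type u} [Field F]

/-- the polar form of the standard odd form is nondegenerate in odd characteristic -/
theorem ph_odd_nondeg (h2 : (2 : F) ≠ 0) (d : ℕ) (v : Unit ⊕ (Fin d ⊕ Fin d) → F)
    (hv : ∀ w, ph (Cfsg.Agent.Helper43.oddQF d F) v w = 0) : v = 0 :=
  (Cfsg.Agent.Helper43.PrimeOrdO.oddQF_nondeg h2 d).1 v hv

/-- Linearly independent totally singular `m`-families of the standard odd quadratic space. -/
def TSFam (F : Type*) [Field F] (d m : ℕ) : Type _ :=
  {v : Fin m → (Unit ⊕ (Fin d ⊕ Fin d) → F) // LinearIndependent F v ∧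
    (∀ a, Cfsg.quadFormOdd d F (v a) = 0) ∧
    ∀ a b, QuadraticMap.polar (Cfsg.quadFormOdd d F) (v a) (v b) = 0}

end std

end Cfsg.Agent.Helper43.OT
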