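import Mathlib
import Cfsg.Prelude.Def_GeometricClasses
import Cfsg.Prelude.Def_Classical
import Cfsg.Agent.Helper43.UniIso
import Cfsg.Agent.Helper51.U5996KerSplit
import Cfsg.Agent.Helper51.U5996KerConcave
import Cfsg.Agent.Helper27.U5996SubPartition
import Cfsg.Agent.Helper78.U5996InvCompl
import Cfsg.Agent.Helper42.U5996ParityW

set_option autoImplicit false

/-!
# Restriction of a unipotent isometry to an invariant nondegenerate subspace (helper43)

* `restrict_type` : if the unipotent isometry `A` has Jordan type `μ` (kernel dimensions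
  `kdim μ l`) and `W` is an invariant subspace on which the polar form is nondegenerate, then the
  Jordan type `ν` of `A` on `W` is a sub-multiset of `μ`, of sum `dim W`, in which even parts have
  even multiplicity; the multiplicities of `ν` are given by the kernel dimensions on `W`.
-/

namespace Cfsg.Agent.Helper43.UniRestr

open Module Matrix Cfsg.Agent.Helper43.UniIso

theorem restrict_type {F : Type*} [Field F] (h2 : (2 : F) ≠ 0) {ι : Type} [Fintype ι]
    [DecidableEq ι] (Q : QuadraticForm F (ι → F)) (A : Matrix ι ι F)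
    (hA : ∀ v, Q (A.mulVec v) = Q v) (μ : Multiset ℕ) (hpos : ∀ e ∈ μ, 0 < e) (P : ℕ)
    (hP : (A - 1) ^ P = 0)
    (hk : ∀ l, finrank F ↥(LinearMap.ker ((Matrix.toLin' A - 1) ^ l)) = kdim μ l)
    (W : Submodule F (ι → F)) (hW : W.map (Matrix.toLin' A) ≤ W)
    (hnd : Cfsg.Geo.IsNondegenerateOn (QuadraticMap.polar ⇑Q) W) :
    ∃ ν : Multiset ℕ, ν ≤ μ ∧ ν.sum = finrank F ↥W ∧ (∀ e, Even e → Even (ν.count e)) ∧
      ∀ e, 1 ≤ e → ν.count e +
        finrank F ↥(W ⊓ LinearMap.ker ((Matrix.toLin' A - 1) ^ (e - 1))) +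
        finrank F ↥(W ⊓ LinearMap.ker ((Matrix.toLin' A - 1) ^ (e + 1))) =
        2 * finrank F ↥(W ⊓ LinearMap.ker ((Matrix.toLin' A - 1) ^ e)) := by
  obtain ⟨W', hc, hW'⟩ := Cfsg.Agent.Helper78.exists_invariant_compl Q A hA W hW hnd
  set f : Module.End F (ι → F) := Matrix.toLin' A - 1 with hf
  have hfW : ∀ w ∈ W, f w ∈ W := by
    intro w hw
    rw [hf, LinearMap.sub_apply]
    exact W.sub_mem (hW (Submodule.mem_map_of_mem hw)) hw
  have hfW' : ∀ w ∈ W', f w ∈ W' := by
    intro w hw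
    rw [hf, LinearMap.sub_apply]
    exact W'.sub_mem (hW' (Submodule.mem_map_of_mem hw)) hw
  set κ : ℕ → ℕ := fun l => finrank F ↥(W ⊓ LinearMap.ker (f ^ l)) with hκ
  set κ' : ℕ → ℕ := fun l => finrank F ↥(W' ⊓ LinearMap.ker (f ^ l)) with hκ'
  have hnilf : f ^ P = 0 := by
    rw [hf]
    have h1 : (Matrix.toLin' A - 1) ^ P = Matrix.toLin' ((A - 1) ^ P) := by
      rw [Matrix.toLin'_pow, map_sub, Matrix.toLin'_one]
      rfl
    rw [h1, hP, map_zero]
  have hconst : ∀ l, P ≤ l → κ l = κ P := by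
    intro l hl
    have h1 : f ^ l = 0 := by
      rw [← Nat.sub_add_cancel hl, pow_add, hnilf, mul_zero]
    show finrank F ↥(W ⊓ LinearMap.ker (f ^ l)) = finrank F ↥(W ⊓ LinearMap.ker (f ^ P))
    rw [h1, hnilf]
  have hκP : κ P = finrank F ↥W := by
    show finrank F ↥(W ⊓ LinearMap.ker (f ^ P)) = _
    rw [hnilf, LinearMap.ker_zero, inf_top_eq]
  have h0 : κ 0 = 0 := by
    show finrank F ↥(W ⊓ LinearMap.ker (f ^ 0)) = 0
    rw [pow_zero, Module.End.one_eq_id, LinearMap.ker_id, inf_bot_eq]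
    exact finrank_bot F (ι → F)
  obtain ⟨ν, hνμ, hνsum, hνc⟩ := Cfsg.Agent.Helper27.sub_partition μ κ κ' P h0
    (fun l => Cfsg.Agent.Helper51.ker_pow_concave f W hfW l)
    (fun l => Cfsg.Agent.Helper51.ker_pow_concave f W' hfW' l)
    (fun l => by
      have := Cfsg.Agent.Helper51.ker_pow_split f W W' hc hfW hfW' l
      rw [hk l] at this
      exact this.symm) hconst
  refine ⟨ν, hνμ, hνsum.trans hκP, ?_, hνc⟩
  intro e he
  rcases Nat.eq_zero_or_pos e with h | h
  · rw [h, Multiset.count_eq_zero_of_notMem]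
    · exact Even.zero
    · intro h0
      exact absurd (hpos 0 (Multiset.mem_of_le hνμ h0)) (lt_irrefl 0)
  · have hnil : IsNilpotent (A - 1) := ⟨P, hP⟩
    have e1 := Cfsg.Agent.Helper42.restricted_rank_parity h2 Q A hA hnil W hW hnd (e - 1)
      (Nat.Even.sub_odd h he odd_one)
    have e2 := Cfsg.Agent.Helper42.restricted_rank_parity h2 Q A hA hnil W hW hnd (e + 1)
      (he.add_one)
    have e3 := hνc e h
    change ν.count e + κ (e - 1) + κ (e + 1) = 2 * κ e at e3
    change Even (finrank F ↥W + κ (e - 1)) at e1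
    change Even (finrank F ↥W + κ (e + 1)) at e2
    rw [Nat.even_add] at e1 e2
    have e4 : Even (κ (e - 1) + κ (e + 1)) := by
      rw [Nat.even_add]
      exact e1.symm.trans e2
    have e5 : Even (ν.count e + (κ (e - 1) + κ (e + 1))) := by
      rw [← add_assoc, e3]
      exact even_two_mul _
    exact (Nat.even_add.mp e5).mpr e4

end Cfsg.Agent.Helper43.UniRestr
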