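import Mathlib
import Cfsg.Prelude.Def_GeometricClasses
import Cfsg.Prelude.Def_Classical
import Cfsg.Agent.Helper43.UniRestr
import Cfsg.Agent.Helper42.U5996OddOmega

set_option autoImplicit false

/-!
# Elements of order `p` of orthogonal groups fixing subspaces of a given kind (helper43)

* `nilpotent_of_kdim`, `type_of_eq_one`, `exists_gl` : bookkeeping for a unipotent isometry of
  Jordan type `μ`;
* `key_general` : if every element of order `p` of `Ω(Q)` fixes a nondegenerate subspace of a given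
  kind, then every Jordan type `μ` realized by an isometry `A` is either trivial or contains the
  Jordan type `ν` of `A` on such a subspace.
-/

namespace Cfsg.Agent.Helper43.UniMain

open Module Matrix Cfsg.Agent.Helper43.UniIso Cfsg.Agent.Helper43.UniRestr
open scoped MatrixGroups

variable {F : Type*} [Field F]

theorem kdim_of_le (μ : Multiset ℕ) (P : ℕ) (hμ : ∀ e ∈ μ, e ≤ P) : kdim μ P = μ.sum := by
  unfold kdim
  congr 1
  conv_rhs => rw [← Multiset.map_id μ]
  exact Multiset.map_congr rfl (fun e he => min_eq_left (hμ e he))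

theorem kdim_one (μ : Multiset ℕ) (hpos : ∀ e ∈ μ, 0 < e) : kdim μ 1 = Multiset.card μ := by
  unfold kdim
  rw [Multiset.map_congr rfl (fun e he => min_eq_right (hpos e he)), Multiset.map_const',
    Multiset.sum_replicate, smul_eq_mul, mul_one]

theorem nilpotent_of_kdim {ι : Type*} [Fintype ι] [DecidableEq ι] (A : Matrix ι ι F)
    (μ : Multiset ℕ) (P : ℕ) (hμ : ∀ e ∈ μ, e ≤ P) (hsum : μ.sum = Fintype.card ι)
    (hk : ∀ l, finrank F ↥(LinearMap.ker ((Matrix.toLin' A - 1) ^ l)) = kdim μ l) :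
    (A - 1) ^ P = 0 := by
  have h1 : (Matrix.toLin' A - 1) ^ P = Matrix.toLin' ((A - 1) ^ P) := by
    rw [Matrix.toLin'_pow, map_sub, Matrix.toLin'_one]
    rfl
  have h2 := hk P
  rw [kdim_of_le μ P hμ, hsum, ← Module.finrank_fintype_fun_eq_card (R := F)] at h2
  have h3 : LinearMap.ker ((Matrix.toLin' A - 1) ^ P) = ⊤ := Submodule.eq_top_of_finrank_eq h2
  rw [LinearMap.ker_eq_top, h1] at h3
  exact (LinearEquiv.map_eq_zero_iff _).mp h3

theorem type_of_eq_one {ι : Type*} [Fintype ι] [DecidableEq ι] (A : Matrix ι ι F)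
    (μ : Multiset ℕ) (hpos : ∀ e ∈ μ, 0 < e) (hsum : μ.sum = Fintype.card ι)
    (hk : ∀ l, finrank F ↥(LinearMap.ker ((Matrix.toLin' A - 1) ^ l)) = kdim μ l)
    (hA1 : A = 1) : μ = Multiset.replicate (Fintype.card ι) 1 := by
  have h2 := hk 1
  rw [hA1, Matrix.toLin'_one, pow_one] at h2
  have h2' : finrank F ↥(LinearMap.ker ((LinearMap.id : (ι → F) →ₗ[F] (ι → F)) - 1)) =
      Fintype.card ι := by
    have : ((LinearMap.id : (ι → F) →ₗ[F] (ι → F)) - 1) = 0 := sub_self _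
    rw [this, LinearMap.ker_zero, finrank_top, Module.finrank_fintype_fun_eq_card]
  rw [h2', kdim_one μ hpos] at h2
  rw [Multiset.eq_replicate]
  refine ⟨h2.symm, ?_⟩
  have h3 : (μ.map (fun e => e - 1)).sum + Multiset.card μ = μ.sum := by
    have e1 : μ.sum = (μ.map (fun e => (e - 1) + 1)).sum := by
      conv_lhs => rw [← Multiset.map_id μ]
      congr 1
      refine Multiset.map_congr rfl (fun e he => ?_)
      have := hpos e he
      simp only [id]
      omega
    rw [e1, Multiset.sum_map_add, Multiset.map_const', Multiset.sum_replicate, smul_eq_mul,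
      mul_one]
  have h4 : (μ.map (fun e => e - 1)).sum = 0 := by omega
  intro b hb
  have h5 := Multiset.sum_eq_zero_iff.mp h4 (b - 1) (Multiset.mem_map_of_mem _ hb)
  have h6 := hpos b hb
  omega

theorem exists_gl {ι : Type} [Fintype ι] [DecidableEq ι] [Nonempty ι] [Fintype F] (p : ℕ)
    [Fact p.Prime] [CharP F p] (hp2 : p ≠ 2) (Q : QuadraticForm F (ι → F))
    (hQ : (QuadraticMap.polarBilin Q).Nondegenerate) (A : Matrix ι ι F)
    (hA : ∀ v, Q (A.mulVec v) = Q v) (hnil : (A - 1) ^ p = 0) (hA1 : A ≠ 1) :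
    ∃ x : GL ι F, (x : Matrix ι ι F) = A ∧ x ∈ Cfsg.Geo.omegaGL ⇑Q ∧ x ^ p = 1 ∧ x ≠ 1 ∧
      ∀ z : F, (x : Matrix ι ι F) ≠ z • (1 : Matrix ι ι F) := by
  have hpp : p.Prime := Fact.out
  have hAp : A ^ p = 1 := by
    have h := sub_pow_char_of_commute (p := p) (Commute.one_right A)
    rw [hnil, one_pow] at h
    exact sub_eq_zero.mp h.symm
  let x : GL ι F := ⟨A, A ^ (p - 1), by
    rw [← pow_succ', Nat.sub_add_cancel hpp.one_le, hAp], by
    rw [← pow_succ, Nat.sub_add_cancel hpp.one_le, hAp]⟩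
  have hxp : x ^ p = 1 := Units.ext (by rw [Units.val_pow_eq_pow_val]; exact hAp)
  have h2 : (2 : F) ≠ 0 := by
    intro h
    have h' : ((2 : ℕ) : F) = 0 := by exact_mod_cast h
    have hd : p ∣ 2 := (CharP.cast_eq_zero_iff F p 2).mp h'
    exact hp2 ((Nat.prime_dvd_prime_iff_eq hpp Nat.prime_two).mp hd)
  have hodd : Odd p := hpp.odd_of_ne_two hp2
  refine ⟨x, rfl, ?_, hxp, ?_, ?_⟩
  · exact Cfsg.Agent.Helper42.odd_order_mem_omega h2 Q hQ x (by intro u v; exact hA u) p hodd hxp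
  · intro h
    apply hA1
    exact (congrArg (fun y : GL ι F => (y : Matrix ι ι F)) h : A = 1)
  · intro z hz
    change A = z • (1 : Matrix ι ι F) at hz
    have h1 : (A - 1) = (z - 1) • (1 : Matrix ι ι F) := by rw [hz, sub_smul, one_smul]
    rw [h1, smul_pow, one_pow] at hnil
    obtain ⟨i⟩ := ‹Nonempty ι›
    have h3 := congrFun (congrFun hnil i) i
    simp only [Matrix.smul_apply, Matrix.one_apply_eq, smul_eq_mul, mul_one,
      Matrix.zero_apply] at h3
    have h4 : z - 1 = 0 := pow_eq_zero_iff (hpp.ne_zero) |>.mp h3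
    apply hA1
    rw [hz, sub_eq_zero.mp h4, one_smul]

theorem key_general {ι : Type} [Fintype ι] [DecidableEq ι] [Nonempty ι] [Fintype F] (p : ℕ)
    [Fact p.Prime] [CharP F p] (hp2 : p ≠ 2) (Q : QuadraticForm F (ι → F))
    (hQ : (QuadraticMap.polarBilin Q).Nondegenerate) (m : ℕ)
    (Good : Submodule F (ι → F) → Prop)
    (hG : ∀ W, Good W → finrank F ↥W = m ∧
      Cfsg.Geo.IsNondegenerateOn (QuadraticMap.polar ⇑Q) W)
    (H : ∀ x : GL ι F, x ∈ Cfsg.Geo.omegaGL ⇑Q → x ^ p = 1 → x ≠ 1 →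
      (∀ z : F, (x : Matrix ι ι F) ≠ z • (1 : Matrix ι ι F)) →
      ∃ W, Good W ∧ W.map (Matrix.toLin' (x : Matrix ι ι F)) ≤ W)
    (μ : Multiset ℕ) (hμ : ∀ e ∈ μ, 0 < e ∧ e ≤ p) (hsum : μ.sum = Fintype.card ι)
    (A : Matrix ι ι F) (hA : ∀ v, Q (A.mulVec v) = Q v)
    (hk : ∀ l, finrank F ↥(LinearMap.ker ((Matrix.toLin' A - 1) ^ l)) = kdim μ l) :
    μ = Multiset.replicate (Fintype.card ι) 1 ∨
    ∃ (W : Submodule F (ι → F)) (ν : Multiset ℕ), Good W ∧ W.map (Matrix.toLin' A) ≤ W ∧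
      (A - 1) ^ p = 0 ∧ ν ≤ μ ∧ ν.sum = m ∧ (∀ e, Even e → Even (ν.count e)) ∧
      ∀ e, 1 ≤ e → ν.count e +
        finrank F ↥(W ⊓ LinearMap.ker ((Matrix.toLin' A - 1) ^ (e - 1))) +
        finrank F ↥(W ⊓ LinearMap.ker ((Matrix.toLin' A - 1) ^ (e + 1))) =
        2 * finrank F ↥(W ⊓ LinearMap.ker ((Matrix.toLin' A - 1) ^ e)) := by
  have hpp : p.Prime := Fact.out
  have hnil := nilpotent_of_kdim A μ p (fun e he => (hμ e he).2) hsum hk
  by_cases hA1 : A = 1
  · left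
    exact type_of_eq_one A μ (fun e he => (hμ e he).1) hsum hk hA1
  · right
    obtain ⟨x, hx, hxΩ, hxp, hx1, hxs⟩ := exists_gl p hp2 Q hQ A hA hnil hA1
    obtain ⟨W, hGW, hWx⟩ := H x hxΩ hxp hx1 hxs
    rw [hx] at hWx
    obtain ⟨hfr, hnd⟩ := hG W hGW
    have h2 : (2 : F) ≠ 0 := by
      intro h
      have h' : ((2 : ℕ) : F) = 0 := by exact_mod_cast h
      have hd : p ∣ 2 := (CharP.cast_eq_zero_iff F p 2).mp h'
      exact hp2 ((Nat.prime_dvd_prime_iff_eq hpp Nat.prime_two).mp hd)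
    obtain ⟨ν, hνμ, hνs, hνp, hνc⟩ := restrict_type h2 Q A hA μ (fun e he => (hμ e he).1) p hnil hk
      W hWx hnd
    exact ⟨W, ν, hGW, hWx, hnil, hνμ, hνs.trans hfr, hνp, hνc⟩

end Cfsg.Agent.Helper43.UniMain
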