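import Mathlib
import Cfsg.Prelude.Def_GeometricClasses
import Cfsg.Prelude.Def_Classical
import Cfsg.Agent.Helper43.OrthPlane
import Cfsg.Agent.Helper43.OrthStd
import Cfsg.Agent.Helper55.U5994AllEvenTS

/-!
# Two quadratic-space lemmas for S5994

* `not_hasTS_odd_odd` : the orthogonal sum of two odd-dimensional nondegenerate quadratic spaces
  over a finite field of odd characteristic, the second one suitably rescaled, is of minus type.
* `plus_of_all_even` : an invariant subspace on which a unipotent isometry has only even Jordan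
  blocks is of plus type.
-/

set_option autoImplicit false

namespace Cfsg.Agent.Helper43.UniEll

open Module Cfsg.Agent.Helper43 Cfsg.Agent.Helper43.OrthEven

theorem not_hasTS_odd_odd {F : Type*} [Field F] [Finite F] (h2 : (2 : F) ≠ 0)
    {V₁ V₂ : Type*} [AddCommGroup V₁] [Module F V₁] [FiniteDimensional F V₁]
    [AddCommGroup V₂] [Module F V₂] [FiniteDimensional F V₂]
    (Q₁ : QuadraticForm F V₁) (Q₂ : QuadraticForm F V₂) (hnd₁ : PolarNondeg Q₁)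
    (hnd₂ : PolarNondeg Q₂) {m₁ m₂ : ℕ} (h₁ : finrank F V₁ = 2 * m₁ + 1)
    (h₂ : finrank F V₂ = 2 * m₂ + 1) :
    ∃ c : F, c ≠ 0 ∧ ¬ HasTS (Q₁.prod (c • Q₂)) (m₁ + m₂ + 1) := by
  classical
  obtain ⟨b₁, d₁, hd₁, hQ₁⟩ := OrthStd.exists_basis_odd h₁ Q₁ hnd₁
  obtain ⟨b₂, d₂, hd₂, hQ₂⟩ := OrthStd.exists_basis_odd h₂ Q₂ hnd₂
  have hchar : ringChar F ≠ 2 := by
    intro h
    apply h2
    have := CharP.cast_eq_zero F (ringChar F)
    rw [h] at this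
    exact_mod_cast this
  obtain ⟨ε, hε⟩ := FiniteField.exists_nonsquare hchar
  have hε0 : ε ≠ 0 := by
    rintro rfl
    exact hε (IsSquare.zero)
  have hac : ∀ z₁ z₂ : F, z₁ ^ 2 + 0 * z₁ * z₂ + (-ε) * z₂ ^ 2 = 0 → z₁ = 0 ∧ z₂ = 0 := by
    intro z₁ z₂ h
    have hz₂ : z₂ = 0 := by
      by_contra hz
      apply hε
      refine ⟨z₁ / z₂, ?_⟩
      field_simp
      linear_combination (-1 : F) * h
    subst hz₂
    have : z₁ ^ 2 = 0 := by linear_combination h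
    exact ⟨pow_eq_zero_iff (two_ne_zero) |>.mp this, rfl⟩
  have hc : -ε * d₁ / d₂ ≠ 0 := div_ne_zero (mul_ne_zero (neg_ne_zero.mpr hε0) hd₁) hd₂
  refine ⟨-ε * d₁ / d₂, hc, ?_⟩
  intro hTS
  obtain ⟨g₁, hg₁⟩ : ∃ g₁ : Unit ⊕ (Fin m₁ ⊕ Fin m₁) → ((Fin (m₁ + m₂) ⊕ Fin (m₁ + m₂)) ⊕ Fin 2),
      g₁ = Sum.elim (fun _ => Sum.inr 0) (Sum.elim (fun i => Sum.inl (Sum.inl (Fin.castAdd m₂ i)))
        (fun i => Sum.inl (Sum.inr (Fin.castAdd m₂ i)))) := ⟨_, rfl⟩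
  obtain ⟨g₂, hg₂⟩ : ∃ g₂ : Unit ⊕ (Fin m₂ ⊕ Fin m₂) → ((Fin (m₁ + m₂) ⊕ Fin (m₁ + m₂)) ⊕ Fin 2),
      g₂ = Sum.elim (fun _ => Sum.inr 1) (Sum.elim (fun j => Sum.inl (Sum.inl (Fin.natAdd m₁ j)))
        (fun j => Sum.inl (Sum.inr (Fin.natAdd m₁ j)))) := ⟨_, rfl⟩
  obtain ⟨s₂, hs₂⟩ : ∃ s₂ : Unit ⊕ (Fin m₂ ⊕ Fin m₂) → F,
      s₂ = Sum.elim (fun _ => 1) (Sum.elim (fun _ => 1) (fun _ => -ε⁻¹)) := ⟨_, rfl⟩
  obtain ⟨L, hL⟩ : ∃ L : (((Fin (m₁ + m₂) ⊕ Fin (m₁ + m₂)) ⊕ Fin 2) → F) →ₗ[F] V₁ × V₂,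
      ∀ z, L z = (b₁.equivFun.symm (fun s => z (g₁ s)),
        b₂.equivFun.symm (fun s => s₂ s * z (g₂ s))) := by
    refine ⟨((b₁.equivFun.symm : _ →ₗ[F] V₁).comp (LinearMap.funLeft F F g₁)).prod
      ((b₂.equivFun.symm : _ →ₗ[F] V₂).comp
        (LinearMap.pi (fun s => s₂ s • LinearMap.proj (g₂ s)))), ?_⟩
    intro z
    rfl
  have hdim : finrank F (V₁ × V₂) =
      Fintype.card ((Fin (m₁ + m₂) ⊕ Fin (m₁ + m₂)) ⊕ Fin 2) := by
    rw [Module.finrank_prod, h₁, h₂]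
    simp only [Fintype.card_sum, Fintype.card_fin]
    ring
  obtain ⟨Ψ, hΨ⟩ := equiv_of_isometry_map (minusQF (m₁ + m₂) F 0 (-ε))
    (polarNondeg_of_nondegenerate _ (minusQF_nondeg (m₁ + m₂) 0 (-ε) hac))
    (d₁⁻¹ • (Q₁.prod ((-ε * d₁ / d₂) • Q₂))) hdim L (by
      intro z
      rw [hL]
      show d₁⁻¹ * (Q₁ (b₁.equivFun.symm (fun s => z (g₁ s))) +
        (-ε * d₁ / d₂) * Q₂ (b₂.equivFun.symm (fun s => s₂ s * z (g₂ s)))) =
        Cfsg.quadFormMinus (m₁ + m₂) F 0 (-ε) z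
      rw [hQ₁, hQ₂, LinearEquiv.apply_symm_apply, LinearEquiv.apply_symm_apply]
      unfold Cfsg.quadFormOdd Cfsg.quadFormMinus
      rw [Fin.sum_univ_add]
      simp only [hg₁, hg₂, hs₂, Sum.elim_inl, Sum.elim_inr, one_mul]
      have hsum : ∑ x : Fin m₂, z (Sum.inl (Sum.inl (Fin.natAdd m₁ x))) *
          (-ε⁻¹ * z (Sum.inl (Sum.inr (Fin.natAdd m₁ x)))) =
          -ε⁻¹ * ∑ x : Fin m₂, z (Sum.inl (Sum.inl (Fin.natAdd m₁ x))) *
            z (Sum.inl (Sum.inr (Fin.natAdd m₁ x))) := by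
        rw [Finset.mul_sum]
        apply Finset.sum_congr rfl
        intro x _
        ring
      rw [hsum]
      field_simp
      ring)
  obtain ⟨U, hU, hU0⟩ := hTS
  apply not_hasTS_minus (m := m₁ + m₂ + 1) (by omega) 0 (-ε) hac
  refine hasTS_equiv (minusQF (m₁ + m₂) F 0 (-ε)) (fun v => minusQF (m₁ + m₂) F 0 (-ε) (Ψ.symm v))
    Ψ.symm (fun v => rfl) ⟨U, hU, ?_⟩
  intro u hu
  show minusQF (m₁ + m₂) F 0 (-ε) (Ψ.symm u) = 0
  rw [← hΨ, LinearEquiv.apply_symm_apply]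
  show d₁⁻¹ * (Q₁.prod ((-ε * d₁ / d₂) • Q₂)) u = 0
  rw [hU0 u hu, mul_zero]

theorem plus_of_all_even {F : Type*} [Field F] (h2 : (2 : F) ≠ 0) {ι : Type} [Fintype ι]
    [DecidableEq ι] (Q : QuadraticForm F (ι → F)) (A : Matrix ι ι F)
    (hA : ∀ v, Q (A.mulVec v) = Q v) (hnil : IsNilpotent (A - 1))
    (W : Submodule F (ι → F)) (hW : W.map (Matrix.toLin' A) ≤ W) (hWe : Even (finrank F ↥W))
    (hev : ∀ e, Odd e → finrank F ↥(W ⊓ LinearMap.ker ((Matrix.toLin' A - 1) ^ (e - 1))) +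
      finrank F ↥(W ⊓ LinearMap.ker ((Matrix.toLin' A - 1) ^ (e + 1))) =
        2 * finrank F ↥(W ⊓ LinearMap.ker ((Matrix.toLin' A - 1) ^ e))) :
    Cfsg.Geo.IsPlusTypeOn ⇑Q W := by
  classical
  have hmaps : ∀ w ∈ W, Matrix.toLin' A w ∈ W := fun w hw => hW ⟨w, hw, rfl⟩
  obtain ⟨T, hT⟩ : ∃ T : Module.End F ↥W, ∀ w : ↥W, ((T w : ↥W) : ι → F) = Matrix.toLin' A w :=
    ⟨(Matrix.toLin' A).restrict hmaps, fun w => rfl⟩
  have hpow : ∀ (l : ℕ) (w : ↥W),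
      ((((T - 1) ^ l) w : ↥W) : ι → F) = ((Matrix.toLin' A - 1) ^ l) (w : ι → F) := by
    intro l
    induction l with
    | zero => intro w; simp
    | succ l ih =>
      intro w
      rw [pow_succ, pow_succ, Module.End.mul_apply, Module.End.mul_apply, ih]
      congr 1
      rw [LinearMap.sub_apply, LinearMap.sub_apply, Submodule.coe_sub, hT]
      rfl
  have hker : ∀ l, finrank F ↥(LinearMap.ker ((T - 1) ^ l)) =
      finrank F ↥(W ⊓ LinearMap.ker ((Matrix.toLin' A - 1) ^ l)) := by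
    intro l
    have e : (LinearMap.ker ((T - 1) ^ l)).map W.subtype =
        W ⊓ LinearMap.ker ((Matrix.toLin' A - 1) ^ l) := by
      ext v
      constructor
      · rintro ⟨w, hw, rfl⟩
        refine ⟨w.2, ?_⟩
        have hw' : ((T - 1) ^ l) w = 0 := LinearMap.mem_ker.mp hw
        show ((Matrix.toLin' A - 1) ^ l) (w : ι → F) = 0
        rw [← hpow, hw']
        rfl
      · rintro ⟨hvW, hv⟩
        refine ⟨⟨v, hvW⟩, ?_, rfl⟩
        have hv' : ((Matrix.toLin' A - 1) ^ l) v = 0 := LinearMap.mem_ker.mp hv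
        show ((T - 1) ^ l) ⟨v, hvW⟩ = 0
        apply Subtype.ext
        rw [hpow]
        exact hv'
    rw [← e, Submodule.finrank_map_subtype_eq]
  have hnilT : IsNilpotent (T - 1) := by
    obtain ⟨k, hk⟩ := hnil
    refine ⟨k, ?_⟩
    apply LinearMap.ext
    intro w
    apply Subtype.ext
    rw [hpow]
    have e : (Matrix.toLin' A - 1) ^ k = Matrix.toLin' ((A - 1) ^ k) := by
      rw [Matrix.toLin'_pow, map_sub, Matrix.toLin'_one]
      rfl
    rw [e, hk]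
    simp
  obtain ⟨U, hU0, hUdim⟩ := Cfsg.Agent.Helper55.hasTS_of_all_even h2 (Q.comp W.subtype) T
    (fun w => by
      show Q ((T w : ↥W) : ι → F) = Q (w : ι → F)
      rw [hT]
      exact hA w) hnilT
    (fun e he => by
      rw [hker, hker, hker]
      exact hev e he)
  obtain ⟨k, hk⟩ := hWe
  have hkU : k ≤ finrank F ↥U := by omega
  obtain ⟨f, hf⟩ := exists_linearIndependent_of_le_finrank hkU
  refine ⟨(Submodule.span F (Set.range (fun i => ((f i : ↥U) : ↥W)))).map W.subtype, ?_, ?_, ?_⟩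
  · rintro v ⟨w, -, rfl⟩
    exact w.2
  · rintro v ⟨w, hw, rfl⟩
    have hwU : w ∈ U := by
      have : Submodule.span F (Set.range (fun i => ((f i : ↥U) : ↥W))) ≤ U := by
        rw [Submodule.span_le]
        rintro _ ⟨i, rfl⟩
        exact (f i).2
      exact this hw
    exact hU0 w hwU
  · rw [Submodule.finrank_map_subtype_eq, finrank_span_eq_card, Fintype.card_fin, hk]
    · ring
    · exact hf.map_injOn U.subtype (Set.injOn_of_injective U.subtype_injective)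

end Cfsg.Agent.Helper43.UniEll
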