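import Mathlib
import Cfsg.Prelude.Def_GeometricClasses
import Cfsg.Prelude.Def_Classical
import Cfsg.Agent.Helper43.UniIso
import Cfsg.Agent.Helper43.OrthPlane
import Cfsg.Agent.Helper43.UniEll

set_option autoImplicit false

/-!
# Unipotent isometries of prescribed Jordan type in the standard minus space (helper43)

* `exists_plus_of_hasTS'` : recognition of the plus type, dimension zero allowed;
* `exists_matrix_minus` : a Jordan type with an odd part (even parts of even multiplicity, sum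
  `2 d`) is the type of an isometry of the standard minus form.
-/

namespace Cfsg.Agent.Helper43.UniMinus

open Module Matrix Cfsg.Agent.Helper43 Cfsg.Agent.Helper43.UniIso Cfsg.Agent.Helper43.OrthEven

universe u

variable {F : Type u} [Field F]

theorem polarNondeg_smul {V : Type*} [AddCommGroup V] [Module F V] {Q : QuadraticForm F V}
    (hnd : PolarNondeg Q) {c : F} (hc : c ≠ 0) : PolarNondeg (c • Q) := by
  intro v hv
  apply hnd
  intro w
  have e : QuadraticMap.polar (⇑(c • Q)) v w = c * QuadraticMap.polar (⇑Q) v w := by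
    unfold QuadraticMap.polar
    simp only [_root_.smul_apply, smul_eq_mul]
    ring
  have := hv w
  rw [e] at this
  exact (mul_eq_zero.mp this).resolve_left hc

/-- recognition of the plus type, dimension zero allowed -/
theorem exists_plus_of_hasTS' [Finite F] {V : Type*} [AddCommGroup V] [Module F V]
    [FiniteDimensional F V] {m : ℕ} (hV : Module.finrank F V = 2 * m)
    (Q : QuadraticForm F V) (hQ : PolarNondeg Q) (hTS : HasTS Q m) :
    ∃ Ψ : (Fin m ⊕ Fin m → F) ≃ₗ[F] V, ∀ z, Q (Ψ z) = Cfsg.quadFormPlus m F z := by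
  rcases Nat.eq_zero_or_pos m with h | h
  · subst h
    have hV0 : Module.finrank F V = 0 := by rw [hV]
    have hsub : Subsingleton V := Module.finrank_zero_iff.mp hV0
    have hfr : Module.finrank F (Fin 0 ⊕ Fin 0 → F) = Module.finrank F V := by
      rw [hV0, Module.finrank_fintype_fun_eq_card]
      simp
    refine ⟨LinearEquiv.ofFinrankEq _ _ hfr, ?_⟩
    intro z
    rw [Subsingleton.elim (LinearEquiv.ofFinrankEq _ _ hfr z) 0, QuadraticMap.map_zero]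
    simp [Cfsg.quadFormPlus]
  · exact exists_plus_of_hasTS h hV Q hQ hTS

theorem exists_matrix_minus [Finite F] (h2 : (2 : F) ≠ 0) (a b : F)
    (hab : ∀ z₁ z₂ : F, z₁ ^ 2 + a * z₁ * z₂ + b * z₂ ^ 2 = 0 → z₁ = 0 ∧ z₂ = 0) (d : ℕ)
    (μ : Multiset ℕ) (hpos : ∀ e ∈ μ, 0 < e) (hpar : ∀ e : ℕ, Even e → Even (μ.count e))
    (hsum : μ.sum = 2 * d) (hodd : ∃ e ∈ μ, Odd e) :
    ∃ A : Matrix ((Fin (d - 1) ⊕ Fin (d - 1)) ⊕ Fin 2) ((Fin (d - 1) ⊕ Fin (d - 1)) ⊕ Fin 2) F,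
      (∀ x, Cfsg.quadFormMinus (d - 1) F a b (A.mulVec x) = Cfsg.quadFormMinus (d - 1) F a b x) ∧
      ∀ l, finrank F ↥(LinearMap.ker ((Matrix.toLin' A - 1) ^ l)) = kdim μ l := by
  classical
  obtain ⟨j, hj, hjo⟩ := hodd
  have hμ1 : μ = j ::ₘ μ.erase j := (Multiset.cons_erase hj).symm
  have hs1 : j + (μ.erase j).sum = 2 * d := by
    rw [← Multiset.sum_cons, ← hμ1, hsum]
  obtain ⟨j', hj', hj'o⟩ : ∃ e ∈ μ.erase j, Odd e := by
    by_contra hcon
    push Not at hcon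
    have hdvd : 2 ∣ (μ.erase j).sum :=
      Multiset.dvd_sum (fun e he => (Nat.not_odd_iff_even.mp (hcon e he)).two_dvd)
    obtain ⟨k, hk⟩ := hjo
    omega
  set μ₀ := (μ.erase j).erase j' with hμ₀
  have hμ2 : μ.erase j = j' ::ₘ μ₀ := (Multiset.cons_erase hj').symm
  have hμ3 : μ = μ₀ + ({j} + {j'}) := by
    rw [hμ1, hμ2, add_comm, Multiset.singleton_add, Multiset.cons_add, Multiset.singleton_add]
  have hs2 : j' + μ₀.sum = (μ.erase j).sum := by
    rw [← Multiset.sum_cons, ← hμ2]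
  have hle : μ₀ ≤ μ := (Multiset.erase_le _ _).trans (Multiset.erase_le _ _)
  have hH : UnipH F μ₀ := by
    apply unipH_of_parity h2 μ₀ (fun e he => hpos e (Multiset.mem_of_le hle he))
    · intro e he
      have h1 : e ≠ j := by
        rintro rfl
        exact (Nat.not_even_iff_odd.mpr hjo) he
      have h1' : e ≠ j' := by
        rintro rfl
        exact (Nat.not_even_iff_odd.mpr hj'o) he
      rw [hμ₀, Multiset.count_erase_of_ne h1', Multiset.count_erase_of_ne h1]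
      exact hpar e he
    · obtain ⟨k, hk⟩ := hjo
      obtain ⟨k', hk'⟩ := hj'o
      exact ⟨d - k - k' - 1, by omega⟩
  obtain ⟨V₀, _, _, _, Q₀, T₀, hnd₀, hT₀, hdim₀, hk₀, h₀, hh₀, hts₀⟩ := hH
  obtain ⟨V₁, _, _, _, Q₁, T₁, hnd₁, hT₁, hdim₁, hk₁⟩ := unipO_single (F := F) h2 j hjo
  obtain ⟨V₂, _, _, _, Q₂, T₂, hnd₂, hT₂, hdim₂, hk₂⟩ := unipO_single (F := F) h2 j' hj'o
  obtain ⟨m₁, hm₁⟩ := hjo
  obtain ⟨m₂, hm₂⟩ := hj'o
  rw [Multiset.sum_singleton] at hdim₁ hdim₂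
  obtain ⟨c, hc, hnts⟩ := Cfsg.Agent.Helper43.UniEll.not_hasTS_odd_odd h2 Q₁ Q₂ hnd₁ hnd₂ (m₁ := m₁) (m₂ := m₂)
    (by rw [hdim₁, hm₁]) (by rw [hdim₂, hm₂])
  have hndE : PolarNondeg (Q₁.prod (c • Q₂)) := polarNondeg_prod hnd₁ (polarNondeg_smul hnd₂ hc)
  have hdimE : finrank F (V₁ × V₂) = 2 * (m₁ + m₂ + 1) := by
    rw [Module.finrank_prod, hdim₁, hdim₂, hm₁, hm₂]
    ring
  obtain ⟨ΨE, hΨE⟩ := exists_minus_of_not_hasTS' (m := m₁ + m₂ + 1) (by omega) hdimE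
    (Q₁.prod (c • Q₂)) hndE hnts a b hab
  obtain ⟨Ψ₀, hΨ₀⟩ := exists_plus_of_hasTS' (m := h₀) (by rw [hdim₀, hh₀]) Q₀ hnd₀ hts₀
  obtain ⟨Ψ, hΨ⟩ := glue_plus_minus Q₀ (Q₁.prod (c • Q₂)) a b hab Ψ₀ hΨ₀ ΨE hΨE
  have hN : d - 1 = h₀ + (m₁ + m₂ + 1 - 1) := by
    have : m₁ + m₂ + 1 - 1 = m₁ + m₂ := rfl
    omega
  rw [hN]
  have hT : ∀ v, (Q₀.prod (Q₁.prod (c • Q₂))) ((T₀.prodMap (T₁.prodMap T₂)) v) =
      (Q₀.prod (Q₁.prod (c • Q₂))) v := by
    intro v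
    rw [QuadraticMap.prod_apply, QuadraticMap.prod_apply, LinearMap.prodMap_apply, hT₀,
      QuadraticMap.prod_apply, QuadraticMap.prod_apply, LinearMap.prodMap_apply, hT₁,
      _root_.smul_apply, _root_.smul_apply, hT₂]
  obtain ⟨A, hA, hAk⟩ := exists_matrix_kdim (Q₀.prod (Q₁.prod (c • Q₂)))
    (T₀.prodMap (T₁.prodMap T₂)) hT Ψ (Cfsg.quadFormMinus (h₀ + (m₁ + m₂ + 1 - 1)) F a b) 1
    one_ne_zero (by intro z; rw [hΨ, one_mul])
  refine ⟨A, hA, ?_⟩
  intro l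
  rw [hAk, finrank_ker_prodMap, finrank_ker_prodMap, hk₀, hk₁, hk₂, hμ3, kdim_add, kdim_add]

end Cfsg.Agent.Helper43.UniMinus
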