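import Mathlib
import Cfsg.Prelude.Def_GeometricClasses
import Cfsg.Prelude.Def_LieTypeDatum
import Cfsg.Agent.Helper43.SpReal
import Cfsg.Agent.Helper44.SpT

set_option autoImplicit false

namespace Cfsg.Agent.Helper43.GSpPieces

open Matrix Module

/-- the diagonal similitude `diag(1, c)` -/
theorem dmat_conj {F : Type*} [Field F] (m : ℕ) (c : F) :
    (Matrix.fromBlocks (1 : Matrix (Fin m) (Fin m) F) 0 0 (c • (1 : Matrix (Fin m) (Fin m) F)))ᵀ * Matrix.J (Fin m) F *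
      Matrix.fromBlocks (1 : Matrix (Fin m) (Fin m) F) 0 0 (c • (1 : Matrix (Fin m) (Fin m) F)) = c • Matrix.J (Fin m) F := by
  rw [Matrix.J, Matrix.fromBlocks_transpose, Matrix.fromBlocks_multiply,
    Matrix.fromBlocks_multiply, Matrix.fromBlocks_smul]
  simp

theorem dmat_det {F : Type*} [Field F] (m : ℕ) (c : F) :
    (Matrix.fromBlocks (1 : Matrix (Fin m) (Fin m) F) 0 0 (c • (1 : Matrix (Fin m) (Fin m) F))).det = c ^ m := by
  rw [Matrix.det_fromBlocks_zero₁₂, Matrix.det_one, one_mul, Matrix.det_smul, Matrix.det_one,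
    mul_one, Fintype.card_fin]

theorem gsp_det {F : Type*} [Field F] {m : ℕ} (h : GL (Fin m ⊕ Fin m) F) (c : F)
    (hc : (h : Matrix (Fin m ⊕ Fin m) (Fin m ⊕ Fin m) F)ᵀ * Matrix.J (Fin m) F *
      (h : Matrix (Fin m ⊕ Fin m) (Fin m ⊕ Fin m) F) = c • Matrix.J (Fin m) F) :
    (h : Matrix (Fin m ⊕ Fin m) (Fin m ⊕ Fin m) F).det = c ^ m := by
  rcases Nat.eq_zero_or_pos m with rfl | hm
  · rw [Matrix.det_isEmpty, pow_zero]
  have hdet : (h : Matrix (Fin m ⊕ Fin m) (Fin m ⊕ Fin m) F).det ≠ 0 :=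
    Matrix.GeneralLinearGroup.det_ne_zero h
  have hJ : (Matrix.J (Fin m) F).det ≠ 0 := by
    intro h0
    have := Matrix.J_det_mul_J_det (Fin m) F
    rw [h0, mul_zero] at this
    exact zero_ne_one this
  have hc0 : c ≠ 0 := by
    rintro rfl
    have h1 := congrArg Matrix.det hc
    haveI : Nonempty (Fin m ⊕ Fin m) := ⟨Sum.inl ⟨0, hm⟩⟩
    rw [Matrix.det_mul, Matrix.det_mul, Matrix.det_transpose, zero_smul, Matrix.det_zero] at h1
    exact mul_ne_zero (mul_ne_zero hdet hJ) hdet h1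
  set A : Matrix (Fin m ⊕ Fin m) (Fin m ⊕ Fin m) F :=
    (h : Matrix (Fin m ⊕ Fin m) (Fin m ⊕ Fin m) F) *
      Matrix.fromBlocks (1 : Matrix (Fin m) (Fin m) F) 0 0 (c⁻¹ • (1 : Matrix (Fin m) (Fin m) F)) with hA
  have hAmem : A ∈ Matrix.symplecticGroup (Fin m) F := by
    rw [SymplecticGroup.mem_iff', hA, Matrix.transpose_mul]
    have e1 : (Matrix.fromBlocks (1 : Matrix (Fin m) (Fin m) F) 0 0 (c⁻¹ • (1 : Matrix (Fin m) (Fin m) F)))ᵀ *
        (h : Matrix (Fin m ⊕ Fin m) (Fin m ⊕ Fin m) F)ᵀ * Matrix.J (Fin m) F *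
        ((h : Matrix (Fin m ⊕ Fin m) (Fin m ⊕ Fin m) F) *
          Matrix.fromBlocks (1 : Matrix (Fin m) (Fin m) F) 0 0 (c⁻¹ • (1 : Matrix (Fin m) (Fin m) F)))
        = (Matrix.fromBlocks (1 : Matrix (Fin m) (Fin m) F) 0 0 (c⁻¹ • (1 : Matrix (Fin m) (Fin m) F)))ᵀ *
        ((h : Matrix (Fin m ⊕ Fin m) (Fin m ⊕ Fin m) F)ᵀ * Matrix.J (Fin m) F *
          (h : Matrix (Fin m ⊕ Fin m) (Fin m ⊕ Fin m) F)) *
          Matrix.fromBlocks (1 : Matrix (Fin m) (Fin m) F) 0 0 (c⁻¹ • (1 : Matrix (Fin m) (Fin m) F)) := by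
      simp only [Matrix.mul_assoc]
    rw [e1, hc, Matrix.mul_smul, Matrix.smul_mul, dmat_conj, smul_smul, mul_inv_cancel₀ hc0,
      one_smul]
  have h1 := Cfsg.Agent.Helper43.SpReal.det_symplectic (⟨A, hAmem⟩ : Matrix.symplecticGroup (Fin m) F)
  have h2 : A.det = (h : Matrix (Fin m ⊕ Fin m) (Fin m ⊕ Fin m) F).det * c⁻¹ ^ m := by
    rw [hA, Matrix.det_mul, dmat_det]
  have h3 : (h : Matrix (Fin m ⊕ Fin m) (Fin m ⊕ Fin m) F).det * c⁻¹ ^ m = 1 := by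
    rw [← h2]
    exact h1
  rw [inv_pow] at h3
  exact (eq_of_mul_inv_eq_one h3)

theorem gsp_exists {F : Type*} [Field F] (m : ℕ) (c : F) (hc : c ≠ 0) :
    ∃ h : GL (Fin m ⊕ Fin m) F,
      (h : Matrix (Fin m ⊕ Fin m) (Fin m ⊕ Fin m) F)ᵀ * Matrix.J (Fin m) F *
        (h : Matrix (Fin m ⊕ Fin m) (Fin m ⊕ Fin m) F) = c • Matrix.J (Fin m) F ∧
      (h : Matrix (Fin m ⊕ Fin m) (Fin m ⊕ Fin m) F).det = c ^ m := by
  refine ⟨Matrix.GeneralLinearGroup.mkOfDetNeZero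
    (Matrix.fromBlocks (1 : Matrix (Fin m) (Fin m) F) 0 0 (c • (1 : Matrix (Fin m) (Fin m) F))) ?_, ?_, ?_⟩
  · rw [dmat_det]
    exact pow_ne_zero _ hc
  · exact dmat_conj m c
  · exact dmat_det m c

theorem card_pgsp {F : Type*} [Field F] [Fintype F] (m : ℕ) (hm : 1 ≤ m) :
    Nat.card (Cfsg.PGSp m F) = Nat.card (Matrix.symplecticGroup (Fin m) F) := by
  have h0 : Nat.card (Cfsg.PGSp m F)
      = ((Cfsg.Geo.scalars (Fin m ⊕ Fin m) F).subgroupOf (Cfsg.GSp m F)).index := rfl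
  have h1 : (Cfsg.Geo.scalars (Fin m ⊕ Fin m) F).subgroupOf (Cfsg.GSp m F)
      = (Cfsg.Agent.Helper44.PSpn.scalarGSp : Fˣ →* ↥(Cfsg.GSp m F)).range := by
    ext g
    rw [Subgroup.mem_subgroupOf, Cfsg.Geo.mem_scalars_iff, MonoidHom.mem_range]
    constructor
    · rintro ⟨a, ha⟩
      refine ⟨a, ?_⟩
      apply Subtype.ext
      apply Units.ext
      rw [Cfsg.Agent.Helper44.PSpn.scalarGSp_coe, ha, Matrix.smul_one_eq_diagonal]
    · rintro ⟨a, rfl⟩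
      refine ⟨a, ?_⟩
      rw [Cfsg.Agent.Helper44.PSpn.scalarGSp_coe, Matrix.smul_one_eq_diagonal]
  have h2 : Nat.card ↥((Cfsg.Geo.scalars (Fin m ⊕ Fin m) F).subgroupOf (Cfsg.GSp m F))
      = Fintype.card F - 1 := by
    rw [h1, ← Nat.card_congr (MonoidHom.ofInjective
      (Cfsg.Agent.Helper44.PSpn.scalarGSp_injective (F := F) hm)).toEquiv,
      Nat.card_units, Nat.card_eq_fintype_card (α := F)]
  have h3 := Subgroup.card_mul_index ((Cfsg.Geo.scalars (Fin m ⊕ Fin m) F).subgroupOf (Cfsg.GSp m F))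
  rw [h2, Cfsg.Agent.Helper44.PSpn.card_GSp hm] at h3
  have hq : 0 < Fintype.card F - 1 := by
    have := Fintype.one_lt_card (α := F)
    omega
  rw [h0]
  exact Nat.eq_of_mul_eq_mul_left hq h3

end Cfsg.Agent.Helper43.GSpPieces
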