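import Mathlib
import Cfsg.Prelude.Def_GeometricClasses
import Cfsg.Prelude.Def_LieTypeDatum
import Cfsg.Agent.Helper43.GraphGram

set_option autoImplicit false

/-!
# Similitudes of a quadratic form in terms of its Gram matrix (helper43)
-/

namespace Cfsg.Agent.Helper43.GraphForm

open Matrix Module

theorem mem_quadSim_iff {F : Type*} [Field F] {ι : Type} [Fintype ι] [DecidableEq ι] [Nonempty ι]
    (h2 : (2 : F) ≠ 0) (Q : QuadraticForm F (ι → F)) (hdet : (gram Q).det ≠ 0) (g : GL ι F) :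
    g ∈ Cfsg.Geo.quadSimilarityGroup (⇑Q) ↔
      ∃ c : F, (g : Matrix ι ι F)ᵀ * gram Q * (g : Matrix ι ι F) = c • gram Q := by
  have hquad : ∀ v : ι → F, Q v = 2⁻¹ * (v ⬝ᵥ (gram Q *ᵥ v)) := by
    intro v
    rw [← polar_eq_gram, QuadraticMap.polar_self, two_smul]
    field_simp
    ring
  have hdot : ∀ (u v : ι → F), ((g : Matrix ι ι F) *ᵥ u) ⬝ᵥ (gram Q *ᵥ ((g : Matrix ι ι F) *ᵥ v))
      = u ⬝ᵥ (((g : Matrix ι ι F)ᵀ * gram Q * (g : Matrix ι ι F)) *ᵥ v) := by
    intro u v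
    rw [← Matrix.mulVec_mulVec, ← Matrix.mulVec_mulVec, Matrix.dotProduct_mulVec u,
      Matrix.vecMul_transpose]
  have hentry : ∀ (A : Matrix ι ι F) (i j : ι),
      (Pi.single i 1 : ι → F) ⬝ᵥ (A *ᵥ (Pi.single j 1 : ι → F)) = A i j := by
    intro A i j
    simp
  constructor
  · rintro ⟨c, hc⟩
    refine ⟨c, ?_⟩
    have hpol : ∀ u v : ι → F, QuadraticMap.polar Q ((g : Matrix ι ι F) *ᵥ u)
        ((g : Matrix ι ι F) *ᵥ v) = c * QuadraticMap.polar Q u v := by
      intro u v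
      unfold QuadraticMap.polar
      rw [← Matrix.mulVec_add, hc, hc, hc]
      ring
    ext i j
    rw [← hentry ((g : Matrix ι ι F)ᵀ * gram Q * (g : Matrix ι ι F)) i j, ← hdot,
      ← polar_eq_gram, hpol, Matrix.smul_apply, gram_apply, smul_eq_mul]
  · rintro ⟨c, hc⟩
    have hc0 : c ≠ 0 := by
      rintro rfl
      rw [zero_smul] at hc
      have h3 := congrArg Matrix.det hc
      rw [Matrix.det_mul, Matrix.det_mul, Matrix.det_transpose, Matrix.det_zero] at h3
      have hg : (g : Matrix ι ι F).det ≠ 0 := Matrix.GeneralLinearGroup.det_ne_zero g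
      exact mul_ne_zero (mul_ne_zero hg hdet) hg h3
    refine ⟨Units.mk0 c hc0, fun v => ?_⟩
    rw [hquad, hquad, hdot, hc, Matrix.smul_mulVec, dotProduct_smul, smul_eq_mul]
    show _ = c * _
    ring

end Cfsg.Agent.Helper43.GraphForm
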