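import Cfsg.Agent.Helper43.GraphAut
import Cfsg.Agent.Helper43.GraphGram
import Cfsg.Agent.Helper43.OrthPlane
import Cfsg.Agent.Helper43.GraphQuadSim
import Cfsg.Agent.Helper41.GABilSim
import Cfsg.Agent.Helper10.GACongrEquiv
import Cfsg.Agent.Helper51.GAAltCongr

set_option autoImplicit false

/-!
# Graph automorphisms of `PSL_n(F)` attached to the standard forms (helper43)
-/

namespace Cfsg.Agent.Helper43.GraphCore

open Matrix Module Cfsg.Agent.Helper44.PSLn Cfsg.Agent.Helper43 Cfsg.Agent.Helper43.GraphAut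
  Cfsg.Agent.Helper43.GraphForm Cfsg.Agent.Helper43.OrthEven

universe u

variable {n : ℕ} {F : Type u} [Field F]

theorem gl_ne_zero (hn : 1 ≤ n) (M : GL (Fin n) F) : (M : Mn n F) ≠ 0 := by
  intro h0
  have h1 : (M : Mn n F) * ((M⁻¹ : GL (Fin n) F) : Mn n F) = 1 := lang_mul_inv_coe M
  rw [h0, zero_mul] at h1
  have h2 := congrFun (congrFun h1 ⟨0, by omega⟩) ⟨0, by omega⟩
  simp at h2

/-- the reindexed Gram matrix of a nondegenerate quadratic form, as an invertible matrix -/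
noncomputable def gramGL {ι : Type} [Fintype ι] [DecidableEq ι] (e : ι ≃ Fin n)
    (Q : QuadraticForm F (ι → F)) (hQ : PolarNondeg Q) : GL (Fin n) F :=
  Matrix.GeneralLinearGroup.mkOfDetNeZero (Matrix.reindex e e (gram Q)) (by
    rw [Matrix.det_reindex_self]
    exact gram_det_ne_zero Q hQ)

theorem gramGL_coe {ι : Type} [Fintype ι] [DecidableEq ι] (e : ι ≃ Fin n)
    (Q : QuadraticForm F (ι → F)) (hQ : PolarNondeg Q) :
    ((gramGL e Q hQ : GL (Fin n) F) : Mn n F) = Matrix.reindex e e (gram Q) := rfl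

theorem gramGL_transpose {ι : Type} [Fintype ι] [DecidableEq ι] (e : ι ≃ Fin n)
    (Q : QuadraticForm F (ι → F)) (hQ : PolarNondeg Q) :
    ((gramGL e Q hQ : GL (Fin n) F) : Mn n F)ᵀ = (gramGL e Q hQ : GL (Fin n) F) := by
  rw [gramGL_coe, Matrix.reindex_apply, Matrix.transpose_submatrix, gram_transpose]

/-- the reindexed matrix `J`, as an invertible matrix -/
noncomputable def jGL {m : ℕ} (e : Fin m ⊕ Fin m ≃ Fin n) : GL (Fin n) F :=
  Matrix.GeneralLinearGroup.mkOfDetNeZero (Matrix.reindex e e (Matrix.J (Fin m) F)) (by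
    rw [Matrix.det_reindex_self]
    intro h
    have := Matrix.J_det_mul_J_det (Fin m) F
    rw [h, zero_mul] at this
    exact zero_ne_one this)

theorem jGL_coe {m : ℕ} (e : Fin m ⊕ Fin m ≃ Fin n) :
    ((jGL e : GL (Fin n) F) : Mn n F) = Matrix.reindex e e (Matrix.J (Fin m) F) := rfl

theorem jGL_transpose {m : ℕ} (e : Fin m ⊕ Fin m ≃ Fin n) :
    ((jGL e : GL (Fin n) F) : Mn n F)ᵀ = -((jGL e : GL (Fin n) F) : Mn n F) := by
  rw [jGL_coe, Matrix.reindex_apply, Matrix.transpose_submatrix, Matrix.J_transpose]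
  rfl

/-- the centraliser of a graph automorphism of orthogonal type -/
theorem centralizer_gram_iso (hn : 2 ≤ n) (h2 : (2 : F) ≠ 0) {ι : Type} [Fintype ι]
    [DecidableEq ι] (e : ι ≃ Fin n) (Q : QuadraticForm F (ι → F)) (hQ : PolarNondeg Q)
    (γ : MulAut (PSLn n F))
    (hγ : Cfsg.IsConjUnder (Cfsg.inndiagPSL n F) (grph (gramGL e Q hQ)) γ) :
    Nonempty (↥(Cfsg.inndiagPSL n F ⊓ Subgroup.centralizer {γ}) ≃* Cfsg.PGO F (⇑Q)) := by
  obtain ⟨h, hh, rfl⟩ := hγ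
  obtain ⟨h₁, rfl⟩ := (lang_mem_inndiag h).mp hh
  have : Nonempty ι := ⟨e.symm ⟨0, by omega⟩⟩
  exact centralizer_grph_iso hn e (Cfsg.Geo.quadSimilarityGroup (⇑Q)) (gramGL e Q hQ) (fun g => by
    rw [mem_quadSim_iff h2 Q (gram_det_ne_zero Q hQ), gramGL_coe]
    simp only [reindex_sim_iff]) h₁

/-- the centraliser of a graph automorphism of symplectic type -/
theorem centralizer_J_iso (hn : 2 ≤ n) {m : ℕ} (e : Fin m ⊕ Fin m ≃ Fin n)
    (γ : MulAut (PSLn n F))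
    (hγ : Cfsg.IsConjUnder (Cfsg.inndiagPSL n F) (grph (jGL e)) γ) :
    Nonempty (↥(Cfsg.inndiagPSL n F ⊓ Subgroup.centralizer {γ}) ≃* Cfsg.PGSp m F) := by
  obtain ⟨h, hh, rfl⟩ := hγ
  obtain ⟨h₁, rfl⟩ := (lang_mem_inndiag h).mp hh
  have : Nonempty (Fin m ⊕ Fin m) := ⟨e.symm ⟨0, by omega⟩⟩
  have hdet : (Matrix.J (Fin m) F).det ≠ 0 := by
    intro h
    have := Matrix.J_det_mul_J_det (Fin m) F
    rw [h, zero_mul] at this
    exact zero_ne_one this
  exact centralizer_grph_iso hn e (Cfsg.GSp m F) (jGL e) (fun g => by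
    have h3 := Cfsg.Agent.Helper41.mem_sim_iff (Matrix.J (Fin m) F) hdet g
    rw [jGL_coe]
    simp only [reindex_sim_iff]
    exact h3) h₁

/-- a similarity from a standard form gives conjugacy of graph automorphisms -/
theorem conj_of_equiv (hn : 2 ≤ n) {ι : Type} [Fintype ι] [DecidableEq ι] (e : ι ≃ Fin n)
    (Q₀ : QuadraticForm F (ι → F)) (hQ₀ : PolarNondeg Q₀) (M : GL (Fin n) F)
    (QM : QuadraticForm F (Fin n → F))
    (hQM : ∀ u v, QuadraticMap.polar QM u v = u ⬝ᵥ ((M : Mn n F) *ᵥ v))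
    (Ψ : (ι → F) ≃ₗ[F] (Fin n → F)) (d : F) (hd : d ≠ 0) (h : ∀ z, QM (Ψ z) = d * Q₀ z) :
    Cfsg.IsConjUnder (Cfsg.inndiagPSL n F) (grph (gramGL e Q₀ hQ₀)) (grph M) := by
  obtain ⟨k, hk⟩ := Cfsg.Agent.Helper10.congr_of_equiv e (M : Mn n F) QM hQM Q₀ Ψ d h
  apply isConjUnder_symm
  refine (isConjUnder_grph hn M (gramGL e Q₀ hQ₀)).mpr ⟨k, d⁻¹, ?_⟩
  rw [gramGL_coe, hk, smul_smul, inv_mul_cancel₀ hd, one_smul]

/-- an alternating matrix gives a graph automorphism conjugate to the symplectic one -/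
theorem conj_of_alt (hn : 2 ≤ n) {m : ℕ} (e : Fin m ⊕ Fin m ≃ Fin n) (M : GL (Fin n) F)
    (hskew : (M : Mn n F)ᵀ = -(M : Mn n F)) (hdiag : ∀ i, (M : Mn n F) i i = 0) :
    Cfsg.IsConjUnder (Cfsg.inndiagPSL n F) (grph (jGL e)) (grph M) := by
  have hdet : (M : Mn n F).det ≠ 0 := by
    have := Matrix.GeneralLinearGroup.det_ne_zero M
    exact this
  obtain ⟨k, hk⟩ := Cfsg.Agent.Helper51.alt_congr e (M : Mn n F) hdet hskew hdiag
  apply isConjUnder_symm
  refine (isConjUnder_grph hn M (jGL e)).mpr ⟨k, 1, ?_⟩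
  rw [jGL_coe, hk, one_smul]

/-- skew and symmetric graph automorphisms are not conjugate -/
theorem not_conj_skew_sym (hn : 2 ≤ n) (h2 : (2 : F) ≠ 0) (M M' : GL (Fin n) F)
    (hM : (M : Mn n F)ᵀ = -(M : Mn n F)) (hM' : (M' : Mn n F)ᵀ = (M' : Mn n F)) :
    ¬ Cfsg.IsConjUnder (Cfsg.inndiagPSL n F) (grph M) (grph M') := by
  intro h
  obtain ⟨k, c, hc⟩ := (isConjUnder_grph hn M M').mp h
  have h1 : (M' : Mn n F)ᵀ = -(M' : Mn n F) := by
    rw [hc, Matrix.transpose_smul, Matrix.transpose_mul, Matrix.transpose_mul,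
      Matrix.transpose_transpose, hM, ← smul_neg]
    congr 1
    rw [Matrix.neg_mul, Matrix.mul_neg, Matrix.mul_assoc]
  rw [hM'] at h1
  have h3 : (2 : F) • (M' : Mn n F) = 0 := by
    rw [two_smul]
    nth_rewrite 1 [h1]
    exact neg_add_cancel _
  rcases smul_eq_zero.mp h3 with h4 | h4
  · exact h2 h4
  · exact gl_ne_zero (by omega) M' h4

theorem dot_reindex {ι : Type} [Fintype ι] [DecidableEq ι] (e : ι ≃ Fin n) (G : Matrix ι ι F)
    (x y : Fin n → F) :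
    x ⬝ᵥ (Matrix.reindex e e G *ᵥ y) = (x ∘ e) ⬝ᵥ (G *ᵥ (y ∘ e)) := by
  rw [Matrix.reindex_apply, Matrix.submatrix_mulVec_equiv, Equiv.symm_symm]
  simp only [dotProduct, Function.comp_apply]
  rw [← Equiv.sum_comp e]
  simp

/-- totally singular subspaces are transported along conjugacy of graph automorphisms -/
theorem hasTS_of_conj (hn : 2 ≤ n) (h2 : (2 : F) ≠ 0) {ι ι' : Type} [Fintype ι] [DecidableEq ι]
    [Fintype ι'] [DecidableEq ι'] (e : ι ≃ Fin n) (e' : ι' ≃ Fin n)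
    (Q : QuadraticForm F (ι → F)) (Q' : QuadraticForm F (ι' → F)) (hQ : PolarNondeg Q)
    (hQ' : PolarNondeg Q')
    (hconj : Cfsg.IsConjUnder (Cfsg.inndiagPSL n F) (grph (gramGL e Q hQ))
      (grph (gramGL e' Q' hQ')))
    {d : ℕ} (hTS : HasTS Q d) : HasTS Q' d := by
  obtain ⟨k, c, hc⟩ := (isConjUnder_grph hn _ _).mp hconj
  rw [gramGL_coe, gramGL_coe] at hc
  have hquad : ∀ (R : QuadraticForm F (ι → F)) (v : ι → F),
      R v = 2⁻¹ * (v ⬝ᵥ (gram R *ᵥ v)) := by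
    intro R v
    rw [← polar_eq_gram, QuadraticMap.polar_self, two_smul]
    field_simp
    ring
  have hquad' : ∀ (R : QuadraticForm F (ι' → F)) (v : ι' → F),
      R v = 2⁻¹ * (v ⬝ᵥ (gram R *ᵥ v)) := by
    intro R v
    rw [← polar_eq_gram, QuadraticMap.polar_self, two_smul]
    field_simp
    ring
  -- the linear equivalence
  let T : (ι → F) ≃ₗ[F] (ι' → F) :=
    ((LinearEquiv.funCongrLeft F F e.symm).trans
      (Matrix.toLin'OfInv (lang_mul_inv_coe k) (lang_inv_mul_coe k))).trans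
        (LinearEquiv.funCongrLeft F F e')
  have hT : ∀ u : ι → F, T u = (((k⁻¹ : GL (Fin n) F) : Mn n F) *ᵥ (u ∘ e.symm)) ∘ e' :=
    fun u => rfl
  have key : ∀ u : ι → F, Q' (T u) = c * Q u := by
    intro u
    rw [hquad', hquad]
    have h3 := dot_reindex e' (gram Q') ((T u) ∘ e'.symm) ((T u) ∘ e'.symm)
    have h4 : ((T u) ∘ e'.symm) ∘ e' = T u := by
      funext i
      simp
    rw [h4] at h3
    rw [← h3, hc, Matrix.smul_mulVec, dotProduct_smul, smul_eq_mul]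
    have h5 : (T u) ∘ e'.symm = ((k⁻¹ : GL (Fin n) F) : Mn n F) *ᵥ (u ∘ e.symm) := by
      rw [hT]
      funext i
      simp
    rw [h5, ← Matrix.mulVec_mulVec, ← Matrix.mulVec_mulVec, Matrix.mulVec_mulVec _ (k : Mn n F),
      lang_mul_inv_coe, Matrix.one_mulVec, Matrix.dotProduct_mulVec, Matrix.vecMul_transpose,
      Matrix.mulVec_mulVec _ (k : Mn n F), lang_mul_inv_coe, Matrix.one_mulVec, dot_reindex]
    have h6 : (u ∘ e.symm) ∘ e = u := by
      funext i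
      simp
    rw [h6]
    ring
  obtain ⟨U, hU, hU0⟩ := hTS
  refine hasTS_equiv Q' (fun z => Q' (T z)) T (fun z => rfl) ⟨U, hU, ?_⟩
  intro u hu
  show Q' (T u) = 0
  rw [key, hU0 u hu, mul_zero]

/-- an anisotropic binary form over a finite field of odd characteristic -/
theorem exists_aniso [Finite F] (h2 : (2 : F) ≠ 0) :
    ∃ a b : F, ∀ z₁ z₂ : F, z₁ ^ 2 + a * z₁ * z₂ + b * z₂ ^ 2 = 0 → z₁ = 0 ∧ z₂ = 0 := by
  have hchar : ringChar F ≠ 2 := by
    intro h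
    apply h2
    have := CharP.cast_eq_zero F (ringChar F)
    rw [h] at this
    exact_mod_cast this
  obtain ⟨ε, hε⟩ := FiniteField.exists_nonsquare hchar
  refine ⟨0, -ε, ?_⟩
  intro z₁ z₂ h
  have hz₂ : z₂ = 0 := by
    by_contra hz
    apply hε
    refine ⟨z₁ / z₂, ?_⟩
    field_simp
    linear_combination (-1 : F) * h
  subst hz₂
  have : z₁ ^ 2 = 0 := by linear_combination h
  exact ⟨pow_eq_zero_iff (two_ne_zero) |>.mp this, rfl⟩

end Cfsg.Agent.Helper43.GraphCore
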