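import Mathlib
import Cfsg.Prelude.Def_GeometricClasses
import Cfsg.Prelude.Def_LieTypeDatum
import Cfsg.Agent.Helper43.GraphCore
import Cfsg.Agent.Helper43.GSpPieces
import Cfsg.Agent.Helper41.GASymQF
import Cfsg.Agent.Helper10.GACongrEquiv
import Cfsg.Agent.Helper51.GAAltCongr

/-!
# Similitudes of symmetric and alternating matrices: multipliers and determinants (helper43)
-/

set_option autoImplicit false

namespace Cfsg.Agent.Helper43.USimDet

open Matrix Module Cfsg.Agent.Helper43 Cfsg.Agent.Helper43.GraphAut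
  Cfsg.Agent.Helper43.GraphForm Cfsg.Agent.Helper43.OrthEven Cfsg.Agent.Helper43.GraphCore

variable {K : Type*} [Field K] {n : ℕ}

theorem gram_eq (B : Matrix (Fin n) (Fin n) K) (Q : QuadraticForm K (Fin n → K))
    (hQ : ∀ u v, QuadraticMap.polar Q u v = u ⬝ᵥ (B *ᵥ v)) : GraphForm.gram Q = B := by
  ext i j
  rw [GraphForm.gram_apply, hQ]
  simp

/-- every non-zero scalar is the multiplier of a similitude of a non-degenerate symmetric matrix
of even size over a finite field of odd characteristic -/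
theorem exists_mult [Finite K] (h2 : (2 : K) ≠ 0) {m : ℕ} (hm : 1 ≤ m) (hnm : n = 2 * m)
    (B : Matrix (Fin n) (Fin n) K) (hsym : Bᵀ = B) (hdet : B.det ≠ 0) (μ : K) (hμ : μ ≠ 0) :
    ∃ y : GL (Fin n) K,
      (y : Matrix (Fin n) (Fin n) K)ᵀ * B * (y : Matrix (Fin n) (Fin n) K) = μ • B := by
  obtain ⟨Q, hQ, hQpol, hQnd⟩ := Cfsg.Agent.Helper41.exists_symQF h2 B hsym
  have hQnd' : PolarNondeg Q := hQnd hdet
  have hV : finrank K (Fin n → K) = 2 * m := by
    rw [Module.finrank_fintype_fun_eq_card, Fintype.card_fin, hnm]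
  have hQ'nd : PolarNondeg (μ • Q) := by
    intro v hv
    apply hQnd' v
    intro w
    have h3 := hv w
    rw [QuadraticMap.coeFn_smul, QuadraticMap.polar_smul, smul_eq_mul] at h3
    exact (mul_eq_zero.mp h3).resolve_left hμ
  have hTSiff : HasTS (μ • Q) m ↔ HasTS Q m := by
    constructor
    · rintro ⟨U, hU, h0⟩
      refine ⟨U, hU, fun u hu => ?_⟩
      have h3 := h0 u hu
      rw [QuadraticMap.smul_apply, smul_eq_mul] at h3
      exact (mul_eq_zero.mp h3).resolve_left hμ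
    · rintro ⟨U, hU, h0⟩
      exact ⟨U, hU, fun u hu => by rw [QuadraticMap.smul_apply, h0 u hu, smul_zero]⟩
  obtain ⟨T, hT⟩ : ∃ T : (Fin n → K) ≃ₗ[K] (Fin n → K), ∀ v, Q (T v) = μ * Q v := by
    by_cases hTS : HasTS Q m
    · obtain ⟨Ψ₁, h1⟩ := exists_plus_of_hasTS hm hV Q hQnd' hTS
      obtain ⟨Ψ₂, h2'⟩ := exists_plus_of_hasTS hm hV (μ • Q) hQ'nd (hTSiff.mpr hTS)
      refine ⟨Ψ₂.symm.trans Ψ₁, fun v => ?_⟩
      rw [LinearEquiv.trans_apply, h1, ← h2', LinearEquiv.apply_symm_apply,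
        QuadraticMap.smul_apply, smul_eq_mul]
    · obtain ⟨a, b, hab⟩ := exists_aniso (F := K) h2
      obtain ⟨Ψ₁, h1⟩ := exists_minus_of_not_hasTS' hm hV Q hQnd' hTS a b hab
      obtain ⟨Ψ₂, h2'⟩ := exists_minus_of_not_hasTS' hm hV (μ • Q) hQ'nd
        (fun h => hTS (hTSiff.mp h)) a b hab
      refine ⟨Ψ₂.symm.trans Ψ₁, fun v => ?_⟩
      rw [LinearEquiv.trans_apply, h1, ← h2', LinearEquiv.apply_symm_apply,
        QuadraticMap.smul_apply, smul_eq_mul]
  obtain ⟨k, hk⟩ := Cfsg.Agent.Helper10.congr_of_equiv (Equiv.refl (Fin n)) B Q hQpol Q T μ hT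
  refine ⟨k, ?_⟩
  rw [hk, gram_eq B Q hQpol]
  simp

/-- a reflection: an isometry of determinant `-1` of a non-zero symmetric matrix -/
theorem exists_refl (h2 : (2 : K) ≠ 0) (B : Matrix (Fin n) (Fin n) K) (hsym : Bᵀ = B)
    (hB : B ≠ 0) :
    ∃ y : GL (Fin n) K,
      (y : Matrix (Fin n) (Fin n) K)ᵀ * B * (y : Matrix (Fin n) (Fin n) K) = B ∧
        (y : Matrix (Fin n) (Fin n) K).det = -1 := by
  have hentry : ∀ (i j : Fin n),
      (Pi.single i 1 : Fin n → K) ⬝ᵥ (B *ᵥ (Pi.single j 1 : Fin n → K)) = B i j := by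
    intro i j
    simp
  obtain ⟨v, hv⟩ : ∃ v : Fin n → K, v ⬝ᵥ (B *ᵥ v) ≠ 0 := by
    by_contra hcon
    simp only [not_exists, not_not] at hcon
    apply hB
    ext i j
    have h1 := hcon (Pi.single i 1 + Pi.single j 1)
    have h3 := hcon (Pi.single i 1)
    have h4 := hcon (Pi.single j 1)
    rw [Matrix.mulVec_add, dotProduct_add, add_dotProduct, add_dotProduct, h3, h4, hentry,
      hentry] at h1
    have h5 : B j i = B i j := by
      have := congrFun (congrFun hsym i) j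
      rwa [Matrix.transpose_apply] at this
    rw [h5] at h1
    have h6 : (2 : K) * B i j = 0 := by linear_combination h1
    rw [Matrix.zero_apply]
    exact (mul_eq_zero.mp h6).resolve_left h2
  set w : Fin n → K := B *ᵥ v with hw
  set a : K := v ⬝ᵥ w with ha
  have hwv : w ⬝ᵥ v = a := dotProduct_comm _ _
  have hvB : v ᵥ* B = w := by rw [← Matrix.mulVec_transpose, hsym]
  set r : Matrix (Fin n) (Fin n) K := 1 - (2 / a) • vecMulVec v w with hr
  have e1 : rᵀ = 1 - (2 / a) • vecMulVec w v := by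
    rw [hr, Matrix.transpose_sub, Matrix.transpose_one, Matrix.transpose_smul,
      Matrix.transpose_vecMulVec]
  have e2 : rᵀ * B = B - (2 / a) • vecMulVec w w := by
    rw [e1, Matrix.sub_mul, Matrix.one_mul, Matrix.smul_mul, Matrix.vecMulVec_mul, hvB]
  have e3 : rᵀ * B * r = B := by
    rw [e2, hr, Matrix.mul_sub, Matrix.mul_one, Matrix.mul_smul, Matrix.sub_mul, Matrix.smul_mul,
      Matrix.mul_vecMulVec, Matrix.vecMulVec_mul_vecMulVec, hwv, ← hw]
    ext i j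
    simp only [Matrix.sub_apply, Matrix.smul_apply, Matrix.vecMulVec_apply, Pi.smul_apply,
      smul_eq_mul]
    field_simp
    ring
  have e4 : r.det = -1 := by
    have h5 : r = 1 + replicateCol Unit (-(2 / a) • v) * replicateRow Unit w := by
      rw [hr, ← Matrix.vecMulVec_eq, sub_eq_add_neg]
      congr 1
      ext i j
      simp [Matrix.vecMulVec_apply]
      ring
    rw [h5, Matrix.det_one_add_replicateCol_mul_replicateRow, dotProduct_smul, hwv, smul_eq_mul]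
    field_simp
    ring
  refine ⟨Matrix.GeneralLinearGroup.mkOfDetNeZero r (by rw [e4]; simp), e3, e4⟩

/-- the determinant of a similitude of an alternating matrix -/
theorem skew_det {m : ℕ} (e : Fin m ⊕ Fin m ≃ Fin n) (B : Matrix (Fin n) (Fin n) K)
    (hdet : B.det ≠ 0) (hskew : Bᵀ = -B) (hdiag : ∀ i, B i i = 0) (y : GL (Fin n) K) (μ : K)
    (h : (y : Matrix (Fin n) (Fin n) K)ᵀ * B * (y : Matrix (Fin n) (Fin n) K) = μ • B) :
    (y : Matrix (Fin n) (Fin n) K).det = μ ^ m := by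
  obtain ⟨k, hk⟩ := Cfsg.Agent.Helper51.alt_congr e B hdet hskew hdiag
  set y' : GL (Fin n) K := k⁻¹ * y * k with hy'
  have hkk : (k : Matrix (Fin n) (Fin n) K) * ((k⁻¹ : GL (Fin n) K) : Matrix (Fin n) (Fin n) K)
      = 1 := by rw [← Units.val_mul, mul_inv_cancel, Units.val_one]
  have hkk' : ((k⁻¹ : GL (Fin n) K) : Matrix (Fin n) (Fin n) K)ᵀ *
      (k : Matrix (Fin n) (Fin n) K)ᵀ = 1 := by
    rw [← Matrix.transpose_mul, hkk, Matrix.transpose_one]
  have h1 : (y' : Matrix (Fin n) (Fin n) K)ᵀ * Matrix.reindex e e (Matrix.J (Fin m) K) *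
      (y' : Matrix (Fin n) (Fin n) K) = μ • Matrix.reindex e e (Matrix.J (Fin m) K) := by
    rw [← hk, hy', Units.val_mul, Units.val_mul, Matrix.transpose_mul, Matrix.transpose_mul]
    calc (k : Matrix (Fin n) (Fin n) K)ᵀ * ((y : Matrix (Fin n) (Fin n) K)ᵀ *
          ((k⁻¹ : GL (Fin n) K) : Matrix (Fin n) (Fin n) K)ᵀ) *
          ((k : Matrix (Fin n) (Fin n) K)ᵀ * B * (k : Matrix (Fin n) (Fin n) K)) *
          (((k⁻¹ : GL (Fin n) K) : Matrix (Fin n) (Fin n) K) * (y : Matrix (Fin n) (Fin n) K) *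
            (k : Matrix (Fin n) (Fin n) K))
        = (k : Matrix (Fin n) (Fin n) K)ᵀ * ((y : Matrix (Fin n) (Fin n) K)ᵀ *
          ((((k⁻¹ : GL (Fin n) K) : Matrix (Fin n) (Fin n) K)ᵀ *
          (k : Matrix (Fin n) (Fin n) K)ᵀ) * B * ((k : Matrix (Fin n) (Fin n) K) *
          ((k⁻¹ : GL (Fin n) K) : Matrix (Fin n) (Fin n) K))) * (y : Matrix (Fin n) (Fin n) K)) *
            (k : Matrix (Fin n) (Fin n) K) := by simp only [Matrix.mul_assoc]
      _ = (k : Matrix (Fin n) (Fin n) K)ᵀ * ((y : Matrix (Fin n) (Fin n) K)ᵀ * B *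
            (y : Matrix (Fin n) (Fin n) K)) * (k : Matrix (Fin n) (Fin n) K) := by
          rw [hkk, hkk', Matrix.one_mul, Matrix.mul_one]
      _ = μ • ((k : Matrix (Fin n) (Fin n) K)ᵀ * B * (k : Matrix (Fin n) (Fin n) K)) := by
          rw [h, Matrix.mul_smul, Matrix.smul_mul]
  set h' : GL (Fin m ⊕ Fin m) K := (reGL e).symm y' with hh'
  have h2 : Matrix.reindex e e (h' : Matrix (Fin m ⊕ Fin m) (Fin m ⊕ Fin m) K)
      = (y' : Matrix (Fin n) (Fin n) K) := by
    rw [← reGL_coe, hh', MulEquiv.apply_symm_apply]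
  rw [← h2, reindex_sim_iff] at h1
  have h3 := Cfsg.Agent.Helper43.GSpPieces.gsp_det h' μ h1
  have h4 : (y' : Matrix (Fin n) (Fin n) K).det
      = (h' : Matrix (Fin m ⊕ Fin m) (Fin m ⊕ Fin m) K).det := by
    rw [← h2, Matrix.det_reindex_self]
  have h5 : (y' : Matrix (Fin n) (Fin n) K).det = (y : Matrix (Fin n) (Fin n) K).det := by
    rw [hy', Units.val_mul, Units.val_mul, Matrix.det_mul, Matrix.det_mul, mul_comm, ← mul_assoc,
      ← Matrix.det_mul, hkk, Matrix.det_one, one_mul]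
  rw [← h5, h4, h3]

/-- every non-zero scalar is the multiplier of a similitude of an alternating matrix -/
theorem skew_exists {m : ℕ} (e : Fin m ⊕ Fin m ≃ Fin n) (B : Matrix (Fin n) (Fin n) K)
    (hdet : B.det ≠ 0) (hskew : Bᵀ = -B) (hdiag : ∀ i, B i i = 0) (μ : K) (hμ : μ ≠ 0) :
    ∃ y : GL (Fin n) K,
      (y : Matrix (Fin n) (Fin n) K)ᵀ * B * (y : Matrix (Fin n) (Fin n) K) = μ • B := by
  obtain ⟨k, hk⟩ := Cfsg.Agent.Helper51.alt_congr e B hdet hskew hdiag
  obtain ⟨h', hh', -⟩ := Cfsg.Agent.Helper43.GSpPieces.gsp_exists m μ hμ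
  set y' : GL (Fin n) K := reGL e h' with hy'
  have h1 : (y' : Matrix (Fin n) (Fin n) K)ᵀ * Matrix.reindex e e (Matrix.J (Fin m) K) *
      (y' : Matrix (Fin n) (Fin n) K) = μ • Matrix.reindex e e (Matrix.J (Fin m) K) := by
    rw [hy', reGL_coe, reindex_sim_iff]
    exact hh'
  have hkk : (k : Matrix (Fin n) (Fin n) K) * ((k⁻¹ : GL (Fin n) K) : Matrix (Fin n) (Fin n) K)
      = 1 := by rw [← Units.val_mul, mul_inv_cancel, Units.val_one]
  have hkk' : ((k⁻¹ : GL (Fin n) K) : Matrix (Fin n) (Fin n) K)ᵀ *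
      (k : Matrix (Fin n) (Fin n) K)ᵀ = 1 := by
    rw [← Matrix.transpose_mul, hkk, Matrix.transpose_one]
  refine ⟨k * y' * k⁻¹, ?_⟩
  rw [Units.val_mul, Units.val_mul, Matrix.transpose_mul, Matrix.transpose_mul]
  calc ((k⁻¹ : GL (Fin n) K) : Matrix (Fin n) (Fin n) K)ᵀ *
        ((y' : Matrix (Fin n) (Fin n) K)ᵀ * (k : Matrix (Fin n) (Fin n) K)ᵀ) * B *
        ((k : Matrix (Fin n) (Fin n) K) * (y' : Matrix (Fin n) (Fin n) K) *
          ((k⁻¹ : GL (Fin n) K) : Matrix (Fin n) (Fin n) K))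
      = ((k⁻¹ : GL (Fin n) K) : Matrix (Fin n) (Fin n) K)ᵀ *
        ((y' : Matrix (Fin n) (Fin n) K)ᵀ *
          ((k : Matrix (Fin n) (Fin n) K)ᵀ * B * (k : Matrix (Fin n) (Fin n) K)) *
          (y' : Matrix (Fin n) (Fin n) K)) *
          ((k⁻¹ : GL (Fin n) K) : Matrix (Fin n) (Fin n) K) := by simp only [Matrix.mul_assoc]
    _ = ((k⁻¹ : GL (Fin n) K) : Matrix (Fin n) (Fin n) K)ᵀ *
        (μ • ((k : Matrix (Fin n) (Fin n) K)ᵀ * B * (k : Matrix (Fin n) (Fin n) K))) *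
          ((k⁻¹ : GL (Fin n) K) : Matrix (Fin n) (Fin n) K) := by rw [hk, h1]
    _ = μ • ((((k⁻¹ : GL (Fin n) K) : Matrix (Fin n) (Fin n) K)ᵀ *
          (k : Matrix (Fin n) (Fin n) K)ᵀ) * B * ((k : Matrix (Fin n) (Fin n) K) *
          ((k⁻¹ : GL (Fin n) K) : Matrix (Fin n) (Fin n) K))) := by
        rw [Matrix.mul_smul, Matrix.smul_mul]
        simp only [Matrix.mul_assoc]
    _ = μ • B := by rw [hkk', hkk, Matrix.one_mul, Matrix.mul_one]

end Cfsg.Agent.Helper43.USimDet
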