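/-
Helper43 library: hyperbolic frames from a totally singular family with a (not necessarily
singular) dual family; the elliptic analogue of `TwoFam.frameMat` (frame plus an elliptic
pair, matrix to `Cfsg.quadFormMinus r F 1 1`); injectivity of `TwoFam.conjIso`.
-/
import Cfsg.Agent.Helper43.TwoFamStd

set_option autoImplicit false
set_option linter.unusedSectionVars false

namespace Cfsg.Agent.Helper43
namespace SymOrth

open Module Matrix TwoFam

section Abstract

variable {F V : Type*} [Field F] [AddCommGroup V] [Module F V]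

/-- a function `Q` with polar form `B` (no non-degeneracy, no dimension) -/
structure QPol (Q : V → F) (B : LinearMap.BilinForm F V) : Prop where
  polar : ∀ x y, Q (x + y) = Q x + Q y + B x y
  smul : ∀ (c : F) x, Q (c • x) = c * c * Q x

theorem QPol.of_qspace {Q : V → F} {B : LinearMap.BilinForm F V} {m : ℕ} (h : QSpace Q B m) :
    QPol Q B := ⟨h.polar, h.smul⟩

namespace QPol

variable {Q : V → F} {B : LinearMap.BilinForm F V} (h : QPol Q B)
include h

theorem symm (x y : V) : B x y = B y x := by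
  have h1 := h.polar x y
  have h2 := h.polar y x
  rw [add_comm y x, h1] at h2
  linear_combination h2

theorem zero : Q 0 = 0 := by
  have := h.smul 0 0
  simpa using this

theorem Q_sum_eq_zero {κ : Type*} (s : Finset κ) (a : κ → V) (hQ : ∀ i, Q (a i) = 0)
    (hB : ∀ i j, B (a i) (a j) = 0) (c : κ → F) : Q (∑ i ∈ s, c i • a i) = 0 := by
  classical
  induction s using Finset.induction_on with
  | empty => simpa using h.zero
  | insert k s hk ih =>
    rw [Finset.sum_insert hk, h.polar, h.smul, hQ, ih, map_smul, LinearMap.smul_apply, map_sum]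
    simp [hB]

theorem frame_B_f {r : ℕ} {e f : Fin r → V} (hf : Frame Q B e f) (x y : Fin r → F)
    (i : Fin r) : B (f i) (∑ k, x k • e k + ∑ k, y k • f k) = x i := by
  have h1 : ∀ k, B (f i) (e k) = if k = i then 1 else 0 := fun k => by
    rw [h.symm, hf.Bef]
  simp only [map_add, map_sum, map_smul, hf.Bff, h1, smul_eq_mul, mul_zero,
    Finset.sum_const_zero, add_zero, mul_ite, mul_one, Finset.sum_ite_eq', Finset.mem_univ,
    if_true]

theorem frame_Q {r : ℕ} {e f : Fin r → V} (hf : Frame Q B e f) (x y : Fin r → F) :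
    Q (∑ k, x k • e k + ∑ k, y k • f k) = ∑ k, x k * y k := by
  rw [h.polar, h.Q_sum_eq_zero _ e hf.Qe hf.Bee, h.Q_sum_eq_zero _ f hf.Qf hf.Bff, zero_add,
    zero_add]
  rw [map_sum]
  refine Finset.sum_congr rfl fun j _ => ?_
  rw [map_smul, smul_eq_mul, h.symm]
  have := h.frame_B_f hf x 0 j
  simp only [Pi.zero_apply, zero_smul, Finset.sum_const_zero, add_zero] at this
  rw [this, mul_comm]

/-- a totally singular family with a dual family extends to a hyperbolic frame, the new `f j`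
differing from the given dual vectors by combinations of the `e k` -/
theorem exists_frame_of_dual {r : ℕ} (e f' : Fin r → V) (hQe : ∀ i, Q (e i) = 0)
    (hBee : ∀ i j, B (e i) (e j) = 0) (hd : ∀ i j, B (e i) (f' j) = if i = j then 1 else 0) :
    ∃ f : Fin r → V, Frame Q B e f ∧ ∀ j, ∃ c : Fin r → F, f j = f' j + ∑ k, c k • e k := by
  classical
  let c : Fin r → Fin r → F := fun j k =>
    if j < k then -B (f' j) (f' k) else if j = k then -Q (f' j) else 0
  have hQx : ∀ j, Q (∑ k, c j k • e k) = 0 := fun j => h.Q_sum_eq_zero _ e hQe hBee _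
  have hBex : ∀ i j, B (e i) (∑ k, c j k • e k) = 0 := by
    intro i j
    simp [map_sum, hBee]
  have hBxx : ∀ i j, B (∑ k, c i k • e k) (∑ k, c j k • e k) = 0 := by
    intro i j
    rw [h.symm, map_sum]
    refine Finset.sum_eq_zero fun k _ => ?_
    rw [map_smul, h.symm, hBex, smul_zero]
  have hfx : ∀ i j, B (f' i) (∑ k, c j k • e k) = c j i := by
    intro i j
    have h1 : ∀ k, B (f' i) (e k) = if k = i then 1 else 0 := fun k => by
      rw [h.symm, hd]
    simp only [map_sum, map_smul, h1, smul_eq_mul, mul_ite, mul_one, mul_zero,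
      Finset.sum_ite_eq', Finset.mem_univ, if_true]
  have hQf : ∀ j, Q (f' j + ∑ k, c j k • e k) = 0 := by
    intro j
    rw [h.polar, hQx, hfx]
    simp [c]
  have key : ∀ i j, B (f' i + ∑ k, c i k • e k) (f' j + ∑ k, c j k • e k)
      = B (f' i) (f' j) + c j i + c i j := by
    intro i j
    simp only [map_add, LinearMap.add_apply]
    rw [hfx, h.symm (∑ k, c i k • e k) (f' j), hfx, hBxx]
    ring
  refine ⟨fun j => f' j + ∑ k, c j k • e k, ⟨hQe, hBee, hQf, ?_, ?_⟩, fun j => ⟨c j, rfl⟩⟩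
  · intro i j
    rcases lt_trichotomy i j with hij | hij | hij
    · rw [key]
      have h1 : ¬ j < i := not_lt.2 hij.le
      have h2 : j ≠ i := hij.ne'
      simp [c, hij, h1, h2]
    · subst hij
      have h1 := h.polar (f' i + ∑ k, c i k • e k) (f' i + ∑ k, c i k • e k)
      have h2 := h.smul 2 (f' i + ∑ k, c i k • e k)
      rw [two_smul] at h2
      rw [h2, hQf] at h1
      simpa using h1.symm
    · rw [key]
      have h1 : ¬ i < j := not_lt.2 hij.le
      have h2 : i ≠ j := hij.ne'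
      simp [c, hij, h1, h2, h.symm (f' i) (f' j)]
  · intro i j
    rw [map_add, hd, hBex, add_zero]

end QPol

end Abstract

section Minus

variable {F : Type*} [Field F] {ι : Type} [Fintype ι] [DecidableEq ι] {r : ℕ}

/-- the matrix with columns `e`, `f`, `a`, `b` -/
def frameMatMinus (e f : Fin r → ι → F) (a b : ι → F) :
    Matrix ι ((Fin r ⊕ Fin r) ⊕ Fin 2) F :=
  Matrix.of (fun x c => Sum.elim (Sum.elim e f) ![a, b] c x)

omit [Fintype ι] [DecidableEq ι] in
theorem frameMatMinus_mulVec (e f : Fin r → ι → F) (a b : ι → F)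
    (w : (Fin r ⊕ Fin r) ⊕ Fin 2 → F) :
    frameMatMinus e f a b *ᵥ w
      = (∑ k, w (Sum.inl (Sum.inl k)) • e k + ∑ k, w (Sum.inl (Sum.inr k)) • f k)
        + (w (Sum.inr 0) • a + w (Sum.inr 1) • b) := by
  funext x
  simp [frameMatMinus, Matrix.mulVec, dotProduct, Fintype.sum_sum_type, Fin.sum_univ_two,
    mul_comm]

variable {Q : (ι → F) → F} {B : LinearMap.BilinForm F (ι → F)} {e f : Fin r → ι → F}
  {a b : ι → F}

/-- the data of an elliptic pair orthogonal to a frame (characteristic-two shape: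
`B a a = B b b = 0`) -/
structure EllPair (Q : (ι → F) → F) (B : LinearMap.BilinForm F (ι → F)) (e f : Fin r → ι → F)
    (a b : ι → F) : Prop where
  Qa : Q a = 1
  Qb : Q b = 1
  Bab : B a b = 1
  Baa : B a a = 0
  Bbb : B b b = 0
  Bea : ∀ i, B (e i) a = 0
  Beb : ∀ i, B (e i) b = 0
  Bfa : ∀ i, B (f i) a = 0
  Bfb : ∀ i, B (f i) b = 0

theorem frameMatMinus_Q (h : QPol Q B) (hf : Frame Q B e f) (hp : EllPair Q B e f a b)
    (w : (Fin r ⊕ Fin r) ⊕ Fin 2 → F) :
    Q (frameMatMinus e f a b *ᵥ w) = Cfsg.quadFormMinus r F 1 1 w := by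
  rw [frameMatMinus_mulVec, h.polar, h.frame_Q hf, h.polar, h.smul, h.smul, hp.Qa, hp.Qb]
  have h1 : B (w (Sum.inr 0) • a) (w (Sum.inr 1) • b) = w (Sum.inr 0) * w (Sum.inr 1) := by
    simp [hp.Bab, mul_comm]
  have h2 : B (∑ k, w (Sum.inl (Sum.inl k)) • e k + ∑ k, w (Sum.inl (Sum.inr k)) • f k)
      (w (Sum.inr 0) • a + w (Sum.inr 1) • b) = 0 := by
    simp [map_sum, hp.Bea, hp.Beb, hp.Bfa, hp.Bfb]
  rw [h1, h2]
  unfold Cfsg.quadFormMinus
  ring

theorem frameMatMinus_B_e (h : QPol Q B) (hf : Frame Q B e f) (hp : EllPair Q B e f a b)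
    (w : (Fin r ⊕ Fin r) ⊕ Fin 2 → F) (i : Fin r) :
    B (e i) (frameMatMinus e f a b *ᵥ w) = w (Sum.inl (Sum.inr i)) := by
  rw [frameMatMinus_mulVec, map_add, QSpace.frame_B_e hf]
  simp [hp.Bea, hp.Beb]

theorem frameMatMinus_B_f (h : QPol Q B) (hf : Frame Q B e f) (hp : EllPair Q B e f a b)
    (w : (Fin r ⊕ Fin r) ⊕ Fin 2 → F) (i : Fin r) :
    B (f i) (frameMatMinus e f a b *ᵥ w) = w (Sum.inl (Sum.inl i)) := by
  rw [frameMatMinus_mulVec, map_add, h.frame_B_f hf]
  simp [hp.Bfa, hp.Bfb]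

theorem frameMatMinus_B_a (h : QPol Q B) (hf : Frame Q B e f) (hp : EllPair Q B e f a b)
    (w : (Fin r ⊕ Fin r) ⊕ Fin 2 → F) :
    B a (frameMatMinus e f a b *ᵥ w) = w (Sum.inr 1) := by
  have h1 : ∀ k, B a (e k) = 0 := fun k => by rw [h.symm, hp.Bea]
  have h2 : ∀ k, B a (f k) = 0 := fun k => by rw [h.symm, hp.Bfa]
  rw [frameMatMinus_mulVec]
  simp [map_sum, h1, h2, hp.Baa, hp.Bab]

theorem frameMatMinus_B_b (h : QPol Q B) (hf : Frame Q B e f) (hp : EllPair Q B e f a b)
    (w : (Fin r ⊕ Fin r) ⊕ Fin 2 → F) :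
    B b (frameMatMinus e f a b *ᵥ w) = w (Sum.inr 0) := by
  have h1 : ∀ k, B b (e k) = 0 := fun k => by rw [h.symm, hp.Beb]
  have h2 : ∀ k, B b (f k) = 0 := fun k => by rw [h.symm, hp.Bfb]
  have h3 : B b a = 1 := by rw [h.symm, hp.Bab]
  rw [frameMatMinus_mulVec]
  simp [map_sum, h1, h2, hp.Bbb, h3]

theorem frameMatMinus_injective (h : QPol Q B) (hf : Frame Q B e f)
    (hp : EllPair Q B e f a b) :
    Function.Injective (Matrix.toLin' (frameMatMinus e f a b)) := by
  rw [← LinearMap.ker_eq_bot, LinearMap.ker_eq_bot']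
  intro w hw
  rw [Matrix.toLin'_apply] at hw
  funext j
  rcases j with (i | i) | i
  · rw [← frameMatMinus_B_f h hf hp w i, hw]
    simp
  · rw [← frameMatMinus_B_e h hf hp w i, hw]
    simp
  · fin_cases i
    · have := frameMatMinus_B_b h hf hp w
      rw [hw] at this
      simpa using this.symm
    · have := frameMatMinus_B_a h hf hp w
      rw [hw] at this
      simpa using this.symm

theorem frameMatMinus_exists_inv (h : QPol Q B) (hf : Frame Q B e f)
    (hp : EllPair Q B e f a b) (hcard : Fintype.card ι = 2 * r + 2) :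
    ∃ P' : Matrix ((Fin r ⊕ Fin r) ⊕ Fin 2) ι F,
      frameMatMinus e f a b * P' = 1 ∧ P' * frameMatMinus e f a b = 1 := by
  have hdim : finrank F ((Fin r ⊕ Fin r) ⊕ Fin 2 → F) = finrank F (ι → F) := by
    rw [finrank_fintype_fun_eq_card, finrank_fintype_fun_eq_card, hcard]
    simp only [Fintype.card_sum, Fintype.card_fin]
    ring
  let T := LinearMap.linearEquivOfInjective (Matrix.toLin' (frameMatMinus e f a b))
    (frameMatMinus_injective h hf hp) hdim
  have hT : (T : ((Fin r ⊕ Fin r) ⊕ Fin 2 → F) →ₗ[F] (ι → F))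
      = Matrix.toLin' (frameMatMinus e f a b) := by
    exact LinearMap.ext fun x => LinearMap.linearEquivOfInjective_apply _ _ x
  refine ⟨LinearMap.toMatrix' (T.symm : (ι → F) →ₗ[F] ((Fin r ⊕ Fin r) ⊕ Fin 2 → F)), ?_, ?_⟩
  · rw [← LinearMap.toMatrix'_toLin' (frameMatMinus e f a b), ← LinearMap.toMatrix'_comp, ← hT]
    have : (T : ((Fin r ⊕ Fin r) ⊕ Fin 2 → F) →ₗ[F] (ι → F)) ∘ₗ
        (T.symm : (ι → F) →ₗ[F] ((Fin r ⊕ Fin r) ⊕ Fin 2 → F)) = LinearMap.id := by
      exact LinearMap.ext fun x => by simp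
    rw [this, LinearMap.toMatrix'_id]
  · rw [← LinearMap.toMatrix'_toLin' (frameMatMinus e f a b), ← LinearMap.toMatrix'_comp, ← hT]
    have : (T.symm : (ι → F) →ₗ[F] ((Fin r ⊕ Fin r) ⊕ Fin 2 → F)) ∘ₗ
        (T : ((Fin r ⊕ Fin r) ⊕ Fin 2 → F) →ₗ[F] (ι → F)) = LinearMap.id := by
      exact LinearMap.ext fun x => by simp
    rw [this, LinearMap.toMatrix'_id]

end Minus

section ConjInj

variable {F : Type*} [Field F] {ι : Type} [Fintype ι] [DecidableEq ι]
  {κ : Type} [Fintype κ] [DecidableEq κ] (P : Matrix ι κ F) (P' : Matrix κ ι F)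
  (h1 : P * P' = 1) (h2 : P' * P = 1)
  {Q : (ι → F) → F} {Q₀ : (κ → F) → F} (hQ : ∀ w, Q (P *ᵥ w) = Q₀ w)

theorem conjIso_injective : Function.Injective (conjIso P P' h1 h2 hQ) := by
  intro g g' hgg
  have h3 : P * ((g : GL κ F) : Matrix κ κ F) * P' = P * ((g' : GL κ F) : Matrix κ κ F) * P' := by
    have := congrArg (fun x : Cfsg.isometryGroup F Q => ((x : GL ι F) : Matrix ι ι F)) hgg
    simpa [conjIso_val, conjGL_val] using this
  apply Subtype.ext
  apply Units.ext
  calc ((g : GL κ F) : Matrix κ κ F)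
      = P' * (P * ((g : GL κ F) : Matrix κ κ F) * P') * P := by
        simp only [Matrix.mul_assoc]
        rw [h2, Matrix.mul_one, ← Matrix.mul_assoc, h2, Matrix.one_mul]
    _ = P' * (P * ((g' : GL κ F) : Matrix κ κ F) * P') * P := by rw [h3]
    _ = ((g' : GL κ F) : Matrix κ κ F) := by
        simp only [Matrix.mul_assoc]
        rw [h2, Matrix.mul_one, ← Matrix.mul_assoc, h2, Matrix.one_mul]

include h1 hQ in
/-- the quadratic form transported backwards -/
theorem Q_inv_mulVec (x : ι → F) : Q₀ (P' *ᵥ x) = Q x := by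
  rw [← hQ, Matrix.mulVec_mulVec, h1, Matrix.one_mulVec]

end ConjInj

end SymOrth
end Cfsg.Agent.Helper43
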