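import Mathlib
import Cfsg.Prelude.Def_GeometricClasses
import Cfsg.Prelude.Def_Classical
import Cfsg.Agent.Helper58.TSDefs
import Cfsg.Agent.Helper43.PrimeOrdO3
import Cfsg.Agent.Helper43.UniMinus
import Cfsg.Agent.Helper98.OPar
import Cfsg.Agent.Helper47.HTHTIB
import Cfsg.Agent.Helper43.OTDefs

set_option autoImplicit false

/-!
# Sub-CALL TB (helper43), piece XISO (double): classification isometry to the given `Q`
-/

namespace Cfsg.Agent.Helper43.TB

open Module Polynomial Cfsg Cfsg.Geo Cfsg.Agent.Helper58.TS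
open Cfsg.Agent.Helper43 Cfsg.Agent.Helper43.OrthEven Cfsg.Agent.Helper43.CycFactors
  Cfsg.Agent.Helper43.PrimeOrdMat
open scoped MatrixGroups

universe u

section fin

variable {F : Type u} [Field F] [Fintype F]

/-- XISO: a quadratic space of dimension `2 d` and of the type of `Q` is isometric to `Q`. -/
theorem tb_xiso {ι : Type} [Fintype ι] [DecidableEq ι] (Q : (ι → F) → F)
    (hQ : IsNondegenerateQuadraticForm Q) (d δ : ℕ) (hd : 1 ≤ d)
    (hcard : Fintype.card ι = 2 * d) (hδ : TypeDefect Q δ) {V' : Type u} [AddCommGroup V']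
    [Module F V'] [FiniteDimensional F V'] (Q' : QuadraticForm F V') (hnd : PolarNondeg Q')
    (hdim : finrank F V' = 2 * d) (htype : HasTS Q' d ↔ δ = 0) :
    ∃ Φ : V' ≃ₗ[F] (ι → F), ∀ v, Q (Φ v) = Q' v := by
  classical
  have hcoe : ∀ v, (Cfsg.Agent.Helper98.op_qf Q hQ) v = Q v := fun v => rfl
  have hQf : PolarNondeg (Cfsg.Agent.Helper98.op_qf Q hQ) :=
    polarNondeg_of_nondegenerate _ (Cfsg.Agent.Helper98.op_qf_nondeg Q hQ)
  have hdimι : finrank F (ι → F) = 2 * d := by rw [Module.finrank_fintype_fun_eq_card, hcard]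
  have hbridge : HasTS (Cfsg.Agent.Helper98.op_qf Q hQ) d ↔ IsPlusTypeOn Q ⊤ := by
    constructor
    · rintro ⟨U, hUd, hU⟩
      have hb := Cfsg.Agent.Helper47.HT5953.ht_bound (RingHom.id F)
        (Cfsg.Agent.Helper43.OT.ph (Cfsg.Agent.Helper98.op_qf Q hQ))
        (Cfsg.Agent.Helper43.OT.isHerm_ph _) ⊤ U
        (fun v _ hv => hQf v (fun w => hv w Submodule.mem_top)) le_top
        (fun u hu v hv => by
          rw [Cfsg.Agent.Helper43.OT.ph_apply, QuadraticMap.polar, hU _ (U.add_mem hu hv), hU u hu,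
            hU v hv]
          simp)
      rw [finrank_top, hdimι] at hb
      refine ⟨U, le_top, fun w hw => hU w hw, ?_⟩
      rw [finrank_top, hdimι]
      omega
    · rintro ⟨U, -, hU, hUd⟩
      rw [finrank_top, hdimι] at hUd
      exact ⟨U, by omega, fun u hu => hU u hu⟩
  rcases hδ with ⟨h0, hplus⟩ | ⟨h1, hminus⟩
  · have h1 : HasTS Q' d := htype.mpr h0
    have h2 : HasTS (Cfsg.Agent.Helper98.op_qf Q hQ) d := hbridge.mpr hplus
    obtain ⟨Ψ₁, hΨ₁⟩ := exists_plus_of_hasTS hd hdim Q' hnd h1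
    obtain ⟨Ψ₂, hΨ₂⟩ := exists_plus_of_hasTS hd hdimι (Cfsg.Agent.Helper98.op_qf Q hQ) hQf h2
    refine ⟨Ψ₁.symm.trans Ψ₂, fun v => ?_⟩
    have e1 := hΨ₂ (Ψ₁.symm v)
    have e2 := hΨ₁ (Ψ₁.symm v)
    rw [LinearEquiv.apply_symm_apply] at e2
    rw [hcoe] at e1
    rw [LinearEquiv.trans_apply, e1, e2]
  · have h1' : ¬ HasTS Q' d := fun h => by
      have := htype.mp h
      omega
    have h2 : ¬ HasTS (Cfsg.Agent.Helper98.op_qf Q hQ) d := fun h => hminus (hbridge.mp h)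
    obtain ⟨ζ, hζ, Ψ₁, hΨ₁⟩ := exists_minus_of_not_hasTS hd hdim Q' hnd h1'
    have hac := Cfsg.Agent.S2617.aniso ζ hζ
    obtain ⟨Ψ₂, hΨ₂⟩ := exists_minus_of_not_hasTS' hd hdimι (Cfsg.Agent.Helper98.op_qf Q hQ) hQf h2
      1 ζ hac
    refine ⟨Ψ₁.symm.trans Ψ₂, fun v => ?_⟩
    have e1 := hΨ₂ (Ψ₁.symm v)
    have e2 := hΨ₁ (Ψ₁.symm v)
    rw [LinearEquiv.apply_symm_apply] at e2
    rw [hcoe] at e1
    rw [LinearEquiv.trans_apply, e1, e2]

end fin

end Cfsg.Agent.Helper43.TB
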