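import Cfsg.Agent.Helper44.LangF
import Cfsg.Agent.Helper44.PSLnH

set_option autoImplicit false

/-!
# Graph automorphisms of `PSL_n(F)` and bilinear forms (helper43)

`grph M = dAutN M⁻¹ * iAutN` is the graph automorphism attached to the invertible matrix `M`
(thought of as the Gram matrix of a bilinear form).

* `exists_grph`, `isGraph_grph` : the graph automorphisms are exactly the `grph M` (`n ≥ 3`);
* `orderOf_grph` : `grph M` has order two iff `M` is symmetric or skew-symmetric;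
* `isConjUnder_grph` : `grph M` and `grph M'` are conjugate under `Inndiag` iff
  `M' = c • kᵀ M k`;
* `mem_cGL_grph` : the matrices commuting with `grph M` are the similitudes `hᵀ M h = c • M`;
* `centralizer_grph_iso` : the centraliser in `Inndiag` of a conjugate of `grph M₀` is the
  projective quotient of a subgroup `H` of `GL ι F` cut out by the similitude equation.
-/

namespace Cfsg.Agent.Helper43.GraphAut

open Matrix Cfsg.Agent.Helper44.PSLn

universe u

variable {n : ℕ} {F : Type u} [Field F]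

/-- the transpose of an invertible matrix -/
def trGL (g : GL (Fin n) F) : GL (Fin n) F := (itGL g)⁻¹

theorem trGL_coe (g : GL (Fin n) F) : ((trGL g : GL (Fin n) F) : Mn n F) = (g : Mn n F)ᵀ := rfl

theorem trGL_inv (g : GL (Fin n) F) : (trGL g)⁻¹ = itGL g := inv_inv _

theorem itGL_inv_eq (g : GL (Fin n) F) : itGL g⁻¹ = trGL g := by
  apply Units.ext
  rw [itGL_coe, inv_inv, trGL_coe]

/-- the graph automorphism attached to the invertible matrix `M` -/
def grph (M : GL (Fin n) F) : MulAut (PSLn n F) := dAutN M⁻¹ * iAutN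

theorem iAutN_eq_grph_one : (iAutN : MulAut (PSLn n F)) = grph 1 := by
  unfold grph
  rw [inv_one, map_one, one_mul]

theorem exists_grph (β : MulAut (PSLn n F)) (h : Cfsg.IsGraphAutClassPSL β) :
    ∃ M : GL (Fin n) F, β = grph M := by
  obtain ⟨-, δ, γ, hδ, hγ, rfl⟩ := h
  have hδ' : δ ∈ Cfsg.inndiagPSL n F := Subgroup.subset_closure hδ
  obtain ⟨g, rfl⟩ := (lang_mem_inndiag δ).mp hδ'
  refine ⟨g⁻¹, ?_⟩
  unfold grph
  rw [inv_inv, lang_eq_iAutN_of_it γ hγ]

theorem isGraph_grph (hn : 3 ≤ n) (M : GL (Fin n) F) : Cfsg.IsGraphAutClassPSL (grph M) :=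
  ⟨hn, dAutN M⁻¹, iAutN, isInnerDiagonal_dAutN _, isInverseTranspose_iAutN, rfl⟩

theorem grph_sq (M : GL (Fin n) F) : grph M ^ 2 = dAutN (M⁻¹ * trGL M) := by
  unfold grph
  rw [pow_two]
  calc dAutN M⁻¹ * iAutN * (dAutN M⁻¹ * iAutN)
      = dAutN M⁻¹ * (iAutN * dAutN M⁻¹) * iAutN := by group
    _ = dAutN M⁻¹ * (dAutN (itGL M⁻¹) * iAutN) * iAutN := by rw [iAutN_mul_dAutN]
    _ = dAutN M⁻¹ * dAutN (itGL M⁻¹) * (iAutN * iAutN) := by group
    _ = dAutN (M⁻¹ * trGL M) := by rw [iAutN_mul_self, mul_one, ← map_mul, itGL_inv_eq]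

theorem grph_ne_one (hn : 3 ≤ n) (M : GL (Fin n) F) : grph M ≠ 1 := by
  intro h
  apply iAutN_ne_semi hn M (1 : RingAut F)
  rw [map_one, mul_one]
  unfold grph at h
  have h2 : (iAutN : MulAut (PSLn n F)) = (dAutN M⁻¹)⁻¹ := eq_inv_of_mul_eq_one_right h
  rw [h2, ← map_inv, inv_inv]

/-- `grph M` is an involution iff `M` is symmetric or skew-symmetric -/
theorem orderOf_grph (hn : 3 ≤ n) (M : GL (Fin n) F) :
    orderOf (grph M) = 2 ↔ ((M : Mn n F)ᵀ = M ∨ (M : Mn n F)ᵀ = -(M : Mn n F)) := by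
  have : Fact (Nat.Prime 2) := ⟨Nat.prime_two⟩
  rw [orderOf_eq_prime_iff, grph_sq, lang_dAutN_eq_one_iff (by omega)]
  have hM0 : (M : Mn n F) ≠ 0 := by
    intro h0
    have h1 : (M : Mn n F) * ((M⁻¹ : GL (Fin n) F) : Mn n F) = 1 := lang_mul_inv_coe M
    rw [h0, zero_mul] at h1
    have h2 := congrFun (congrFun h1 ⟨0, by omega⟩) ⟨0, by omega⟩
    simp at h2
  constructor
  · rintro ⟨⟨c, hc⟩, -⟩
    have h1 : (M : Mn n F)ᵀ = c • (M : Mn n F) := by
      have h2 : (M : Mn n F) * (((M⁻¹ * trGL M : GL (Fin n) F)) : Mn n F) = (M : Mn n F)ᵀ := by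
        rw [Units.val_mul, ← mul_assoc, lang_mul_inv_coe, one_mul, trGL_coe]
      rw [← h2, hc, Matrix.mul_smul, mul_one]
    have h3 : (M : Mn n F) = (c * c) • (M : Mn n F) := by
      have h4 := congrArg Matrix.transpose h1
      rw [Matrix.transpose_transpose, Matrix.transpose_smul, h1, smul_smul] at h4
      exact h4
    have h5 : c * c = 1 := by
      by_contra hne
      apply hM0
      have h6 : (1 - c * c) • (M : Mn n F) = 0 := by
        rw [sub_smul, one_smul, ← h3, sub_self]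
      rcases smul_eq_zero.mp h6 with h7 | h7
      · exact absurd (sub_eq_zero.mp h7).symm hne
      · exact h7
    rcases mul_self_eq_one_iff.mp h5 with h6 | h6
    · left
      rw [h1, h6, one_smul]
    · right
      rw [h1, h6, neg_smul, one_smul]
  · intro h
    refine ⟨?_, grph_ne_one hn M⟩
    rcases h with h | h
    · refine ⟨1, ?_⟩
      rw [Units.val_mul, trGL_coe, h, lang_inv_mul_coe, one_smul]
    · refine ⟨-1, ?_⟩
      rw [Units.val_mul, trGL_coe, h, Matrix.mul_neg, lang_inv_mul_coe, neg_smul, one_smul]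

/-- conjugating `grph M` by the diagonal automorphism of `h` -/
theorem conj_grph (h M : GL (Fin n) F) :
    dAutN h * grph M * (dAutN h)⁻¹ = grph (trGL h⁻¹ * M * h⁻¹) := by
  unfold grph
  have e : (trGL h⁻¹ * M * h⁻¹)⁻¹ = h * M⁻¹ * itGL h⁻¹ := by
    rw [_root_.mul_inv_rev, _root_.mul_inv_rev, inv_inv, trGL_inv, mul_assoc]
  rw [e, map_mul, map_mul, ← map_inv]
  calc dAutN h * (dAutN M⁻¹ * iAutN) * dAutN h⁻¹
      = dAutN h * dAutN M⁻¹ * (iAutN * dAutN h⁻¹) := by group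
    _ = dAutN h * dAutN M⁻¹ * (dAutN (itGL h⁻¹) * iAutN) := by rw [iAutN_mul_dAutN]
    _ = dAutN h * dAutN M⁻¹ * dAutN (itGL h⁻¹) * iAutN := by group

theorem grph_eq_iff (hn : 2 ≤ n) (M M' : GL (Fin n) F) :
    grph M = grph M' ↔ ∃ c : F, (M' : Mn n F) = c • (M : Mn n F) := by
  unfold grph
  rw [mul_left_inj, ← lang_dAutN_eq_iff hn, map_inv, map_inv, _root_.inv_inj]

/-- conjugacy of graph automorphisms under `Inndiag` is similarity-congruence of matrices -/
theorem isConjUnder_grph (hn : 2 ≤ n) (M M' : GL (Fin n) F) :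
    Cfsg.IsConjUnder (Cfsg.inndiagPSL n F) (grph M) (grph M') ↔
      ∃ (k : GL (Fin n) F) (c : F), (M' : Mn n F) = c • ((k : Mn n F)ᵀ * (M : Mn n F) * (k : Mn n F)) := by
  constructor
  · rintro ⟨h, hh, heq⟩
    obtain ⟨h₁, rfl⟩ := (lang_mem_inndiag h).mp hh
    rw [conj_grph] at heq
    obtain ⟨c, hc⟩ := (grph_eq_iff hn _ _).mp heq.symm
    exact ⟨h₁⁻¹, c, hc⟩
  · rintro ⟨k, c, hc⟩
    refine ⟨dAutN k⁻¹, lang_dAutN_mem_inndiag _, ?_⟩
    rw [conj_grph, inv_inv]
    exact ((grph_eq_iff hn _ _).mpr ⟨c, hc⟩).symm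

/-- the matrices commuting with `grph M` are the similitudes of `M` -/
theorem mem_cGL_grph (hn : 2 ≤ n) (M h : GL (Fin n) F) :
    h ∈ lang_cGL (grph M) ↔
      ∃ c : F, (h : Mn n F)ᵀ * (M : Mn n F) * (h : Mn n F) = c • (M : Mn n F) := by
  rw [← inv_mem_iff, lang_mem_cGL]
  have e : dAutN h⁻¹ * grph M = grph M * dAutN h⁻¹ ↔ grph M = grph (trGL h * M * h) := by
    have e2 := conj_grph h⁻¹ M
    rw [inv_inv] at e2
    rw [← e2]
    constructor
    · intro h3
      rw [h3]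
      group
    · intro h3
      calc dAutN h⁻¹ * grph M = (dAutN h⁻¹ * grph M * (dAutN h⁻¹)⁻¹) * dAutN h⁻¹ := by group
        _ = grph M * dAutN h⁻¹ := by rw [← h3]
  rw [e, grph_eq_iff hn]
  rfl

theorem isConjUnder_refl {X : Type*} [Group X] (H : Subgroup X) (x : X) : Cfsg.IsConjUnder H x x :=
  ⟨1, H.one_mem, by group⟩

theorem isConjUnder_symm {X : Type*} [Group X] {H : Subgroup X} {x y : X}
    (h : Cfsg.IsConjUnder H x y) : Cfsg.IsConjUnder H y x := by
  obtain ⟨a, ha, rfl⟩ := h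
  exact ⟨a⁻¹, H.inv_mem ha, by group⟩

theorem isConjUnder_trans {X : Type*} [Group X] {H : Subgroup X} {x y z : X}
    (h : Cfsg.IsConjUnder H x y) (h' : Cfsg.IsConjUnder H y z) : Cfsg.IsConjUnder H x z := by
  obtain ⟨a, ha, rfl⟩ := h
  obtain ⟨b, hb, rfl⟩ := h'
  exact ⟨b * a, H.mul_mem hb ha, by group⟩

/-- reindexing of invertible matrices -/
def reGL {ι : Type} [Fintype ι] [DecidableEq ι] (e : ι ≃ Fin n) : GL ι F ≃* GL (Fin n) F :=
  Units.mapEquiv (Matrix.reindexAlgEquiv F F e).toMulEquiv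

theorem reGL_coe {ι : Type} [Fintype ι] [DecidableEq ι] (e : ι ≃ Fin n) (g : GL ι F) :
    ((reGL e g : GL (Fin n) F) : Mn n F) = Matrix.reindex e e (g : Matrix ι ι F) := rfl

/-- the centraliser in `Inndiag` of a conjugate of `grph M₀` -/
theorem centralizer_grph_iso (hn : 2 ≤ n) {ι : Type} [Fintype ι] [DecidableEq ι] (e : ι ≃ Fin n)
    (H : Subgroup (GL ι F)) (M₀ : GL (Fin n) F)
    (hH : ∀ g : GL ι F, g ∈ H ↔ ∃ c : F,
      (Matrix.reindex e e (g : Matrix ι ι F))ᵀ * (M₀ : Mn n F) *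
        Matrix.reindex e e (g : Matrix ι ι F) = c • (M₀ : Mn n F))
    (h₁ : GL (Fin n) F) :
    Nonempty (↥(Cfsg.inndiagPSL n F ⊓ Subgroup.centralizer {dAutN h₁ * grph M₀ * (dAutN h₁)⁻¹})
      ≃* Cfsg.projQuot H) := by
  have : Nonempty (Fin n) := ⟨⟨0, by omega⟩⟩
  refine lang_centralizer_iso hn ((reGL e).toMonoidHom.comp H.subtype) (grph M₀) h₁ ?_ ?_
    ((Cfsg.Geo.scalars ι F).subgroupOf H) ?_
  · intro γ
    rw [mem_cGL_grph hn]
    exact (hH γ.1).mp γ.2
  · intro g hg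
    rw [mem_cGL_grph hn] at hg
    have hmem : (reGL e).symm g ∈ H := by
      rw [hH]
      have : Matrix.reindex e e (((reGL e).symm g : GL ι F) : Matrix ι ι F) = (g : Mn n F) := by
        rw [← reGL_coe, MulEquiv.apply_symm_apply]
      rw [this]
      exact hg
    refine ⟨⟨(reGL e).symm g, hmem⟩, 1, ?_⟩
    rw [one_smul]
    show (g : Mn n F) = ((reGL e ((reGL e).symm g) : GL (Fin n) F) : Mn n F)
    rw [MulEquiv.apply_symm_apply]
  · intro γ
    rw [Subgroup.mem_subgroupOf, Cfsg.Geo.mem_scalars_iff]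
    show (∃ c : Fˣ, ((γ : GL ι F) : Matrix ι ι F) = (c : F) • (1 : Matrix ι ι F)) ↔
      ∃ c : F, Matrix.reindex e e ((γ : GL ι F) : Matrix ι ι F) = c • (1 : Mn n F)
    constructor
    · rintro ⟨c, hc⟩
      refine ⟨c, ?_⟩
      rw [hc]
      ext i j
      simp [Matrix.one_apply]
    · rintro ⟨c, hc⟩
      have hc0 : c ≠ 0 := by
        rintro rfl
        rw [zero_smul] at hc
        have h1 : ((reGL e (γ : GL ι F) : GL (Fin n) F) : Mn n F) = 0 := hc
        have h2 := lang_mul_inv_coe (reGL e (γ : GL ι F))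
        rw [h1, zero_mul] at h2
        have h3 := congrFun (congrFun h2 ⟨0, by omega⟩) ⟨0, by omega⟩
        simp at h3
      refine ⟨Units.mk0 c hc0, ?_⟩
      have h1 : ((γ : GL ι F) : Matrix ι ι F) =
          (Matrix.reindex e e).symm (c • (1 : Mn n F)) := by
        rw [← hc, Equiv.symm_apply_apply]
      rw [h1]
      ext i j
      simp [Matrix.one_apply]

end Cfsg.Agent.Helper43.GraphAut
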