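import Mathlib
import Cfsg.Agent.Helper43.PrimeOrdO3

set_option autoImplicit false

/-!
# Sub-CALL TB (helper43), piece PAR: the type of a block when the order of `q` mod `r` is even
-/

namespace Cfsg.Agent.Helper43.TB

open Module Polynomial Cfsg
open Cfsg.Agent.Helper43 Cfsg.Agent.Helper43.OrthEven Cfsg.Agent.Helper43.CycFactors
  Cfsg.Agent.Helper43.PrimeOrdMat

universe u

section fin

variable {F : Type u} [Field F] [Fintype F]

/-- PAR: the type of a block when `i` is even: plus type iff the number of irreducible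
constituents is even. -/
theorem tb_par (p : ℕ) [Fact p.Prime] [CharP F p] (r : ℕ) [Fact r.Prime] (hr2 : 2 < r)
    (hrp : r ≠ p) (heven : Even (orderOf ((Fintype.card F : ℕ) : ZMod r))) {V : Type u}
    [AddCommGroup V] [Module F V] [FiniteDimensional F V] (Q : QuadraticForm F V)
    (T : Module.End F V) (hnd : PolarNondeg Q) (hT : ∀ v, Q (T v) = Q v)
    (hcyc : aeval T (cyclotomic r F) = 0) (c : F[X] → ℕ)
    (hch : T.charpoly = ∏ P ∈ cycJ F r, P ^ c P) (l : ℕ) (hl : finrank F V = 2 * l) :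
    HasTS Q l ↔ Even (∑ P ∈ cycJ F r, c P) := by
  have hr : r.Prime := Fact.out
  have hp : p.Prime := Fact.out
  have hch' : T.charpoly = psi r 0 c := by rw [hch, psi, pow_zero, one_mul]
  have hipos := orderOf_pos_of_card (p := p) (rfl : Fintype.card F = Fintype.card F) hr hrp
  obtain ⟨j, hj⟩ := heven
  have hdeg : (j + j) * ∑ P ∈ cycJ F r, c P = 2 * l := by
    have h1 := LinearMap.charpoly_natDegree T
    rw [hch', psi_natDegree (p := p) rfl hr hrp, zero_add, hl, hj] at h1
    exact h1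
  have hTr : T ^ r = 1 := by
    have h1 : (X ^ r - 1 : F[X]) = cyclotomic r F * (X - 1) :=
      (cyclotomic_prime_mul_X_sub_one F r).symm
    have h2 := congrArg (aeval T) h1
    simp only [map_sub, map_pow, aeval_X, map_one, map_mul, hcyc, zero_mul] at h2
    exact sub_eq_zero.mp h2
  rcases Nat.eq_zero_or_pos l with hl0 | hlpos
  · subst hl0
    have hsum : ∑ P ∈ cycJ F r, c P = 0 := by
      have h0 : (j + j) * ∑ P ∈ cycJ F r, c P = 0 := by omega
      rcases Nat.mul_eq_zero.mp h0 with h | h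
      · omega
      · exact h
    rw [hsum]
    exact ⟨fun _ => ⟨0, rfl⟩, fun _ => ⟨⊥, Nat.zero_le _, fun u hu => by
      rw [(Submodule.mem_bot F).1 hu, map_zero]⟩⟩
  · have hKpos : 0 < ∑ P ∈ cycJ F r, c P := by
      rcases Nat.eq_zero_or_pos (∑ P ∈ cycJ F r, c P) with h | h
      · rw [h] at hdeg; omega
      · exact h
    have hnz : ∃ P ∈ cycJ F r, c P ≠ 0 := by
      by_contra hcon
      push Not at hcon
      rw [Finset.sum_eq_zero hcon] at hKpos
      omega
    have hk : r.Coprime p := (Nat.coprime_primes hr hp).mpr hrp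
    constructor
    · intro hts
      obtain ⟨Ψ, hΨ⟩ := exists_plus_of_hasTS hlpos hl Q hnd hts
      obtain ⟨A, hAQ, hAk, hAch⟩ :=
        exists_matrix_of_equiv Q T hT hTr Ψ (Cfsg.quadFormPlus l F) hΨ
      obtain ⟨g, hg, hgch⟩ := PrimeOrdO.exists_isometry_of_matrix (Cfsg.quadFormPlus l F) hr hrp
        A hAQ hk hAk 0 c (hAch.trans hch') hnz
      exact PrimeOrdO.plus_c0_zero_even (p := p) rfl hr (by omega) hrp g hg c hgch hj hdeg
    · intro hev
      by_contra hts
      obtain ⟨ζ, hζ, Ψ, hΨ⟩ := exists_minus_of_not_hasTS hlpos hl Q hnd hts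
      have hac := Cfsg.Agent.S2617.aniso ζ hζ
      obtain ⟨A, hAQ, hAk, hAch⟩ :=
        exists_matrix_of_equiv Q T hT hTr Ψ (Cfsg.quadFormMinus (l - 1) F 1 ζ) hΨ
      obtain ⟨g, hg, hgch⟩ := PrimeOrdO.exists_isometry_of_matrix
        (Cfsg.quadFormMinus (l - 1) F 1 ζ) hr hrp A hAQ hk hAk 0 c (hAch.trans hch') hnz
      have hK' := PrimeOrdO.minus_c0_zero_odd (p := p) rfl hlpos hr (by omega) hrp 1 ζ hac g hg c
        hgch hj hdeg
      exact (Nat.not_even_iff_odd.mpr hK') hev

end fin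

end Cfsg.Agent.Helper43.TB
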