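import Mathlib
import Cfsg.Agent.Helper43.C3ODefs
import Cfsg.Agent.Helper43.PrimeOrdO2
import Cfsg.Agent.Helper43.PrimeOrdO3
import Cfsg.Agent.Helper43.OrthEven

/-!
# CALL C3O, pieces EXIP and EXIM (helper43)

From an isometry of odd prime order `r ≠ p` of the standard plus / minus form we build one whose
fixed space is as large as possible.
-/

set_option autoImplicit false

namespace Cfsg.Agent.Helper43

open Matrix Module Polynomial
open Cfsg.Agent.Helper43.C3O
open Cfsg.Agent.Helper43.CycFactors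
open Cfsg.Agent.Helper43.PrimeOrdMat (psi)
open Cfsg.Agent.Helper43.PrimeOrdO
open Cfsg.Agent.Helper43.StarPoly
open Cfsg.Agent.Helper43.SpReal (star)

universe u

section

variable {F : Type u} [Field F] [Fintype F] {p : ℕ} [Fact p.Prime] [CharP F p]

/-- the odd case: two swapped factors -/
theorem c3o_exi_odd_data {q : ℕ} (hq : Fintype.card F = q) {r : ℕ} (hr : r.Prime)
    (hr2 : r ≠ 2) (hrp : r ≠ p) (hiodd : Odd (orderOf (q : ZMod r))) (c' : F[X] → ℕ)
    (hsym' : ∀ P ∈ cycJ F r, c' (star P) = c' P) (P : F[X]) (hP : P ∈ cycJ F r)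
    (hPne : c' P ≠ 0) :
    ∃ c : F[X] → ℕ, (∀ X ∈ cycJ F r, c (star X) = c X) ∧ (∃ X ∈ cycJ F r, c X ≠ 0) ∧
      ∑ X ∈ cycJ F r, c X = 2 ∧ 2 ≤ ∑ X ∈ cycJ F r, c' X := by
  classical
  have hrF : (r : F) ≠ 0 := natCast_ne_zero_of_ne hr hrp
  have hsP : star P ∈ cycJ F r := star_mem_cycJ hr hrF hP
  have hne : star P ≠ P := star_ne_self_of_odd (p := p) hq hr hr2 hrp hiodd hP
  have hss : star (star P) = P :=
    star_star (mem_cycJ.mp hP).1 (coeff_zero_ne_of_mem hr hP)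
  have hsub : ({P, star P} : Finset F[X]) ⊆ cycJ F r := by
    intro X hX
    simp only [Finset.mem_insert, Finset.mem_singleton] at hX
    rcases hX with rfl | rfl
    · exact hP
    · exact hsP
  refine ⟨fun X => if X ∈ ({P, star P} : Finset F[X]) then 1 else 0, ?_, ⟨P, hP, by simp⟩, ?_, ?_⟩
  · intro X hX
    have hXs : star (star X) = X :=
      star_star (mem_cycJ.mp hX).1 (coeff_zero_ne_of_mem hr hX)
    have hiff : star X ∈ ({P, star P} : Finset F[X]) ↔ X ∈ ({P, star P} : Finset F[X]) := by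
      simp only [Finset.mem_insert, Finset.mem_singleton]
      constructor
      · rintro (h | h)
        · right
          rw [← hXs, h]
        · left
          rw [← hXs, h, hss]
      · rintro (h | h)
        · right
          rw [h]
        · left
          rw [h, hss]
    simp only [hiff]
  · rw [Finset.sum_ite_mem, Finset.inter_eq_right.mpr hsub, Finset.sum_const, smul_eq_mul, mul_one,
      Finset.card_pair hne.symm]
  · have h1 := hsym' P hP
    calc 2 ≤ c' P + c' (star P) := by omega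
      _ = ∑ X ∈ ({P, star P} : Finset F[X]), c' X := by rw [Finset.sum_pair hne.symm]
      _ ≤ ∑ X ∈ cycJ F r, c' X := Finset.sum_le_sum_of_subset hsub

/-- the even case: one self-dual factor -/
theorem c3o_exi_even_data {q : ℕ} (hq : Fintype.card F = q) {r : ℕ} (hr : r.Prime)
    (hrp : r ≠ p) (hiev : Even (orderOf (q : ZMod r))) (c' : F[X] → ℕ)
    (P : F[X]) (hP : P ∈ cycJ F r) (hPne : c' P ≠ 0) :
    ∃ c : F[X] → ℕ, (∀ X ∈ cycJ F r, c (star X) = c X) ∧ (∃ X ∈ cycJ F r, c X ≠ 0) ∧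
      ∑ X ∈ cycJ F r, c X = 1 ∧ 1 ≤ ∑ X ∈ cycJ F r, c' X := by
  classical
  refine ⟨fun X => if X = P then 1 else 0, ?_, ⟨P, hP, by simp⟩, ?_, ?_⟩
  · intro X hX
    rw [star_eq_self_of_even (p := p) hq hr hrp hiev hX]
  · rw [Finset.sum_ite_eq' (cycJ F r) P (fun _ => 1), if_pos hP]
  · exact le_trans (Nat.one_le_iff_ne_zero.mpr hPne)
      (Finset.single_le_sum (f := c') (fun _ _ => Nat.zero_le _) hP)

/-- PIECE EXIP -/
theorem c3o_exip {q : ℕ}
    (hq : Fintype.card F = q) (hodd : Odd q) (d : ℕ) (hd : 1 ≤ d) (r : ℕ) (hr : r.Prime)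
    (hr2 : r ≠ 2) (hrp : r ≠ p)
    (hfix : ∀ (M : Matrix (Fin d ⊕ Fin d) (Fin d ⊕ Fin d) F) (c₀ : ℕ) (c : F[X] → ℕ),
      M ^ r = 1 → M.charpoly = psi r c₀ c → c₀ ≤ fixdim M)
    (g₀ : ↥(Cfsg.isometryGroup F (Cfsg.quadFormPlus d F))) (hg₀ : orderOf g₀ = r) :
    ∃ g : ↥(Cfsg.isometryGroup F (Cfsg.quadFormPlus d F)), orderOf g = r ∧
      2 * d ≤ fixdim (gm g) + (if Odd (orderOf (q : ZMod r)) then 2 * orderOf (q : ZMod r)
        else orderOf (q : ZMod r)) := by
  classical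
  have hcard : Fintype.card (Fin d ⊕ Fin d) = 2 * d := by
    simp only [Fintype.card_sum, Fintype.card_fin]
    omega
  obtain ⟨c₀', c', hch', hsym', ⟨P, hP, hPne⟩, hdeg'⟩ :=
    ocharpoly_of_order (p := p) hq hr hrp (plusQF d F) (OrthEven.plusQF_nondeg d) g₀ hg₀
  rw [hcard] at hdeg'
  have hpow : ∀ g : ↥(Cfsg.isometryGroup F (Cfsg.quadFormPlus d F)), orderOf g = r →
      (gm g) ^ r = 1 := by
    intro g hg
    have h1 : g ^ r = 1 := by rw [← hg]; exact pow_orderOf_eq_one g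
    have h2 := congrArg (fun x : ↥(Cfsg.isometryGroup F (Cfsg.quadFormPlus d F)) =>
      ((x : GL (Fin d ⊕ Fin d) F) : Matrix (Fin d ⊕ Fin d) (Fin d ⊕ Fin d) F)) h1
    simpa using h2
  by_cases hiodd : Odd (orderOf (q : ZMod r))
  · obtain ⟨c, hsymc, hnz, hsum, hge⟩ :=
      c3o_exi_odd_data (p := p) hq hr hr2 hrp hiodd c' hsym' P hP hPne
    have h2i : 2 * orderOf (q : ZMod r) ≤ 2 * d := by
      have : orderOf (q : ZMod r) * 2 ≤ orderOf (q : ZMod r) * ∑ X ∈ cycJ F r, c' X :=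
        Nat.mul_le_mul_left _ hge
      omega
    obtain ⟨g, hg, hgch⟩ := oexists_plus (p := p) hq hd hr hr2 hrp
      (2 * d - 2 * orderOf (q : ZMod r)) c hsymc hnz (by rw [hsum]; omega) (Or.inl hiodd)
    refine ⟨g, hg, ?_⟩
    rw [if_pos hiodd]
    have := hfix (gm g) _ c (hpow g hg) hgch
    omega
  · have hiev : Even (orderOf (q : ZMod r)) := Nat.not_odd_iff_even.mp hiodd
    obtain ⟨c, hsymc, hnz, hsum, hge⟩ :=
      c3o_exi_even_data (p := p) hq hr hrp hiev c' P hP hPne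
    have hi2d : orderOf (q : ZMod r) ≤ 2 * d := by
      have : orderOf (q : ZMod r) * 1 ≤ orderOf (q : ZMod r) * ∑ X ∈ cycJ F r, c' X :=
        Nat.mul_le_mul_left _ hge
      omega
    have hlt : orderOf (q : ZMod r) < 2 * d := by
      by_contra hge'
      have hieq : orderOf (q : ZMod r) = 2 * d := by omega
      have hipos : 0 < orderOf (q : ZMod r) := by omega
      have hS : ∑ X ∈ cycJ F r, c' X = 1 := by
        by_contra hne
        have h2 : 2 ≤ ∑ X ∈ cycJ F r, c' X := by omega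
        have : orderOf (q : ZMod r) * 2 ≤ orderOf (q : ZMod r) * ∑ X ∈ cycJ F r, c' X :=
          Nat.mul_le_mul_left _ h2
        omega
      have hc0 : c₀' = 0 := by
        rw [hS] at hdeg'
        omega
      subst hc0
      obtain ⟨j, hj⟩ := hiev
      have h5 := plus_c0_zero_even (p := p) hq hr hr2 hrp g₀ hg₀ c' hch' hj (by
        rw [← hj, hS]
        omega)
      rw [hS] at h5
      exact absurd h5 (by decide)
    obtain ⟨g, hg, hgch⟩ := oexists_plus (p := p) hq hd hr hr2 hrp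
      (2 * d - orderOf (q : ZMod r)) c hsymc hnz (by rw [hsum]; omega)
      (Or.inr (Or.inl (by omega)))
    refine ⟨g, hg, ?_⟩
    rw [if_neg hiodd]
    have := hfix (gm g) _ c (hpow g hg) hgch
    omega

/-- PIECE EXIM -/
theorem c3o_exim {q : ℕ}
    (hq : Fintype.card F = q) (hodd : Odd q) (d : ℕ) (hd : 1 ≤ d) (a b : F)
    (hab : ∀ x y : F, x ^ 2 + a * x * y + b * y ^ 2 = 0 → x = 0 ∧ y = 0) (r : ℕ) (hr : r.Prime)
    (hr2 : r ≠ 2) (hrp : r ≠ p)
    (hfix : ∀ (M : Matrix ((Fin (d - 1) ⊕ Fin (d - 1)) ⊕ Fin 2)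
        ((Fin (d - 1) ⊕ Fin (d - 1)) ⊕ Fin 2) F) (c₀ : ℕ) (c : F[X] → ℕ),
      M ^ r = 1 → M.charpoly = psi r c₀ c → c₀ ≤ fixdim M)
    (g₀ : ↥(Cfsg.isometryGroup F (Cfsg.quadFormMinus (d - 1) F a b))) (hg₀ : orderOf g₀ = r) :
    ∃ g : ↥(Cfsg.isometryGroup F (Cfsg.quadFormMinus (d - 1) F a b)), orderOf g = r ∧
      2 * d ≤ fixdim (gm g) + (if Odd (orderOf (q : ZMod r)) then 2 * orderOf (q : ZMod r)
        else orderOf (q : ZMod r)) := by
  classical
  have hcard : Fintype.card ((Fin (d - 1) ⊕ Fin (d - 1)) ⊕ Fin 2) = 2 * d := by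
    simp only [Fintype.card_sum, Fintype.card_fin]
    omega
  obtain ⟨c₀', c', hch', hsym', ⟨P, hP, hPne⟩, hdeg'⟩ :=
    ocharpoly_of_order (p := p) hq hr hrp (minusQF (d - 1) F a b)
      (OrthEven.minusQF_nondeg (d - 1) a b hab) g₀ hg₀
  rw [hcard] at hdeg'
  have hpow : ∀ g : ↥(Cfsg.isometryGroup F (Cfsg.quadFormMinus (d - 1) F a b)), orderOf g = r →
      (gm g) ^ r = 1 := by
    intro g hg
    have h1 : g ^ r = 1 := by rw [← hg]; exact pow_orderOf_eq_one g
    have h2 := congrArg (fun x : ↥(Cfsg.isometryGroup F (Cfsg.quadFormMinus (d - 1) F a b)) =>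
      ((x : GL ((Fin (d - 1) ⊕ Fin (d - 1)) ⊕ Fin 2) F) :
        Matrix ((Fin (d - 1) ⊕ Fin (d - 1)) ⊕ Fin 2) ((Fin (d - 1) ⊕ Fin (d - 1)) ⊕ Fin 2) F)) h1
    simpa using h2
  by_cases hiodd : Odd (orderOf (q : ZMod r))
  · obtain ⟨c, hsymc, hnz, hsum, hge⟩ :=
      c3o_exi_odd_data (p := p) hq hr hr2 hrp hiodd c' hsym' P hP hPne
    have h2i : 2 * orderOf (q : ZMod r) ≤ 2 * d := by
      have : orderOf (q : ZMod r) * 2 ≤ orderOf (q : ZMod r) * ∑ X ∈ cycJ F r, c' X :=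
        Nat.mul_le_mul_left _ hge
      omega
    have hlt : 2 * orderOf (q : ZMod r) < 2 * d := by
      by_contra hge'
      have hc0 : c₀' = 0 := by
        have : orderOf (q : ZMod r) * 2 ≤ orderOf (q : ZMod r) * ∑ X ∈ cycJ F r, c' X :=
          Nat.mul_le_mul_left _ hge
        omega
      subst hc0
      exact minus_c0_zero_not_odd (p := p) hq hd hr hr2 hrp a b hab g₀ hg₀ c' hsym' hch' hiodd
    obtain ⟨g, hg, hgch⟩ := oexists_minus (p := p) hq hd hr hr2 hrp a b hab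
      (2 * d - 2 * orderOf (q : ZMod r)) c hsymc hnz (by rw [hsum]; omega) (Or.inl (by omega))
    refine ⟨g, hg, ?_⟩
    rw [if_pos hiodd]
    have := hfix (gm g) _ c (hpow g hg) hgch
    omega
  · have hiev : Even (orderOf (q : ZMod r)) := Nat.not_odd_iff_even.mp hiodd
    obtain ⟨c, hsymc, hnz, hsum, hge⟩ :=
      c3o_exi_even_data (p := p) hq hr hrp hiev c' P hP hPne
    have hi2d : orderOf (q : ZMod r) ≤ 2 * d := by
      have : orderOf (q : ZMod r) * 1 ≤ orderOf (q : ZMod r) * ∑ X ∈ cycJ F r, c' X :=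
        Nat.mul_le_mul_left _ hge
      omega
    obtain ⟨g, hg, hgch⟩ := oexists_minus (p := p) hq hd hr hr2 hrp a b hab
      (2 * d - orderOf (q : ZMod r)) c hsymc hnz (by rw [hsum]; omega)
      (Or.inr ⟨hiodd, by rw [hsum]; exact odd_one⟩)
    refine ⟨g, hg, ?_⟩
    rw [if_neg hiodd]
    have := hfix (gm g) _ c (hpow g hg) hgch
    omega

end

end Cfsg.Agent.Helper43
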