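import Mathlib
import Cfsg.Agent.Helper43.C3ODefs
import Cfsg.Agent.Helper43.PrimeOrdO2
import Cfsg.Agent.Helper43.PrimeOrdO3
import Cfsg.Agent.Helper40.SemisimpleConj
import Cfsg.Agent.Helper83.UFRKERIRR
import Cfsg.Agent.Helper83.UFRKER3

/-!
# CALL C3O, pieces IO1 and KEQ (helper43)

Kernels of the irreducible factors of the characteristic polynomial of an isometry of odd prime
order `r ≠ p` with a large fixed space.
-/

set_option autoImplicit false

namespace Cfsg.Agent.Helper43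

open Matrix Module Polynomial
open Cfsg.Agent.Helper43.C3O
open Cfsg.Agent.Helper43.CycFactors
open Cfsg.Agent.Helper43.PrimeOrdMat (psi)
open Cfsg.Agent.Helper43.PrimeOrdO
open Cfsg.Agent.Helper43.StarPoly
open Cfsg.Agent.Helper43.SpReal (star)

universe u

section

variable {F : Type u} [Field F] [Fintype F] {ι : Type} [Fintype ι] [DecidableEq ι]

omit [Fintype F] in
/-- a matrix of order prime to the characteristic is semisimple -/
theorem c3o_semisimple (p : ℕ) [Fact p.Prime] [CharP F p] {m : ℕ} (hm : m.Coprime p)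
    (A : Matrix ι ι F) (hA : A ^ m = 1) : Module.End.IsSemisimple (Matrix.toLin' A) := by
  apply Module.End.isSemisimple_of_squarefree_aeval_eq_zero (p := X ^ m - 1)
  · apply Polynomial.Separable.squarefree
    rw [Polynomial.X_pow_sub_one_separable_iff]
    intro h0
    rw [CharP.cast_eq_zero_iff F p] at h0
    have h1 : p ∣ 1 := by
      have := Nat.dvd_gcd h0 (dvd_refl p)
      rwa [hm] at this
    exact (Nat.Prime.one_lt Fact.out).ne' (Nat.dvd_one.1 h1)
  · have h1 : (Matrix.toLin' A) ^ m = 1 := by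
      have h2 : Matrix.toLinAlgEquiv' (A ^ m) = (Matrix.toLinAlgEquiv' A) ^ m := map_pow _ _ _
      rw [hA, map_one] at h2
      exact h2.symm
    simp [h1]

/-- the kernel of an irreducible factor of the characteristic polynomial has dimension at least
the degree -/
theorem c3o_ker_ge {p : ℕ} [Fact p.Prime] [CharP F p] {q : ℕ} (hq : Fintype.card F = q)
    {r : ℕ} (hr : r.Prime) (hrp : r ≠ p) (M : Matrix ι ι F) (hM : M ^ r = 1) (c₀ : ℕ)
    (c : F[X] → ℕ) (hch : M.charpoly = psi r c₀ c) (P : F[X]) (hP : P ∈ cycJ F r)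
    (hPne : c P ≠ 0) :
    orderOf (q : ZMod r) ≤ Module.finrank F (LinearMap.ker (aeval (Matrix.toLin' M) P)) := by
  have hP' := mem_cycJ.mp hP
  have hss := c3o_semisimple p ((Nat.coprime_primes hr Fact.out).mpr hrp) M hM
  have hdvd : P ∣ (Matrix.toLin' M).charpoly := by
    rw [Matrix.charpoly_toLin', hch, psi]
    refine Dvd.dvd.mul_left ?_ _
    exact (dvd_pow_self P hPne).trans (Finset.dvd_prod_of_mem (fun X => X ^ c X) hP)
  obtain ⟨w, hw0, hw⟩ := Cfsg.Agent.Helper40.exists_vec_of_dvd_charpoly _ (ι → F)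
    (Matrix.toLin' M) hss rfl P hP'.1 hP'.2.1 hdvd
  have hmin : P ∣ minpoly F (Matrix.toLin' M) := by
    by_contra hnd
    obtain ⟨u, v, huv⟩ := (hP'.2.1.coprime_iff_not_dvd).mpr hnd
    have h1 := congrArg (fun f => aeval (Matrix.toLin' M) f w) huv
    simp only [map_add, map_mul, minpoly.aeval, mul_zero, add_zero, Module.End.mul_apply, hw,
      map_zero, map_one, Module.End.one_apply] at h1
    exact hw0 h1.symm
  have h2 := Cfsg.Agent.Helper83.irr_le_ker (Matrix.toLin' M) P hP'.2.1 hmin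
  rwa [cycJ_natDegree (p := p) hq hr hrp hP] at h2

omit [Fintype F] in
theorem c3o_fix_eq (M : Matrix ι ι F) :
    LinearMap.ker (aeval (Matrix.toLin' M) (X - 1 : F[X])) = LinearMap.ker (Matrix.toLin' M - 1) := by
  rw [map_sub, aeval_X, map_one]

/-- PIECE IO1 -/
theorem c3o_io1 {p : ℕ} [Fact p.Prime] [CharP F p] {q : ℕ} (hq : Fintype.card F = q)
    (hodd : Odd q) (Q : QuadraticForm F (ι → F)) (hQ : (QuadraticMap.polarBilin Q).Nondegenerate)
    (d : ℕ) (hcard : Fintype.card ι = 2 * d) (r : ℕ) (hr : r.Prime) (hr2 : r ≠ 2) (hrp : r ≠ p)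
    (y : ↥(Cfsg.isometryGroup F ⇑Q)) (hy : orderOf y = r) (hi : Odd (orderOf (q : ZMod r)))
    (hdim : 2 * d ≤ fixdim (gm y) + 2 * orderOf (q : ZMod r)) :
    ∃ P : F[X], Odd (Module.finrank F (LinearMap.ker (aeval (Matrix.toLin' (gm y)) P))) := by
  classical
  have hrF : (r : F) ≠ 0 := natCast_ne_zero_of_ne hr hrp
  obtain ⟨c₀, c, hch, hsym, ⟨P, hP, hPne⟩, -⟩ := ocharpoly_of_order (p := p) hq hr hrp Q hQ y hy
  have hM : (gm y) ^ r = 1 := by
    have h1 : y ^ r = 1 := by rw [← hy]; exact pow_orderOf_eq_one y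
    have h2 := congrArg (fun x : ↥(Cfsg.isometryGroup F ⇑Q) =>
      ((x : GL ι F) : Matrix ι ι F)) h1
    simpa using h2
  have hsP : star P ∈ cycJ F r := star_mem_cycJ hr hrF hP
  have hne : star P ≠ P := star_ne_self_of_odd (p := p) hq hr hr2 hrp hi hP
  have hsPne : c (star P) ≠ 0 := by rw [hsym P hP]; exact hPne
  have h1 := c3o_ker_ge (p := p) hq hr hrp (gm y) hM c₀ c hch P hP hPne
  have h2 := c3o_ker_ge (p := p) hq hr hrp (gm y) hM c₀ c hch (star P) hsP hsPne
  have hP' := mem_cycJ.mp hP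
  have hsP' := mem_cycJ.mp hsP
  have hX1 : IsCoprime (X - 1 : F[X]) P :=
    isCoprime_of_ne PrimeOrdMat.X_sub_one_monic PrimeOrdMat.X_sub_one_irreducible hP'.1 hP'.2.1
      (fun h => X_sub_one_notMem_cycJ hr hrF (h ▸ hP))
  have hX2 : IsCoprime (X - 1 : F[X]) (star P) :=
    isCoprime_of_ne PrimeOrdMat.X_sub_one_monic PrimeOrdMat.X_sub_one_irreducible hsP'.1 hsP'.2.1
      (fun h => X_sub_one_notMem_cycJ hr hrF (h ▸ hsP))
  have hPP : IsCoprime P (star P) := isCoprime_of_ne hP'.1 hP'.2.1 hsP'.1 hsP'.2.1 hne.symm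
  have h3 := Cfsg.Agent.Helper83.ker3_le (Matrix.toLin' (gm y)) (X - 1 : F[X]) P (star P) hX1 hX2 hPP
  rw [c3o_fix_eq, Module.finrank_fintype_fun_eq_card, hcard] at h3
  refine ⟨P, ?_⟩
  have h4 : Module.finrank F (LinearMap.ker (aeval (Matrix.toLin' (gm y)) P)) =
      orderOf (q : ZMod r) := by
    have : fixdim (gm y) = Module.finrank F (LinearMap.ker (Matrix.toLin' (gm y) - 1)) := rfl
    omega
  rw [h4]
  exact hi

/-- PIECE KEQ -/
theorem c3o_keq {p : ℕ} [Fact p.Prime] [CharP F p] {q : ℕ} (hq : Fintype.card F = q)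
    (hodd : Odd q) (Q : QuadraticForm F (ι → F)) (hQ : (QuadraticMap.polarBilin Q).Nondegenerate)
    (d : ℕ) (hcard : Fintype.card ι = 2 * d) (r : ℕ) (hr : r.Prime) (hr2 : r ≠ 2) (hrp : r ≠ p)
    (y : ↥(Cfsg.isometryGroup F ⇑Q)) (hy : orderOf y = r) (hi : Even (orderOf (q : ZMod r)))
    (hdim : 2 * d ≤ fixdim (gm y) + orderOf (q : ZMod r)) :
    ∃ P : F[X], Irreducible P ∧ P ∣ cyclotomic r F ∧
      Module.finrank F (LinearMap.ker (aeval (Matrix.toLin' (gm y)) P)) = P.natDegree ∧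
      ∀ v : ι → F, ∃ v₀ w : ι → F, v = v₀ + w ∧ (gm y).mulVec v₀ = v₀ ∧
        aeval (Matrix.toLin' (gm y)) P w = 0 := by
  classical
  have hrF : (r : F) ≠ 0 := natCast_ne_zero_of_ne hr hrp
  obtain ⟨c₀, c, hch, hsym, ⟨P, hP, hPne⟩, -⟩ := ocharpoly_of_order (p := p) hq hr hrp Q hQ y hy
  have hM : (gm y) ^ r = 1 := by
    have h1 : y ^ r = 1 := by rw [← hy]; exact pow_orderOf_eq_one y
    have h2 := congrArg (fun x : ↥(Cfsg.isometryGroup F ⇑Q) =>
      ((x : GL ι F) : Matrix ι ι F)) h1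
    simpa using h2
  have h1 := c3o_ker_ge (p := p) hq hr hrp (gm y) hM c₀ c hch P hP hPne
  have hP' := mem_cycJ.mp hP
  have hX1 : IsCoprime (X - 1 : F[X]) P :=
    isCoprime_of_ne PrimeOrdMat.X_sub_one_monic PrimeOrdMat.X_sub_one_irreducible hP'.1 hP'.2.1
      (fun h => X_sub_one_notMem_cycJ hr hrF (h ▸ hP))
  have hd := Polynomial.disjoint_ker_aeval_of_isCoprime (Matrix.toLin' (gm y)) hX1
  have e1 := Submodule.finrank_sup_add_finrank_inf_eq
    (LinearMap.ker (aeval (Matrix.toLin' (gm y)) (X - 1 : F[X])))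
    (LinearMap.ker (aeval (Matrix.toLin' (gm y)) P))
  rw [hd.eq_bot, finrank_bot, add_zero, c3o_fix_eq] at e1
  have hle := Submodule.finrank_le (LinearMap.ker (Matrix.toLin' (gm y) - 1) ⊔
    LinearMap.ker (aeval (Matrix.toLin' (gm y)) P))
  rw [Module.finrank_fintype_fun_eq_card, hcard] at hle
  have hfd : fixdim (gm y) = Module.finrank F (LinearMap.ker (Matrix.toLin' (gm y) - 1)) := rfl
  have h4 : Module.finrank F (LinearMap.ker (aeval (Matrix.toLin' (gm y)) P)) =
      orderOf (q : ZMod r) := by omega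
  have htop : LinearMap.ker (Matrix.toLin' (gm y) - 1) ⊔
      LinearMap.ker (aeval (Matrix.toLin' (gm y)) P) = ⊤ := by
    apply Submodule.eq_top_of_finrank_eq
    rw [Module.finrank_fintype_fun_eq_card, hcard]
    omega
  refine ⟨P, hP'.2.1, hP'.2.2, ?_, ?_⟩
  · rw [h4, cycJ_natDegree (p := p) hq hr hrp hP]
  · intro v
    have hv : v ∈ LinearMap.ker (Matrix.toLin' (gm y) - 1) ⊔
        LinearMap.ker (aeval (Matrix.toLin' (gm y)) P) := by rw [htop]; trivial
    obtain ⟨v₀, hv₀, w, hw, hvw⟩ := Submodule.mem_sup.mp hv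
    refine ⟨v₀, w, hvw.symm, ?_, LinearMap.mem_ker.mp hw⟩
    have h5 := LinearMap.mem_ker.mp hv₀
    rw [LinearMap.sub_apply, Matrix.toLin'_apply, Module.End.one_apply, sub_eq_zero] at h5
    exact h5

end

end Cfsg.Agent.Helper43
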