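import Mathlib
import Cfsg.Agent.Helper43.C3ODefs
import Cfsg.Agent.Helper14.Forms2

/-!
# CALL C3O, piece NF (helper43): normal form of a `J`-frame

`V = ι → F` is a vector space over `L = F(√n)` (`QuadraticAlgebra F n 0`) through `J`, the form
`Φ(u, v) = B(Ju, v) + √n B(u, v)` is `L`-bilinear, symmetric and nondegenerate; the normal form
of symmetric forms over the finite field `L` gives the frame.
-/

set_option autoImplicit false

namespace Cfsg.Agent.Helper43

open Matrix Module
open Cfsg.Agent.Helper43.C3O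

universe u

section

variable {F : Type u} [Field F] {ι : Type} [Fintype ι] [DecidableEq ι]

/-- the `F(√n)`-module structure defined by `J` -/
@[reducible] noncomputable def c3oMod (n : F) (J : Matrix ι ι F)
    (hJ : J * J = n • (1 : Matrix ι ι F)) : Module (QuadraticAlgebra F n 0) (ι → F) where
  smul c v := c.re • v + c.im • J.mulVec v
  one_smul v := by
    show (1 : F) • v + (0 : F) • J.mulVec v = v
    rw [one_smul, zero_smul, add_zero]
  mul_smul c c' v := by
    show (c * c').re • v + (c * c').im • J.mulVec v =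
      c.re • (c'.re • v + c'.im • J.mulVec v) + c.im • J.mulVec (c'.re • v + c'.im • J.mulVec v)
    have hJJ : J.mulVec (J.mulVec v) = n • v := by
      rw [Matrix.mulVec_mulVec, hJ, Matrix.smul_mulVec, Matrix.one_mulVec]
    rw [Matrix.mulVec_add, Matrix.mulVec_smul, Matrix.mulVec_smul, hJJ]
    obtain ⟨a, b⟩ := c
    obtain ⟨a', b'⟩ := c'
    simp only [QuadraticAlgebra.mk_mul_mk]
    funext i
    simp only [Pi.add_apply, Pi.smul_apply, smul_eq_mul]
    ring
  smul_zero c := by
    show c.re • (0 : ι → F) + c.im • J.mulVec 0 = 0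
    rw [Matrix.mulVec_zero, smul_zero, smul_zero, add_zero]
  smul_add c v w := by
    show c.re • (v + w) + c.im • J.mulVec (v + w) =
      (c.re • v + c.im • J.mulVec v) + (c.re • w + c.im • J.mulVec w)
    rw [Matrix.mulVec_add]
    funext i
    simp only [Pi.add_apply, Pi.smul_apply, smul_eq_mul]
    ring
  add_smul c c' v := by
    show (c + c').re • v + (c + c').im • J.mulVec v =
      (c.re • v + c.im • J.mulVec v) + (c'.re • v + c'.im • J.mulVec v)
    funext i
    simp only [Pi.add_apply, Pi.smul_apply, smul_eq_mul, QuadraticAlgebra.re_add,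
      QuadraticAlgebra.im_add]
    ring
  zero_smul v := by
    show (0 : F) • v + (0 : F) • J.mulVec v = 0
    rw [zero_smul, zero_smul, add_zero]

theorem c3oMod_smul (n : F) (J : Matrix ι ι F) (hJ : J * J = n • (1 : Matrix ι ι F))
    (c : QuadraticAlgebra F n 0) (v : ι → F) :
    letI := c3oMod n J hJ
    c • v = c.re • v + c.im • J.mulVec v := rfl

end

section

variable {F : Type u} [Field F] [Fintype F] {ι : Type} [Fintype ι] [DecidableEq ι]

/-- PIECE NF -/
theorem c3o_nf (h2 : (2 : F) ≠ 0) (Q : QuadraticForm F (ι → F))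
    (hQ : (QuadraticMap.polarBilin Q).Nondegenerate) (n : F) (hn : ¬ IsSquare n)
    (J : Matrix ι ι F) (hJ : IsJ Q n J) (d : ℕ) (hcard : Fintype.card ι = 2 * (d + 1)) :
    ∃ (e : Fin (d + 1) → ι → F) (α β : F), IsFrame Q J e α β ∧ ¬ (α = 0 ∧ β = 0) := by
  classical
  haveI : Fact (∀ r : F, r ^ 2 ≠ n + 0 * r) :=
    ⟨fun r h => hn ⟨r, by rw [← pow_two, h]; ring⟩⟩
  letI : Fintype (QuadraticAlgebra F n 0) :=
    Fintype.ofEquiv (F × F) (QuadraticAlgebra.equivProd n 0).symm
  letI := c3oMod n J hJ.1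
  have hsm : ∀ (c : QuadraticAlgebra F n 0) (v : ι → F),
      c • v = c.re • v + c.im • J.mulVec v := fun c v => rfl
  have hJJ : ∀ v : ι → F, J.mulVec (J.mulVec v) = n • v := by
    intro v
    rw [Matrix.mulVec_mulVec, hJ.1, Matrix.smul_mulVec, Matrix.one_mulVec]
  haveI : IsScalarTower F (QuadraticAlgebra F n 0) (ι → F) := ⟨fun a c v => by
    rw [hsm, hsm]
    obtain ⟨x, y⟩ := c
    show (a * x) • v + (a * y) • J.mulVec v = a • (x • v + y • J.mulVec v)
    rw [smul_add, smul_smul, smul_smul]⟩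
  haveI : Module.Finite (QuadraticAlgebra F n 0) (ι → F) :=
    Module.Finite.of_restrictScalars_finite F _ _
  have hfin : Module.finrank (QuadraticAlgebra F n 0) (ι → F) = d + 1 := by
    have h1 := Module.finrank_mul_finrank F (QuadraticAlgebra F n 0) (ι → F)
    rw [QuadraticAlgebra.finrank_eq_two, Module.finrank_fintype_fun_eq_card, hcard] at h1
    omega
  have h2L : (2 : QuadraticAlgebra F n 0) ≠ 0 := by
    intro h
    have := congrArg QuadraticAlgebra.re h
    rw [QuadraticAlgebra.re_ofNat] at this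
    exact h2 this
  have hpsm : ∀ (a : F) (u v : ι → F),
      QuadraticMap.polar ⇑Q (a • u) v = a * QuadraticMap.polar ⇑Q u v :=
    fun a u v => by rw [QuadraticMap.polar_smul_left, smul_eq_mul]
  have hpsm' : ∀ (a : F) (u v : ι → F),
      QuadraticMap.polar ⇑Q u (a • v) = a * QuadraticMap.polar ⇑Q u v :=
    fun a u v => by rw [QuadraticMap.polar_smul_right, smul_eq_mul]
  let Φ : LinearMap.BilinForm (QuadraticAlgebra F n 0) (ι → F) :=
    LinearMap.mk₂ (QuadraticAlgebra F n 0)
      (fun u v => (⟨QuadraticMap.polar ⇑Q (J.mulVec u) v, QuadraticMap.polar ⇑Q u v⟩ :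
        QuadraticAlgebra F n 0))
      (by
        intro u₁ u₂ v
        rw [Matrix.mulVec_add, QuadraticMap.polar_add_left, QuadraticMap.polar_add_left]
        rfl)
      (by
        intro c u v
        rw [hsm, Matrix.mulVec_add, Matrix.mulVec_smul, Matrix.mulVec_smul, hJJ,
          QuadraticMap.polar_add_left, QuadraticMap.polar_add_left, hpsm, hpsm, hpsm, hpsm, hpsm]
        obtain ⟨a, b⟩ := c
        rw [smul_eq_mul, QuadraticAlgebra.mk_mul_mk]
        congr 1 <;> ring)
      (by
        intro u v₁ v₂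
        rw [QuadraticMap.polar_add_right, QuadraticMap.polar_add_right]
        rfl)
      (by
        intro c u v
        rw [hsm, QuadraticMap.polar_add_right, QuadraticMap.polar_add_right, hpsm', hpsm', hpsm',
          hpsm', hJ.2 u (J.mulVec v), hJJ, hpsm', ← hJ.2 u v]
        obtain ⟨a, b⟩ := c
        rw [smul_eq_mul, QuadraticAlgebra.mk_mul_mk]
        congr 1 <;> ring)
  have hΦ : ∀ u v : ι → F, Φ u v =
      (⟨QuadraticMap.polar ⇑Q (J.mulVec u) v, QuadraticMap.polar ⇑Q u v⟩ :
        QuadraticAlgebra F n 0) := fun u v => rfl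
  have hsymm : Φ.IsSymm := ⟨fun u v => by
    show Φ u v = Φ v u
    rw [hΦ, hΦ, hJ.2 u v, QuadraticMap.polar_comm ⇑Q u (J.mulVec v),
      QuadraticMap.polar_comm ⇑Q u v]⟩
  have hnd : Φ.Nondegenerate := by
    have hl : ∀ u : ι → F, (∀ v, Φ u v = 0) → u = 0 := by
      intro u hu
      apply hQ.1 u
      intro v
      have := congrArg QuadraticAlgebra.im (hu v)
      rw [hΦ] at this
      exact this
    refine ⟨hl, ?_⟩
    intro v hv
    apply hl v
    intro u
    rw [hsymm.eq v u]
    exact hv u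
  obtain ⟨e, ho, h1, hlast⟩ := Cfsg.Agent.Helper14.exists_normal_basis h2L d (ι → F) Φ hnd hsymm hfin
  refine ⟨fun i => e i, Q (e (Fin.last d)),
    QuadraticMap.polar ⇑Q (J.mulVec (e (Fin.last d))) (e (Fin.last d)), ⟨?_, ?_, rfl, rfl⟩, ?_⟩
  · intro i j hij
    have h3 := ho i j hij
    rw [hΦ] at h3
    exact ⟨congrArg QuadraticAlgebra.im h3, congrArg QuadraticAlgebra.re h3⟩
  · intro i hi
    have h3 := h1 i hi
    rw [hΦ] at h3
    have h4 : QuadraticMap.polar ⇑Q (e i) (e i) = 0 := congrArg QuadraticAlgebra.im h3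
    have h5 : QuadraticMap.polar ⇑Q (J.mulVec (e i)) (e i) = 1 := congrArg QuadraticAlgebra.re h3
    refine ⟨?_, h5⟩
    rw [QuadraticMap.polar_self, two_nsmul, ← two_mul] at h4
    exact (mul_eq_zero.mp h4).resolve_left h2
  · rintro ⟨hα, hβ⟩
    apply hlast
    rw [hΦ, hβ, QuadraticMap.polar_self, hα, smul_zero]
    rfl

end

end Cfsg.Agent.Helper43
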