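import Mathlib
import Cfsg.Agent.Helper43.C3ODefs
import Cfsg.Agent.Helper45.Spinor
import Cfsg.Agent.Helper45.PSO
import Cfsg.Agent.Helper43.OrthEven
import Cfsg.Agent.Helper3.C3EKJ
import Cfsg.Agent.Helper83.C3ENORM
import Cfsg.Agent.Helper91.C3ECONJ
import Cfsg.Agent.Helper43.C3ONF
import Cfsg.Agent.Helper5.C3OFRB
import Cfsg.Agent.Helper11.C3ODISC
import Cfsg.Agent.Helper39.C3OFFSQ
import Cfsg.Agent.Helper33.C3ORESC
import Cfsg.Agent.Helper5.C3OCONJFIN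
import Cfsg.Agent.Helper58.C3OS1
import Cfsg.Agent.Helper58.C3OS2
import Cfsg.Agent.Helper31.C3OOMODD
import Cfsg.Agent.Helper58.C3ONONSC
import Cfsg.Agent.Helper4.C3OODDC
import Cfsg.Agent.Helper33.C3OEW
import Cfsg.Agent.Helper39.C3OSIEGEL
import Cfsg.Agent.Helper33.C3OWITP
import Cfsg.Agent.Helper84.C3ORANK1
import Cfsg.Agent.Helper43.C3OKER
import Cfsg.Agent.Helper84.C3OEVEN
import Cfsg.Agent.Helper10.C3OI4
import Cfsg.Agent.Helper33.C3OINDM
import Cfsg.Agent.Helper95.C3OIND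
import Cfsg.Agent.Helper4.C3OSYL
import Cfsg.Agent.Helper19.C3OCYC
import Cfsg.Agent.Helper33.C3OFA
import Cfsg.Agent.Helper4.C3OFD
import Cfsg.Agent.Helper84.C3OFC
import Cfsg.Agent.Helper10.C3OI2X
import Cfsg.Agent.Helper47.C3OFROBPOW
import Cfsg.Agent.Helper58.C3OZPM
import Cfsg.Agent.Helper53.C3OARHO
import Cfsg.Agent.Helper47.C3OACASE
import Cfsg.Agent.Helper39.C3OAEV
import Cfsg.Agent.Helper31.C3OJSUB
import Cfsg.Agent.Helper33.C3OGLUEM
import Cfsg.Agent.Helper69.C3ONFRAME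
import Cfsg.Agent.Helper5.C3ORINV
import Cfsg.Agent.Helper53.C3ONCASE
import Cfsg.Agent.Helper69.C3OBWD
import Cfsg.Agent.Helper43.C3OEXI
import Cfsg.Agent.Helper11.C3OFIXDIM

/-!
# S5977 / S5978: assembly of the pieces of CALL C3O (helper43)

The generic core `c3o_core`: for a quadratic form `Q` with nondegenerate polar form on a space of
dimension `2d ≥ 6` over a finite field of odd order and a self-adjoint quadratic field subalgebra `K`,
every element of order `r` of `PΩ(Q)` is conjugate into the normalizer of `K` iff `r = 2`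
(given `r` divides the index and the existence of the minimal elements of order `r`).
-/

set_option autoImplicit false

namespace Cfsg.Agent.Helper43.C3OAsm

open Matrix Module Polynomial
open Cfsg.Agent.Helper43.C3O
open Cfsg.Agent.Helper43.CycFactors (cycJ)
open Cfsg.Agent.Helper43.PrimeOrdMat (psi)
open Cfsg.Agent.Helper43 (c3o_nf c3o_io1 c3o_keq c3o_exip c3o_exim)
open Cfsg.Agent.Helper5 (c3o_frb c3o_conjfin c3o_rinv)
open Cfsg.Agent.Helper11 (c3o_disc c3o_fixdim)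
open Cfsg.Agent.Helper39 (c3o_ffsq c3o_ffsq0 c3o_siegel c3o_aev)
open Cfsg.Agent.Helper33 (c3o_resc c3o_ew c3o_witp c3o_indm c3o_fa c3o_gluem)
open Cfsg.Agent.Helper58 (c3o_s1 c3o_s2 c3o_nonsc c3o_zpm)
open Cfsg.Agent.Helper31 (c3o_omodd c3o_jsub)
open Cfsg.Agent.Helper4 (c3o_oddc c3o_syl c3o_fd)
open Cfsg.Agent.Helper84 (c3o_rank1 c3o_evenm c3o_fc)
open Cfsg.Agent.Helper10 (c3o_i4 c3o_i2x)
open Cfsg.Agent.Helper95 (c3o_ind)
open Cfsg.Agent.Helper19 (c3o_cyc)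
open Cfsg.Agent.Helper47 (c3o_frobpow c3o_acase)
open Cfsg.Agent.Helper53 (c3o_arho c3o_ncase)
open Cfsg.Agent.Helper69 (c3o_nframe c3o_bwd)

universe u

variable {F : Type u} [Field F] [Fintype F] {ι : Type} [Fintype ι] [DecidableEq ι]


/-- the isometry group is transitive on the self-adjoint square roots of `n` -/
theorem c3o_conjo (h2 : (2 : F) ≠ 0) (Q : QuadraticForm F (ι → F))
    (hQ : (QuadraticMap.polarBilin Q).Nondegenerate) (n : F) (hn : ¬ IsSquare n) (d : ℕ)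
    (hcard : Fintype.card ι = 2 * (d + 1)) (J₁ J₂ : Matrix ι ι F) (hJ₁ : IsJ Q n J₁)
    (hJ₂ : IsJ Q n J₂) : ∃ h : ↥(Cfsg.isometryGroup F ⇑Q), gm h * J₁ = J₂ * gm h := by
  obtain ⟨e₁, α₁, β₁, he₁, h₁⟩ := c3o_nf h2 Q hQ n hn J₁ hJ₁ d hcard
  obtain ⟨e₂, α₂, β₂, he₂, h₂⟩ := c3o_nf h2 Q hQ n hn J₂ hJ₂ d hcard
  have hfrb := fun (J : Matrix ι ι F) (hJ : IsJ Q n J) (e : Fin (d + 1) → ι → F) (α β : F)
    (he : IsFrame Q J e α β) (hαβ : ¬ (α = 0 ∧ β = 0)) =>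
      c3o_frb h2 Q n hn J hJ d hcard e α β he hαβ
  obtain ⟨s, hs, hdisc⟩ := c3o_disc h2 Q n hn d hcard hfrb J₂ J₁ hJ₂ hJ₁ e₂ e₁ α₂ β₂ α₁ β₁
    he₂ he₁ h₂ h₁
  have hAB : ¬ (β₂ = 0 ∧ 2 * α₂ = 0) := by
    rintro ⟨hb, ha⟩
    exact h₂ ⟨(mul_eq_zero.mp ha).resolve_left h2, hb⟩
  obtain ⟨x, y, hA, hB⟩ := c3o_ffsq h2 n hn (c3o_ffsq0 h2 n hn) β₂ (2 * α₂) β₁ (2 * α₁) s hs hAB
    (by linear_combination hdisc)
  have he₂' := c3o_resc h2 Q n J₂ hJ₂ d e₂ α₂ β₂ he₂ x y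
  have hα : (x ^ 2 + n * y ^ 2) * α₂ + x * y * β₂ = α₁ := by
    have h3 : (2 : F) * ((x ^ 2 + n * y ^ 2) * α₂ + x * y * β₂) = 2 * α₁ := by
      linear_combination -hB
    exact mul_left_cancel₀ h2 h3
  have hβ : (x ^ 2 + n * y ^ 2) * β₂ + 4 * n * x * y * α₂ = β₁ := by linear_combination -hA
  rw [hα, hβ] at he₂'
  exact c3o_conjfin h2 Q n hn d hcard hfrb J₁ J₂ hJ₁ hJ₂ e₁ _ α₁ β₁ he₁ he₂' h₁

/-- an element of the centralizer of `J` with both spins `-1` -/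
theorem c3o_spink (h2 : (2 : F) ≠ 0) (Q : QuadraticForm F (ι → F))
    (hQ : (QuadraticMap.polarBilin Q).Nondegenerate) (n : F) (hn : ¬ IsSquare n)
    (J : Matrix ι ι F) (hJ : IsJ Q n J) (ε₀ : F) (hε₀ : ¬ IsSquare ε₀) (d : ℕ) (hd : 2 ≤ d)
    (hcard : Fintype.card ι = 2 * (d + 1)) :
    ∃ k : ↥(Cfsg.isometryGroup F ⇑Q), gm k * J = J * gm k ∧
      Cfsg.Agent.Helper45.spin ⇑Q 1 k = -1 ∧ Cfsg.Agent.Helper45.spin ⇑Q ε₀ k = -1 := by
  have hn0 : n ≠ 0 := by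
    rintro rfl
    exact hn ⟨0, by simp⟩
  obtain ⟨e, α, β, he, -⟩ := c3o_nf h2 Q hQ n hn J hJ d hcard
  obtain ⟨ho, hnorm, -, -⟩ := he
  have h0 : (⟨0, by omega⟩ : Fin (d + 1)) ≠ Fin.last d := by
    intro h
    have := congrArg Fin.val h
    simp only [Fin.val_last] at this
    omega
  have h1 : (⟨1, by omega⟩ : Fin (d + 1)) ≠ Fin.last d := by
    intro h
    have := congrArg Fin.val h
    simp only [Fin.val_last] at this
    omega
  have h01 : (⟨0, by omega⟩ : Fin (d + 1)) ≠ ⟨1, by omega⟩ := by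
    intro h
    have := congrArg Fin.val h
    simp at this
  obtain ⟨v, hv, hvJ⟩ := c3o_s1 h2 Q n hn0 J hJ (e ⟨0, by omega⟩) (e ⟨1, by omega⟩)
    (hnorm _ h0).1 (hnorm _ h1).1 (hnorm _ h0).2 (hnorm _ h1).2 (ho _ _ h01).1 (ho _ _ h01).2
  exact c3o_s2 h2 Q n hn J hJ ε₀ hε₀ v hv hvJ


omit [Fintype F] in
theorem comm_aeval {A : Type*} [Ring A] [Algebra F A] (a b : A) (h : a * b = b * a)
    (P : F[X]) : a * aeval b P = aeval b P * a := by
  induction P using Polynomial.induction_on' with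
  | add p q hp hq => rw [map_add, mul_add, add_mul, hp, hq]
  | monomial k c =>
    rw [aeval_monomial]
    have h1 : a * b ^ k = b ^ k * a := (Commute.pow_right (show Commute a b from h) k).eq
    rw [← mul_assoc, ← Algebra.commutes c a, mul_assoc, h1, ← mul_assoc]

/-- the generic core of S5977 / S5978 -/
theorem c3o_core {p : ℕ} [Fact p.Prime] [CharP F p] {q : ℕ} (hq : Fintype.card F = q)
    (hodd : Odd q) (Q : QuadraticForm F (ι → F))
    (hQ : (QuadraticMap.polarBilin Q).Nondegenerate) (d : ℕ) (hd : 3 ≤ d)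
    (hcard : Fintype.card ι = 2 * d) (K : Subalgebra F (Matrix ι ι F))
    (hK : Cfsg.Geo.IsFieldSubalgebra 2 K)
    (hKf : Cfsg.Geo.IsSelfAdjointFor (QuadraticMap.polar ⇑Q) K) (r : ℕ) [Fact r.Prime]
    (hΩ : r ∣ (Cfsg.Geo.subalgebraNormalizer K).relIndex (Cfsg.Geo.omegaGL ⇑Q))
    (hexi : r ≠ 2 → r ≠ p → ∀ g₀ : ↥(Cfsg.isometryGroup F ⇑Q), orderOf g₀ = r →
      ∃ g : ↥(Cfsg.isometryGroup F ⇑Q), orderOf g = r ∧
        2 * d ≤ fixdim (gm g) + (if Odd (orderOf (q : ZMod r)) then 2 * orderOf (q : ZMod r)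
          else orderOf (q : ZMod r))) :
    (∀ x ∈ Cfsg.Geo.omegaGL ⇑Q,
      (∃ z : F, ((x ^ r : GL ι F) : Matrix ι ι F) = z • (1 : Matrix ι ι F)) →
      (∀ z : F, (x : Matrix ι ι F) ≠ z • (1 : Matrix ι ι F)) →
      ∃ g ∈ Cfsg.Geo.omegaGL ⇑Q, g⁻¹ * x * g ∈ Cfsg.Geo.subalgebraNormalizer K) ↔ r = 2 := by
  classical
  have h2 : (2 : F) ≠ 0 := Cfsg.Agent.Helper43.two_ne_zero_of_odd_card hq hodd
  obtain ⟨n, hn⟩ : ∃ n : F, ¬ IsSquare n :=
    FiniteField.exists_nonsquare (fun h => h2 (by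
      have := ringChar.eq_iff.mp h
      exact CharTwo.two_eq_zero))
  obtain ⟨J, hJK, hJ2, hKiff⟩ := Cfsg.Agent.Helper3.c3e_kj K hK h2 n hn
  have hJ : IsJ Q n J := ⟨hJ2, fun u v => hKf J hJK u v⟩
  have hn0 : n ≠ 0 := by
    rintro rfl
    exact hn ⟨0, by simp⟩
  obtain ⟨d', rfl⟩ : ∃ d', d = d' + 1 := ⟨d - 1, by omega⟩
  have hne : Nonempty ι := by
    rw [← Fintype.card_pos_iff]
    omega
  have hconj : ∀ J' : Matrix ι ι F, IsJ Q n J' →
      ∃ h : ↥(Cfsg.isometryGroup F ⇑Q), gm h * J = J' * gm h :=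
    fun J' hJ' => c3o_conjo h2 Q hQ n hn d' hcard J J' hJ hJ'
  constructor
  · intro hall
    by_contra hr2
    have hr : r.Prime := Fact.out
    have hrodd : Odd r := hr.odd_of_ne_two hr2
    have key : ∀ x : ↥(Cfsg.isometryGroup F ⇑Q), x ^ r = 1 → x ≠ 1 →
        ∃ c : ↥(Cfsg.isometryGroup F ⇑Q), gm (c⁻¹ * x * c) * J = J * gm (c⁻¹ * x * c) := by
      intro x hxr hx1
      have hxΩ : x ∈ Cfsg.Omega F ⇑Q := c3o_omodd h2 Q hQ (by omega) x r hrodd hxr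
      have hxGL : (x : GL ι F) ∈ Cfsg.Geo.omegaGL ⇑Q := ⟨x, hxΩ, rfl⟩
      have hxr' : ((x : GL ι F) ^ r : GL ι F) = 1 := by
        have := congrArg Subtype.val hxr
        simpa using this
      obtain ⟨g, hg, hgN⟩ := hall (x : GL ι F) hxGL ⟨1, by rw [hxr', one_smul]; rfl⟩
        (fun z hz => hx1 (c3o_nonsc Q hQ x r hrodd hxr z hz))
      obtain ⟨g', hg'Ω, rfl⟩ := hg
      refine ⟨g', ?_⟩
      have hGr : ((g'⁻¹ * x * g' : ↥(Cfsg.isometryGroup F ⇑Q)) : GL ι F) ^ r = 1 := by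
        have h1 : (g'⁻¹ * x * g') ^ r = 1 := by
          have h0 : g'⁻¹ * x * g' = g'⁻¹ * x * g'⁻¹⁻¹ := by rw [inv_inv]
          rw [h0, conj_pow, hxr]
          group
        have := congrArg Subtype.val h1
        simpa using this
      exact c3o_oddc h2 K J n hn hJ2 hKiff _ hgN r hrodd hGr
    by_cases hrp : r = p
    · subst hrp
      obtain ⟨e, w, he, he0, hw, hew⟩ := c3o_ew h2 Q hQ (by omega)
      obtain ⟨u, φ, hu, hφ, huu⟩ := c3o_siegel h2 Q hQ r e w he he0 hw hew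
      obtain ⟨x, hx, hx1, hbad⟩ := c3o_witp Q r n ⟨u, e, φ, hu, he0, hφ, huu⟩
        (fun J e φ hJ he hφ hc => c3o_rank1 n hn J hJ e φ he hφ hc)
      obtain ⟨c, hc⟩ := key x hx hx1
      exact hbad (c⁻¹ * x * c) J (isConj_iff.mpr ⟨c⁻¹, by group⟩) hJ2 hc
    · have hdvd : r ∣ Nat.card ↥(Cfsg.Geo.omegaGL ⇑Q) :=
        hΩ.trans (Subgroup.relIndex_dvd_card _ _)
      obtain ⟨g₀', hg₀'⟩ := exists_prime_orderOf_dvd_card' r hdvd
      obtain ⟨g₀, -, hg₀eq⟩ := g₀'.2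
      have hg₀ : orderOf g₀ = r := by
        rw [← hg₀', ← Subgroup.orderOf_coe g₀', ← hg₀eq]
        exact (Subgroup.orderOf_coe g₀).symm
      obtain ⟨g, hg, hdim⟩ := hexi hr2 hrp g₀ hg₀
      have hgr : g ^ r = 1 := by rw [← hg]; exact pow_orderOf_eq_one g
      have hg1 : g ≠ 1 := by
        rintro rfl
        rw [orderOf_one] at hg
        exact hr.one_lt.ne hg
      obtain ⟨c, hyJ⟩ := key g hgr hg1
      obtain ⟨y, hydef⟩ : ∃ y : ↥(Cfsg.isometryGroup F ⇑Q), y = c⁻¹ * g * c := ⟨_, rfl⟩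
      rw [← hydef] at hyJ
      have hy : orderOf y = r := by
        have h1 := orderOf_injective (MulAut.conj c⁻¹).toMonoidHom (MulAut.conj c⁻¹).injective g
        rw [← hg, ← h1, hydef]
        simp
      have hfix : fixdim (gm y) = fixdim (gm g) := by
        rw [hydef]
        exact Cfsg.Agent.Helper91.c3e_conj (c : GL ι F) (g : GL ι F)
      rw [← hfix] at hdim
      by_cases hiodd : Odd (orderOf (q : ZMod r))
      · rw [if_pos hiodd] at hdim
        obtain ⟨P, hP⟩ := c3o_io1 hq hodd Q hQ (d' + 1) hcard r hr hr2 hrp y hy hiodd hdim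
        have hev := c3o_evenm n hn J hJ2 (LinearMap.ker (aeval (Matrix.toLin' (gm y)) P)) (by
          intro u hu
          rw [LinearMap.mem_ker] at hu ⊢
          have h1 := comm_aeval (Matrix.toLin' J) (Matrix.toLin' (gm y))
            (by
              show Matrix.toLin' J ∘ₗ Matrix.toLin' (gm y) = Matrix.toLin' (gm y) ∘ₗ Matrix.toLin' J
              rw [← Matrix.toLin'_mul, ← Matrix.toLin'_mul, hyJ]) P
          have h3 := LinearMap.congr_fun h1 u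
          rw [Module.End.mul_apply, Module.End.mul_apply, hu, map_zero, Matrix.toLin'_apply] at h3
          exact h3.symm)
        exact (Nat.not_even_iff_odd.mpr hP) hev
      · rw [if_neg hiodd] at hdim
        have hieven : Even (orderOf (q : ZMod r)) := Nat.not_odd_iff_even.mp hiodd
        by_cases h4 : 4 ∣ orderOf (q : ZMod r)
        · refine c3o_i4 Q n J K hKiff r (fun S hS k hSk => c3o_indm h2 Q n r
            (fun S' hS' k' hk' => c3o_ind hq hodd r hr hr2 hrp h4 n hn k' (ι → F)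
              (QuadraticMap.polarBilin Q) hQ
              ⟨fun u v => QuadraticMap.polar_comm ⇑Q u v⟩
              (by rw [Module.finrank_fintype_fun_eq_card, hcard]; exact even_two_mul _)
              S' hS' hk') S hS k hSk) hconj
            (fun S T hT hTc => c3o_syl _ _ r S T hT hTc) hΩ
        · obtain ⟨P, hPirr, hPc, hPdim, hdec⟩ :=
            c3o_keq hq hodd Q hQ (d' + 1) hcard r hr hr2 hrp y hy hieven hdim
          obtain ⟨R, hR⟩ := c3o_cyc (gm y) J hyJ.symm P hPirr hPdim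
          have hfa := c3o_fa Q hQ r hr hrp n J hJ y hy P hPirr hPc hdec R hR
          obtain ⟨m, hm, him, hrm⟩ := c3o_fd q r hr hr2 hieven h4
          have hfc := c3o_fc (F := F) (by rw [hq]; exact hodd) n hn m hm
          rw [hq] at hfc
          exact c3o_i2x hq hodd Q r hr hr2 hrp n hn J hJ y hy hyJ P hPirr hdec R hR hfa
            (fun m' => by
              have h5 := c3o_frobpow (F := F) (gm y) R m'
              rwa [hq] at h5) m hm hrm hfc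
  · intro hr2 x hx hz hns
    subst hr2
    obtain ⟨x', hx'Ω, rfl⟩ := hx
    obtain ⟨z, hz⟩ := hz
    have hz' : gm x' * gm x' = z • (1 : Matrix ι ι F) := by
      rw [← hz]
      simp [pow_two]
    obtain ⟨k, hkJ, hk1, hk2⟩ := c3o_spink h2 Q hQ n hn J hJ n hn d' (by omega) hcard
    have hdata : ∃ (J' : Matrix ι ι F) (ρ : ↥(Cfsg.isometryGroup F ⇑Q)) (ε : F), ε ≠ 0 ∧
        IsJ Q n J' ∧ (gm ρ).det = -1 ∧ gm x' * J' = ε • (J' * gm x') ∧
        gm x' * (gm ρ * J' * gm ρ⁻¹) = ε • ((gm ρ * J' * gm ρ⁻¹) * gm x') := by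
      rcases c3o_zpm Q hQ x' z hz' with rfl | rfl
      · have hxx : gm x' * gm x' = 1 := by rw [hz', one_smul]
        have hdet : (gm x').det = 1 := by
          have h3 := (Cfsg.Agent.Helper45.mem_omega_iff Q h2 hQ (by omega) n hn x').mp hx'Ω
          exact (Cfsg.Agent.Helper45.det_eq_one_iff Q h2 hQ n hn x').mpr (by
            rw [h3.1, h3.2]; rfl)
        obtain ⟨ρ, hρ, hρx⟩ := c3o_arho h2 Q hQ x' hxx
        obtain ⟨J', hJ', h1, h1'⟩ := c3o_acase h2 Q hQ (by rw [hcard]; exact even_two_mul _) n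
          x' hxx (c3o_aev h2 (gm x') hxx hdet)
          (fun W hW hev => c3o_jsub h2 Q W hW hev n)
          (fun W₁ W₂ hc ho J₁ J₂ h₁ h₂ hs₁ hs₂ => c3o_gluem Q n W₁ W₂ hc ho J₁ J₂ h₁ h₂ hs₁ hs₂)
          ρ hρ hρx
        exact ⟨J', ρ, 1, one_ne_zero, hJ', hρ, by rw [one_smul]; exact h1,
          by rw [one_smul]; exact h1'⟩
      · have hxx : gm x' * gm x' = -1 := by rw [hz', neg_one_smul]
        obtain ⟨u, hu1, hu2⟩ := c3o_nframe h2 Q hQ (d' + 1) hcard x' hxx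
        obtain ⟨R, hR, hRx, hRu⟩ := c3o_rinv h2 Q hQ (d' + 1) hcard x' hxx u hu1 hu2
        obtain ⟨J', ρ, hJ', hρ, h1, h1'⟩ := c3o_ncase h2 Q hQ n x' hxx R hR hRx (u 0) (hu1 0)
          (hRu 0)
        exact ⟨J', ρ, -1, neg_ne_zero.mpr one_ne_zero, hJ', hρ, by rw [neg_one_smul]; exact h1,
          by rw [neg_one_smul]; exact h1'⟩
    obtain ⟨J', ρ, ε, hε, hJ', hρ, h1, h1'⟩ := hdata
    obtain ⟨g, hgΩ, hgJ⟩ := c3o_bwd h2 Q hQ (by omega) n J n hn hconj k hkJ hk1 hk2 x' J' hJ' ρ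
      hρ ε h1 h1'
    exact ⟨(g : GL ι F), ⟨g, hgΩ, rfl⟩, Cfsg.Agent.Helper83.c3e_norm K J hKiff _ ε hε hgJ⟩




end Cfsg.Agent.Helper43.C3OAsm
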