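import Mathlib

set_option autoImplicit false

/-!
# Counting conjugacy classes by a complete invariant; stars and bars (helper43)

* `card_classes_eq_invariant` : if `χ` is a class function separating the classes of elements
  with property `P`, the number of such classes is the number of values of `χ`;
* `card_sum_eq`, `card_sum_le`, `card_nonzero_le` : numbers of tuples of naturals with given or
  bounded sum.
-/

namespace Cfsg.Agent.Helper43.ClassCount

/-- counting classes via a complete invariant -/
theorem card_classes_eq_invariant {G : Type*} [Group G] {α : Type*} (P : G → Prop) (χ : G → α)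
    (h1 : ∀ g h, IsConj g h → χ g = χ h)
    (h2 : ∀ g h, P g → P h → χ g = χ h → IsConj g h) :
    Nat.card {c : ConjClasses G // ∃ g, ConjClasses.mk g = c ∧ P g} =
      Nat.card {a : α // ∃ g, P g ∧ χ g = a} := by
  classical
  let Ψ : {c : ConjClasses G // ∃ g, ConjClasses.mk g = c ∧ P g} →
      {a : α // ∃ g, P g ∧ χ g = a} :=
    fun c => ⟨χ (Classical.choose c.2), Classical.choose c.2, (Classical.choose_spec c.2).2, rfl⟩
  apply Nat.card_eq_of_bijective Ψ
  constructor
  · intro c₁ c₂ h
    have h3 : χ (Classical.choose c₁.2) = χ (Classical.choose c₂.2) := congrArg Subtype.val h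
    have h4 := h2 _ _ (Classical.choose_spec c₁.2).2 (Classical.choose_spec c₂.2).2 h3
    apply Subtype.ext
    rw [← (Classical.choose_spec c₁.2).1, ← (Classical.choose_spec c₂.2).1]
    exact ConjClasses.mk_eq_mk_iff_isConj.mpr h4
  · rintro ⟨a, g, hg, rfl⟩
    have hex : ∃ g', ConjClasses.mk g' = ConjClasses.mk g ∧ P g' := ⟨g, rfl, hg⟩
    refine ⟨⟨ConjClasses.mk g, hex⟩, ?_⟩
    apply Subtype.ext
    exact h1 _ _ (ConjClasses.mk_eq_mk_iff_isConj.mp (Classical.choose_spec hex).1)

/-- the number of tuples of naturals with sum `N` -/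
theorem card_sum_eq (α : Type*) [Fintype α] (N : ℕ) :
    Nat.card {a : α → ℕ // ∑ x, a x = N} = (Fintype.card α + N - 1).choose N := by
  classical
  rw [← Nat.card_congr (Sym.equivNatSumOfFintype α N), Nat.card_eq_fintype_card,
    Sym.card_sym_eq_choose]

/-- the number of tuples of naturals with sum at most `N` -/
theorem card_sum_le (α : Type*) [Fintype α] (N : ℕ) :
    Nat.card {a : α → ℕ // ∑ x, a x ≤ N} = (N + Fintype.card α).choose (Fintype.card α) := by
  classical
  have e : {a : α → ℕ // ∑ x, a x ≤ N} ≃ {a : Option α → ℕ // ∑ x, a x = N} :=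
    { toFun := fun a => ⟨fun o => o.elim (N - ∑ x, a.1 x) a.1, by
        have h := a.2
        rw [Fintype.sum_option]
        simp only [Option.elim_none, Option.elim_some]
        omega⟩
      invFun := fun a => ⟨fun x => a.1 (some x), by
        have h := a.2
        rw [Fintype.sum_option] at h
        show ∑ x, a.1 (some x) ≤ N
        omega⟩
      left_inv := fun a => by
        apply Subtype.ext
        funext x
        rfl
      right_inv := fun a => by
        apply Subtype.ext
        funext o
        have h := a.2
        rw [Fintype.sum_option] at h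
        cases o with
        | none =>
          simp only [Option.elim_none]
          omega
        | some x => rfl }
  rw [Nat.card_congr e, card_sum_eq, Fintype.card_option]
  have h1 : Fintype.card α + 1 + N - 1 = N + Fintype.card α := by omega
  rw [h1, Nat.choose_symm_add]

/-- the number of nonzero tuples of naturals with `i * sum ≤ n` -/
theorem card_nonzero_le (α : Type*) [Fintype α] (i n : ℕ) (hi : 0 < i) :
    Nat.card {a : α → ℕ // a ≠ 0 ∧ i * ∑ x, a x ≤ n} =
      (n / i + Fintype.card α).choose (Fintype.card α) - 1 := by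
  classical
  have h1 := card_sum_le α (n / i)
  have hS : {a : α → ℕ | a ≠ 0 ∧ i * ∑ x, a x ≤ n} =
      {a : α → ℕ | ∑ x, a x ≤ n / i} \ {0} := by
    ext a
    simp only [Set.mem_ofPred_eq, Set.mem_sdiff, Set.mem_singleton_iff]
    rw [Nat.le_div_iff_mul_le hi, mul_comm]
    tauto
  have h2 : Nat.card ↥{a : α → ℕ | ∑ x, a x ≤ n / i} =
      (n / i + Fintype.card α).choose (Fintype.card α) := h1
  rw [Nat.card_coe_set_eq] at h2
  have hpos : 0 < {a : α → ℕ | ∑ x, a x ≤ n / i}.ncard := by
    rw [h2]
    exact Nat.choose_pos (Nat.le_add_left _ _)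
  have hfin : {a : α → ℕ | ∑ x, a x ≤ n / i}.Finite := Set.finite_of_ncard_pos hpos
  show Nat.card ↥{a : α → ℕ | a ≠ 0 ∧ i * ∑ x, a x ≤ n} = _
  rw [Nat.card_coe_set_eq, hS, Set.ncard_sdiff_singleton_of_mem (by simp), h2]

end Cfsg.Agent.Helper43.ClassCount
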