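import Mathlib
import Cfsg.Agent.Helper43.ClassCount

set_option autoImplicit false

/-!
# Counting tuples with an excluded layer (helper43)

* `card_nonzero_le_sub` : the number of nonzero tuples of naturals with `i * sum ≤ N`, not lying
  on the layer `i * sum = N` when the sum satisfies `P`.
-/

namespace Cfsg.Agent.Helper43.ClassCount

theorem card_nonzero_le_sub (α : Type*) [Fintype α] (hα : 0 < Fintype.card α) (i N : ℕ)
    (hi : 0 < i) (hN : 0 < N) (P : ℕ → Prop) [Decidable (i ∣ N ∧ P (N / i))] :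
    Nat.card {a : α → ℕ // a ≠ 0 ∧ i * ∑ x, a x ≤ N ∧ ¬ (i * ∑ x, a x = N ∧ P (∑ x, a x))} =
      (N / i + Fintype.card α).choose (Fintype.card α) - 1 -
        (if i ∣ N ∧ P (N / i) then (N / i + Fintype.card α - 1).choose (Fintype.card α - 1)
          else 0) := by
  classical
  have hA := card_nonzero_le α i N hi
  have hA' : Nat.card ↥{a : α → ℕ | a ≠ 0 ∧ i * ∑ x, a x ≤ N} =
      (N / i + Fintype.card α).choose (Fintype.card α) - 1 := hA
  rw [Nat.card_coe_set_eq] at hA'
  have hS := card_sum_le α (N / i)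
  have hS' : Nat.card ↥{a : α → ℕ | ∑ x, a x ≤ N / i} =
      (N / i + Fintype.card α).choose (Fintype.card α) := hS
  rw [Nat.card_coe_set_eq] at hS'
  have hSfin : {a : α → ℕ | ∑ x, a x ≤ N / i}.Finite := by
    apply Set.finite_of_ncard_pos
    rw [hS']
    exact Nat.choose_pos (Nat.le_add_left _ _)
  have hAfin : {a : α → ℕ | a ≠ 0 ∧ i * ∑ x, a x ≤ N}.Finite := by
    apply hSfin.subset
    intro a ha
    show ∑ x, a x ≤ N / i
    rw [Nat.le_div_iff_mul_le hi, mul_comm]
    exact ha.2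
  have hBA : {a : α → ℕ | i * ∑ x, a x = N ∧ P (∑ x, a x)} ⊆
      {a : α → ℕ | a ≠ 0 ∧ i * ∑ x, a x ≤ N} := by
    intro a ha
    refine ⟨?_, le_of_eq ha.1⟩
    intro h0
    have h1 := ha.1
    rw [h0] at h1
    simp at h1
    omega
  have hB : {a : α → ℕ | i * ∑ x, a x = N ∧ P (∑ x, a x)}.ncard =
      if i ∣ N ∧ P (N / i) then (N / i + Fintype.card α - 1).choose (Fintype.card α - 1) else 0 := by
    by_cases hc : i ∣ N ∧ P (N / i)
    · rw [if_pos hc]
      have hset : {a : α → ℕ | i * ∑ x, a x = N ∧ P (∑ x, a x)} =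
          {a : α → ℕ | ∑ x, a x = N / i} := by
        ext a
        simp only [Set.mem_ofPred_eq]
        constructor
        · rintro ⟨h1, -⟩
          rw [← h1, Nat.mul_div_cancel_left _ hi]
        · intro h1
          rw [h1]
          exact ⟨Nat.mul_div_cancel' hc.1, hc.2⟩
      have h2 := card_sum_eq α (N / i)
      have h2' : Nat.card ↥{a : α → ℕ | ∑ x, a x = N / i} =
          (Fintype.card α + N / i - 1).choose (N / i) := h2
      rw [Nat.card_coe_set_eq] at h2'
      rw [hset, h2']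
      obtain ⟨t, ht⟩ : ∃ t, Fintype.card α = t + 1 := ⟨Fintype.card α - 1, by omega⟩
      rw [ht]
      have e : ∀ d : ℕ, t + 1 + d - 1 = d + t := by
        intro d
        omega
      have e2 : ∀ d : ℕ, d + (t + 1) - 1 = d + t := by
        intro d
        omega
      rw [e, e2, Nat.add_sub_cancel]
      exact Nat.choose_symm_add
    · rw [if_neg hc]
      have hset : {a : α → ℕ | i * ∑ x, a x = N ∧ P (∑ x, a x)} = ∅ := by
        ext a
        simp only [Set.mem_ofPred_eq, Set.mem_empty_iff_false, iff_false]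
        rintro ⟨h1, h2⟩
        apply hc
        have h3 : ∑ x, a x = N / i := by rw [← h1, Nat.mul_div_cancel_left _ hi]
        exact ⟨⟨_, h1.symm⟩, h3 ▸ h2⟩
      rw [hset, Set.ncard_empty]
  have hset : {a : α → ℕ | a ≠ 0 ∧ i * ∑ x, a x ≤ N ∧ ¬ (i * ∑ x, a x = N ∧ P (∑ x, a x))} =
      {a : α → ℕ | a ≠ 0 ∧ i * ∑ x, a x ≤ N} \
        {a : α → ℕ | i * ∑ x, a x = N ∧ P (∑ x, a x)} := by
    ext a
    simp only [Set.mem_ofPred_eq, Set.mem_sdiff]
    tauto
  show Nat.card ↥{a : α → ℕ | a ≠ 0 ∧ i * ∑ x, a x ≤ N ∧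
    ¬ (i * ∑ x, a x = N ∧ P (∑ x, a x))} = _
  rw [Nat.card_coe_set_eq, hset, Set.ncard_sdiff hBA (hAfin.subset hBA), hA', hB]

end Cfsg.Agent.Helper43.ClassCount
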