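/-
Helper43 library: n-th roots of -1 in a finite field of odd order.
-/
import Mathlib

set_option autoImplicit false

namespace Cfsg.Agent.Helper43

section

variable {F : Type*} [Field F] [Fintype F] {q : ℕ}

theorem neg_one_ne_one_of_odd_card (hF : Fintype.card F = q) (hq : Odd q) : (-1 : F) ≠ 1 := by
  apply Ring.neg_one_ne_one_of_char_ne_two
  intro h
  rw [FiniteField.even_card_iff_char_two, hF] at h
  obtain ⟨t, rfl⟩ := hq
  omega

theorem card_sub_one_ne_zero (hF : Fintype.card F = q) : q - 1 ≠ 0 := by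
  have := Fintype.one_lt_card (α := F)
  omega

theorem exists_odd_mul_two_pow {n : ℕ} (hn : n ≠ 0) :
    ∃ n1, Odd n1 ∧ n = 2 ^ padicValNat 2 n * n1 := by
  obtain ⟨n1, hn1⟩ := pow_padicValNat_dvd (p := 2) (n := n)
  refine ⟨n1, ?_, hn1⟩
  by_contra hodd
  rw [Nat.not_odd_iff_even] at hodd
  obtain ⟨k, rfl⟩ := hodd
  have h2 : 2 ^ (padicValNat 2 n + 1) ∣ n := ⟨k, by
    calc n = 2 ^ padicValNat 2 n * (k + k) := hn1
      _ = 2 ^ (padicValNat 2 n + 1) * k := by ring⟩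
  have := (padicValNat_dvd_iff_le hn).mp h2
  omega

theorem exists_pow_eq_neg_one_iff (hF : Fintype.card F = q) (hq : Odd q) {n : ℕ} (hn : 1 ≤ n) :
    (∃ c : F, c ^ n = -1) ↔ padicValNat 2 n < padicValNat 2 (q - 1) := by
  have hne := neg_one_ne_one_of_odd_card hF hq
  have hN0 := card_sub_one_ne_zero hF
  have hn0 : n ≠ 0 := by omega
  obtain ⟨n1, hn1odd, hn1⟩ := exists_odd_mul_two_pow hn0
  obtain ⟨N1, hN1odd, hN1⟩ := exists_odd_mul_two_pow hN0
  set a := padicValNat 2 n with ha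
  set b := padicValNat 2 (q - 1) with hb
  constructor
  · rintro ⟨c, hc⟩
    by_contra hlt
    have hba : b ≤ a := not_lt.mp hlt
    have hc0 : c ≠ 0 := by
      rintro rfl
      rw [zero_pow hn0] at hc
      exact (neg_ne_zero.mpr one_ne_zero) hc.symm
    have hcN : c ^ (q - 1) = 1 := by
      rw [← hF]
      exact FiniteField.pow_card_sub_one_eq_one c hc0
    obtain ⟨d, hd⟩ : ∃ d, a = b + d := ⟨a - b, by omega⟩
    have hy1 : (c ^ (2 ^ b)) ^ N1 = 1 := by rw [← pow_mul, ← hN1, hcN]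
    have hy2 : (c ^ (2 ^ b)) ^ (2 ^ d * n1) = -1 := by
      rw [← pow_mul, ← mul_assoc, ← pow_add, ← hd, ← hn1, hc]
    have ho1 : orderOf (c ^ (2 ^ b)) ∣ N1 := orderOf_dvd_of_pow_eq_one hy1
    have ho2 : orderOf (c ^ (2 ^ b)) ∣ 2 * (2 ^ d * n1) := by
      apply orderOf_dvd_of_pow_eq_one
      rw [mul_comm, pow_mul, hy2]
      simp
    have hodd : Odd (orderOf (c ^ (2 ^ b))) := Odd.of_dvd_nat hN1odd ho1
    have ho3 : orderOf (c ^ (2 ^ b)) ∣ 2 ^ d * n1 :=
      (Nat.Coprime.dvd_mul_left (Nat.coprime_two_right.mpr hodd)).mp ho2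
    have h1 : (c ^ (2 ^ b)) ^ (2 ^ d * n1) = 1 := orderOf_dvd_iff_pow_eq_one.mp ho3
    rw [hy2] at h1
    exact hne h1
  · intro hlt
    obtain ⟨g, hg⟩ := IsCyclic.exists_ofOrder_eq_natCard (α := Fˣ)
    have hcard : Nat.card Fˣ = q - 1 := by rw [Nat.card_units, Nat.card_eq_fintype_card, hF]
    rw [hcard] at hg
    have hdvd : 2 ^ (a + 1) ∣ q - 1 := (padicValNat_dvd_iff_le hN0).mpr hlt
    obtain ⟨e, he⟩ := hdvd
    have he0 : e ≠ 0 := by
      rintro rfl
      rw [mul_zero] at he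
      exact hN0 he
    have hco : orderOf (g ^ e) = 2 ^ (a + 1) := by
      rw [orderOf_pow_of_dvd he0 (by rw [hg, he]; exact dvd_mul_left _ _), hg, he,
        Nat.mul_div_cancel _ (Nat.pos_of_ne_zero he0)]
    have hy1 : ((g ^ e) ^ (2 ^ a)) ^ 2 = 1 := by
      rw [← pow_mul, ← pow_succ, ← hco, pow_orderOf_eq_one]
    have hy2 : (g ^ e) ^ (2 ^ a) ≠ 1 :=
      pow_ne_one_of_lt_orderOf (by positivity)
        (by rw [hco]; exact Nat.pow_lt_pow_right (by norm_num) (Nat.lt_succ_self a))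
    have hy3 : ((((g ^ e) ^ (2 ^ a) : Fˣ)) : F) = -1 := by
      have h1 : ((((g ^ e) ^ (2 ^ a) : Fˣ)) : F) ^ 2 = 1 := by
        rw [← Units.val_pow_eq_pow_val, hy1, Units.val_one]
      rcases sq_eq_one_iff.mp h1 with h | h
      · exact absurd (Units.ext h) hy2
      · exact h
    refine ⟨((g ^ e : Fˣ) : F), ?_⟩
    rw [hn1, pow_mul, ← Units.val_pow_eq_pow_val, hy3, hn1odd.neg_one_pow]

end

end Cfsg.Agent.Helper43
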