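import Mathlib
import Cfsg.Prelude.Def_GeometricClasses
import Cfsg.Prelude.Def_Classical
import Cfsg.Agent.Helper58.TSDefs
import Cfsg.Agent.Helper43.OrthStd
import Cfsg.Agent.Helper43.TBXISO
import Cfsg.Agent.Helper37.TBBLKO
import Cfsg.Agent.Helper37.TBBLKE
import Cfsg.Agent.Helper86.ELBADMAX

set_option autoImplicit false
set_option maxHeartbeats 1000000

/-!
# Type-generic bad elements (helper43)

`Q` any nondegenerate quadratic form on `ι → F`, `Fintype.card ι = 2 * d`, of type defect `δ`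
(`Cfsg.Agent.Helper58.TS.TypeDefect Q δ`: `δ = 0` plus type, `δ = 1` minus type), `F` finite, all
characteristics, `r` an odd prime `≠ p`, `i = ord_r(q)`.

* `gen_xfer`: transfer of an isometry of a model space of the type of `Q` to the isometry group of
  `Q`, keeping the dimension of the fixed space (`Cfsg.Agent.Helper35.S88OO.oo_xfer` for both
  types).
* `gen_bad_elt_even` (`i` even): for every profile `(A, k₀)`, `d = k₀ + (i / 2) A`,
  `k₀ = 0 → (Even A ↔ δ = 0)`, an isometry `x` of `Q` with `x ^ r = 1` whose fixed space has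
  dimension `2 k₀`.
* `gen_bad_elt_odd` (`i` odd): the same for `d = k₀ + i a`, `k₀ = 0 → δ = 0`.
-/

namespace Cfsg.Agent.Helper43.GenBad

open Module Polynomial Cfsg Cfsg.Geo Cfsg.Agent.Helper58.TS
open Cfsg.Agent.Helper43 Cfsg.Agent.Helper43.OrthEven Cfsg.Agent.Helper43.CycFactors
  Cfsg.Agent.Helper43.PrimeOrdMat
open scoped MatrixGroups

universe u

variable {ι : Type} [Fintype ι] [DecidableEq ι] {F : Type u} [Field F] [Fintype F]

/-- XFER for both types. -/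
theorem gen_xfer (Q : (ι → F) → F) (hQ : IsNondegenerateQuadraticForm Q) (d δ : ℕ) (hd : 1 ≤ d)
    (hcard : Fintype.card ι = 2 * d) (hδ : TypeDefect Q δ) (r : ℕ) (hr0 : 0 < r)
    {V' : Type u} [AddCommGroup V'] [Module F V'] [FiniteDimensional F V']
    (Q' : QuadraticForm F V') (hnd : PolarNondeg Q') (hdim : finrank F V' = 2 * d)
    (htype : HasTS Q' d ↔ δ = 0) (T : Module.End F V') (hT : ∀ v, Q' (T v) = Q' v)
    (hTr : T ^ r = 1) :
    ∃ x : GL ι F, x ∈ Cfsg.isometryGroup F Q ∧ x ^ r = 1 ∧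
      finrank F (LinearMap.ker (Matrix.toLin' (x : Matrix ι ι F) - 1)) =
        finrank F (LinearMap.ker (T - 1)) := by
  classical
  obtain ⟨Φ, hΦ⟩ := Cfsg.Agent.Helper43.TB.tb_xiso Q hQ d δ hd hcard hδ Q' hnd hdim htype
  let b : Module.Basis ι F V' := Module.Basis.ofEquivFun Φ
  obtain ⟨A, hAdef⟩ : ∃ A : Matrix ι ι F, A = LinearMap.toMatrix b b T := ⟨_, rfl⟩
  have hAΦ : ∀ v, A.mulVec (Φ v) = Φ (T v) := by
    intro v
    rw [hAdef]
    exact LinearMap.toMatrix_mulVec_repr b b T v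
  have hA : ∀ x, Q (A.mulVec x) = Q x := by
    intro x
    obtain ⟨v, rfl⟩ := Φ.surjective x
    rw [hAΦ, hΦ, hΦ, hT]
  have hAr : A ^ r = 1 := by
    rw [hAdef, ← Cfsg.Agent.Helper43.OrthStd.toMatrix_pow', hTr, LinearMap.toMatrix_one]
  have hr1 : r - 1 + 1 = r := Nat.sub_add_cancel hr0
  let g0 : GL ι F := ⟨A, A ^ (r - 1), by rw [← pow_succ', hr1, hAr], by rw [← pow_succ, hr1, hAr]⟩
  have hg0 : g0 ∈ Cfsg.isometryGroup F Q := by
    intro u v
    exact hA u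
  have hg0r : g0 ^ r = 1 := by
    apply Units.ext
    rw [Units.val_pow_eq_pow_val]
    exact hAr
  refine ⟨g0, hg0, hg0r, ?_⟩
  have hker : LinearMap.ker (Matrix.toLin' (g0 : Matrix ι ι F) - 1) =
      (LinearMap.ker (T - 1)).map (Φ : V' →ₗ[F] (ι → F)) := by
    ext w
    obtain ⟨v, rfl⟩ := Φ.surjective w
    rw [LinearMap.mem_ker, LinearMap.sub_apply, Matrix.toLin'_apply, Module.End.one_apply,
      sub_eq_zero]
    show A.mulVec (Φ v) = Φ v ↔ _
    rw [hAΦ]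
    constructor
    · intro h
      have hTv : T v = v := Φ.injective h
      refine ⟨v, ?_, rfl⟩
      show v ∈ LinearMap.ker (T - 1)
      rw [LinearMap.mem_ker, LinearMap.sub_apply, Module.End.one_apply, sub_eq_zero]
      exact hTv
    · rintro ⟨v', hv', hv'e⟩
      have hvv : v' = v := Φ.injective hv'e
      subst hvv
      have hv'' : v' ∈ LinearMap.ker (T - 1) := hv'
      rw [LinearMap.mem_ker, LinearMap.sub_apply, Module.End.one_apply, sub_eq_zero] at hv''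
      rw [hv'']
  rw [hker]
  exact LinearEquiv.finrank_map_eq Φ _

/-- the element of profile `(A, k₀)`, `i` even -/
theorem gen_bad_elt_even (Q : (ι → F) → F) (hQ : IsNondegenerateQuadraticForm Q) (d δ : ℕ)
    (hd : 1 ≤ d) (hcard : Fintype.card ι = 2 * d) (hδ : TypeDefect Q δ) (p : ℕ) [Fact p.Prime]
    [CharP F p] (r : ℕ) [Fact r.Prime] (hr2 : 2 < r) (hrp : r ≠ p) (i : ℕ)
    (hi : i = orderOf ((Fintype.card F : ℕ) : ZMod r)) (heven : Even i) (A k₀ : ℕ)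
    (hdk : d = k₀ + i / 2 * A) (hk₀ : k₀ = 0 → (Even A ↔ δ = 0)) :
    ∃ x : GL ι F, x ∈ Cfsg.isometryGroup F Q ∧ x ^ r = 1 ∧
      finrank F (LinearMap.ker (Matrix.toLin' (x : Matrix ι ι F) - 1)) = 2 * k₀ := by
  classical
  have hr : r.Prime := Fact.out
  have hipos : 0 < i := by rw [hi]; exact orderOf_pos_of_card (p := p) rfl hr hrp
  have hrF : (r : F) ≠ 0 := natCast_ne_zero_of_ne (p := p) hr hrp
  have heven' : Even (orderOf ((Fintype.card F : ℕ) : ZMod r)) := by rw [← hi]; exact heven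
  obtain ⟨j, hj⟩ := heven
  have hj2 : i / 2 = j := by omega
  rw [hj2] at hdk
  have hcardJ : (cycJ F r).card * i = r - 1 := by
    rw [hi]; exact cycJ_card_mul (p := p) rfl hr hrp
  have hne : (cycJ F r).Nonempty := by
    rw [← Finset.card_pos]
    by_contra h
    have h0 : (cycJ F r).card = 0 := by omega
    rw [h0, zero_mul] at hcardJ
    omega
  obtain ⟨P, hP⟩ := hne
  obtain ⟨V₁, _, _, _, Q₁, T₁, hnd₁, hT₁, hcyc₁, -, hfr₁, hts₁, -⟩ :=
    Cfsg.Agent.Helper37.TB.tb_blk_even (F := F) p r hr2 hrp heven' P hP A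
  rw [← hi, hj2] at hfr₁ hts₁
  obtain ⟨ε₀, hε₀⟩ : ∃ ε₀ : ℕ, ε₀ = if (Even A ↔ δ = 0) then 0 else 1 := ⟨_, rfl⟩
  have hε1 : ε₀ ≤ 1 := by
    rw [hε₀]
    split_ifs <;> omega
  have hεk : ε₀ ≤ k₀ := by
    rw [hε₀]
    split_ifs with h
    · omega
    · rcases Nat.eq_zero_or_pos k₀ with h0 | h0
      · exact absurd (hk₀ h0) h
      · omega
  obtain ⟨V', _, _, _, Q', T, hnd', hdim', htype', hT', hTr, hker⟩ :=
    Cfsg.Agent.Helper86.EL5988.el_glue r hrF Q₁ T₁ hnd₁ hT₁ hcyc₁ (j * A) hfr₁ k₀ ε₀ hε1 hεk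
  rw [← hdk] at hdim' htype'
  have htype : HasTS Q' d ↔ δ = 0 := by
    rw [htype', hts₁, hε₀]
    by_cases h : (Even A ↔ δ = 0)
    · rw [if_pos h]
      exact ⟨fun h' => h.mp (h'.mp rfl), fun hδ0 => ⟨fun _ => h.mpr hδ0, fun _ => rfl⟩⟩
    · rw [if_neg h]
      constructor
      · intro h'
        by_contra hδ0
        exact h ⟨fun hA => absurd (h'.mpr hA) one_ne_zero, fun hd0 => absurd hd0 hδ0⟩
      · intro hδ0
        exact ⟨fun h10 => absurd h10 one_ne_zero,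
          fun hA => absurd ⟨fun _ => hδ0, fun _ => hA⟩ h⟩
  obtain ⟨x, hx, hxr, hxk⟩ :=
    gen_xfer Q hQ d δ hd hcard hδ r hr.pos Q' hnd' hdim' htype T hT' hTr
  exact ⟨x, hx, hxr, by rw [hxk, hker]⟩

/-- the element of profile `(a, k₀)`, `i` odd -/
theorem gen_bad_elt_odd (Q : (ι → F) → F) (hQ : IsNondegenerateQuadraticForm Q) (d δ : ℕ)
    (hd : 1 ≤ d) (hcard : Fintype.card ι = 2 * d) (hδ : TypeDefect Q δ) (p : ℕ) [Fact p.Prime]
    [CharP F p] (r : ℕ) [Fact r.Prime] (hr2 : 2 < r) (hrp : r ≠ p) (i : ℕ)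
    (hi : i = orderOf ((Fintype.card F : ℕ) : ZMod r)) (hodd : Odd i) (a k₀ : ℕ)
    (hdk : d = k₀ + i * a) (hk₀ : k₀ = 0 → δ = 0) :
    ∃ x : GL ι F, x ∈ Cfsg.isometryGroup F Q ∧ x ^ r = 1 ∧
      finrank F (LinearMap.ker (Matrix.toLin' (x : Matrix ι ι F) - 1)) = 2 * k₀ := by
  classical
  have hr : r.Prime := Fact.out
  have hrF : (r : F) ≠ 0 := natCast_ne_zero_of_ne (p := p) hr hrp
  have hodd' : Odd (orderOf ((Fintype.card F : ℕ) : ZMod r)) := by rw [← hi]; exact hodd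
  obtain ⟨V₁, _, _, _, Q₁, T₁, hnd₁, hT₁, hcyc₁, hfr₁, hts₁, -⟩ :=
    Cfsg.Agent.Helper37.TB.tb_blk_odd (F := F) p r hr2 hrp hodd' a
  rw [← hi] at hfr₁ hts₁
  have hδ1 : δ ≤ 1 := hδ.le_one
  have hδk : δ ≤ k₀ := by
    rcases Nat.eq_zero_or_pos k₀ with h0 | h0
    · have := hk₀ h0
      omega
    · omega
  obtain ⟨V', _, _, _, Q', T, hnd', hdim', htype', hT', hTr, hker⟩ :=
    Cfsg.Agent.Helper86.EL5988.el_glue r hrF Q₁ T₁ hnd₁ hT₁ hcyc₁ (i * a) hfr₁ k₀ δ hδ1 hδk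
  rw [← hdk] at hdim' htype'
  have htype : HasTS Q' d ↔ δ = 0 := by
    rw [htype']
    exact ⟨fun h => h.mpr hts₁, fun h => ⟨fun _ => hts₁, fun _ => h⟩⟩
  obtain ⟨x, hx, hxr, hxk⟩ :=
    gen_xfer Q hQ d δ hd hcard hδ r hr.pos Q' hnd' hdim' htype T hT' hTr
  exact ⟨x, hx, hxr, by rw [hxk, hker]⟩

end Cfsg.Agent.Helper43.GenBad
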