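import Mathlib
import Cfsg.Prelude.Def_GeometricClasses
import Cfsg.Prelude.Def_Classical
import Cfsg.Agent.Helper96.OHAll

set_option autoImplicit false
set_option maxHeartbeats 1000000

/-!
# Type-generic profile of an invariant nondegenerate subspace (helper43)

`Q` any nondegenerate quadratic form on `ι → F` (`Fintype.card ι = 2 * d`, `F` finite, all
characteristics), `T` an isometry with `T ^ r = 1` (`r` an odd prime, `r ≠ 0` in `F`),
`i = ord_r(q)`, `W` a `T`-invariant nondegenerate subspace of dimension `2 * l`.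

* `gen_core_even` (`i` even): `dim ker (T - 1) = 2 k₀`, `d = k₀ + (i / 2) A`, and
  `l = (i / 2) s + w₂` with `s ≤ A`, `w₂ ≤ k₀`; the fixed space has the type of `V` times
  `(-1) ^ A`; if `w₂ = 0` then `W` has type `(-1) ^ s`; if `w₂ = k₀` then `W` has the type of `V`
  times `(-1) ^ (s + A)`.
* `gen_core_odd` (`i` odd): `d = k₀ + i a`, `l = i s + w₂`; the fixed space has the type of `V`;
  if `w₂ = 0` then `W` is of plus type; if `w₂ = k₀` then `W` has the type of `V`.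

(Generalisations of `Cfsg.Agent.Helper35.S88OO.oo_bad_core` and
`Cfsg.Agent.Helper43.S88OE.oe_bad_core`.)
-/

namespace Cfsg.Agent.Helper43.GenCore

open Module Polynomial Cfsg Cfsg.Geo
open Cfsg.Agent.Helper13.TIu Cfsg.Agent.Helper96.OH
open scoped MatrixGroups

universe u

theorem gen_core_even {ι : Type} [Fintype ι] [DecidableEq ι] {F : Type u} [Field F] [Fintype F]
    (Q : (ι → F) → F) (hQ : IsNondegenerateQuadraticForm Q) (d : ℕ)
    (hcard : Fintype.card ι = 2 * d)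
    (T : Module.End F (ι → F)) (hT : OPres Q T) (r : ℕ) [Fact r.Prime] (hr2 : 2 < r)
    (hrF : (r : F) ≠ 0) (hTr : T ^ r = 1) (i : ℕ)
    (hi : i = orderOf ((Fintype.card F : ℕ) : ZMod r)) (heven : Even i) (hi0 : 0 < i)
    (l : ℕ) (W : Submodule F (ι → F)) (hWm : finrank F W = 2 * l) (hWnd : ONd Q W)
    (hWT : W.map T ≤ W) :
    ∃ A k₀ s w₂, finrank F (LinearMap.ker (T - 1)) = 2 * k₀ ∧ d = k₀ + i / 2 * A ∧ s ≤ A ∧
      w₂ ≤ k₀ ∧ l = i / 2 * s + w₂ ∧
      (OPl Q (LinearMap.ker (T - 1)) ↔ (OPl Q ⊤ ↔ Even A)) ∧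
      (w₂ = 0 → (OPl Q W ↔ Even s)) ∧
      (w₂ = k₀ → (OPl Q W ↔ (OPl Q ⊤ ↔ Even (s + A)))) := by
  classical
  have pl1 : ∀ a b : Prop, a ↔ ((a ↔ b) ↔ b) := by intro a b; tauto
  have pl2 : ∀ a b c : Prop, ((a ↔ b) ↔ c) ↔ (a ↔ (c ↔ b)) := by intro a b c; tauto
  have pl3 : ∀ a b : Prop, a → ((a ↔ b) ↔ b) := by intro a b; tauto
  have hrpr : r.Prime := Fact.out
  have hc : i = if Even i then i else 2 * i := by
    rw [if_pos heven]
  have heven' : Even (orderOf ((Fintype.card F : ℕ) : ZMod r)) := by rw [← hi]; exact heven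
  obtain ⟨j, hj⟩ := heven
  have hj2 : i / 2 = j := by omega
  have hj0 : 0 < j := by omega
  -- the decomposition of `W`
  obtain ⟨hWk, P, hPW, hPT, hP, hPk, hsup, horth, hdim⟩ :=
    Cfsg.Agent.Helper31.OH5992.o_fix Q hQ T hT r hrpr.pos hrF hTr W hWT hWnd
  obtain ⟨s, hs⟩ := Cfsg.Agent.Helper96.OHAll.oall_cdvd_aux Q hQ T hT r hr2 hrF hTr i i hi hc
    (finrank F P) P rfl hPT hP hPk
  have hPty := Cfsg.Agent.Helper96.OHAll.oall_type_even Q hQ T hT r hr2 hrF hTr heven' P hPT hP hPk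
  rw [← hi, hs, Nat.mul_div_cancel_left s hi0] at hPty
  unfold OPl at hPty
  have hPev : Even (finrank F P) := by
    rw [hs, hj]
    exact ⟨j * s, by ring⟩
  have hKev : Even (finrank F (W ⊓ LinearMap.ker (T - 1) : Submodule F (ι → F))) := by
    have h1 : Even (finrank F P +
        finrank F (W ⊓ LinearMap.ker (T - 1) : Submodule F (ι → F))) := by
      rw [hdim, hWm]; exact even_two_mul _
    exact (Nat.even_add.1 h1).1 hPev
  have hmul := Cfsg.Agent.Helper33.o_type_mul Q hQ (W ⊓ LinearMap.ker (T - 1)) P hWk hP horth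
    hKev hPev
  rw [hsup] at hmul
  -- the decomposition of the whole space
  obtain ⟨hTk, P', -, hP'T, hP', hP'k, hsup', horth', hdim'⟩ :=
    Cfsg.Agent.Helper31.OH5992.o_fix Q hQ T hT r hrpr.pos hrF hTr ⊤ le_top
      (ond_top Q hQ)
  rw [top_inf_eq] at hTk hsup' horth' hdim'
  obtain ⟨A, hA⟩ := Cfsg.Agent.Helper96.OHAll.oall_cdvd_aux Q hQ T hT r hr2 hrF hTr i i hi
    hc (finrank F P') P' rfl hP'T hP' hP'k
  have hP'ty := Cfsg.Agent.Helper96.OHAll.oall_type_even Q hQ T hT r hr2 hrF hTr heven' P' hP'T hP'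
    hP'k
  rw [← hi, hA, Nat.mul_div_cancel_left A hi0] at hP'ty
  unfold OPl at hP'ty
  have hP'ev : Even (finrank F P') := by
    rw [hA, hj]
    exact ⟨j * A, by ring⟩
  rw [finrank_top, Module.finrank_fintype_fun_eq_card, hcard] at hdim'
  have hK'ev : Even (finrank F (LinearMap.ker (T - 1) : Submodule F (ι → F))) := by
    have h1 : Even (finrank F P' +
        finrank F (LinearMap.ker (T - 1) : Submodule F (ι → F))) := by
      rw [hdim']; exact even_two_mul _
    exact (Nat.even_add.1 h1).1 hP'ev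
  have hmul' := Cfsg.Agent.Helper33.o_type_mul Q hQ (LinearMap.ker (T - 1)) P' hTk hP' horth'
    hK'ev hP'ev
  rw [hsup'] at hmul'
  have hKty : IsPlusTypeOn Q (LinearMap.ker (T - 1)) ↔ (IsPlusTypeOn Q ⊤ ↔ Even A) := by
    rw [hmul', hP'ty]
    exact pl1 _ _
  obtain ⟨k₀, hk₀⟩ := hK'ev
  obtain ⟨w₂, hw₂⟩ := hKev
  have hle : (W ⊓ LinearMap.ker (T - 1) : Submodule F (ι → F)) ≤ LinearMap.ker (T - 1) :=
    inf_le_right
  have hwk := Submodule.finrank_mono hle
  -- `s ≤ A`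
  have hsA : s ≤ A := by
    have h1 := Submodule.finrank_sup_add_finrank_inf_eq P (LinearMap.ker (T - 1))
    rw [hPk, finrank_bot, add_zero] at h1
    have h2 : finrank F (P ⊔ LinearMap.ker (T - 1) : Submodule F (ι → F)) ≤ 2 * d := by
      have := Submodule.finrank_le (P ⊔ LinearMap.ker (T - 1) : Submodule F (ι → F))
      rwa [Module.finrank_fintype_fun_eq_card, hcard] at this
    have h3 : i * s ≤ i * A := by omega
    exact Nat.le_of_mul_le_mul_left h3 hi0
  have hjs : i * s = 2 * (j * s) := by rw [hj]; ring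
  have hjA : i * A = 2 * (j * A) := by rw [hj]; ring
  refine ⟨A, k₀, s, w₂, by omega, by rw [hj2]; omega, hsA, by omega, by rw [hj2]; omega, hKty,
    ?_, ?_⟩
  · intro h0
    have h1 : (W ⊓ LinearMap.ker (T - 1) : Submodule F (ι → F)) = ⊥ :=
      Submodule.finrank_eq_zero.1 (by omega)
    rw [h1] at hmul
    have hbot := Cfsg.Agent.Helper33.o_plus_bot Q hQ
    show IsPlusTypeOn Q W ↔ Even s
    rw [hmul, hPty]
    exact pl3 _ _ hbot
  · intro hk
    have h1 := Submodule.eq_of_le_of_finrank_eq hle (by omega)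
    rw [h1] at hmul
    show IsPlusTypeOn Q W ↔ (IsPlusTypeOn Q ⊤ ↔ Even (s + A))
    rw [hmul, hPty, hKty, Nat.even_add]
    exact pl2 _ _ _

theorem gen_core_odd {ι : Type} [Fintype ι] [DecidableEq ι] {F : Type u} [Field F] [Fintype F]
    (Q : (ι → F) → F) (hQ : IsNondegenerateQuadraticForm Q) (d : ℕ)
    (hcard : Fintype.card ι = 2 * d)
    (T : Module.End F (ι → F)) (hT : OPres Q T) (r : ℕ) [Fact r.Prime] (hr2 : 2 < r)
    (hrF : (r : F) ≠ 0) (hTr : T ^ r = 1) (i : ℕ)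
    (hi : i = orderOf ((Fintype.card F : ℕ) : ZMod r)) (hodd : Odd i)
    (l : ℕ) (W : Submodule F (ι → F)) (hWm : finrank F W = 2 * l) (hWnd : ONd Q W)
    (hWT : W.map T ≤ W) :
    ∃ a k₀ s w₂, finrank F (LinearMap.ker (T - 1)) = 2 * k₀ ∧ d = k₀ + i * a ∧ s ≤ a ∧
      w₂ ≤ k₀ ∧ l = i * s + w₂ ∧
      (OPl Q (LinearMap.ker (T - 1)) ↔ OPl Q ⊤) ∧
      (w₂ = 0 → OPl Q W) ∧
      (w₂ = k₀ → (OPl Q W ↔ OPl Q ⊤)) := by
  classical
  have pl4 : ∀ a b : Prop, b → (a ↔ (a ↔ b)) := by intro a b; tauto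
  have pl5 : ∀ a b : Prop, b → ((a ↔ b) ↔ a) := by intro a b; tauto
  have hrpr : r.Prime := Fact.out
  have hc : 2 * i = if Even i then i else 2 * i := by
    rw [if_neg (Nat.not_even_iff_odd.2 hodd)]
  have hodd' : Odd (orderOf ((Fintype.card F : ℕ) : ZMod r)) := by rw [← hi]; exact hodd
  have hi0 : 0 < i := hodd.pos
  -- the decomposition of `W`
  obtain ⟨hWk, P, hPW, hPT, hP, hPk, hsup, horth, hdim⟩ :=
    Cfsg.Agent.Helper31.OH5992.o_fix Q hQ T hT r hrpr.pos hrF hTr W hWT hWnd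
  obtain ⟨s, hs⟩ := Cfsg.Agent.Helper96.OHAll.oall_cdvd_aux Q hQ T hT r hr2 hrF hTr i (2 * i) hi hc
    (finrank F P) P rfl hPT hP hPk
  have hPpl : OPl Q P :=
    Cfsg.Agent.Helper96.OHAll.oall_type_odd Q hQ T hT r hr2 hrF hTr hodd' P hPT hP hPk
  have hPev : Even (finrank F P) := by rw [hs, mul_assoc]; exact even_two_mul _
  have hKev : Even (finrank F (W ⊓ LinearMap.ker (T - 1) : Submodule F (ι → F))) := by
    have h1 : Even (finrank F P +
        finrank F (W ⊓ LinearMap.ker (T - 1) : Submodule F (ι → F))) := by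
      rw [hdim, hWm]; exact even_two_mul _
    exact (Nat.even_add.1 h1).1 hPev
  have hmul := Cfsg.Agent.Helper33.o_type_mul Q hQ (W ⊓ LinearMap.ker (T - 1)) P hWk hP horth
    hKev hPev
  rw [hsup] at hmul
  -- the decomposition of the whole space
  obtain ⟨hTk, P', -, hP'T, hP', hP'k, hsup', horth', hdim'⟩ :=
    Cfsg.Agent.Helper31.OH5992.o_fix Q hQ T hT r hrpr.pos hrF hTr ⊤ le_top
      (ond_top Q hQ)
  rw [top_inf_eq] at hTk hsup' horth' hdim'
  obtain ⟨a, ha⟩ := Cfsg.Agent.Helper96.OHAll.oall_cdvd_aux Q hQ T hT r hr2 hrF hTr i (2 * i) hi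
    hc (finrank F P') P' rfl hP'T hP' hP'k
  have hP'pl : OPl Q P' :=
    Cfsg.Agent.Helper96.OHAll.oall_type_odd Q hQ T hT r hr2 hrF hTr hodd' P' hP'T hP' hP'k
  have hP'ev : Even (finrank F P') := by rw [ha, mul_assoc]; exact even_two_mul _
  rw [finrank_top, Module.finrank_fintype_fun_eq_card, hcard] at hdim'
  have hK'ev : Even (finrank F (LinearMap.ker (T - 1) : Submodule F (ι → F))) := by
    have h1 : Even (finrank F P' +
        finrank F (LinearMap.ker (T - 1) : Submodule F (ι → F))) := by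
      rw [hdim']; exact even_two_mul _
    exact (Nat.even_add.1 h1).1 hP'ev
  have hmul' := Cfsg.Agent.Helper33.o_type_mul Q hQ (LinearMap.ker (T - 1)) P' hTk hP' horth'
    hK'ev hP'ev
  rw [hsup'] at hmul'
  have hKty : IsPlusTypeOn Q (LinearMap.ker (T - 1)) ↔ IsPlusTypeOn Q ⊤ := by
    rw [hmul']
    exact pl4 _ _ hP'pl
  obtain ⟨k₀, hk₀⟩ := hK'ev
  obtain ⟨w₂, hw₂⟩ := hKev
  have hle : (W ⊓ LinearMap.ker (T - 1) : Submodule F (ι → F)) ≤ LinearMap.ker (T - 1) :=
    inf_le_right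
  have hwk := Submodule.finrank_mono hle
  have hsa : s ≤ a := by
    have h1 := Submodule.finrank_sup_add_finrank_inf_eq P (LinearMap.ker (T - 1))
    rw [hPk, finrank_bot, add_zero] at h1
    have h2 : finrank F (P ⊔ LinearMap.ker (T - 1) : Submodule F (ι → F)) ≤ 2 * d := by
      have := Submodule.finrank_le (P ⊔ LinearMap.ker (T - 1) : Submodule F (ι → F))
      rwa [Module.finrank_fintype_fun_eq_card, hcard] at this
    have h3 : 2 * i * s ≤ 2 * i * a := by omega
    exact Nat.le_of_mul_le_mul_left h3 (by omega)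
  have hjs : 2 * i * s = 2 * (i * s) := by ring
  have hja : 2 * i * a = 2 * (i * a) := by ring
  refine ⟨a, k₀, s, w₂, by omega, by omega, hsa, by omega, by omega, hKty, ?_, ?_⟩
  · intro h0
    have h1 : (W ⊓ LinearMap.ker (T - 1) : Submodule F (ι → F)) = ⊥ :=
      Submodule.finrank_eq_zero.1 (by omega)
    rw [h1] at hmul
    have hbot := Cfsg.Agent.Helper33.o_plus_bot Q hQ
    show IsPlusTypeOn Q W
    rw [hmul]
    exact ⟨fun _ => hPpl, fun _ => hbot⟩
  · intro hk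
    have h1 := Submodule.eq_of_le_of_finrank_eq hle (by omega)
    rw [h1] at hmul
    show IsPlusTypeOn Q W ↔ IsPlusTypeOn Q ⊤
    rw [hmul, hKty]
    exact pl5 _ _ hPpl

end Cfsg.Agent.Helper43.GenCore
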