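import Cfsg.Agent.Helper43.GraphCore
import Cfsg.Agent.Helper43.SpSemi

set_option autoImplicit false

/-!
# Graph automorphisms of `PSL_n(F)`: auxiliary facts for characteristic two (helper43)
-/

namespace Cfsg.Agent.Helper43.GraphChar2

open Matrix Module Cfsg.Agent.Helper44.PSLn Cfsg.Agent.Helper43 Cfsg.Agent.Helper43.GraphAut
  Cfsg.Agent.Helper43.GraphForm Cfsg.Agent.Helper43.GraphCore

universe u

variable {n : ℕ} {F : Type u} [Field F]

/-- two matrices congruent to the identity give conjugate graph automorphisms -/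
theorem conj_of_congr_one (hn : 2 ≤ n) (M M₀ k k₀ : GL (Fin n) F)
    (hk : (k : Mn n F)ᵀ * (M : Mn n F) * (k : Mn n F) = 1)
    (hk₀ : (k₀ : Mn n F)ᵀ * (M₀ : Mn n F) * (k₀ : Mn n F) = 1) :
    Cfsg.IsConjUnder (Cfsg.inndiagPSL n F) (grph M₀) (grph M) := by
  refine (isConjUnder_grph hn M₀ M).mpr ⟨k₀ * k⁻¹, 1, ?_⟩
  rw [one_smul, Units.val_mul, Matrix.transpose_mul]
  have e1 : ((k⁻¹ : GL (Fin n) F) : Mn n F)ᵀ * (k : Mn n F)ᵀ = 1 := by
    rw [← Matrix.transpose_mul, lang_mul_inv_coe, Matrix.transpose_one]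
  calc (M : Mn n F)
      = (((k⁻¹ : GL (Fin n) F) : Mn n F)ᵀ * (k : Mn n F)ᵀ) * (M : Mn n F)
          * ((k : Mn n F) * ((k⁻¹ : GL (Fin n) F) : Mn n F)) := by
        rw [e1, lang_mul_inv_coe, one_mul, mul_one]
    _ = ((k⁻¹ : GL (Fin n) F) : Mn n F)ᵀ * ((k : Mn n F)ᵀ * (M : Mn n F) * (k : Mn n F))
          * ((k⁻¹ : GL (Fin n) F) : Mn n F) := by
        simp only [Matrix.mul_assoc]
    _ = ((k⁻¹ : GL (Fin n) F) : Mn n F)ᵀ * ((k₀ : Mn n F)ᵀ * (M₀ : Mn n F) * (k₀ : Mn n F))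
          * ((k⁻¹ : GL (Fin n) F) : Mn n F) := by rw [hk, hk₀]
    _ = ((k⁻¹ : GL (Fin n) F) : Mn n F)ᵀ * (k₀ : Mn n F)ᵀ * (M₀ : Mn n F)
          * ((k₀ : Mn n F) * ((k⁻¹ : GL (Fin n) F) : Mn n F)) := by
        simp only [Matrix.mul_assoc]

theorem neg_eq_self (h2 : (2 : F) = 0) (A : Mn n F) : -A = A := by
  have : (2 : F) • A = 0 := by rw [h2, zero_smul]
  rw [two_smul] at this
  exact neg_eq_of_add_eq_zero_left this

/-- the diagonal of a matrix congruent-similar to `J` vanishes -/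
theorem diag_alt_congr {m : ℕ} (e : Fin m ⊕ Fin m ≃ Fin n) (k : GL (Fin n) F) (c : F)
    (i : Fin n) :
    (c • ((k : Mn n F)ᵀ * ((jGL e : GL (Fin n) F) : Mn n F) * (k : Mn n F))) i i = 0 := by
  have hentry : ∀ (A : Mn n F) (i j : Fin n),
      (Pi.single i 1 : Fin n → F) ⬝ᵥ (A *ᵥ (Pi.single j 1 : Fin n → F)) = A i j := by
    intro A i j
    simp
  rw [Matrix.smul_apply,
    ← hentry ((k : Mn n F)ᵀ * ((jGL e : GL (Fin n) F) : Mn n F) * (k : Mn n F)) i i,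
    ← Matrix.mulVec_mulVec, ← Matrix.mulVec_mulVec,
    Matrix.dotProduct_mulVec _ (k : Mn n F)ᵀ, Matrix.vecMul_transpose, jGL_coe, dot_reindex,
    Cfsg.Agent.Helper43.SpSemi.J_alt, smul_zero]

end Cfsg.Agent.Helper43.GraphChar2
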