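import Cfsg.Agent.Helper43.GraphCore
import Cfsg.Agent.Helper44.LangG

set_option autoImplicit false

/-!
# Class splitting of involutory graph automorphisms of `PSL_n(F)` (helper43)

`detGrp M` is the group of determinants of the matrices commuting with `grph M`; its index in
`Fˣ` is the number of `Inn`-classes in the `Inndiag`-class of `grph M`.
-/

namespace Cfsg.Agent.Helper43.GraphSplit

open Matrix Module Cfsg.Agent.Helper44.PSLn Cfsg.Agent.Helper43 Cfsg.Agent.Helper43.GraphAut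
  Cfsg.Agent.Helper43.GraphForm Cfsg.Agent.Helper43.GraphCore

universe u

variable {n : ℕ} {F : Type u} [Field F]

/-- the determinants of the matrices commuting with `grph M` -/
def detGrp (M : GL (Fin n) F) : Subgroup Fˣ :=
  (lang_cGL (grph M)).map Matrix.GeneralLinearGroup.det

theorem split_eq (hn : 1 ≤ n) (M : GL (Fin n) F) :
    Cfsg.splitClassCount (Cfsg.inndiagPSL n F) (Cfsg.Inn (PSLn n F)) (grph M)
      = (detGrp M).index := lang_split_count hn _

theorem detGrp_conj (M M' : GL (Fin n) F)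
    (h : Cfsg.IsConjUnder (Cfsg.inndiagPSL n F) (grph M) (grph M')) : detGrp M' = detGrp M := by
  obtain ⟨x, hx, heq⟩ := h
  obtain ⟨h₁, rfl⟩ := (lang_mem_inndiag x).mp hx
  unfold detGrp
  rw [heq, lang_cGL_conj]

theorem mem_detGrp (hn : 2 ≤ n) (M : GL (Fin n) F) (u : Fˣ) :
    u ∈ detGrp M ↔ ∃ h : GL (Fin n) F,
      (∃ c : F, (h : Mn n F)ᵀ * (M : Mn n F) * (h : Mn n F) = c • (M : Mn n F)) ∧
        Matrix.GeneralLinearGroup.det h = u := by
  unfold detGrp
  rw [Subgroup.mem_map]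
  constructor
  · rintro ⟨h, hh, rfl⟩
    exact ⟨h, (mem_cGL_grph hn M h).mp hh, rfl⟩
  · rintro ⟨h, hh, rfl⟩
    exact ⟨h, (mem_cGL_grph hn M h).mpr hh, rfl⟩

/-- if the determinant of every similitude is an `n`-th power, the determinants are exactly the
`n`-th powers -/
theorem detGrp_eq_pow (hn : 2 ≤ n) (M : GL (Fin n) F)
    (hroot : ∀ (h : GL (Fin n) F) (c : F),
      (h : Mn n F)ᵀ * (M : Mn n F) * (h : Mn n F) = c • (M : Mn n F) →
        ∃ a : F, (h : Mn n F).det = a ^ n) :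
    detGrp M = (powMonoidHom n : Fˣ →* Fˣ).range := by
  ext u
  rw [mem_detGrp hn, MonoidHom.mem_range]
  constructor
  · rintro ⟨h, ⟨c, hc⟩, rfl⟩
    obtain ⟨a, ha⟩ := hroot h c hc
    have ha0 : a ≠ 0 := by
      rintro rfl
      have h3 := Matrix.GeneralLinearGroup.det_ne_zero h
      rw [ha, zero_pow (by omega)] at h3
      exact h3 rfl
    refine ⟨Units.mk0 a ha0, ?_⟩
    apply Units.ext
    rw [powMonoidHom_apply, Units.val_pow_eq_pow_val, Units.val_mk0,
      Matrix.GeneralLinearGroup.val_det_apply, ha]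
  · rintro ⟨a, rfl⟩
    refine ⟨lang_smulGL (a : F) a.ne_zero 1, ⟨(a : F) * (a : F), ?_⟩, ?_⟩
    · rw [lang_smulGL_coe, Units.val_one, Matrix.transpose_smul, Matrix.transpose_one,
        Matrix.smul_mul, Matrix.one_mul, Matrix.mul_smul, Matrix.mul_one, smul_smul]
    · rw [lang_det_smulGL, map_one, mul_one, powMonoidHom_apply]
      congr 1
      exact Units.ext rfl

/-- the determinants for the symplectic-type graph automorphism -/
theorem detGrp_J (hn : 2 ≤ n) {m : ℕ} (e : Fin m ⊕ Fin m ≃ Fin n)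
    (hdet : ∀ (h : GL (Fin m ⊕ Fin m) F) (c : F),
      (h : Matrix (Fin m ⊕ Fin m) (Fin m ⊕ Fin m) F)ᵀ * Matrix.J (Fin m) F *
        (h : Matrix (Fin m ⊕ Fin m) (Fin m ⊕ Fin m) F) = c • Matrix.J (Fin m) F →
      (h : Matrix (Fin m ⊕ Fin m) (Fin m ⊕ Fin m) F).det = c ^ m)
    (hex : ∀ c : F, c ≠ 0 → ∃ h : GL (Fin m ⊕ Fin m) F,
      (h : Matrix (Fin m ⊕ Fin m) (Fin m ⊕ Fin m) F)ᵀ * Matrix.J (Fin m) F *
        (h : Matrix (Fin m ⊕ Fin m) (Fin m ⊕ Fin m) F) = c • Matrix.J (Fin m) F ∧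
      (h : Matrix (Fin m ⊕ Fin m) (Fin m ⊕ Fin m) F).det = c ^ m) :
    detGrp (jGL e : GL (Fin n) F) = (powMonoidHom m : Fˣ →* Fˣ).range := by
  have hm : m ≠ 0 := by
    rintro rfl
    have := Fintype.card_congr e
    simp at this
    omega
  ext u
  rw [mem_detGrp hn, MonoidHom.mem_range]
  constructor
  · rintro ⟨h, ⟨c, hc⟩, rfl⟩
    have hh : h = reGL e ((reGL e).symm h) := (MulEquiv.apply_symm_apply _ _).symm
    rw [hh, reGL_coe, jGL_coe, reindex_sim_iff] at hc
    have h3 := hdet _ c hc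
    have hdh : (h : Mn n F).det = c ^ m := by
      rw [← h3]
      conv_lhs => rw [hh]
      rw [reGL_coe, Matrix.det_reindex_self]
    have hc0 : c ≠ 0 := by
      rintro rfl
      have h4 := Matrix.GeneralLinearGroup.det_ne_zero h
      rw [hdh, zero_pow hm] at h4
      exact h4 rfl
    refine ⟨Units.mk0 c hc0, ?_⟩
    apply Units.ext
    rw [powMonoidHom_apply, Units.val_pow_eq_pow_val, Units.val_mk0,
      Matrix.GeneralLinearGroup.val_det_apply, hdh]
  · rintro ⟨a, rfl⟩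
    obtain ⟨h₀, hh₀, hd₀⟩ := hex (a : F) a.ne_zero
    refine ⟨reGL e h₀, ⟨(a : F), ?_⟩, ?_⟩
    · rw [reGL_coe, jGL_coe, reindex_sim_iff]
      exact hh₀
    · apply Units.ext
      rw [Matrix.GeneralLinearGroup.val_det_apply, reGL_coe, Matrix.det_reindex_self, hd₀,
        powMonoidHom_apply, Units.val_pow_eq_pow_val]

/-- the determinants for a graph automorphism of orthogonal type in even dimension -/
theorem detGrp_gram (hn : 2 ≤ n) (h2 : (2 : F) ≠ 0) {ι : Type} [Fintype ι] [DecidableEq ι]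
    (e : ι ≃ Fin n) (Q : QuadraticForm F (ι → F)) (hQ : PolarNondeg Q) {m : ℕ}
    (hnm : n = 2 * m)
    (hex : ∀ c : F, c ≠ 0 → ∃ h : GL ι F, h ∈ Cfsg.Geo.quadSimilarityGroup (⇑Q) ∧
      (h : Matrix ι ι F).det = c ^ m)
    (hrefl : ∃ h : GL ι F, h ∈ Cfsg.Geo.quadSimilarityGroup (⇑Q) ∧
      (h : Matrix ι ι F).det = -1) :
    detGrp (gramGL e Q hQ) =
      Subgroup.zpowers (-1 : Fˣ) ⊔ (powMonoidHom m : Fˣ →* Fˣ).range := by
  have : Nonempty ι := ⟨e.symm ⟨0, by omega⟩⟩
  have hm : m ≠ 0 := by omega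
  have hin : ∀ h₀ : GL ι F, h₀ ∈ Cfsg.Geo.quadSimilarityGroup (⇑Q) →
      Matrix.GeneralLinearGroup.det (reGL e h₀) ∈ detGrp (gramGL e Q hQ) := by
    intro h₀ hh₀
    rw [mem_detGrp hn]
    refine ⟨reGL e h₀, ?_, rfl⟩
    obtain ⟨c, hc⟩ := (mem_quadSim_iff h2 Q (gram_det_ne_zero Q hQ) h₀).mp hh₀
    exact ⟨c, by rw [reGL_coe, gramGL_coe, reindex_sim_iff]; exact hc⟩
  apply le_antisymm
  · intro u hu
    obtain ⟨h, ⟨c, hc⟩, rfl⟩ := (mem_detGrp hn _ _).mp hu
    have hG : ((gramGL e Q hQ : GL (Fin n) F) : Mn n F).det ≠ 0 :=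
      Matrix.GeneralLinearGroup.det_ne_zero _
    have h3 := congrArg Matrix.det hc
    rw [Matrix.det_mul, Matrix.det_mul, Matrix.det_transpose, Matrix.det_smul,
      Fintype.card_fin] at h3
    have h4 : (h : Mn n F).det ^ 2 = (c ^ m) ^ 2 := by
      have h5 : (h : Mn n F).det ^ 2 * ((gramGL e Q hQ : GL (Fin n) F) : Mn n F).det
          = (c ^ m) ^ 2 * ((gramGL e Q hQ : GL (Fin n) F) : Mn n F).det := by
        rw [← pow_mul, mul_comm m 2, ← hnm, ← h3]
        ring
      exact mul_right_cancel₀ hG h5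
    have hc0 : c ≠ 0 := by
      rintro rfl
      have h6 := Matrix.GeneralLinearGroup.det_ne_zero h
      rw [zero_pow hm, zero_pow (by norm_num)] at h4
      exact h6 (pow_eq_zero_iff (by norm_num) |>.mp h4)
    rw [Subgroup.mem_sup]
    rcases sq_eq_sq_iff_eq_or_eq_neg.mp h4 with h7 | h7
    · refine ⟨1, Subgroup.one_mem _, (Units.mk0 c hc0) ^ m, ⟨Units.mk0 c hc0, rfl⟩, ?_⟩
      apply Units.ext
      rw [one_mul, Units.val_pow_eq_pow_val, Units.val_mk0,
        Matrix.GeneralLinearGroup.val_det_apply, h7]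
    · refine ⟨-1, Subgroup.mem_zpowers _, (Units.mk0 c hc0) ^ m, ⟨Units.mk0 c hc0, rfl⟩, ?_⟩
      apply Units.ext
      rw [Units.val_mul, Units.val_neg, Units.val_one, Units.val_pow_eq_pow_val, Units.val_mk0,
        Matrix.GeneralLinearGroup.val_det_apply, h7]
      ring
  · apply sup_le
    · rw [Subgroup.zpowers_le]
      obtain ⟨h₀, hh₀, hd₀⟩ := hrefl
      have h3 := hin h₀ hh₀
      have h4 : Matrix.GeneralLinearGroup.det (reGL e h₀) = (-1 : Fˣ) := by
        apply Units.ext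
        rw [Matrix.GeneralLinearGroup.val_det_apply, reGL_coe, Matrix.det_reindex_self, hd₀,
          Units.val_neg, Units.val_one]
      rw [h4] at h3
      exact h3
    · rintro u ⟨a, rfl⟩
      obtain ⟨h₀, hh₀, hd₀⟩ := hex (a : F) a.ne_zero
      have h3 := hin h₀ hh₀
      have h4 : Matrix.GeneralLinearGroup.det (reGL e h₀) = a ^ m := by
        apply Units.ext
        rw [Matrix.GeneralLinearGroup.val_det_apply, reGL_coe, Matrix.det_reindex_self, hd₀,
          Units.val_pow_eq_pow_val]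
      rw [h4] at h3
      exact h3

section Index

variable [Fintype F]

theorem index_pow (p f : ℕ) (hF : Fintype.card F = p ^ f) (k : ℕ) :
    ((powMonoidHom k : Fˣ →* Fˣ).range).index = Nat.gcd k (p ^ f - 1) := by
  have h := lang_cyclic_index (⊥ : Subgroup Fˣ) (p ^ f - 1)
    (by rw [Subgroup.card_bot, one_mul, lang_card_units p f hF]) k
  rwa [bot_sup_eq] at h

theorem index_neg_pow (p f : ℕ) (hF : Fintype.card F = p ^ f) (h2 : (2 : F) ≠ 0)
    (hodd : Odd (p ^ f)) (m : ℕ) :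
    (Subgroup.zpowers (-1 : Fˣ) ⊔ (powMonoidHom m : Fˣ →* Fˣ).range).index
      = Nat.gcd (2 * m) (p ^ f - 1) / 2 := by
  have hne : (-1 : Fˣ) ≠ 1 := by
    intro h
    have h3 := congrArg Units.val h
    rw [Units.val_neg, Units.val_one] at h3
    apply h2
    have : (2 : F) = 1 - (-1) := by ring
    rw [this, h3, sub_self]
  have hord : orderOf (-1 : Fˣ) = 2 := by
    have : Fact (Nat.Prime 2) := ⟨Nat.prime_two⟩
    exact orderOf_eq_prime (by simp) hne
  obtain ⟨t, ht⟩ := hodd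
  have h := lang_cyclic_index (Subgroup.zpowers (-1 : Fˣ)) t
    (by rw [Nat.card_zpowers, hord, lang_card_units p f hF, ht]; omega) m
  rw [h, ht]
  have : 2 * t + 1 - 1 = 2 * t := by omega
  rw [this, Nat.gcd_mul_left, Nat.mul_div_cancel_left _ (by norm_num : 0 < 2)]

end Index

end Cfsg.Agent.Helper43.GraphSplit
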