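/-
Helper43 library: for a semisimple endomorphism `T` of a non-zero finite-dimensional space over a
finite field there is an idempotent `π` commuting with `T` whose image is an irreducible
`T`-submodule, and the elements `1 + (a(T) - 1) π` take every determinant (uses the model
`AdjoinRoot f` of `Helper40.SemisimpleConj` and the surjectivity of the norm of finite fields).
-/
import Cfsg.Agent.Helper40.SemisimpleMat

set_option autoImplicit false

namespace Cfsg.Agent.Helper43
namespace IrredIdem

open Polynomial Cfsg.Agent.Helper40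

universe u v

section EndForm

variable {F : Type u} [Field F]

theorem aeval_modelEnd (f : F[X]) (β : F[X]) (b : AdjoinRoot f) :
    aeval (modelEnd f) β b = AdjoinRoot.mk f β * b := by
  induction β using Polynomial.induction_on generalizing b with
  | C a =>
    rw [aeval_C, AdjoinRoot.mk_C, Module.algebraMap_end_apply, Algebra.smul_def]
    rfl
  | add p q hp hq => rw [map_add, LinearMap.add_apply, hp, hq, map_add, add_mul]
  | monomial n a ih =>
    have e1 : aeval (modelEnd f) (C a * X ^ (n + 1))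
        = aeval (modelEnd f) (C a * X ^ n) * modelEnd f := by
      rw [pow_succ, ← mul_assoc, map_mul, aeval_X]
    have e2 : AdjoinRoot.mk f (C a * X ^ (n + 1))
        = AdjoinRoot.mk f (C a * X ^ n) * AdjoinRoot.root f := by
      rw [pow_succ, ← mul_assoc, map_mul, AdjoinRoot.mk_X]
    rw [e1, Module.End.mul_apply, ih, modelEnd_apply, e2, mul_assoc]

/-- an idempotent onto an irreducible submodule, with all determinants -/
theorem exists_irred_idem [Finite F] {V : Type v} [AddCommGroup V] [Module F V]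
    [FiniteDimensional F V] [Nontrivial V] {T : Module.End F V} (hT : T.IsSemisimple) :
    ∃ π : Module.End F V, π * π = π ∧ π * T = T * π ∧
      (∀ u, π u = u → u ≠ 0 → ∀ x, ∃ b : F[X], π x = aeval T b u) ∧
      (∀ c : F, ∃ a : F[X], LinearMap.det (1 + (aeval T a - 1) * π) = c) := by
  obtain ⟨f, v, hfm, hfi, hv, hfv⟩ := exists_irreducible_vec T
  obtain ⟨V', hV', e, hT', hint, he0⟩ := exists_model_split hT hfi hv hfv
  have := model_finite hfi.ne_zero
  have : Fact (Irreducible f) := ⟨hfi⟩
  have : Finite (AdjoinRoot f) := Module.finite_of_finite F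
  have hint' : ∀ (b : AdjoinRoot f) (y : V'),
      T (e (b, y)) = e (AdjoinRoot.root f * b, (T.restrict hV') y) := by
    intro b y
    rw [← hint (b, y)]
    rfl
  have hQ : ∀ (β : F[X]) (b : AdjoinRoot f),
      e (AdjoinRoot.mk f β * b, 0) = aeval T β (e (b, 0)) := by
    intro β b
    have h1 := aeval_intertwine
      ((e : (AdjoinRoot f × V') →ₗ[F] V) ∘ₗ LinearMap.inl F (AdjoinRoot f) V') (modelEnd f) T
      (by
        intro x
        have h2 := hint' x 0
        rw [map_zero] at h2
        exact h2.symm) β b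
    rw [aeval_modelEnd] at h1
    exact h1
  have hsplit : ∀ (b : AdjoinRoot f) (y : V'), e (b, y) = e (b, 0) + y := by
    intro b y
    rw [← he0 y, ← map_add]
    simp
  obtain ⟨π, hπdef⟩ : ∃ π : Module.End F V,
      π = e.conj (LinearMap.prodMap LinearMap.id (0 : V' →ₗ[F] V')) := ⟨_, rfl⟩
  have hπ : ∀ (b : AdjoinRoot f) (y : V'), π (e (b, y)) = e (b, 0) := by
    intro b y
    rw [hπdef, LinearEquiv.conj_apply_apply, LinearEquiv.symm_apply_apply]
    rfl
  refine ⟨π, ?_, ?_, ?_, ?_⟩
  · refine LinearMap.ext fun x => ?_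
    obtain ⟨⟨b, y⟩, rfl⟩ := e.surjective x
    rw [Module.End.mul_apply, hπ, hπ]
  · refine LinearMap.ext fun x => ?_
    obtain ⟨⟨b, y⟩, rfl⟩ := e.surjective x
    rw [Module.End.mul_apply, Module.End.mul_apply, hint', hπ, hπ, hint', map_zero]
  · intro u hu hu0 x
    obtain ⟨⟨b, y⟩, rfl⟩ := e.surjective u
    obtain ⟨⟨b', y'⟩, rfl⟩ := e.surjective x
    rw [hπ] at hu
    have hb0 : b ≠ 0 := by
      rintro rfl
      apply hu0
      rw [← hu, Prod.mk_zero_zero, map_zero]
    obtain ⟨β, hβ⟩ := AdjoinRoot.mk_surjective (b' * b⁻¹)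
    refine ⟨β, ?_⟩
    rw [hπ, ← hu, ← hQ, hβ, inv_mul_cancel_right₀ hb0]
  · intro c
    obtain ⟨a, ha⟩ := FiniteField.norm_surjective F (AdjoinRoot f) c
    obtain ⟨α, hα⟩ := AdjoinRoot.mk_surjective a
    refine ⟨α, ?_⟩
    have h1 : 1 + (aeval T α - 1) * π
        = e.conj ((LinearMap.mulLeft F a).prodMap LinearMap.id) := by
      refine LinearMap.ext fun x => ?_
      obtain ⟨⟨b, y⟩, rfl⟩ := e.surjective x
      rw [LinearMap.add_apply, Module.End.one_apply, Module.End.mul_apply, hπ,
        LinearMap.sub_apply, Module.End.one_apply, ← hQ, hα, LinearEquiv.conj_apply_apply,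
        LinearEquiv.symm_apply_apply, LinearMap.prodMap_apply, LinearMap.mulLeft_apply,
        LinearMap.id_apply, hsplit b y, hsplit (a * b) y]
      abel
    rw [h1, LinearEquiv.conj_apply, LinearMap.comp_assoc, LinearMap.det_conj,
      LinearMap.det_prodMap, LinearMap.det_id, mul_one]
    exact ha

end EndForm

section MatForm

variable {F : Type u} [Field F] [Finite F]

/-- matrix form of `exists_irred_idem` for matrices of order prime to the characteristic -/
theorem exists_irred_idem_matrix (p : ℕ) [Fact p.Prime] [CharP F p] {n : ℕ} (hn : 0 < n)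
    {m : ℕ} (hm : m.Coprime p) (g : Matrix (Fin n) (Fin n) F) (hg : g ^ m = 1) :
    ∃ P : Matrix (Fin n) (Fin n) F, P * P = P ∧ P * g = g * P ∧
      (∀ u : Fin n → F, P.mulVec u = u → u ≠ 0 →
        ∀ x : Fin n → F, ∃ b : F[X], P.mulVec x = (aeval g b).mulVec u) ∧
      (∀ c : F, ∃ a : F[X], (1 + (aeval g a - 1) * P).det = c) := by
  have : Nonempty (Fin n) := ⟨⟨0, hn⟩⟩
  have hT := isSemisimple_toLin'_of_pow_eq_one p hm g hg
  obtain ⟨π, h1, h2, h3, h4⟩ := exists_irred_idem hT
  have haev : ∀ b : F[X], aeval (Matrix.toLin' g) b = Matrix.toLin' (aeval g b) := by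
    intro b
    exact Polynomial.aeval_algHom_apply
      (Matrix.toLinAlgEquiv' : Matrix (Fin n) (Fin n) F ≃ₐ[F] _).toAlgHom g b
  refine ⟨LinearMap.toMatrix' π, ?_, ?_, ?_, ?_⟩
  · rw [← LinearMap.toMatrix'_mul, h1]
  · apply Matrix.toLin'.injective
    rw [Matrix.toLin'_mul, Matrix.toLin'_mul, Matrix.toLin'_toMatrix']
    exact h2
  · intro u hu hu0 x
    have hu' : π u = u := by
      rw [← Matrix.toLin'_apply, Matrix.toLin'_toMatrix'] at hu
      exact hu
    obtain ⟨b, hb⟩ := h3 u hu' hu0 x
    refine ⟨b, ?_⟩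
    rw [← Matrix.toLin'_apply, Matrix.toLin'_toMatrix', hb, haev, Matrix.toLin'_apply]
  · intro c
    obtain ⟨a, ha⟩ := h4 c
    refine ⟨a, ?_⟩
    rw [← ha, ← LinearMap.det_toMatrix']
    congr 1
    rw [map_add, LinearMap.toMatrix'_one, LinearMap.toMatrix'_mul, map_sub,
      LinearMap.toMatrix'_one, haev, LinearMap.toMatrix'_toLin']

end MatForm

end IrredIdem
end Cfsg.Agent.Helper43
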