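/-
Helper43 library: invariance of the kernel dimensions `Helper38.kdim` of the powers of a square
matrix under transposition, under multiplication by a commuting invertible matrix and (over a
finite field) under entrywise application of a field automorphism; consequence: a unipotent
matrix over a field with `q ^ 2` elements is similar to the inverse of its conjugate transpose.
-/
import Cfsg.Agent.Helper38.JordanNil
import Cfsg.Agent.Helper43.NormH90

set_option autoImplicit false
set_option linter.unusedSectionVars false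

namespace Cfsg.Agent.Helper43
namespace KdimTwist

open Cfsg.Agent.Helper38 Module

section Gen

variable {F : Type*} [Field F] {n : ℕ}

theorem kdim_eq_finrank_ker (A : Matrix (Fin n) (Fin n) F) (k : ℕ) :
    kdim A k = finrank F (LinearMap.ker (Matrix.toLin' (A ^ k))) := by
  unfold kdim
  rw [Matrix.toLin'_pow]

theorem finrank_ker_add_rank (C : Matrix (Fin n) (Fin n) F) :
    finrank F (LinearMap.ker (Matrix.toLin' C)) + C.rank = n := by
  have h := LinearMap.finrank_range_add_finrank_ker (Matrix.toLin' C)
  rw [Module.finrank_fin_fun] at h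
  have h2 : C.rank = finrank F (LinearMap.range (Matrix.toLin' C)) := by
    rw [Matrix.rank, Matrix.toLin'_apply']
  rw [h2]
  omega

/-- transposition does not change the kernel dimensions -/
theorem kdim_transpose (A : Matrix (Fin n) (Fin n) F) (k : ℕ) :
    kdim A.transpose k = kdim A k := by
  have h1 := finrank_ker_add_rank (A.transpose ^ k)
  have h2 := finrank_ker_add_rank (A ^ k)
  rw [← Matrix.transpose_pow, Matrix.rank_transpose] at h1
  rw [kdim_eq_finrank_ker, kdim_eq_finrank_ker, ← Matrix.transpose_pow]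
  omega

/-- multiplication by a commuting invertible matrix does not change the kernel dimensions -/
theorem kdim_unit_mul (U V A : Matrix (Fin n) (Fin n) F) (hVU : V * U = 1)
    (hc : Commute U A) (k : ℕ) : kdim (U * A) k = kdim A k := by
  rw [kdim_eq_finrank_ker, kdim_eq_finrank_ker, hc.mul_pow]
  have hker : LinearMap.ker (Matrix.toLin' (U ^ k * A ^ k))
      = LinearMap.ker (Matrix.toLin' (A ^ k)) := by
    ext x
    rw [LinearMap.mem_ker, LinearMap.mem_ker, Matrix.toLin'_apply, Matrix.toLin'_apply,
      ← Matrix.mulVec_mulVec]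
    refine ⟨fun h => ?_, fun h => by rw [h, Matrix.mulVec_zero]⟩
    have h2 : V ^ k * U ^ k = 1 := by
      have hUV : U * V = 1 := mul_eq_one_comm.1 hVU
      have hcomm : Commute V U := by
        show V * U = U * V
        rw [hVU, hUV]
      rw [← hcomm.mul_pow, hVU, one_pow]
    have h1 := congrArg (fun y => (V ^ k).mulVec y) h
    simp only [Matrix.mulVec_zero] at h1
    rw [Matrix.mulVec_mulVec, h2, Matrix.one_mulVec] at h1
    exact h1
  rw [hker]

end Gen

section Fin

variable {F : Type*} [Field F] [Fintype F] {n : ℕ}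

/-- applying a field automorphism entrywise does not change the kernel dimensions -/
theorem kdim_map (φ : F →+* F) (hφ : Function.Bijective φ) (A : Matrix (Fin n) (Fin n) F)
    (k : ℕ) : kdim (A.map φ) k = kdim A k := by
  have hpow : (A.map φ) ^ k = (A ^ k).map φ := by
    rw [← RingHom.mapMatrix_apply, ← RingHom.mapMatrix_apply, map_pow]
  rw [kdim_eq_finrank_ker, kdim_eq_finrank_ker, hpow]
  obtain ⟨C, hC⟩ : ∃ C : Matrix (Fin n) (Fin n) F, C = A ^ k := ⟨_, rfl⟩
  rw [← hC]
  have hbij : Function.Bijective (fun x : ↥(LinearMap.ker (Matrix.toLin' C)) =>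
      (⟨fun i => φ (x.1 i), by
        rw [LinearMap.mem_ker, Matrix.toLin'_apply]
        have hx := x.2
        rw [LinearMap.mem_ker, Matrix.toLin'_apply] at hx
        funext i
        have hxi := congrFun hx i
        simp only [Matrix.mulVec, dotProduct, Matrix.map_apply, Pi.zero_apply] at hxi ⊢
        rw [← map_zero φ, ← hxi, map_sum]
        refine Finset.sum_congr rfl fun j _ => ?_
        rw [map_mul]⟩ : ↥(LinearMap.ker (Matrix.toLin' (C.map φ))))) := by
    constructor
    · intro x y hxy
      apply Subtype.ext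
      funext i
      have h1 := congrFun (congrArg Subtype.val hxy) i
      exact hφ.1 h1
    · rintro ⟨y, hy⟩
      obtain ⟨ψ, hψ⟩ := Function.bijective_iff_has_inverse.1 hφ
      refine ⟨⟨fun i => ψ (y i), ?_⟩, ?_⟩
      · rw [LinearMap.mem_ker, Matrix.toLin'_apply] at hy ⊢
        funext i
        have hyi := congrFun hy i
        simp only [Matrix.mulVec, dotProduct, Matrix.map_apply, Pi.zero_apply] at hyi ⊢
        apply hφ.1
        rw [map_zero, ← hyi, map_sum]
        refine Finset.sum_congr rfl fun j _ => ?_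
        rw [map_mul, hψ.2]
      · apply Subtype.ext
        funext i
        exact hψ.2 (y i)
  have hcard := Nat.card_eq_of_bijective _ hbij
  rw [Module.natCard_eq_pow_finrank (K := F) (V := ↥(LinearMap.ker (Matrix.toLin' C))),
    Module.natCard_eq_pow_finrank (K := F)
      (V := ↥(LinearMap.ker (Matrix.toLin' (C.map φ))))] at hcard
  have h2 : 2 ≤ Nat.card F := by
    rw [Nat.card_eq_fintype_card]
    exact Fintype.one_lt_card
  exact (Nat.pow_right_injective h2 hcard).symm

end Fin

section Unip

variable {K : Type*} [Field K] [Fintype K] {q n : ℕ} (hK : Fintype.card K = q ^ 2)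

/-- the `q`-th power map as a ring homomorphism -/
noncomputable def frobQ : K →+* K where
  toFun := fun x => x ^ q
  map_one' := one_pow q
  map_mul' := fun x y => mul_pow x y q
  map_zero' := zero_pow (by have := NormH90.two_le_q hK; omega)
  map_add' := NormH90.add_pow_q hK

theorem frobQ_apply (x : K) : frobQ hK x = x ^ q := rfl

theorem frobQ_bijective : Function.Bijective (frobQ hK) :=
  ⟨(frobQ hK).injective, Finite.injective_iff_surjective.1 (frobQ hK).injective⟩

include hK in
/-- a unipotent matrix is similar to the inverse of its conjugate transpose -/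
theorem isConj_inv_conjTranspose (g : GL (Fin n) K)
    (hnil : IsNilpotent ((g : Matrix (Fin n) (Fin n) K) - 1)) :
    IsConj (g : Matrix (Fin n) (Fin n) K)
      (((g : Matrix (Fin n) (Fin n) K).map (fun x : K => x ^ q)).transpose)⁻¹ := by
  obtain ⟨N, hN⟩ : ∃ N : Matrix (Fin n) (Fin n) K, N = (g : Matrix (Fin n) (Fin n) K) - 1 :=
    ⟨_, rfl⟩
  have hg : (g : Matrix (Fin n) (Fin n) K) = 1 + N := by rw [hN]; abel
  rw [← hN] at hnil
  obtain ⟨M, hM⟩ : ∃ M : Matrix (Fin n) (Fin n) K, M = (N.map (frobQ hK)).transpose := ⟨_, rfl⟩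
  have hG : ((g : Matrix (Fin n) (Fin n) K).map (fun x : K => x ^ q)).transpose = 1 + M := by
    have h1 : (g : Matrix (Fin n) (Fin n) K).map (fun x : K => x ^ q)
        = (frobQ hK).mapMatrix (g : Matrix (Fin n) (Fin n) K) := rfl
    rw [h1, hg, map_add, map_one, Matrix.transpose_add, Matrix.transpose_one, hM]
    rfl
  rw [hG]
  obtain ⟨m, hm⟩ := hnil
  have hMm : M ^ m = 0 := by
    rw [hM, ← Matrix.transpose_pow]
    have h1 : (N.map (frobQ hK)) ^ m = (N ^ m).map (frobQ hK) := by
      rw [← RingHom.mapMatrix_apply, ← RingHom.mapMatrix_apply, map_pow]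
    rw [h1, hm]
    ext i j
    simp
  have hMnil : IsNilpotent M := ⟨m, hMm⟩
  have hunit : IsUnit (1 + M) := hMnil.isUnit_one_add
  have hdet : IsUnit (1 + M).det := (Matrix.isUnit_iff_isUnit_det _).1 hunit
  obtain ⟨V, hV⟩ : ∃ V : Matrix (Fin n) (Fin n) K, V = (1 + M)⁻¹ := ⟨_, rfl⟩
  rw [← hV]
  have hV1 : V * (1 + M) = 1 := by rw [hV]; exact Matrix.nonsing_inv_mul _ hdet
  have hV2 : (1 + M) * V = 1 := by rw [hV]; exact Matrix.mul_nonsing_inv _ hdet
  have hVM : V * M = 1 - V := by
    rw [mul_add, mul_one] at hV1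
    rw [← hV1]
    abel
  have hMV : M * V = 1 - V := by
    rw [add_mul, one_mul] at hV2
    rw [← hV2]
    abel
  have hN' : V - 1 = (-V) * M := by
    rw [neg_mul, hVM]
    abel
  have hcomm : Commute (-V) M := by
    show -V * M = M * -V
    rw [neg_mul, mul_neg, hVM, hMV]
  have hkd : ∀ k, kdim N k = kdim (V - 1) k := by
    intro k
    rw [hN', kdim_unit_mul (-V) (-(1 + M)) M (by rw [neg_mul_neg, hV2]) hcomm k, hM,
      kdim_transpose, kdim_map (frobQ hK) (frobQ_bijective hK)]
  have hN'nil : IsNilpotent (V - 1) := by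
    refine ⟨m, ?_⟩
    rw [hN', hcomm.mul_pow, hMm, mul_zero]
  obtain ⟨c, hc⟩ := exists_conj_of_kdim N (V - 1) ⟨m, hm⟩ hN'nil hkd
  refine ⟨c, ?_⟩
  show (c : Matrix (Fin n) (Fin n) K) * (g : Matrix (Fin n) (Fin n) K)
    = V * (c : Matrix (Fin n) (Fin n) K)
  rw [hg, mul_add, mul_one, hc, sub_mul, one_mul]
  abel

end Unip

end KdimTwist
end Cfsg.Agent.Helper43
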