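import Mathlib
import Cfsg.Agent.Helper43.OTDefs
import Cfsg.Agent.Helper43.PrimeOrdO2

set_option autoImplicit false

/-!
# CALL OT (S5972), piece FIXLE (helper43)
-/

namespace Cfsg.Agent.Helper43.OT5972

open Module Polynomial Cfsg.Agent.Helper90.HT Cfsg.Agent.Helper43.OT
open Cfsg.Agent.Helper43.C3O (gm)

universe u

variable {F : Type u} [Field F] [Fintype F] {ι : Type} [Fintype ι] [DecidableEq ι]

/-- FIXLE: the fixed space is no larger than the multiplicity of `X - 1` in the characteristic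
polynomial. -/
theorem ot_fix_le (p : ℕ) [Fact p.Prime] [CharP F p] {r : ℕ} (hr : r.Prime) (hrp : r ≠ p)
    (M : Matrix ι ι F) (c₀ : ℕ) (c : F[X] → ℕ)
    (hch : M.charpoly = Cfsg.Agent.Helper43.PrimeOrdMat.psi r c₀ c) :
    finrank F (LinearMap.ker (Matrix.toLin' M - 1)) ≤ c₀ := by
  have hrF : (r : F) ≠ 0 := Cfsg.Agent.Helper43.CycFactors.natCast_ne_zero_of_ne (p := p) hr hrp
  have h1 := LinearMap.finrank_eigenspace_le (Matrix.toLin' M) (1 : F)
  have h2 : Module.End.eigenspace (Matrix.toLin' M) (1 : F) = LinearMap.ker (Matrix.toLin' M - 1) := by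
    ext v
    rw [Module.End.mem_eigenspace_iff, LinearMap.mem_ker, LinearMap.sub_apply, one_smul,
      Module.End.one_apply, sub_eq_zero]
  rw [h2, Matrix.charpoly_toLin', hch] at h1
  have hne := Cfsg.Agent.Helper43.PrimeOrdO.eval_one_psi_ne hr hrF c
  have h3 : (Cfsg.Agent.Helper43.PrimeOrdMat.psi r c₀ c : F[X]).rootMultiplicity 1 = c₀ := by
    rw [← Cfsg.Agent.Helper43.PrimeOrdO.psi_fixed_mul]
    have hX : (X - 1 : F[X]) = X - C 1 := by rw [map_one]
    have hne0 : (X - 1 : F[X]) ^ c₀ * Cfsg.Agent.Helper43.PrimeOrdMat.psi r 0 c ≠ 0 := by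
      apply mul_ne_zero
      · rw [hX]
        exact pow_ne_zero _ (X_sub_C_ne_zero 1)
      · intro h0
        rw [h0, eval_zero] at hne
        exact hne rfl
    rw [rootMultiplicity_mul hne0, hX, rootMultiplicity_X_sub_C_pow,
      rootMultiplicity_eq_zero (by exact hne), add_zero]
  rw [h3] at h1
  exact h1

end Cfsg.Agent.Helper43.OT5972
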