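import Mathlib
import Cfsg.Agent.Helper43.OTDefs
import Cfsg.Agent.Helper43.OTFIXLE
import Cfsg.Agent.Helper31.C3OOMODD

set_option autoImplicit false

/-!
# CALL OT (S5972), piece EXAB (helper43)
-/

namespace Cfsg.Agent.Helper43.OT5972

open Module Polynomial Cfsg.Agent.Helper90.HT Cfsg.Agent.Helper43.OT
open Cfsg.Agent.Helper43.C3O (gm)
open Cfsg.Agent.Helper43.CycFactors Cfsg.Agent.Helper43.StarPoly Cfsg.Agent.Helper43.PrimeOrdMat

universe u

variable {F : Type u} [Field F] [Fintype F]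

/-- from an isometry of order `r` with characteristic polynomial `psi r e cf` to the statement -/
theorem ot_ex_ab_fin (p : ℕ) [Fact p.Prime] [CharP F p] (h2 : (2 : F) ≠ 0) (r : ℕ)
    [Fact r.Prime] (hr2 : 2 < r) (hrp : r ≠ p) (d e : ℕ) (hd : 1 ≤ d) (cf : F[X] → ℕ)
    (g : ↥(Cfsg.isometryGroup F (Cfsg.quadFormOdd d F))) (hgr : orderOf g = r)
    (hgch : (gm g).charpoly = psi r e cf) :
    ∃ x : Matrix.GeneralLinearGroup (Unit ⊕ (Fin d ⊕ Fin d)) F,
      x ∈ Cfsg.Geo.omegaGL (Cfsg.quadFormOdd d F) ∧ orderOf x = r ∧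
      finrank F (LinearMap.ker (Matrix.toLin'
        (x : Matrix (Unit ⊕ (Fin d ⊕ Fin d)) (Unit ⊕ (Fin d ⊕ Fin d)) F) - 1)) ≤ e := by
  have hr : r.Prime := Fact.out
  have hodd : Odd r := hr.odd_of_ne_two (by omega)
  have hΩ : g ∈ Cfsg.Omega F (Cfsg.quadFormOdd d F) :=
    Cfsg.Agent.Helper31.c3o_omodd h2 (Cfsg.Agent.Helper43.oddQF d F)
      (Cfsg.Agent.Helper43.PrimeOrdO.oddQF_nondeg h2 d)
      (by rw [Fintype.card_sum, Fintype.card_sum, Fintype.card_fin, Fintype.card_unit]; omega)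
      g r hodd (by rw [← hgr]; exact pow_orderOf_eq_one g)
  refine ⟨(g : Matrix.GeneralLinearGroup (Unit ⊕ (Fin d ⊕ Fin d)) F), ⟨g, hΩ, rfl⟩, ?_, ?_⟩
  · rw [Subgroup.orderOf_coe, hgr]
  · exact ot_fix_le p hr hrp (gm g) e cf hgch

/-- EXAB: an element of order `r` with small fixed space. -/
theorem ot_ex_ab (p : ℕ) [Fact p.Prime] [CharP F p] (h2 : (2 : F) ≠ 0) (r : ℕ) [Fact r.Prime]
    (hr2 : 2 < r) (hrp : r ≠ p) (i c : ℕ) (hi : i = orderOf ((Fintype.card F : ℕ) : ZMod r))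
    (hc : c = if Even i then i else 2 * i) (d u e : ℕ) (hd : 1 ≤ d) (hu : 1 ≤ u)
    (hdim : 2 * d + 1 = c * u + e) :
    ∃ x : Matrix.GeneralLinearGroup (Unit ⊕ (Fin d ⊕ Fin d)) F,
      x ∈ Cfsg.Geo.omegaGL (Cfsg.quadFormOdd d F) ∧ orderOf x = r ∧
      finrank F (LinearMap.ker (Matrix.toLin'
        (x : Matrix (Unit ⊕ (Fin d ⊕ Fin d)) (Unit ⊕ (Fin d ⊕ Fin d)) F) - 1)) ≤ e := by
  classical
  have hr : r.Prime := Fact.out
  have hrF : (r : F) ≠ 0 := natCast_ne_zero_of_ne (p := p) hr hrp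
  have hcard := cycJ_card_mul (p := p) (F := F) (q := Fintype.card F) rfl hr hrp
  have hne : (cycJ F r).Nonempty := by
    rw [← Finset.card_pos]
    by_contra h
    have h0 : (cycJ F r).card = 0 := by omega
    rw [h0, zero_mul] at hcard
    omega
  obtain ⟨P₀, hP₀⟩ := hne
  by_cases hie : Even i
  · have hci : c = i := by rw [hc, if_pos hie]
    obtain ⟨cf, hcf⟩ : ∃ cf : F[X] → ℕ, cf = fun P => if P = P₀ then u else 0 := ⟨_, rfl⟩
    have hsum : ∑ P ∈ cycJ F r, cf P = u := by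
      rw [hcf, Finset.sum_ite_eq', if_pos hP₀]
    have hsym : ∀ P ∈ cycJ F r, cf (Cfsg.Agent.Helper43.SpReal.star P) = cf P := by
      intro P hP
      rw [star_eq_self_of_even (p := p) (q := Fintype.card F) rfl hr hrp (by rw [← hi]; exact hie)
        hP]
    obtain ⟨g, hgr, hgch⟩ := Cfsg.Agent.Helper43.PrimeOrdO.oexists_of_psi_odd (p := p)
      (q := Fintype.card F) (m := d) rfl h2 hr hrp e cf hsym
      ⟨P₀, hP₀, by rw [hcf]; simp only [if_true]; omega⟩
      (by rw [hsum, ← hi]; rw [hci] at hdim; omega)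
    exact ot_ex_ab_fin p h2 r hr2 hrp d e hd cf g hgr hgch
  · have hio : Odd i := Nat.not_even_iff_odd.mp hie
    have hci : c = 2 * i := by rw [hc, if_neg hie]
    have hm0 := (mem_cycJ.mp hP₀).1
    have hc0 := coeff_zero_ne_of_mem hr hP₀
    obtain ⟨cf, hcf⟩ : ∃ cf : F[X] → ℕ, cf = fun P => (if P = P₀ then u else 0) +
        (if P = Cfsg.Agent.Helper43.SpReal.star P₀ then u else 0) := ⟨_, rfl⟩
    have hs : Cfsg.Agent.Helper43.SpReal.star P₀ ∈ cycJ F r := star_mem_cycJ hr hrF hP₀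
    have hsum : ∑ P ∈ cycJ F r, cf P = 2 * u := by
      rw [hcf, Finset.sum_add_distrib, Finset.sum_ite_eq', Finset.sum_ite_eq', if_pos hP₀,
        if_pos hs]
      omega
    have hsym : ∀ P ∈ cycJ F r, cf (Cfsg.Agent.Helper43.SpReal.star P) = cf P := by
      intro P hP
      have hmP := (mem_cycJ.mp hP).1
      have hcP := coeff_zero_ne_of_mem hr hP
      have e1 : Cfsg.Agent.Helper43.SpReal.star P = P₀ ↔
          P = Cfsg.Agent.Helper43.SpReal.star P₀ := by
        constructor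
        · intro h
          rw [← h, star_star hmP hcP]
        · intro h
          rw [h, star_star hm0 hc0]
      have e2 : Cfsg.Agent.Helper43.SpReal.star P = Cfsg.Agent.Helper43.SpReal.star P₀ ↔
          P = P₀ := by
        constructor
        · intro h
          rw [← star_star hmP hcP, h, star_star hm0 hc0]
        · intro h
          rw [h]
      rw [hcf]
      simp only [e1, e2]
      rw [add_comm]
    obtain ⟨g, hgr, hgch⟩ := Cfsg.Agent.Helper43.PrimeOrdO.oexists_of_psi_odd (p := p)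
      (q := Fintype.card F) (m := d) rfl h2 hr hrp e cf hsym
      ⟨P₀, hP₀, by rw [hcf]; simp only [if_true]; omega⟩
      (by rw [hsum, ← hi]; rw [hci] at hdim; rw [hdim]; ring)
    exact ot_ex_ab_fin p h2 r hr2 hrp d e hd cf g hgr hgch

end Cfsg.Agent.Helper43.OT5972
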