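import Mathlib
import Cfsg.Agent.Helper43.OTDefs
import Cfsg.Agent.Helper33.HTARC
import Cfsg.Agent.Helper58.TICNTAR
import Cfsg.Agent.Helper51.TIORD
import Cfsg.Agent.Helper35.OTB1G
import Cfsg.Agent.Helper80.OTB1A
import Cfsg.Agent.Helper29.OTINVB
import Cfsg.Agent.Helper35.OTLAG
import Cfsg.Agent.Helper98.OTSPINHYP
import Cfsg.Agent.Helper50.OTINV
import Cfsg.Agent.Helper86.OTBAD2
import Cfsg.Agent.Helper91.OTCNTB
import Cfsg.Agent.Helper47.OTCNTA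
import Cfsg.Agent.Helper80.OTARF
import Cfsg.Agent.Helper43.OTEXAB
import Cfsg.Agent.Helper31.OTB3
import Cfsg.Agent.Helper80.OTARB
import Cfsg.Agent.Helper37.OTBADC

set_option autoImplicit false

/-!
# S5972: assembly of the pieces of CALL OT (helper43)
-/

namespace Cfsg.Agent.Helper43.OTAsm

open Module Polynomial Cfsg.Agent.Helper90.HT Cfsg.Agent.Helper43.OT
open Cfsg.Agent.Helper43.C3O (gm)
open Cfsg.Agent.Helper35.OT5972 (ot_b1g ot_lag)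
open Cfsg.Agent.Helper80.OT5972 (ot_b1_arith ot_arith_f ot_arith_b)
open Cfsg.Agent.Helper29.OT5972 (ot_inv_b)
open Cfsg.Agent.Helper98.OT5972 (ot_spin_hyp)
open Cfsg.Agent.Helper50.OT5972 (ot_inv_a)
open Cfsg.Agent.Helper86.OT5972 (ot_bad_two)
open Cfsg.Agent.Helper91.OT5972 (ot_cnt_b)
open Cfsg.Agent.Helper47.OT5972 (ot_cnt_a)
open Cfsg.Agent.Helper43.OT5972 (ot_ex_ab)
open Cfsg.Agent.Helper31.OT5972 (ot_b3)
open Cfsg.Agent.Helper37.OT5972 (ot_bad_c)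

universe u

section aux

variable {F : Type u} [Field F] {ι : Type} [Fintype ι] [DecidableEq ι]

theorem ot_toLin_pow (M : Matrix ι ι F) (k : ℕ) :
    Matrix.toLin' (M ^ k) = (Matrix.toLin' M) ^ k := by
  induction k with
  | zero => rw [pow_zero, pow_zero, Matrix.toLin'_one]; rfl
  | succ k ih => rw [pow_succ, pow_succ, Matrix.toLin'_mul, ih]; rfl

theorem ot_toLin_orderOf (x : Matrix.GeneralLinearGroup ι F) (r : ℕ) (hx : orderOf x = r) :
    (Matrix.toLin' (x : Matrix ι ι F)) ^ r = 1 := by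
  rw [← ot_toLin_pow, ← Units.val_pow_eq_pow_val, ← hx, pow_orderOf_eq_one, Units.val_one,
    Matrix.toLin'_one]
  rfl

theorem ot_hpres (Q : QuadraticForm F (ι → F)) (x : Matrix.GeneralLinearGroup ι F)
    (hx : x ∈ Cfsg.isometryGroup F ⇑Q) : HPres (ph Q) (Matrix.toLin' (x : Matrix ι ι F)) := by
  apply hpres_ph
  intro v
  rw [Matrix.toLin'_apply]
  exact hx v v

theorem ot_finrank (d : ℕ) : finrank F (Unit ⊕ (Fin d ⊕ Fin d) → F) = 2 * d + 1 := by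
  rw [Module.finrank_fintype_fun_eq_card, Fintype.card_sum, Fintype.card_sum, Fintype.card_fin,
    Fintype.card_unit]
  omega

end aux

section main

variable {F : Type u} [Field F] [Fintype F]

/-- odd `r ≠ p`: under the arithmetic conditions every element of order `r` fixes a t.s. `m`-space -/
theorem ot_back_odd (p : ℕ) [Fact p.Prime] [CharP F p] (h2 : (2 : F) ≠ 0) (d m : ℕ) (hmd : m ≤ d)
    (r : ℕ) [Fact r.Prime] (hrp : r ≠ p) (hr2 : 2 < r) (i c : ℕ)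
    (hi : i = orderOf ((Fintype.card F : ℕ) : ZMod r)) (hc : c = if Even i then i else 2 * i)
    (hk : 2 * (m % i) < (2 * d + 1) % c)
    (ht : Odd i ∨ (r - 1) / i + 2 * (m / i) ≤ (2 * d + 1) / i)
    (x : Matrix.GeneralLinearGroup (Unit ⊕ (Fin d ⊕ Fin d)) F)
    (hx : x ∈ Cfsg.Geo.omegaGL (Cfsg.quadFormOdd d F)) (hxr : orderOf x = r) :
    ∃ W : Submodule F (Unit ⊕ (Fin d ⊕ Fin d) → F), Module.finrank F ↥W = m ∧
      (∀ w ∈ W, Cfsg.quadFormOdd d F w = 0) ∧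
      W.map (Matrix.toLin'
        (x : Matrix (Unit ⊕ (Fin d ⊕ Fin d)) (Unit ⊕ (Fin d ⊕ Fin d)) F)) ≤ W := by
  have hr : r.Prime := Fact.out
  have hp : p.Prime := Fact.out
  have hxiso : x ∈ Cfsg.isometryGroup F (Cfsg.quadFormOdd d F) := by
    obtain ⟨g, -, rfl⟩ := hx
    exact g.2
  have hT := ot_hpres (Cfsg.Agent.Helper43.oddQF d F) x hxiso
  have hTr := ot_toLin_orderOf x r hxr
  have hrF : (r : F) ≠ 0 := Cfsg.Agent.Helper43.CycFactors.natCast_ne_zero_of_ne (p := p) hr hrp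
  obtain ⟨e, u, b₀, hdim, ho, he, hb, hex⟩ := ot_b1g (ph (Cfsg.Agent.Helper43.oddQF d F))
    (isHerm_ph _) (ph_odd_nondeg h2 d) h2 _ hT r hr2 hrF hTr i hi
  rw [ot_finrank] at hdim
  have hrq : ¬ r ∣ Fintype.card F := by
    obtain ⟨n, -, hn⟩ := FiniteField.card F p
    rw [hn]
    intro hdvd
    exact hrp ((Nat.prime_dvd_prime_iff_eq hr hp).mp (hr.dvd_of_dvd_pow hdvd))
  obtain ⟨hi0, hir⟩ := Cfsg.Agent.Helper51.TI5955.ord_pos r (Fintype.card F) hrq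
  rw [← hi] at hi0 hir
  obtain ⟨b, m₀, hbb, hm₀, hm⟩ := ot_b1_arith r i c d m e u b₀ hr2 hi0 hir hc hdim ho he hb hmd
    hk ht
  obtain ⟨W, hWdim, hWTI, hWT⟩ := hex b m₀ hbb hm₀
  exact ⟨W, by rw [hWdim, hm], (hti_ph_iff h2 _ W).mp hWTI, hWT⟩

/-- involutions -/
theorem ot_back_two (h2 : (2 : F) ≠ 0) (d m : ℕ) (hd : 1 ≤ d) (hmd : m ≤ d)
    (hm2 : m < d ∨ IsSquare (-1 : F))
    (x : Matrix.GeneralLinearGroup (Unit ⊕ (Fin d ⊕ Fin d)) F)
    (hx : x ∈ Cfsg.Geo.omegaGL (Cfsg.quadFormOdd d F)) (hxr : orderOf x = 2) :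
    ∃ W : Submodule F (Unit ⊕ (Fin d ⊕ Fin d) → F), Module.finrank F ↥W = m ∧
      (∀ w ∈ W, Cfsg.quadFormOdd d F w = 0) ∧
      W.map (Matrix.toLin'
        (x : Matrix (Unit ⊕ (Fin d ⊕ Fin d)) (Unit ⊕ (Fin d ⊕ Fin d)) F)) ≤ W := by
  obtain ⟨g, hgΩ, hgx⟩ := hx
  have hgm : gm g = (x : Matrix (Unit ⊕ (Fin d ⊕ Fin d)) (Unit ⊕ (Fin d ⊕ Fin d)) F) := by
    rw [← hgx]
    rfl
  have hT := ot_hpres (Cfsg.Agent.Helper43.oddQF d F) x (by rw [← hgx]; exact g.2)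
  have hT2 := ot_toLin_orderOf x 2 hxr
  have hh := isHerm_ph (Cfsg.Agent.Helper43.oddQF d F)
  obtain ⟨hsum, hnd1, hnd2, -⟩ := ot_inv_b (ph (Cfsg.Agent.Helper43.oddQF d F)) hh
    (ph_odd_nondeg h2 d) h2 _ hT hT2
  rw [ot_finrank] at hsum
  have hlag : ∀ C : Submodule F (Unit ⊕ (Fin d ⊕ Fin d) → F),
      HNondegOn (ph (Cfsg.Agent.Helper43.oddQF d F)) C →
      ∃ A : Submodule F (Unit ⊕ (Fin d ⊕ Fin d) → F), A ≤ C ∧
        HTI (ph (Cfsg.Agent.Helper43.oddQF d F)) A ∧ finrank F A = (finrank F C - 1) / 2 := by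
    intro C hC
    by_cases h0 : finrank F C = 0
    · refine ⟨⊥, bot_le, ?_, ?_⟩
      · intro u hu v hv
        rw [(Submodule.mem_bot F).mp hu]
        exact hh.zero_left v
      · rw [finrank_bot, h0]
    · exact ot_lag (ph (Cfsg.Agent.Helper43.oddQF d F)) hh C hC _ (by omega)
  obtain ⟨A₁, hA₁, hA₁TI, hA₁d⟩ := hlag _ hnd1
  have hA₂ : ∃ A₂ : Submodule F (Unit ⊕ (Fin d ⊕ Fin d) → F),
      A₂ ≤ LinearMap.ker (Matrix.toLin'
        (x : Matrix (Unit ⊕ (Fin d ⊕ Fin d)) (Unit ⊕ (Fin d ⊕ Fin d)) F) + 1) ∧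
      HTI (ph (Cfsg.Agent.Helper43.oddQF d F)) A₂ ∧ m ≤ finrank F A₁ + finrank F A₂ := by
    rcases hm2 with hm2 | hm2
    · obtain ⟨A₂, hA₂, hA₂TI, hA₂d⟩ := hlag _ hnd2
      refine ⟨A₂, hA₂, hA₂TI, ?_⟩
      rw [hA₁d, hA₂d]
      omega
    · have hg2 : gm g * gm g = 1 := by
        have h3 : x ^ 2 = 1 := by
          rw [← hxr]
          exact pow_orderOf_eq_one _
        have h4 := congrArg (fun y : Matrix.GeneralLinearGroup (Unit ⊕ (Fin d ⊕ Fin d)) F =>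
          (y : Matrix (Unit ⊕ (Fin d ⊕ Fin d)) (Unit ⊕ (Fin d ⊕ Fin d)) F)) h3
        simp only [Units.val_one, pow_two] at h4
        rw [hgm]
        exact h4
      obtain ⟨A₂, hA₂, hA₂TI, hA₂d⟩ := ot_spin_hyp (Cfsg.Agent.Helper43.oddQF d F) h2
        (Cfsg.Agent.Helper43.PrimeOrdO.oddQF_nondeg h2 d)
        (by rw [Fintype.card_sum, Fintype.card_sum, Fintype.card_fin, Fintype.card_unit]; omega)
        g hgΩ hg2 hm2
      rw [hgm] at hA₂ hA₂d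
      refine ⟨A₂, hA₂, hA₂TI, ?_⟩
      rw [hA₁d]
      omega
  obtain ⟨A₂, hA₂, hA₂TI, hmA⟩ := hA₂
  obtain ⟨W, hWd, hWTI, hWT⟩ := ot_inv_a (ph (Cfsg.Agent.Helper43.oddQF d F)) hh h2 _ hT hT2
    A₁ A₂ hA₁ hA₂ hA₁TI hA₂TI m hmA
  exact ⟨W, hWd, (hti_ph_iff h2 _ W).mp hWTI, hWT⟩

/-- the forward direction -/
theorem ot_fwd (p : ℕ) [Fact p.Prime] [CharP F p] (hqodd : Odd (Fintype.card F)) (d m : ℕ)
    (hd : 3 ≤ d) (hm : 1 ≤ m) (hmd : m ≤ d) (r : ℕ) [Fact r.Prime]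
    (hrΩ : r ∣ Nat.card {W : Submodule F (Unit ⊕ (Fin d ⊕ Fin d) → F) //
      Module.finrank F ↥W = m ∧ (∀ w ∈ W, Cfsg.quadFormOdd d F w = 0)})
    (i c : ℕ) (hi : i = orderOf ((Fintype.card F : ℕ) : ZMod r))
    (hc : c = if Even i then i else 2 * i)
    (hL : ∀ x : Matrix.GeneralLinearGroup (Unit ⊕ (Fin d ⊕ Fin d)) F,
      x ∈ Cfsg.Geo.omegaGL (Cfsg.quadFormOdd d F) → orderOf x = r →
      ∃ W : Submodule F (Unit ⊕ (Fin d ⊕ Fin d) → F), Module.finrank F ↥W = m ∧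
        (∀ w ∈ W, Cfsg.quadFormOdd d F w = 0) ∧
        W.map (Matrix.toLin'
          (x : Matrix (Unit ⊕ (Fin d ⊕ Fin d)) (Unit ⊕ (Fin d ⊕ Fin d)) F)) ≤ W) :
    (r = 2 ∧ (m < d ∨ Fintype.card F % 4 = 1)) ∨
     (r ≠ p ∧ 2 < r ∧ i ≤ m ∧ 2 * (m % i) < (2 * d + 1) % c ∧
      (Odd i ∨ (r - 1) / i + 2 * (m / i) ≤ (2 * d + 1) / i)) := by
  have hr : r.Prime := Fact.out
  have hp : p.Prime := Fact.out
  have h2 : (2 : F) ≠ 0 := Cfsg.Agent.Helper43.two_ne_zero_of_odd_card rfl hqodd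
  by_cases hr2 : r = 2
  · left
    refine ⟨hr2, ?_⟩
    by_contra hcon
    push Not at hcon
    obtain ⟨hdm, hq4⟩ := hcon
    have hm1 : ¬ IsSquare (-1 : F) := by
      rw [FiniteField.isSquare_neg_one_iff]
      obtain ⟨k, hk⟩ := hqodd
      omega
    obtain ⟨x, hxΩ, hxr, hW⟩ := ot_bad_two h2 hm1 d (by omega)
    obtain ⟨W, hWd, hWts, hWT⟩ := hL x hxΩ (by rw [hxr, hr2])
    have := hW W hWts hWT
    omega
  · right
    have hr2' : 2 < r := lt_of_le_of_ne hr.two_le (Ne.symm hr2)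
    obtain ⟨n, -, hn⟩ := FiniteField.card F p
    have hN := (ot_cnt_b F d m).symm.trans (ot_cnt_a F h2 d m hmd)
    obtain ⟨hpN, hrN⟩ := Cfsg.Agent.Helper58.TI5955.cnt_ar p (n : ℕ) (Fintype.card F) d m _ hp
      n.pos hn hm hmd hN
    have hrp : r ≠ p := by
      rintro rfl
      exact hpN hrΩ
    obtain ⟨j, hj, hjr⟩ := hrN r hr hrΩ
    have hq0 : 0 < Fintype.card F := Fintype.card_pos
    have hdvd : i ∣ 2 * (d - j) := by
      rw [hi]
      exact (Cfsg.Agent.Helper51.TI5955.ord_dvd r (Fintype.card F) _ hq0).mp hjr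
    have hrq : ¬ r ∣ Fintype.card F := by
      rw [hn]
      intro hdvd
      exact hrp ((Nat.prime_dvd_prime_iff_eq hr hp).mp (hr.dvd_of_dvd_pow hdvd))
    obtain ⟨hi0, hir⟩ := Cfsg.Agent.Helper51.TI5955.ord_pos r (Fintype.card F) hrq
    rw [← hi] at hi0 hir
    have hrF : (r : F) ≠ 0 := Cfsg.Agent.Helper43.CycFactors.natCast_ne_zero_of_ne (p := p) hr hrp
    obtain ⟨hcn, hk2m⟩ := ot_arith_f i c d m j hi0 hc hj hmd hdvd
    have hc0 : 0 < c := by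
      rw [hc]
      split_ifs <;> omega
    have h1 : 2 * (m % i) < (2 * d + 1) % c := by
      obtain ⟨x, hxΩ, hxr, hfix⟩ := ot_ex_ab p h2 r hr2' hrp i c hi hc d ((2 * d + 1) / c)
        ((2 * d + 1) % c) (by omega) (Nat.div_pos hcn hc0) (Nat.div_add_mod _ _).symm
      obtain ⟨W, hWd, hWts, hWT⟩ := hL x hxΩ hxr
      have hxiso : x ∈ Cfsg.isometryGroup F (Cfsg.quadFormOdd d F) := by
        obtain ⟨g, -, rfl⟩ := hxΩ
        exact g.2
      have hT := ot_hpres (Cfsg.Agent.Helper43.oddQF d F) x hxiso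
      have hTr := ot_toLin_orderOf x r hxr
      obtain ⟨a, ha, hadvd, h2a⟩ := ot_b3 (ph (Cfsg.Agent.Helper43.oddQF d F)) (isHerm_ph _)
        (ph_odd_nondeg h2 d) _ hT r hrF hTr W ((hti_ph_iff h2 _ W).mpr hWts) hWT
      rw [hWd] at ha hadvd
      rw [← hi] at hadvd
      exact ot_arith_b i c d m a hi0 hc ha hadvd (h2a.trans hfix)
    have him : i ≤ m := by
      by_contra hcon
      push Not at hcon
      rw [Nat.mod_eq_of_lt hcon] at h1
      omega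
    refine ⟨hrp, hr2', him, h1, ?_⟩
    by_cases hie : Even i
    · right
      by_contra hnot
      push Not at hnot
      obtain ⟨u, hu⟩ : ∃ u, u = min ((2 * d + 1) / i) ((r - 1) / i) := ⟨_, rfl⟩
      have hu1 : 1 ≤ u := by
        rw [hu]
        refine le_min (Nat.div_pos (by omega) hi0) (Nat.div_pos (Nat.le_of_dvd (by omega) hir) hi0)
      have hut : u ≤ (r - 1) / i := by
        rw [hu]
        exact min_le_right _ _
      have hiu : i * u ≤ 2 * d + 1 := by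
        have h3 : u ≤ (2 * d + 1) / i := by
          rw [hu]
          exact min_le_left _ _
        exact (Nat.mul_le_mul_left i h3).trans (Nat.mul_div_le _ _)
      obtain ⟨e, he⟩ : ∃ e, e = 2 * d + 1 - i * u := ⟨_, rfl⟩
      have hdim : 2 * d + 1 = i * u + e := by omega
      obtain ⟨x, hxΩ, hxr, hW⟩ := ot_bad_c p h2 r hr2' hrp i hi hie d u e (by omega) hu1 hut hdim
      obtain ⟨W, hWd, hWts, hWT⟩ := hL x hxΩ hxr
      have h3 := hW W hWts hWT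
      rw [hWd] at h3
      have h4 := Cfsg.Agent.Helper33.HT5953.arith_c_u i (2 * d + 1) m ((r - 1) / i) e u hi0 him
        hu hdim h3
      omega
    · left
      exact Nat.not_even_iff_odd.mp hie

end main

/-- S5972 -/
theorem s5972 {F : Type*} [Field F] [Fintype F] {p : ℕ} [Fact p.Prime] [CharP F p] {q : ℕ} (hq : Fintype.card F = q) (hqodd : Odd q)
    (d m : ℕ) (hd : 3 ≤ d) (hm : 1 ≤ m) (hmd : m ≤ d)
    (r : ℕ) [Fact r.Prime]
    (hrΩ : r ∣ Nat.card {W : Submodule F (Unit ⊕ (Fin d ⊕ Fin d) → F) // Module.finrank F ↥W = m ∧ (∀ w ∈ W, Cfsg.quadFormOdd d F w = 0)})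
    (i c : ℕ) (hi : i = orderOf (q : ZMod r)) (hc : c = if Even i then i else 2 * i) :
    (∀ x : Matrix.GeneralLinearGroup (Unit ⊕ (Fin d ⊕ Fin d)) F, x ∈ Cfsg.Geo.omegaGL (Cfsg.quadFormOdd d F) → orderOf x = r →
      ∃ W : Submodule F (Unit ⊕ (Fin d ⊕ Fin d) → F), Module.finrank F ↥W = m ∧ (∀ w ∈ W, Cfsg.quadFormOdd d F w = 0) ∧
        W.map (Matrix.toLin' (x : Matrix (Unit ⊕ (Fin d ⊕ Fin d)) (Unit ⊕ (Fin d ⊕ Fin d)) F)) ≤ W) ↔
    ((r = 2 ∧ (m < d ∨ q % 4 = 1)) ∨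
     (r ≠ p ∧ 2 < r ∧ i ≤ m ∧ 2 * (m % i) < (2 * d + 1) % c ∧ (Odd i ∨ (r - 1) / i + 2 * (m / i) ≤ (2 * d + 1) / i))) := by
  subst hq
  have h2 : (2 : F) ≠ 0 := Cfsg.Agent.Helper43.two_ne_zero_of_odd_card rfl hqodd
  constructor
  · intro hL
    exact ot_fwd p hqodd d m hd hm hmd r hrΩ i c hi hc hL
  · rintro (⟨hr2, hm2⟩ | ⟨hrp, hr2, -, hk, ht⟩) x hx hxr
    · subst hr2
      refine ot_back_two h2 d m (by omega) hmd ?_ x hx hxr
      rcases hm2 with hm2 | hm2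
      · exact Or.inl hm2
      · right
        rw [FiniteField.isSquare_neg_one_iff]
        omega
    · exact ot_back_odd p h2 d m hmd r hrp hr2 i c hi hc hk ht x hx hxr

end Cfsg.Agent.Helper43.OTAsm
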