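import Mathlib
import Cfsg.Agent.Helper43.OTDefs
import Cfsg.Agent.Helper43.OrthStd
import Cfsg.Agent.Helper31.C3OOMODD

set_option autoImplicit false

/-!
# CALL OT (S5972), piece XFER (helper43; double of helper57)
-/

namespace Cfsg.Agent.Helper43.OT5972

open Matrix Module Polynomial Cfsg.Agent.Helper90.HT Cfsg.Agent.Helper43.OT
open Cfsg.Agent.Helper43.C3O (gm)

universe u

variable {F : Type u} [Field F] [Fintype F] {ι : Type} [Fintype ι] [DecidableEq ι]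

/-- XFER: transport of an isometry of odd prime order of a nondegenerate quadratic space of
dimension `2d+1` to `Ω_{2d+1}`. -/
theorem ot_xfer (h2 : (2 : F) ≠ 0) (d : ℕ) (hd : 1 ≤ d) {V' : Type*} [AddCommGroup V']
    [Module F V'] [FiniteDimensional F V'] (Q' : QuadraticForm F V')
    (hnd : ∀ v, (∀ w, QuadraticMap.polar Q' v w = 0) → v = 0) (hdim : finrank F V' = 2 * d + 1)
    (T : Module.End F V') (hT : ∀ v, Q' (T v) = Q' v) (r : ℕ) [Fact r.Prime] (hr2 : 2 < r)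
    (hTr : T ^ r = 1) (hT1 : T ≠ 1) :
    ∃ (x : Matrix.GeneralLinearGroup (Unit ⊕ (Fin d ⊕ Fin d)) F)
      (Φ : V' ≃ₗ[F] (Unit ⊕ (Fin d ⊕ Fin d) → F)),
      x ∈ Cfsg.Geo.omegaGL (Cfsg.quadFormOdd d F) ∧ orderOf x = r ∧
      (∀ v, Cfsg.quadFormOdd d F (Φ v) = 0 ↔ Q' v = 0) ∧
      ∀ v, Matrix.toLin' (x : Matrix (Unit ⊕ (Fin d ⊕ Fin d)) (Unit ⊕ (Fin d ⊕ Fin d)) F) (Φ v) =
        Φ (T v) := by
  classical
  have hr : r.Prime := Fact.out
  have hodd : Odd r := hr.odd_of_ne_two (by omega)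
  obtain ⟨b, δ, hδ, hb⟩ := Cfsg.Agent.Helper43.OrthStd.exists_basis_odd hdim Q' hnd
  obtain ⟨A, hAdef⟩ : ∃ A : Matrix (Unit ⊕ (Fin d ⊕ Fin d)) (Unit ⊕ (Fin d ⊕ Fin d)) F,
      A = LinearMap.toMatrix b b T := ⟨_, rfl⟩
  have hA : ∀ x, Cfsg.quadFormOdd d F (A *ᵥ x) = Cfsg.quadFormOdd d F x := by
    intro x
    rw [hAdef]
    exact Cfsg.Agent.Helper43.OrthStd.similitude_matrix Q' T hT b _ δ hδ hb x
  have hAr : A ^ r = 1 := by
    rw [hAdef, ← Cfsg.Agent.Helper43.OrthStd.toMatrix_pow', hTr, LinearMap.toMatrix_one]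
  have hr1 : r - 1 + 1 = r := Nat.sub_add_cancel hr.pos
  let g0 : Matrix.GeneralLinearGroup (Unit ⊕ (Fin d ⊕ Fin d)) F :=
    ⟨A, A ^ (r - 1), by rw [← pow_succ', hr1, hAr], by rw [← pow_succ, hr1, hAr]⟩
  have hg0 : g0 ∈ Cfsg.isometryGroup F (Cfsg.quadFormOdd d F) := by
    intro u v
    exact hA u
  have hg0r : g0 ^ r = 1 := by
    apply Units.ext
    rw [Units.val_pow_eq_pow_val]
    exact hAr
  have hg01 : g0 ≠ 1 := by
    intro h1
    have h3 : A = 1 := congrArg (fun y : Matrix.GeneralLinearGroup (Unit ⊕ (Fin d ⊕ Fin d)) F =>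
      (y : Matrix (Unit ⊕ (Fin d ⊕ Fin d)) (Unit ⊕ (Fin d ⊕ Fin d)) F)) h1
    apply hT1
    apply (LinearMap.toMatrix b b).injective
    rw [← hAdef, h3, LinearMap.toMatrix_one]
  have hord : orderOf g0 = r := orderOf_eq_prime hg0r hg01
  have hΩ : (⟨g0, hg0⟩ : ↥(Cfsg.isometryGroup F (Cfsg.quadFormOdd d F))) ∈
      Cfsg.Omega F (Cfsg.quadFormOdd d F) :=
    Cfsg.Agent.Helper31.c3o_omodd h2 (Cfsg.Agent.Helper43.oddQF d F)
      (Cfsg.Agent.Helper43.PrimeOrdO.oddQF_nondeg h2 d)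
      (by rw [Fintype.card_sum, Fintype.card_sum, Fintype.card_fin, Fintype.card_unit]; omega)
      ⟨g0, hg0⟩ r hodd (Subtype.ext hg0r)
  refine ⟨g0, b.equivFun, ⟨⟨g0, hg0⟩, hΩ, rfl⟩, hord, ?_, ?_⟩
  · intro v
    rw [hb v]
    constructor
    · intro h
      rw [h, mul_zero]
    · intro h
      exact (mul_eq_zero.mp h).resolve_left hδ
  · intro v
    rw [Matrix.toLin'_apply]
    show A *ᵥ (b.equivFun v) = b.equivFun (T v)
    rw [hAdef]
    exact LinearMap.toMatrix_mulVec_repr b b T v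

end Cfsg.Agent.Helper43.OT5972
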