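import Mathlib
import Cfsg.Agent.Helper45.IDMinus
import Cfsg.Agent.Helper43.OrthSemi
import Cfsg.Agent.Helper43.USimDet
import Cfsg.Agent.Helper43.NormGen
import Cfsg.Agent.Helper24.PFFV
import Cfsg.Agent.Helper24.PFPAIR
import Cfsg.Agent.Helper44.PFMODEL1
import Cfsg.Agent.Helper80.PFMODEL2
import Cfsg.Agent.Helper59.PFTRANS
import Cfsg.Agent.Helper37.PFFIXV
import Cfsg.Agent.Helper47.PFSKEW
import Cfsg.Agent.Helper20.PFLIFT

/-!
# Class fusion of elements of odd prime order in `PΩ^±` (helper43): assemblies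

`pf_orth` (conjugacy under similarities is conjugacy under isometries), `pf_kl` (the centraliser
of an element of odd prime order contains an isometry with both spinor signs `-1`), `pf_core`
(a class-preserving similarity can be replaced by an element of `Ω`) and `pf_gen` (the generic
fusion statement).
-/

set_option autoImplicit false

namespace Cfsg.Agent.Helper43.PFAsm

open Cfsg Matrix Polynomial Cfsg.Agent.Helper45 Cfsg.Agent.Helper45.ID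
open Cfsg.Agent.Helper24.PFFV Cfsg.Agent.Helper24.PFPAIR Cfsg.Agent.Helper44.PFMODEL1
  Cfsg.Agent.Helper80.PFMODEL2 Cfsg.Agent.Helper59.PFTRANS Cfsg.Agent.Helper37.PFFIXV
  Cfsg.Agent.Helper47.PFSKEW Cfsg.Agent.Helper20.PFLIFT

universe u

variable {ι : Type} [Fintype ι] [DecidableEq ι] {F : Type u} [Field F] [Fintype F]

omit [Fintype F] in
theorem coe_pow_eq_one {Q : (ι → F) → F} (g : ↥(isometryGroup F Q)) {r : ℕ} (hgr : g ^ r = 1) :
    ((g : GL ι F) : Matrix ι ι F) ^ r = 1 := by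
  have := congrArg (fun x : ↥(isometryGroup F Q) => ((x : GL ι F) : Matrix ι ι F)) hgr
  simpa using this

/-- ORTH: a conjugate of `g` under a similarity is a conjugate under an isometry -/
theorem pf_orth {p : ℕ} [Fact p.Prime] [CharP F p] (Q : QuadraticForm F (ι → F))
    (hQ : (QuadraticMap.polarBilin Q).Nondegenerate) (g : ↥(isometryGroup F ⇑Q)) {r : ℕ}
    (hro : Odd r) (hrp : r.Coprime p) (hgr : g ^ r = 1) (h : GL ι F)
    (hh : h ∈ Geo.quadSimilarityGroup (F := F) ⇑Q) :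
    ∃ S : ↥(isometryGroup F ⇑Q),
      (S : GL ι F) * (g : GL ι F) * (S : GL ι F)⁻¹ = h * (g : GL ι F) * h⁻¹ := by
  have hb : h * (g : GL ι F) * h⁻¹ ∈ isometryGroup F ⇑Q := conj_mem_iso ⇑Q hh g.2
  have hgM := coe_pow_eq_one g hgr
  obtain ⟨S, S', hSS', hSiso, hSab⟩ := Cfsg.Agent.Helper43.OrthSemi.exists_orth_conj p Q hQ
    ((g : GL ι F) : Matrix ι ι F) ((h * (g : GL ι F) * h⁻¹ : GL ι F) : Matrix ι ι F)
    (h : Matrix ι ι F) ((h⁻¹ : GL ι F) : Matrix ι ι F)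
    (by rw [← Units.val_mul, mul_inv_cancel, Units.val_one]) r hro hrp hgM
    ((mem_iso_iff ⇑Q _).mp g.2) ((mem_iso_iff ⇑Q _).mp hb)
    (by rw [← Units.val_mul, ← Units.val_mul]; congr 1; group)
  have hS'S : S' * S = 1 := mul_eq_one_comm.mp hSS'
  obtain ⟨Sg, hSg⟩ : ∃ Sg : GL ι F, (Sg : Matrix ι ι F) = S := ⟨⟨S, S', hSS', hS'S⟩, rfl⟩
  have hSmem : Sg ∈ isometryGroup F ⇑Q := by
    rw [mem_iso_iff, hSg]
    exact hSiso
  refine ⟨⟨Sg, hSmem⟩, ?_⟩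
  have h1 : Sg * (g : GL ι F) = (h * (g : GL ι F) * h⁻¹) * Sg := by
    apply Units.ext
    rw [Units.val_mul, Units.val_mul, hSg]
    exact hSab
  show Sg * (g : GL ι F) * Sg⁻¹ = _
  rw [h1, mul_inv_cancel_right]

omit [Fintype F] in
theorem coe_inv_eq_pow {Q : (ι → F) → F} (g : ↥(isometryGroup F Q)) {r : ℕ} (hr0 : 0 < r)
    (hgr : g ^ r = 1) :
    (((g⁻¹ : ↥(isometryGroup F Q)) : GL ι F) : Matrix ι ι F)
      = ((g : GL ι F) : Matrix ι ι F) ^ (r - 1) := by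
  have h1 : g⁻¹ = g ^ (r - 1) := by
    apply inv_eq_of_mul_eq_one_right
    rw [← pow_succ', Nat.sub_add_cancel hr0, hgr]
  rw [h1]
  simp

/-- KL: an isometry `g ≠ 1` of odd prime order `r ≠ p` commutes with an isometry whose sign on
every level set `Q = c`, `c ≠ 0`, is `-1` -/
theorem pf_kl {p : ℕ} [Fact p.Prime] [CharP F p] (Q : QuadraticForm F (ι → F))
    (hQ : (QuadraticMap.polarBilin Q).Nondegenerate) (hq : Odd (Fintype.card F))
    (g : ↥(isometryGroup F ⇑Q)) {r : ℕ} (hr : r.Prime) (hro : Odd r) (hrp : r ≠ p)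
    (hgr : g ^ r = 1) (hg1 : g ≠ 1) :
    ∃ u : ↥(isometryGroup F ⇑Q), u * g = g * u ∧ ∀ c : F, c ≠ 0 → spin ⇑Q c u = -1 := by
  classical
  obtain ⟨G, hGdef⟩ : ∃ G : Matrix ι ι F, G = ((g : GL ι F) : Matrix ι ι F) := ⟨_, rfl⟩
  have hG : ∀ x, Q (G *ᵥ x) = Q x := by
    rw [hGdef]
    exact (mem_iso_iff ⇑Q _).mp g.2
  have hGr : G ^ r = 1 := by
    rw [hGdef]
    exact coe_pow_eq_one g hgr
  have hG1 : G ≠ 1 := by
    intro h
    apply hg1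
    apply Subtype.ext
    apply Units.ext
    rw [← hGdef, h]
    rfl
  have hginv : (((g⁻¹ : ↥(isometryGroup F ⇑Q)) : GL ι F) : Matrix ι ι F) = G ^ (r - 1) := by
    rw [hGdef]
    exact coe_inv_eq_pow g hr.pos hgr
  obtain ⟨f, v, hf, hfd, hf1, hv, hfv⟩ := pf_exists_fv (p := p) G hr hrp hGr hG1
  have hfin0 : Module.Finite F (AdjoinRoot f) := (AdjoinRoot.powerBasis hf.ne_zero).finite
  have hfin : Finite (AdjoinRoot f) := Module.finite_of_finite F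
  by_cases hA : ∃ w : ι → F, (aeval G f) *ᵥ w = 0 ∧ Q w ≠ 0
  · obtain ⟨w, hw, hQw⟩ := hA
    obtain ⟨j, z, γ, n, o, h1, h2, h3, h4, h5, h6, h7, h8, h9, h10, h11⟩ :=
      pf_model1 Q hq G hG hr hro hGr f hf hfd hf1 w hw hQw
    exact pf_transport Q hQ hq g j z γ n o h1 (by rw [← hGdef]; exact h2) h3 h4 h5 h6 h7 h8 h9
      h10 h11
  by_cases hB : ∃ w : ι → F, (aeval (G ^ (r - 1)) f) *ᵥ w = 0 ∧ Q w ≠ 0
  · obtain ⟨w, hw, hQw⟩ := hB
    have hH : ∀ x, Q ((G ^ (r - 1)) *ᵥ x) = Q x := by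
      rw [← hginv]
      exact (mem_iso_iff ⇑Q _).mp (g⁻¹).2
    have hHr : (G ^ (r - 1)) ^ r = 1 := by
      rw [← pow_mul, mul_comm, pow_mul, hGr, one_pow]
    obtain ⟨j, z, γ, n, o, h1, h2, h3, h4, h5, h6, h7, h8, h9, h10, h11⟩ :=
      pf_model1 Q hq (G ^ (r - 1)) hH hr hro hHr f hf hfd hf1 w hw hQw
    obtain ⟨u, hu, hspin⟩ := pf_transport Q hQ hq g⁻¹ j z γ n o h1 (by rw [hginv]; exact h2) h3
      h4 h5 h6 h7 h8 h9 h10 h11
    refine ⟨u, ?_, hspin⟩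
    have e1 : g * (u * g⁻¹) * g = g * (g⁻¹ * u) * g := by rw [hu]
    have e2 : g * (u * g⁻¹) * g = g * u := by group
    have e3 : g * (g⁻¹ * u) * g = u * g := by group
    rw [← e3, ← e1, e2]
  · have hA' : ∀ w : ι → F, (aeval G f) *ᵥ w = 0 → Q w = 0 := by
      intro w hw
      by_contra hne
      exact hA ⟨w, hw, hne⟩
    have hB' : ∀ w : ι → F, (aeval (G ^ (r - 1)) f) *ᵥ w = 0 → Q w = 0 := by
      intro w hw
      by_contra hne
      exact hB ⟨w, hw, hne⟩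
    obtain ⟨v', hv', hvv'⟩ := pf_pair Q hQ G hG hr hrp hGr f hf hfd v hv hfv
    obtain ⟨j, z, γ, n, o, h1, h2, h3, h4, h5, h6, h7, h8, h9, h10, h11⟩ :=
      pf_model2 Q hq G hG hr hGr f hf hfd v v' hfv hv' hvv' hA' hB'
    exact pf_transport Q hQ hq g j z γ n o h1 (by rw [← hGdef]; exact h2) h3 h4 h5 h6 h7 h8 h9
      h10 h11

theorem spin_cases : ∀ a1 a2 b1 b2 : ℤˣ, b1 * b2 = -1 →
    (a1 = 1 ∧ a2 = 1) ∨ (a1 = -1 ∧ a2 = -1) ∨ (a1 = b1 ∧ a2 = b2) ∨ (a1 = -b1 ∧ a2 = -b2) := by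
  decide

theorem spin_cases' : ∀ a1 a2 : ℤˣ, a1 * a2 = 1 → (a1 = 1 ∧ a2 = 1) ∨ (a1 = -1 ∧ a2 = -1) := by
  decide

theorem units_int_mul_self : ∀ a : ℤˣ, a * a = 1 := by decide

theorem units_int_neg_mul : ∀ a : ℤˣ, -1 * a = -a := by decide

/-- CORE: a conjugate of `g` under a similarity with `det = μ ^ n` is a conjugate under `Ω` -/
theorem pf_core {p : ℕ} [Fact p.Prime] [CharP F p] (Q : QuadraticForm F (ι → F))
    (hQ : (QuadraticMap.polarBilin Q).Nondegenerate) (hq : Odd (Fintype.card F))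
    (hcard : 2 ≤ Fintype.card ι) {n : ℕ} {J : Matrix ι ι F} {v₀ : ι → F} (D : KData ⇑Q n J v₀)
    (g : ↥(isometryGroup F ⇑Q)) {r : ℕ} (hr : r.Prime) (hro : Odd r) (hrp : r ≠ p)
    (hgr : g ^ r = 1) (hg1 : g ≠ 1) (h : GL ι F)
    (hh : h ∈ Geo.quadSimilarityGroup (F := F) ⇑Q)
    (hdet : (h : Matrix ι ι F).det = mult ⇑Q v₀ h ^ n) :
    ∃ t : ↥(isometryGroup F ⇑Q), t ∈ Omega F ⇑Q ∧
      (t : GL ι F) * (g : GL ι F) * (t : GL ι F)⁻¹ = h * (g : GL ι F) * h⁻¹ := by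
  have h2 : (2 : F) ≠ 0 := D.h2
  have hpp : p.Prime := Fact.out
  have hrcop : r.Coprime p := (Nat.coprime_primes hr hpp).mpr hrp
  have hrF : (r : F) ≠ 0 := by
    intro h0
    rw [CharP.cast_eq_zero_iff F p] at h0
    exact hrp ((Nat.prime_dvd_prime_iff_eq hpp hr).mp h0).symm
  obtain ⟨S, hS⟩ := pf_orth Q hQ g hro hrcop hgr h hh
  obtain ⟨u, hug, hu⟩ := pf_kl Q hQ hq g hr hro hrp hgr hg1
  obtain ⟨ε, hε⟩ := FiniteField.exists_nonsquare (Cfsg.Agent.Helper45.ringChar_ne_two h2)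
  have hε0 : ε ≠ 0 := by
    rintro rfl
    exact hε ⟨0, by simp⟩
  have hu1 := hu 1 one_ne_zero
  have huε := hu ε hε0
  suffices hkey : ∃ c' : ↥(isometryGroup F ⇑Q), c' * g = g * c' ∧
      spin ⇑Q 1 c' = spin ⇑Q 1 S ∧ spin ⇑Q ε c' = spin ⇑Q ε S by
    obtain ⟨c', hc'g, h1, h3⟩ := hkey
    refine ⟨S * c', (mem_omega_iff Q h2 hQ hcard ε hε _).mpr
      ⟨by rw [map_mul, h1, units_int_mul_self], by rw [map_mul, h3, units_int_mul_self]⟩, ?_⟩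
    rw [← hS]
    have e1 : (c' : GL ι F) * (g : GL ι F) = (g : GL ι F) * (c' : GL ι F) :=
      congrArg (fun x : ↥(isometryGroup F ⇑Q) => (x : GL ι F)) hc'g
    show (S : GL ι F) * (c' : GL ι F) * (g : GL ι F) * ((S : GL ι F) * (c' : GL ι F))⁻¹ = _
    have e2 : (S : GL ι F) * (c' : GL ι F) * (g : GL ι F) * ((S : GL ι F) * (c' : GL ι F))⁻¹
        = (S : GL ι F) * ((c' : GL ι F) * (g : GL ι F)) * (c' : GL ι F)⁻¹ * (S : GL ι F)⁻¹ := by
      group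
    rw [e2, e1]
    group
  rcases pf_fix_or Q hQ g hrF hgr with ⟨w, hgw, hQw⟩ | hfix
  · -- a reflection centralising `g`
    obtain ⟨ρ, hρdef⟩ : ∃ ρ : ↥(isometryGroup F ⇑Q), ρ = reflO Q w hQw := ⟨_, rfl⟩
    have hρg : ρ * g = g * ρ := by
      have h3 : g * reflO Q w hQw * g⁻¹ = reflO Q w hQw := by
        rw [conj_reflO Q g w hQw (by rw [hgw]; exact hQw)]
        exact Cfsg.Agent.Helper44.reflO_congr Q _ _ _ hQw hgw
      rw [hρdef]
      exact (mul_inv_eq_iff_eq_mul.mp h3).symm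
    have hρ : spin ⇑Q 1 ρ * spin ⇑Q ε ρ = -1 := by
      rw [hρdef]
      by_cases hsq : IsSquare (Q w)
      · rw [spin_one_reflO_sq Q h2 w hQw hsq, spin_eps_reflO_sq Q h2 ε hε w hQw hsq]; rfl
      · rw [spin_one_reflO_nsq Q h2 w hQw hsq, spin_eps_reflO_nsq Q h2 ε hε w hQw hsq]; rfl
    have huρg : (u * ρ) * g = g * (u * ρ) := by
      rw [mul_assoc, hρg, ← mul_assoc, hug, mul_assoc]
    rcases spin_cases (spin ⇑Q 1 S) (spin ⇑Q ε S) _ _ hρ with ⟨a1, a2⟩ | ⟨a1, a2⟩ | ⟨a1, a2⟩ |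
      ⟨a1, a2⟩
    · exact ⟨1, by rw [one_mul, mul_one], by rw [map_one, a1], by rw [map_one, a2]⟩
    · exact ⟨u, hug, by rw [a1, hu1], by rw [a2, huε]⟩
    · exact ⟨ρ, hρg, a1.symm, a2.symm⟩
    · exact ⟨u * ρ, huρg, by rw [map_mul, hu1, a1, units_int_neg_mul],
        by rw [map_mul, huε, a2, units_int_neg_mul]⟩
  · -- no fixed vectors: `det S = 1`
    have hSsim : ((S : GL ι F))⁻¹ ∈ Geo.quadSimilarityGroup (F := F) ⇑Q :=
      inv_mem (iso_le_sim _ S.2)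
    obtain ⟨c, hcdef⟩ : ∃ c : GL ι F, c = (S : GL ι F)⁻¹ * h := ⟨_, rfl⟩
    have hcsim : c ∈ Geo.quadSimilarityGroup (F := F) ⇑Q := by
      rw [hcdef]
      exact mul_mem hSsim hh
    have hcg : c * (g : GL ι F) = (g : GL ι F) * c := by
      rw [hcdef]
      have e1 : (S : GL ι F) * (g : GL ι F) = h * (g : GL ι F) * h⁻¹ * (S : GL ι F) := by
        rw [← hS, inv_mul_cancel_right]
      have e2 : (g : GL ι F) * ((S : GL ι F)⁻¹ * h)
          = (S : GL ι F)⁻¹ * ((S : GL ι F) * (g : GL ι F)) * ((S : GL ι F)⁻¹ * h) := by group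
      rw [e2, e1]
      group
    have hdc := pf_skew_det Q D g hro hgr hfix c hcsim hcg
    have hmS : mult ⇑Q v₀ ((S : GL ι F)⁻¹) = 1 := by
      unfold mult
      have : ((S : GL ι F))⁻¹ ∈ isometryGroup F ⇑Q := inv_mem S.2
      rw [(mem_iso_iff ⇑Q _).mp this, D.hv₀]
    have hmc : mult ⇑Q v₀ c = mult ⇑Q v₀ h := by
      rw [hcdef, D.mult_mul hSsim, hmS, one_mul]
    have hm0 : mult ⇑Q v₀ h ≠ 0 := (D.mult_spec hh).2
    have hdetS : ((S : GL ι F) : Matrix ι ι F).det = 1 := by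
      have e1 : ((S : GL ι F) : Matrix ι ι F).det * (c : Matrix ι ι F).det
          = (h : Matrix ι ι F).det := by
        rw [← Matrix.det_mul, ← Units.val_mul, hcdef, mul_inv_cancel_left]
      rw [hdc, hmc, hdet] at e1
      exact mul_right_cancel₀ (pow_ne_zero n hm0) (by rw [e1, one_mul])
    have hprod := (det_eq_one_iff Q h2 hQ ε hε S).mp hdetS
    rcases spin_cases' _ _ hprod with ⟨a1, a2⟩ | ⟨a1, a2⟩
    · exact ⟨1, by rw [one_mul, mul_one], by rw [map_one, a1], by rw [map_one, a2]⟩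
    · exact ⟨u, hug, by rw [a1, hu1], by rw [a2, huε]⟩

/-- GEN: the generic fusion statement -/
theorem pf_gen {p : ℕ} [Fact p.Prime] [CharP F p] (Q : QuadraticForm F (ι → F))
    (q : (ι → F) → F) (hq' : ⇑Q = q)
    (hQ : (QuadraticMap.polarBilin Q).Nondegenerate) (hq : Odd (Fintype.card F))
    (hcard : 2 ≤ Fintype.card ι) {n : ℕ} {J : Matrix ι ι F} {v₀ : ι → F} (D : KData q n J v₀)
    (hscal : ∀ g : GL ι F, g ∈ Geo.quadSimilarityGroup (F := F) q → Ind q g 1 →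
      ∃ c : F, (g : Matrix ι ι F) = c • (1 : Matrix ι ι F))
    (x : MulAut (POmega F q)) (hx : x ∈ pgoAut F q) {r : ℕ} (hr : r.Prime) (hro : Odd r)
    (hrp : r ≠ p) (hxr : orderOf x = r) :
    (∀ y : MulAut (POmega F q),
        (IsConjUnder (Inn (POmega F q)) x y ↔ IsConjUnder (autKf q n v₀) x y) ∧
        (IsConjUnder (psoAut F q) x y ↔ IsConjUnder (autKf q n v₀) x y)) ∧
      (∀ y : MulAut (POmega F q), IsConjUnder (poAut F q) x y ↔ IsConjUnder (pgoAut F q) x y) := by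
  subst hq'
  have hpp : p.Prime := Fact.out
  have hrcop : r.Coprime p := (Nat.coprime_primes hr hpp).mpr hrp
  obtain ⟨g, hgx, hgr, hg1⟩ := pf_lift Q D hscal x hx hr hro hxr
  have hgsim : (g : GL ι F) ∈ Geo.quadSimilarityGroup (F := F) ⇑Q := iso_le_sim _ g.2
  have key : ∀ (h t : GL ι F), h ∈ Geo.quadSimilarityGroup (F := F) ⇑Q →
      t ∈ Geo.quadSimilarityGroup (F := F) ⇑Q → ∀ β β' : MulAut (POmega F ⇑Q),
      Ind ⇑Q h β → Ind ⇑Q t β' → t * (g : GL ι F) * t⁻¹ = h * (g : GL ι F) * h⁻¹ →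
      β * x * β⁻¹ = β' * x * β'⁻¹ := by
    intro h t hh ht β β' hβ hβ' heq
    have e1 : Ind ⇑Q (h * (g : GL ι F) * h⁻¹) (β * x * β⁻¹) :=
      ind_mul ⇑Q (inv_mem hh) (ind_mul ⇑Q hgsim hβ hgx) (ind_inv ⇑Q hh hβ)
    have e2 : Ind ⇑Q (t * (g : GL ι F) * t⁻¹) (β' * x * β'⁻¹) :=
      ind_mul ⇑Q (inv_mem ht) (ind_mul ⇑Q hgsim hβ' hgx) (ind_inv ⇑Q ht hβ')
    rw [heq] at e2
    have hmem : h * (g : GL ι F) * h⁻¹ ∈ Geo.quadSimilarityGroup (F := F) ⇑Q :=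
      mul_mem (mul_mem hh hgsim) (inv_mem hh)
    rw [ind_unique ⇑Q _ hmem _ e1, ind_unique ⇑Q _ hmem _ e2]
  have hInnK : Inn (POmega F ⇑Q) ≤ autKf ⇑Q n v₀ := by
    rw [autKf_eq Q D]
    exact inn_le_autK Q D
  have hPsoK : psoAut F ⇑Q ≤ autKf ⇑Q n v₀ := by
    rw [autKf_eq Q D]
    exact psoAut_le_autK Q D
  have hKInn : ∀ y : MulAut (POmega F ⇑Q), IsConjUnder (autKf ⇑Q n v₀) x y →
      IsConjUnder (Inn (POmega F ⇑Q)) x y := by
    rintro y ⟨β, hβ, rfl⟩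
    rw [autKf_eq Q D, mem_autK_iff] at hβ
    obtain ⟨h, ⟨hh, hdet⟩, hind⟩ := hβ
    obtain ⟨t, htΩ, ht⟩ := pf_core Q hQ hq hcard D g hr hro hrp hgr hg1 h hh hdet
    refine ⟨MulAut.conj (QuotientGroup.mk (⟨t, htΩ⟩ : ↥(Omega F ⇑Q))), ⟨_, rfl⟩, ?_⟩
    exact key h t hh (iso_le_sim _ t.2) _ _ hind (ind_conj Q ⟨t, htΩ⟩) ht
  refine ⟨fun y => ⟨⟨?_, hKInn y⟩, ⟨?_, ?_⟩⟩, fun y => ⟨?_, ?_⟩⟩
  · rintro ⟨β, hβ, rfl⟩
    exact ⟨β, hInnK hβ, rfl⟩
  · rintro ⟨β, hβ, rfl⟩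
    exact ⟨β, hPsoK hβ, rfl⟩
  · intro hy
    obtain ⟨β, hβ, e⟩ := hKInn y hy
    exact ⟨β, inn_le_psoAut Q hβ, e⟩
  · rintro ⟨β, hβ, rfl⟩
    refine ⟨β, ?_, rfl⟩
    rw [mem_poAut_iff] at hβ
    obtain ⟨h, hh, hind⟩ := hβ
    exact (mem_pgoAut_iff ⇑Q β).mpr ⟨h, iso_le_sim _ hh, hind⟩
  · rintro ⟨β, hβ, rfl⟩
    rw [mem_pgoAut_iff] at hβ
    obtain ⟨h, hh, hind⟩ := hβ
    obtain ⟨S, hS⟩ := pf_orth Q hQ g hro hrcop hgr h hh
    have hSsim : (S : GL ι F) ∈ Geo.quadSimilarityGroup (F := F) ⇑Q := iso_le_sim _ S.2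
    refine ⟨indAut ⇑Q (S : GL ι F) hSsim,
      (mem_poAut_iff ⇑Q _).mpr ⟨S, S.2, ind_indAut ⇑Q _ hSsim⟩, ?_⟩
    exact key h S hh hSsim _ _ hind (ind_indAut ⇑Q _ hSsim) hS

omit [Fintype ι] [DecidableEq ι] in
theorem odd_card_of_char {p : ℕ} [Fact p.Prime] [CharP F p] (hp : p ≠ 2) :
    Odd (Fintype.card F) := by
  obtain ⟨k, hk⟩ := FiniteField.card F p
  rw [hk.2]
  exact ((Fact.out : p.Prime).odd_of_ne_two hp).pow

end Cfsg.Agent.Helper43.PFAsm
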