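import Mathlib
import Cfsg.Agent.Helper43.StarPoly

set_option autoImplicit false

/-!
# Elements of odd prime order `r ≠ p` in the symplectic group and their characteristic
polynomials (helper43)

* `charpoly_of_order` : the characteristic polynomial of an element of order `r` is a `psi` with
  `star`-symmetric exponents, not all zero;
* `exists_of_psi` : every such `psi` (with even exponent at `X - 1` and the right degree) is the
  characteristic polynomial of an element of order `r`.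
-/

namespace Cfsg.Agent.Helper43.PrimeOrdSp

open Polynomial Cfsg.Agent.Helper43.SpReal Cfsg.Agent.Helper43.CycFactors
  Cfsg.Agent.Helper43.PrimeOrdMat Cfsg.Agent.Helper43.StarPoly

universe u

variable {F : Type u} [Field F] [Fintype F] {p : ℕ} [Fact p.Prime] [CharP F p]

theorem charpoly_of_order {q : ℕ} (hF : Fintype.card F = q) {m r : ℕ} (hr : r.Prime)
    (hrp : r ≠ p) (g : Matrix.symplecticGroup (Fin m) F) (hg : orderOf g = r) :
    ∃ (c₀ : ℕ) (c : F[X] → ℕ),
      (g : Matrix (Fin m ⊕ Fin m) (Fin m ⊕ Fin m) F).charpoly = psi r c₀ c ∧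
      (∀ P ∈ cycJ F r, c (SpReal.star P) = c P) ∧ (∃ P ∈ cycJ F r, c P ≠ 0) ∧
      c₀ + orderOf (q : ZMod r) * ∑ P ∈ cycJ F r, c P = 2 * m := by
  have hrF : (r : F) ≠ 0 := natCast_ne_zero_of_ne hr hrp
  set M : Matrix (Fin m ⊕ Fin m) (Fin m ⊕ Fin m) F := g.1 with hMdef
  have hM : M ^ r = 1 := by
    rw [hMdef, ← SubmonoidClass.coe_pow, ← hg, pow_orderOf_eq_one]
    rfl
  let e := finSumFinEquiv (m := m) (n := m)
  have hM' : (Matrix.reindexAlgEquiv F F e M) ^ r = 1 := by rw [← map_pow, hM, map_one]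
  have hch' : (Matrix.reindexAlgEquiv F F e M).charpoly = M.charpoly :=
    Matrix.charpoly_reindex e M
  obtain ⟨c₀, c, hc⟩ := charpoly_eq_psi p hr hrp _ hM'
  rw [hch'] at hc
  refine ⟨c₀, c, hc, ?_, ?_, ?_⟩
  · apply psi_symm_of_reverse hr hrF c₀ c
    rw [← hc]
    exact charpoly_reverse_symplectic g
  · by_contra hall
    push Not at hall
    have h1 : (psi r c₀ c : F[X]) = (X - 1) ^ c₀ := by
      rw [psi, Finset.prod_eq_one (fun P hP => by rw [hall P hP, pow_zero]), mul_one]
    have h2 := eq_one_of_charpoly hr hrF M hM c₀ (hc.trans h1)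
    have h3 : g = 1 := Subtype.ext h2
    rw [h3, orderOf_one] at hg
    exact hr.one_lt.ne hg
  · have h1 := Matrix.charpoly_natDegree_eq_dim M
    rw [hc, psi_natDegree (p := p) hF hr hrp, Fintype.card_sum, Fintype.card_fin] at h1
    omega

theorem exists_of_psi {q : ℕ} (hF : Fintype.card F = q) {m r : ℕ} (hr : r.Prime) (hrp : r ≠ p)
    (c₀ : ℕ) (c : F[X] → ℕ) (hc₀ : Even c₀) (hsym : ∀ P ∈ cycJ F r, c (SpReal.star P) = c P)
    (hnz : ∃ P ∈ cycJ F r, c P ≠ 0)
    (hdeg : c₀ + orderOf (q : ZMod r) * ∑ P ∈ cycJ F r, c P = 2 * m) :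
    ∃ g : Matrix.symplecticGroup (Fin m) F, orderOf g = r ∧
      (g : Matrix (Fin m ⊕ Fin m) (Fin m ⊕ Fin m) F).charpoly = psi r c₀ c := by
  have : Fact r.Prime := ⟨hr⟩
  have hrF : (r : F) ≠ 0 := natCast_ne_zero_of_ne hr hrp
  have hpal := psi_reverse hr hrF c₀ c hc₀ hsym
  have hmon : (psi r c₀ c : F[X]).Monic := psi_monic r c₀ c
  have hnat : (psi r c₀ c : F[X]).natDegree = 2 * m := by
    rw [psi_natDegree (p := p) hF hr hrp, hdeg]
  obtain ⟨n', g, hgo, hgch⟩ := exists_symplectic_of_realz p (realz_of_palin p m _ hmon hnat hpal)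
  have hn' : n' = m := by
    have h3 := Matrix.charpoly_natDegree_eq_dim
      (g : Matrix (Fin n' ⊕ Fin n') (Fin n' ⊕ Fin n') F)
    rw [hgch, hnat, Fintype.card_sum, Fintype.card_fin] at h3
    omega
  subst hn'
  refine ⟨g, ?_, hgch⟩
  set M : Matrix (Fin n' ⊕ Fin n') (Fin n' ⊕ Fin n') F := g.1 with hMdef
  have hMk : M ^ orderOf g = 1 := by
    rw [hMdef, ← SubmonoidClass.coe_pow, pow_orderOf_eq_one]
    rfl
  let e := finSumFinEquiv (m := n') (n := n')
  have hM'k : (Matrix.reindexAlgEquiv F F e M) ^ orderOf g = 1 := by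
    rw [← map_pow, hMk, map_one]
  have hch' : (Matrix.reindexAlgEquiv F F e M).charpoly = psi r c₀ c :=
    (Matrix.charpoly_reindex e M).trans hgch
  have hM'r := pow_eq_one_of_charpoly_psi p hr hgo _ hM'k c₀ c hch'
  have hMr : M ^ r = 1 := by
    apply (Matrix.reindexAlgEquiv F F e).injective
    rw [map_pow, hM'r, map_one]
  apply orderOf_eq_prime
  · apply Subtype.ext
    rw [SubmonoidClass.coe_pow]
    exact hMr
  · intro h1
    have h2 : M = 1 := by
      rw [hMdef, h1]
      rfl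
    have h3 : (psi r (n' + n') (fun _ => 0) : F[X]) = psi r c₀ c := by
      rw [← hgch, h2, Matrix.charpoly_one, Fintype.card_sum, Fintype.card_fin, psi]
      simp
    obtain ⟨P, hP, hPne⟩ := hnz
    exact hPne ((psi_injective hr hrF _ _ _ _ h3).2 P hP).symm

end Cfsg.Agent.Helper43.PrimeOrdSp
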