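import Mathlib
import Cfsg.Prelude.Def_GeometricClasses
import Cfsg.Prelude.Def_Classical
import Cfsg.Agent.Helper35.S88Defs
import Cfsg.Agent.Helper96.OHAll
import Cfsg.Agent.Helper96.OHAux
import Cfsg.Agent.Helper96.S88BadOf
import Cfsg.Agent.Helper35.TBXODD
import Cfsg.Agent.Helper35.TSSTDP
import Cfsg.Agent.Helper86.ELNDIVCore
import Cfsg.Agent.Helper86.ELBADMAX
import Cfsg.Agent.Helper35.S88OOXFER
import Cfsg.Agent.Helper37.TBBLKE

set_option autoImplicit false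

/-!
# Stage OEB (`s88_even_bad`) of CALL S88 (row S5988; top architect helper90)

`r` odd `≠ p`, `i = ord_r(q)` even, direction `⟹`.  The bad element (`oe_bad_elt`): the block
`tb_blk_even P ((2 d) / i)` glued (`Helper86.EL5988.el_glue`) to a fixed space of dimension
`(2 d) % i` of the right type and transferred to the standard plus form
(`Helper35.S88OO.oo_xfer`); its fixed space has dimension `(2 d) % i`.  The stage then follows from
helper96's reduction `Helper96.S88.s88_even_bad_of` and helper86's `el_ndiv_of_bad`.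
-/

namespace Cfsg.Agent.Helper43.S88

open Module Polynomial Cfsg Cfsg.Geo
open Cfsg.Agent.Helper13.TIu Cfsg.Agent.Helper96.OH Cfsg.Agent.Helper35.S88
open Cfsg.Agent.Helper43 Cfsg.Agent.Helper43.OrthEven Cfsg.Agent.Helper43.CycFactors
  Cfsg.Agent.Helper43.PrimeOrdMat
open scoped MatrixGroups

universe u

/-- the bad element for `i` even: an isometry of order dividing `r` of the standard plus form whose
fixed space has dimension `(2 d) % i` -/
theorem oe_bad_elt {F : Type u} [Field F] [Fintype F] (p : ℕ) [Fact p.Prime] [CharP F p] (d : ℕ)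
    (hd : 1 ≤ d) (r : ℕ) [Fact r.Prime] (hr2 : 2 < r) (hrp : r ≠ p) (i : ℕ)
    (hi : i = orderOf ((Fintype.card F : ℕ) : ZMod r)) (heven : Even i)
    (hadm : 0 < (2 * d) % i ∨ Even ((2 * d) / i)) :
    ∃ x : GL (Fin d ⊕ Fin d) F, x ∈ Cfsg.isometryGroup F (Cfsg.quadFormPlus d F) ∧ x ^ r = 1 ∧
      finrank F (LinearMap.ker
        (Matrix.toLin' (x : Matrix (Fin d ⊕ Fin d) (Fin d ⊕ Fin d) F) - 1)) = (2 * d) % i := by
  classical
  have hr : r.Prime := Fact.out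
  obtain ⟨hQ, hplus⟩ := Cfsg.Agent.Helper35.TS5973.ts_std_plus (F := F) d
  have hcard : Fintype.card (Fin d ⊕ Fin d) = 2 * d := by
    rw [Fintype.card_sum, Fintype.card_fin]; ring
  have hipos : 0 < i := by rw [hi]; exact orderOf_pos_of_card (p := p) rfl hr hrp
  have hrF : (r : F) ≠ 0 := natCast_ne_zero_of_ne (p := p) hr hrp
  have heven' : Even (orderOf ((Fintype.card F : ℕ) : ZMod r)) := by rw [← hi]; exact heven
  obtain ⟨j, hj⟩ := heven
  have hj2 : i / 2 = j := by omega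
  have hcardJ : (cycJ F r).card * i = r - 1 := by
    rw [hi]; exact cycJ_card_mul (p := p) rfl hr hrp
  have hne : (cycJ F r).Nonempty := by
    rw [← Finset.card_pos]
    by_contra h
    have h0 : (cycJ F r).card = 0 := by omega
    rw [h0, zero_mul] at hcardJ
    omega
  obtain ⟨P, hP⟩ := hne
  obtain ⟨A, hA⟩ : ∃ A, A = (2 * d) / i := ⟨_, rfl⟩
  obtain ⟨ρ, hρ⟩ : ∃ ρ, ρ = (2 * d) % i := ⟨_, rfl⟩
  obtain ⟨V₁, _, _, _, Q₁, T₁, hnd₁, hT₁, hcyc₁, -, hfr₁, hts₁, -⟩ :=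
    Cfsg.Agent.Helper37.TB.tb_blk_even (F := F) p r hr2 hrp heven' P hP A
  rw [← hi, hj2] at hfr₁ hts₁
  have hdm := Nat.div_add_mod (2 * d) i
  rw [← hA, ← hρ] at hdm
  rw [← hA, ← hρ] at hadm
  rw [← hρ]
  have hiA : i * A = 2 * (j * A) := by rw [hj]; ring
  obtain ⟨k₀, hk₀⟩ : ∃ k₀, ρ = 2 * k₀ := ⟨ρ / 2, by omega⟩
  obtain ⟨ε₀, hε₀⟩ : ∃ ε₀ : ℕ, ε₀ = if Even A then 0 else 1 := ⟨_, rfl⟩
  have hε1 : ε₀ ≤ 1 := by
    rw [hε₀]
    split_ifs <;> omega
  have hεk : ε₀ ≤ k₀ := by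
    rw [hε₀]
    split_ifs with h
    · omega
    · rcases hadm with h' | h'
      · omega
      · exact absurd h' h
  obtain ⟨V', _, _, _, Q', T, hnd', hdim', htype', hT', hTr, hker⟩ :=
    Cfsg.Agent.Helper86.EL5988.el_glue r hrF Q₁ T₁ hnd₁ hT₁ hcyc₁ (j * A) hfr₁ k₀ ε₀ hε1 hεk
  have hkl : k₀ + j * A = d := by omega
  rw [hkl] at hdim' htype'
  have htype : HasTS Q' d := by
    rw [htype', hts₁, hε₀]
    by_cases hA2 : Even A
    · rw [if_pos hA2]
      exact ⟨fun _ => hA2, fun _ => rfl⟩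
    · rw [if_neg hA2]
      exact ⟨fun h => absurd h one_ne_zero, fun h => absurd h hA2⟩
  obtain ⟨x, hx, hxr, hxk⟩ :=
    Cfsg.Agent.Helper35.S88OO.oo_xfer (Cfsg.quadFormPlus d F) hQ d hd hcard hplus r hr.pos Q' hnd'
      hdim' htype T hT' hTr
  exact ⟨x, hx, hxr, by rw [hxk, hker, hk₀]⟩

variable {F : Type*} [Field F] [Fintype F]

/-- OEB. -/
theorem s88_even_bad {p : ℕ} [Fact p.Prime] [CharP F p] {q : ℕ} (hq : Fintype.card F = q)
    (d m : ℕ) (hd : 4 ≤ d) (hm : 2 ≤ m) (hme : Even m) (hmd : m < d) (r : ℕ) [Fact r.Prime]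
    (hr2 : 2 < r) (hrp : r ≠ p) (i : ℕ) (hi : i = orderOf (q : ZMod r)) (heven : Even i)
    (hrΩ : r ∣ Nat.card {W : Submodule F (Fin d ⊕ Fin d → F) // Module.finrank F ↥W = m ∧
      Cfsg.Geo.IsNondegenerateOn (QuadraticMap.polar (Cfsg.quadFormPlus d F)) W ∧
      ¬ Cfsg.Geo.IsPlusTypeOn (Cfsg.quadFormPlus d F) W})
    (hall : AllEll (Cfsg.quadFormPlus d F) r m) :
    ((2 * d) % i = 0 ∧ (Odd ((2 * d) / i) ∨ (m % i = 0 ∧ Odd (m / i)))) ∨
      (i ≤ m ∧ ((0 < m % i ∧ m % i < (2 * d) % i) ∨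
        (0 < m % i ∧ m % i = (2 * d) % i ∧ Odd ((2 * d + m - 2 * ((2 * d) % i)) / i)) ∨
        (m % i = 0 ∧ 0 < (2 * d) % i ∧ Odd (m / i)))) := by
  classical
  have hr : r.Prime := Fact.out
  subst hq
  obtain ⟨hQ, hplus⟩ := Cfsg.Agent.Helper35.TS5973.ts_std_plus (F := F) d
  have hcard : Fintype.card (Fin d ⊕ Fin d) = 2 * d := by
    rw [Fintype.card_sum, Fintype.card_fin]; ring
  have hrodd : Odd r := hr.odd_of_ne_two (by omega)
  have hrF : (r : F) ≠ 0 := Cfsg.Agent.Helper96.OHAux.oh_rF p r hrp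
  have hc : i = if Even i then i else 2 * i := by
    rw [if_pos heven]
  have hipos : 0 < i := by rw [hi]; exact orderOf_pos_of_card (p := p) rfl hr hrp
  have hmodlt : (2 * d) % i < i := Nat.mod_lt _ hipos
  -- NDIV for an element with fixed space of dimension `(2 d) % i`
  have key : ∀ x : GL (Fin d ⊕ Fin d) F, x ∈ Cfsg.isometryGroup F (Cfsg.quadFormPlus d F) →
      x ^ r = 1 →
      finrank F (LinearMap.ker
        (Matrix.toLin' (x : Matrix (Fin d ⊕ Fin d) (Fin d ⊕ Fin d) F) - 1)) = (2 * d) % i →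
      m < i → (m < (2 * d) % i ∨ (m = (2 * d) % i ∧ Odd ((2 * d) / i))) → False := by
    intro x hx hxr hxk hmi hk
    have hTpres : OPres (Cfsg.quadFormPlus d F)
        (Matrix.toLin' (x : Matrix (Fin d ⊕ Fin d) (Fin d ⊕ Fin d) F)) := by
      intro v
      rw [Matrix.toLin'_apply]
      exact hx v v
    have hTr : (Matrix.toLin' (x : Matrix (Fin d ⊕ Fin d) (Fin d ⊕ Fin d) F)) ^ r = 1 := by
      rw [Cfsg.Agent.Helper96.OHAux.oh_toLin'_pow_eq, ← Units.val_pow_eq_pow_val, hxr,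
        Units.val_one, Matrix.toLin'_one]
      rfl
    refine Cfsg.Agent.Helper86.EL5988.el_ndiv_of_bad (Cfsg.quadFormPlus d F) hQ hplus d hcard r hr2
      hrF i i hi hc m hme (by omega) hmi _ hTpres hTr (by rw [hxk]; exact hmodlt) ?_ hrΩ
    rcases hk with h | ⟨h1, h2⟩
    · exact Or.inl (by rw [hxk]; exact h)
    · exact Or.inr ⟨heven, by rw [hxk]; exact h1, by rw [hcard]; exact h2⟩
  refine Cfsg.Agent.Helper96.S88.s88_even_bad_of rfl d m hme r hr2 hrp i hi heven ?_ ?_ hall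
  · intro hadm
    obtain ⟨x, hx, hxr, hxk⟩ := oe_bad_elt (F := F) p d (by omega) r hr2 hrp i hi heven hadm
    have hx1 : x ≠ 1 := by
      intro h1
      have hxk' := hxk
      rw [h1, Units.val_one, Matrix.toLin'_one] at hxk'
      have h2 : (LinearMap.id : (Fin d ⊕ Fin d → F) →ₗ[F] (Fin d ⊕ Fin d → F)) - 1 = 0 :=
        sub_self _
      rw [h2, LinearMap.ker_zero, finrank_top, Module.finrank_fintype_fun_eq_card, hcard] at hxk'
      exact key x hx hxr hxk (by omega) (Or.inl (by omega))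
    have hxΩ : x ∈ omegaGL (Cfsg.quadFormPlus d F) :=
      Cfsg.Agent.Helper35.TB.tb_xodd _ hQ (by rw [hcard]; omega) x hx r hrodd hxr
    exact ⟨x, hxΩ, hxr, hx1, hxk⟩
  · intro hmi hk
    have hadm : 0 < (2 * d) % i ∨ Even ((2 * d) / i) := by
      left
      omega
    obtain ⟨x, hx, hxr, hxk⟩ := oe_bad_elt (F := F) p d (by omega) r hr2 hrp i hi heven hadm
    exact key x hx hxr hxk hmi hk

end Cfsg.Agent.Helper43.S88
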