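import Mathlib
import Cfsg.Prelude.Def_GeometricClasses
import Cfsg.Prelude.Def_Classical
import Cfsg.Agent.Helper35.S88Defs
import Cfsg.Agent.Helper96.OHAll
import Cfsg.Agent.Helper43.S88OEDefs

set_option autoImplicit false

/-!
# Sub-CALL S88OE (helper43) of CALL S88 (row S5988): BADCORE for `i` even

An isometry `T` with `T ^ r = 1` of a plus-type space of dimension `2 d`, `i = ord_r(q)` even, and
an invariant elliptic subspace `W` of dimension `2 l`: the profile `(A, k₀)` of `T`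
(`dim ker (T - 1) = 2 k₀`, `d = k₀ + (i / 2) A`) has an admissible pair `(s, w₂)` with
`l = (i / 2) s + w₂`.  (Adapted from `Cfsg.Agent.Helper35.S88OO.oo_bad_core`.)
-/

namespace Cfsg.Agent.Helper43.S88OE

open Module Polynomial Cfsg Cfsg.Geo
open Cfsg.Agent.Helper13.TIu Cfsg.Agent.Helper96.OH Cfsg.Agent.Helper35.S88
open scoped MatrixGroups

universe u

theorem oe_bad_core {ι : Type} [Fintype ι] [DecidableEq ι] {F : Type u} [Field F] [Fintype F]
    (Q : (ι → F) → F) (hQ : IsNondegenerateQuadraticForm Q)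
    (hplus : OPl Q ⊤) (d : ℕ) (hcard : Fintype.card ι = 2 * d)
    (T : Module.End F (ι → F)) (hT : OPres Q T) (r : ℕ) [Fact r.Prime] (hr2 : 2 < r)
    (hrF : (r : F) ≠ 0) (hTr : T ^ r = 1) (i : ℕ)
    (hi : i = orderOf ((Fintype.card F : ℕ) : ZMod r)) (heven : Even i) (hi0 : 0 < i)
    (l : ℕ) (W : Submodule F (ι → F))
    (hW : finrank F W = 2 * l ∧ ONd Q W ∧ ¬ OPl Q W) (hWT : W.map T ≤ W) :
    ∃ A k₀ s w₂, finrank F (LinearMap.ker (T - 1)) = 2 * k₀ ∧ d = k₀ + i / 2 * A ∧
      Val A k₀ s w₂ ∧ l = i / 2 * s + w₂ := by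
  classical
  have hrpr : r.Prime := Fact.out
  have hc : i = if Even i then i else 2 * i := by
    rw [if_pos heven]
  have heven' : Even (orderOf ((Fintype.card F : ℕ) : ZMod r)) := by rw [← hi]; exact heven
  obtain ⟨j, hj⟩ := heven
  have hj2 : i / 2 = j := by omega
  have hj0 : 0 < j := by omega
  obtain ⟨hWm, hWnd, hWnp⟩ := hW
  -- the decomposition of `W`
  obtain ⟨hWk, P, hPW, hPT, hP, hPk, hsup, horth, hdim⟩ :=
    Cfsg.Agent.Helper31.OH5992.o_fix Q hQ T hT r hrpr.pos hrF hTr W hWT hWnd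
  obtain ⟨s, hs⟩ := Cfsg.Agent.Helper96.OHAll.oall_cdvd_aux Q hQ T hT r hr2 hrF hTr i i hi hc
    (finrank F P) P rfl hPT hP hPk
  have hPty := Cfsg.Agent.Helper96.OHAll.oall_type_even Q hQ T hT r hr2 hrF hTr heven' P hPT hP hPk
  rw [← hi, hs, Nat.mul_div_cancel_left s hi0] at hPty
  have hPev : Even (finrank F P) := by
    rw [hs, hj]
    exact ⟨j * s, by ring⟩
  have hKev : Even (finrank F (W ⊓ LinearMap.ker (T - 1) : Submodule F (ι → F))) := by
    have h1 : Even (finrank F P +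
        finrank F (W ⊓ LinearMap.ker (T - 1) : Submodule F (ι → F))) := by
      rw [hdim, hWm]; exact even_two_mul _
    exact (Nat.even_add.1 h1).1 hPev
  have hmul := Cfsg.Agent.Helper33.o_type_mul Q hQ (W ⊓ LinearMap.ker (T - 1)) P hWk hP horth
    hKev hPev
  rw [hsup] at hmul
  have hKnp : ¬ (OPl Q (W ⊓ LinearMap.ker (T - 1)) ↔ Even s) :=
    fun h => hWnp (hmul.2 (h.trans hPty.symm))
  -- the decomposition of the whole space
  obtain ⟨hTk, P', -, hP'T, hP', hP'k, hsup', horth', hdim'⟩ :=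
    Cfsg.Agent.Helper31.OH5992.o_fix Q hQ T hT r hrpr.pos hrF hTr ⊤ le_top
      (ond_top Q hQ)
  rw [top_inf_eq] at hTk hsup' horth' hdim'
  obtain ⟨A, hA⟩ := Cfsg.Agent.Helper96.OHAll.oall_cdvd_aux Q hQ T hT r hr2 hrF hTr i i hi
    hc (finrank F P') P' rfl hP'T hP' hP'k
  have hP'ty := Cfsg.Agent.Helper96.OHAll.oall_type_even Q hQ T hT r hr2 hrF hTr heven' P' hP'T hP'
    hP'k
  rw [← hi, hA, Nat.mul_div_cancel_left A hi0] at hP'ty
  have hP'ev : Even (finrank F P') := by
    rw [hA, hj]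
    exact ⟨j * A, by ring⟩
  rw [finrank_top, Module.finrank_fintype_fun_eq_card, hcard] at hdim'
  have hK'ev : Even (finrank F (LinearMap.ker (T - 1) : Submodule F (ι → F))) := by
    have h1 : Even (finrank F P' +
        finrank F (LinearMap.ker (T - 1) : Submodule F (ι → F))) := by
      rw [hdim']; exact even_two_mul _
    exact (Nat.even_add.1 h1).1 hP'ev
  have hmul' := Cfsg.Agent.Helper33.o_type_mul Q hQ (LinearMap.ker (T - 1)) P' hTk hP' horth'
    hK'ev hP'ev
  rw [hsup'] at hmul'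
  have hKty : OPl Q (LinearMap.ker (T - 1)) ↔ Even A := (hmul'.1 hplus).trans hP'ty
  obtain ⟨k₀, hk₀⟩ := hK'ev
  obtain ⟨w₂, hw₂⟩ := hKev
  have hle : (W ⊓ LinearMap.ker (T - 1) : Submodule F (ι → F)) ≤ LinearMap.ker (T - 1) :=
    inf_le_right
  have hwk := Submodule.finrank_mono hle
  -- `s ≤ A`
  have hsA : s ≤ A := by
    have h1 := Submodule.finrank_sup_add_finrank_inf_eq P (LinearMap.ker (T - 1))
    rw [hPk, finrank_bot, add_zero] at h1
    have h2 : finrank F (P ⊔ LinearMap.ker (T - 1) : Submodule F (ι → F)) ≤ 2 * d := by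
      have := Submodule.finrank_le (P ⊔ LinearMap.ker (T - 1) : Submodule F (ι → F))
      rwa [Module.finrank_fintype_fun_eq_card, hcard] at this
    have h3 : i * s ≤ i * A := by omega
    exact Nat.le_of_mul_le_mul_left h3 hi0
  have hjs : i * s = 2 * (j * s) := by rw [hj]; ring
  have hjA : i * A = 2 * (j * A) := by rw [hj]; ring
  refine ⟨A, k₀, s, w₂, by omega, by rw [hj2]; omega, ⟨hsA, by omega, ?_⟩, by rw [hj2]; omega⟩
  by_cases h0 : w₂ = 0
  · right; left
    refine ⟨h0, ?_⟩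
    have h1 : (W ⊓ LinearMap.ker (T - 1) : Submodule F (ι → F)) = ⊥ :=
      Submodule.finrank_eq_zero.1 (by omega)
    rw [h1] at hKnp
    by_contra hodd
    exact hKnp ⟨fun _ => Nat.not_odd_iff_even.1 hodd, fun _ => Cfsg.Agent.Helper33.o_plus_bot Q hQ⟩
  · by_cases hk : w₂ = k₀
    · right; right
      refine ⟨hk, ?_⟩
      have h1 := Submodule.eq_of_le_of_finrank_eq hle (by omega)
      rw [h1] at hKnp
      by_contra hodd
      apply hKnp
      rw [hKty]
      have := Nat.not_odd_iff_even.1 hodd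
      rw [Nat.even_add] at this
      exact this.symm
    · left
      omega

end Cfsg.Agent.Helper43.S88OE
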