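/-
Helper43 library: the orthogonal representation of the symmetric group of degree `2m + 2`
(`m` odd) over `ZMod 2`: even-weight vectors modulo the all-ones vector, with the quadratic
form "half the weight"; realised on `ZMod 2 ^ (2m)` by an explicit section, with explicit
hyperbolic (resp. elliptic) frames.
-/
import Cfsg.Agent.Helper43.SymOrth

set_option autoImplicit false
set_option linter.unusedSectionVars false

namespace Cfsg.Agent.Helper43
namespace SymModel

open Module Matrix TwoFam SymOrth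

section Weight

variable {X : Type*} [Fintype X]

/-- Hamming weight -/
def wt (w : X → ZMod 2) : ℕ := ∑ x, (w x).val

/-- half the weight, modulo 2 -/
def qq (w : X → ZMod 2) : ZMod 2 := ((wt w / 2 : ℕ) : ZMod 2)

/-- `(Σ x)(Σ y) + x·y` -/
def bb : LinearMap.BilinForm (ZMod 2) (X → ZMod 2) :=
  LinearMap.mk₂ (ZMod 2) (fun x y => (∑ i, x i) * (∑ i, y i) + ∑ i, x i * y i)
    (fun x x' y => by
      simp only [Pi.add_apply, Finset.sum_add_distrib, add_mul]; ring)
    (fun c x y => by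
      simp only [Pi.smul_apply, smul_eq_mul, mul_assoc, ← Finset.mul_sum]; ring)
    (fun x y y' => by
      simp only [Pi.add_apply, Finset.sum_add_distrib, mul_add]; ring)
    (fun c x y => by
      simp only [Pi.smul_apply, smul_eq_mul, mul_left_comm _ c, ← Finset.mul_sum]; ring)

theorem bb_apply (x y : X → ZMod 2) :
    bb x y = (∑ i, x i) * (∑ i, y i) + ∑ i, x i * y i := rfl

theorem bb_symm (x y : X → ZMod 2) : bb x y = bb y x := by
  simp only [bb_apply, mul_comm]

theorem two_eq_zero' : (2 : ZMod 2) = 0 := rfl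

theorem wt_cast (w : X → ZMod 2) : ((wt w : ℕ) : ZMod 2) = ∑ x, w x := by
  simp [wt, Nat.cast_sum]

theorem val_add_pt : ∀ a b : ZMod 2, (a + b).val + 2 * (a * b).val = a.val + b.val := by decide

theorem wt_add (x y : X → ZMod 2) : wt (x + y) + 2 * ∑ i, (x i * y i).val = wt x + wt y := by
  simp only [wt, Pi.add_apply, Finset.mul_sum, ← Finset.sum_add_distrib]
  exact Finset.sum_congr rfl fun i _ => val_add_pt _ _

theorem half_cast {W A B c : ℕ} (h : W + 2 * c = A + B) :
    ((W / 2 : ℕ) : ZMod 2) = ((A / 2 : ℕ) : ZMod 2) + ((B / 2 : ℕ) : ZMod 2)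
      + (A : ZMod 2) * (B : ZMod 2) + (c : ZMod 2) := by
  have h2 : (2 : ZMod 2) = 0 := rfl
  rcases Nat.even_or_odd' A with ⟨a, rfl | rfl⟩ <;> rcases Nat.even_or_odd' B with ⟨b, rfl | rfl⟩
  · have h1 : W / 2 + c = a + b := by omega
    have e1 : 2 * a / 2 = a := by omega
    have e2 : 2 * b / 2 = b := by omega
    have h3 := congrArg (Nat.cast : ℕ → ZMod 2) h1
    rw [e1, e2]
    push_cast at h3 ⊢
    linear_combination h3 - (2 * a * b + c) * h2
  · have h1 : W / 2 + c = a + b := by omega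
    have e1 : 2 * a / 2 = a := by omega
    have e2 : (2 * b + 1) / 2 = b := by omega
    have h3 := congrArg (Nat.cast : ℕ → ZMod 2) h1
    rw [e1, e2]
    push_cast at h3 ⊢
    linear_combination h3 - (a * (2 * b + 1) + c) * h2
  · have h1 : W / 2 + c = a + b := by omega
    have e1 : (2 * a + 1) / 2 = a := by omega
    have e2 : 2 * b / 2 = b := by omega
    have h3 := congrArg (Nat.cast : ℕ → ZMod 2) h1
    rw [e1, e2]
    push_cast at h3 ⊢
    linear_combination h3 - ((2 * a + 1) * b + c) * h2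
  · have h1 : W / 2 + c = a + b + 1 := by omega
    have e1 : (2 * a + 1) / 2 = a := by omega
    have e2 : (2 * b + 1) / 2 = b := by omega
    have h3 := congrArg (Nat.cast : ℕ → ZMod 2) h1
    rw [e1, e2]
    push_cast at h3 ⊢
    linear_combination h3 - (2 * a * b + a + b + c) * h2

theorem qq_add (x y : X → ZMod 2) : qq (x + y) = qq x + qq y + bb x y := by
  have h := half_cast (wt_add x y)
  have h1 : ((∑ i, (x i * y i).val : ℕ) : ZMod 2) = ∑ i, x i * y i := by
    simp [Nat.cast_sum]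
  rw [qq, qq, qq, h, bb_apply, wt_cast, wt_cast, h1]
  ring

theorem qq_zero : qq (0 : X → ZMod 2) = 0 := by
  simp [qq, wt]

theorem qq_smul (c : ZMod 2) (x : X → ZMod 2) : qq (c • x) = c * c * qq x := by
  obtain rfl | rfl : c = 0 ∨ c = 1 := (by decide : ∀ c : ZMod 2, c = 0 ∨ c = 1) c
  · rw [zero_smul, qq_zero]; ring
  · rw [one_smul]; ring

theorem wt_perm (σ : Equiv.Perm X) (w : X → ZMod 2) : wt (w ∘ σ) = wt w := by
  unfold wt
  exact Equiv.sum_comp σ (fun x => (w x).val)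

theorem qq_perm (σ : Equiv.Perm X) (w : X → ZMod 2) : qq (w ∘ σ) = qq w := by
  rw [qq, wt_perm, qq]

theorem bb_self (x : X → ZMod 2) : bb x x = 0 := by
  rw [bb_apply]
  have h1 : ∀ i, x i * x i = x i := fun i => (by decide : ∀ a : ZMod 2, a * a = a) _
  simp only [h1]
  exact (by decide : ∀ s : ZMod 2, s * s + s = 0) _

theorem bb_one_right {w : X → ZMod 2} (hw : ∑ x, w x = 0) : bb w 1 = 0 := by
  simp [bb_apply, hw]

theorem bb_one_left {w : X → ZMod 2} (hw : ∑ x, w x = 0) : bb 1 w = 0 := by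
  rw [bb_symm, bb_one_right hw]

theorem qq_one (h4 : 4 ∣ Fintype.card X) : qq (1 : X → ZMod 2) = 0 := by
  have h1 : wt (1 : X → ZMod 2) = Fintype.card X := by
    simp [wt, ZMod.val_one]
  obtain ⟨t, ht⟩ := h4
  have h2 : Fintype.card X / 2 = 2 * t := by omega
  rw [qq, h1, h2]
  push_cast
  rw [two_eq_zero', zero_mul]

theorem qq_add_one {w : X → ZMod 2} (hw : ∑ x, w x = 0) (h4 : 4 ∣ Fintype.card X) :
    qq (w + 1) = qq w := by
  rw [qq_add, qq_one h4, bb_one_right hw, add_zero, add_zero]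

/-- permutation action on vectors -/
def permL (g : Equiv.Perm X) : (X → ZMod 2) →ₗ[ZMod 2] (X → ZMod 2) :=
  LinearMap.funLeft (ZMod 2) (ZMod 2) g.symm

omit [Fintype X] in
theorem permL_apply (g : Equiv.Perm X) (w : X → ZMod 2) (x : X) :
    permL g w x = w (g.symm x) := rfl

omit [Fintype X] in
theorem permL_one_vec (g : Equiv.Perm X) : permL g (1 : X → ZMod 2) = 1 := rfl

omit [Fintype X] in
theorem permL_mul (g h : Equiv.Perm X) (w : X → ZMod 2) :
    permL (g * h) w = permL g (permL h w) := by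
  funext x
  rfl

omit [Fintype X] in
theorem permL_one (w : X → ZMod 2) : permL 1 w = w := rfl

theorem sum_permL (g : Equiv.Perm X) (w : X → ZMod 2) : ∑ x, permL g w x = ∑ x, w x :=
  Equiv.sum_comp g.symm w

theorem qq_permL (g : Equiv.Perm X) (w : X → ZMod 2) : qq (permL g w) = qq w :=
  qq_perm g.symm w

end Weight

section Model

variable (m : ℕ)

/-- extension of a vector on `2m` coordinates to an even vector on `2m+2` points -/
def Lmap : (Fin m ⊕ Fin m → ZMod 2) →ₗ[ZMod 2] (Fin (m + 1) ⊕ Fin (m + 1) → ZMod 2) where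
  toFun v := Sum.elim (Fin.snoc (α := fun _ => ZMod 2) (fun i => v (Sum.inl i)) (∑ y, v y))
    (Fin.snoc (α := fun _ => ZMod 2) (fun i => v (Sum.inr i)) 0)
  map_add' v v' := by
    funext x
    rcases x with i | i
    · refine Fin.lastCases ?_ (fun j => ?_) i <;> simp [Finset.sum_add_distrib]
    · refine Fin.lastCases ?_ (fun j => ?_) i <;> simp
  map_smul' c v := by
    funext x
    rcases x with i | i
    · refine Fin.lastCases ?_ (fun j => ?_) i <;> simp [Finset.mul_sum, mul_add]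
    · refine Fin.lastCases ?_ (fun j => ?_) i <;> simp

theorem Lmap_inl_castSucc (v : Fin m ⊕ Fin m → ZMod 2) (i : Fin m) :
    Lmap m v (Sum.inl i.castSucc) = v (Sum.inl i) := by simp [Lmap]

theorem Lmap_inl_last (v : Fin m ⊕ Fin m → ZMod 2) :
    Lmap m v (Sum.inl (Fin.last m)) = ∑ y, v y := by simp [Lmap]

theorem Lmap_inr_castSucc (v : Fin m ⊕ Fin m → ZMod 2) (i : Fin m) :
    Lmap m v (Sum.inr i.castSucc) = v (Sum.inr i) := by simp [Lmap]

theorem Lmap_inr_last (v : Fin m ⊕ Fin m → ZMod 2) :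
    Lmap m v (Sum.inr (Fin.last m)) = 0 := by simp [Lmap]

theorem sum_pt (w : Fin (m + 1) ⊕ Fin (m + 1) → ZMod 2) :
    ∑ x, w x = (∑ i : Fin m, w (Sum.inl i.castSucc) + w (Sum.inl (Fin.last m)))
      + (∑ i : Fin m, w (Sum.inr i.castSucc) + w (Sum.inr (Fin.last m))) := by
  rw [Fintype.sum_sum_type, Fin.sum_univ_castSucc, Fin.sum_univ_castSucc]

theorem sum_Lmap (v : Fin m ⊕ Fin m → ZMod 2) : ∑ x, Lmap m v x = 0 := by
  rw [sum_pt]
  simp only [Lmap_inl_castSucc, Lmap_inl_last, Lmap_inr_castSucc, Lmap_inr_last,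
    Fintype.sum_sum_type]
  exact (by decide : ∀ s t : ZMod 2, s + (s + t) + (t + 0) = 0) _ _

/-- restriction to the `2m` coordinates after normalising the last point to `0` -/
def Rmap : (Fin (m + 1) ⊕ Fin (m + 1) → ZMod 2) →ₗ[ZMod 2] (Fin m ⊕ Fin m → ZMod 2) where
  toFun w := fun y => w (Sum.map Fin.castSucc Fin.castSucc y) + w (Sum.inr (Fin.last m))
  map_add' w w' := by
    funext y
    simp only [Pi.add_apply]
    ring
  map_smul' c w := by
    funext y
    simp only [Pi.smul_apply, smul_eq_mul, RingHom.id_apply]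
    ring

theorem Rmap_inl (w : Fin (m + 1) ⊕ Fin (m + 1) → ZMod 2) (i : Fin m) :
    Rmap m w (Sum.inl i) = w (Sum.inl i.castSucc) + w (Sum.inr (Fin.last m)) := rfl

theorem Rmap_inr (w : Fin (m + 1) ⊕ Fin (m + 1) → ZMod 2) (i : Fin m) :
    Rmap m w (Sum.inr i) = w (Sum.inr i.castSucc) + w (Sum.inr (Fin.last m)) := rfl

theorem Rmap_Lmap (v : Fin m ⊕ Fin m → ZMod 2) : Rmap m (Lmap m v) = v := by
  funext y
  rcases y with i | i
  · rw [Rmap_inl, Lmap_inl_castSucc, Lmap_inr_last, add_zero]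
  · rw [Rmap_inr, Lmap_inr_castSucc, Lmap_inr_last, add_zero]

theorem Rmap_one : Rmap m 1 = 0 := by
  funext y
  rcases y with i | i
  · rw [Rmap_inl]; rfl
  · rw [Rmap_inr]; rfl

theorem Lmap_Rmap (w : Fin (m + 1) ⊕ Fin (m + 1) → ZMod 2) (hw : ∑ x, w x = 0) :
    Lmap m (Rmap m w) = w + w (Sum.inr (Fin.last m)) • 1 := by
  have h2 : (2 : ZMod 2) = 0 := rfl
  funext x
  rcases x with i | i
  · refine Fin.lastCases ?_ (fun j => ?_) i
    · rw [Lmap_inl_last, Fintype.sum_sum_type]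
      simp only [Rmap_inl, Rmap_inr, Finset.sum_add_distrib, Finset.sum_const, Finset.card_univ,
        Fintype.card_fin, Pi.add_apply, Pi.smul_apply, Pi.one_apply, smul_eq_mul, mul_one]
      rw [sum_pt] at hw
      linear_combination hw + (m • w (Sum.inr (Fin.last m)) - w (Sum.inl (Fin.last m))
        - w (Sum.inr (Fin.last m))) * h2
    · rw [Lmap_inl_castSucc, Rmap_inl]
      simp
  · refine Fin.lastCases ?_ (fun j => ?_) i
    · rw [Lmap_inr_last]
      simp only [Pi.add_apply, Pi.smul_apply, Pi.one_apply, smul_eq_mul, mul_one]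
      exact (CharTwo.add_self_eq_zero _).symm
    · rw [Lmap_inr_castSucc, Rmap_inr]
      simp

theorem Rmap_add_smul_one (u : Fin (m + 1) ⊕ Fin (m + 1) → ZMod 2) (c : ZMod 2) :
    Rmap m (u + c • 1) = Rmap m u := by
  rw [map_add, map_smul, Rmap_one, smul_zero, add_zero]

/-- the action of a permutation of the `2m+2` points on `ZMod 2 ^ (2m)` -/
def act (g : Equiv.Perm (Fin (m + 1) ⊕ Fin (m + 1))) :
    (Fin m ⊕ Fin m → ZMod 2) →ₗ[ZMod 2] (Fin m ⊕ Fin m → ZMod 2) :=
  Rmap m ∘ₗ permL g ∘ₗ Lmap m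

theorem act_apply (g : Equiv.Perm (Fin (m + 1) ⊕ Fin (m + 1))) (v : Fin m ⊕ Fin m → ZMod 2) :
    act m g v = Rmap m (permL g (Lmap m v)) := rfl

theorem act_one : act m 1 = LinearMap.id := by
  apply LinearMap.ext
  intro v
  rw [act_apply, permL_one, Rmap_Lmap]
  rfl

theorem act_mul (g h : Equiv.Perm (Fin (m + 1) ⊕ Fin (m + 1))) :
    act m (g * h) = act m g ∘ₗ act m h := by
  apply LinearMap.ext
  intro v
  show Rmap m (permL (g * h) (Lmap m v))
    = Rmap m (permL g (Lmap m (Rmap m (permL h (Lmap m v)))))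
  rw [Lmap_Rmap m _ (by rw [sum_permL, sum_Lmap]), map_add, map_smul, permL_one_vec,
    Rmap_add_smul_one, permL_mul]

/-- the quadratic form on `ZMod 2 ^ (2m)` -/
def Qm (v : Fin m ⊕ Fin m → ZMod 2) : ZMod 2 := qq (Lmap m v)

/-- its polar form -/
def Bm : LinearMap.BilinForm (ZMod 2) (Fin m ⊕ Fin m → ZMod 2) :=
  LinearMap.compl₁₂ bb (Lmap m) (Lmap m)

theorem Bm_apply (u v : Fin m ⊕ Fin m → ZMod 2) : Bm m u v = bb (Lmap m u) (Lmap m v) := rfl

theorem Bm_symm (u v : Fin m ⊕ Fin m → ZMod 2) : Bm m u v = Bm m v u := by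
  rw [Bm_apply, Bm_apply, bb_symm]

theorem Bm_single (u : Fin m ⊕ Fin m → ZMod 2) (y : Fin m ⊕ Fin m) :
    Bm m u (Pi.single y 1) = u y + ∑ z, u z := by
  rw [Bm_apply, bb_apply, sum_Lmap, sum_Lmap, mul_zero, zero_add, sum_pt]
  simp only [Lmap_inl_castSucc, Lmap_inl_last, Lmap_inr_castSucc, Lmap_inr_last, mul_zero,
    add_zero]
  have h2 : ∑ i, u (Sum.inl i) * (Pi.single y 1 : Fin m ⊕ Fin m → ZMod 2) (Sum.inl i)
      + ∑ i, u (Sum.inr i) * (Pi.single y 1 : Fin m ⊕ Fin m → ZMod 2) (Sum.inr i) = u y := by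
    rw [← Fintype.sum_sum_type
      (fun z => u z * (Pi.single y 1 : Fin m ⊕ Fin m → ZMod 2) z)]
    simp [Pi.single_apply]
  have h3 : ∑ z, (Pi.single y 1 : Fin m ⊕ Fin m → ZMod 2) z = 1 := by simp
  rw [h3, mul_one, ← h2]
  ring

theorem qspace : QSpace (Qm m) (Bm m) m where
  polar x y := by
    rw [Qm, map_add, qq_add]
    rfl
  smul c x := by
    rw [Qm, map_smul, qq_smul]
    rfl
  nondeg := by
    have key : ∀ u : Fin m ⊕ Fin m → ZMod 2, (∀ v, Bm m u v = 0) → u = 0 := by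
      intro u hu
      have h1 : ∀ y, u y = ∑ z, u z := by
        intro y
        have := hu (Pi.single y 1)
        rw [Bm_single] at this
        exact (by decide : ∀ a b : ZMod 2, a + b = 0 → a = b) _ _ this
      have h4 : ∑ z, u z = 0 := by
        calc ∑ z, u z = ∑ _z : Fin m ⊕ Fin m, ∑ z, u z :=
              Finset.sum_congr rfl (fun z _ => h1 z)
          _ = (m + m) • ∑ z, u z := by simp
          _ = 0 := by rw [add_nsmul]; exact CharTwo.add_self_eq_zero _
      funext y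
      rw [h1 y, h4]
      rfl
    constructor
    · exact key
    · intro y hy
      apply key
      intro v
      rw [Bm_symm]
      exact hy v
  dim := by
    rw [finrank_fintype_fun_eq_card, Fintype.card_sum, Fintype.card_fin]
    ring

theorem card_pt_dvd (hm : Odd m) : 4 ∣ Fintype.card (Fin (m + 1) ⊕ Fin (m + 1)) := by
  obtain ⟨t, rfl⟩ := hm
  simp only [Fintype.card_sum, Fintype.card_fin]
  omega

theorem Qm_Rmap (hm : Odd m) (w : Fin (m + 1) ⊕ Fin (m + 1) → ZMod 2) (hw : ∑ x, w x = 0) :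
    Qm m (Rmap m w) = qq w := by
  rw [Qm, Lmap_Rmap m w hw]
  obtain h | h : w (Sum.inr (Fin.last m)) = 0 ∨ w (Sum.inr (Fin.last m)) = 1 :=
    (by decide : ∀ c : ZMod 2, c = 0 ∨ c = 1) _
  · rw [h, zero_smul, add_zero]
  · rw [h, one_smul, qq_add_one hw (card_pt_dvd m hm)]

theorem Bm_Rmap (w w' : Fin (m + 1) ⊕ Fin (m + 1) → ZMod 2) (hw : ∑ x, w x = 0)
    (hw' : ∑ x, w' x = 0) : Bm m (Rmap m w) (Rmap m w') = bb w w' := by
  rw [Bm_apply, Lmap_Rmap m w hw, Lmap_Rmap m w' hw']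
  simp only [map_add, map_smul, LinearMap.add_apply, LinearMap.smul_apply, bb_one_right hw,
    bb_one_left hw', bb_self, smul_zero, add_zero]

theorem Qm_act (hm : Odd m) (g : Equiv.Perm (Fin (m + 1) ⊕ Fin (m + 1)))
    (v : Fin m ⊕ Fin m → ZMod 2) : Qm m (act m g v) = Qm m v := by
  rw [act_apply, Qm_Rmap m hm _ (by rw [sum_permL, sum_Lmap]), qq_permL]
  rfl

/-- the action as a homomorphism to matrices -/
def actMat : Equiv.Perm (Fin (m + 1) ⊕ Fin (m + 1)) →*
    Matrix (Fin m ⊕ Fin m) (Fin m ⊕ Fin m) (ZMod 2) where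
  toFun g := LinearMap.toMatrix' (act m g)
  map_one' := by rw [act_one, LinearMap.toMatrix'_id]
  map_mul' g h := by rw [act_mul, LinearMap.toMatrix'_comp]

/-- the action as a homomorphism to the general linear group -/
def actGL : Equiv.Perm (Fin (m + 1) ⊕ Fin (m + 1)) →* GL (Fin m ⊕ Fin m) (ZMod 2) :=
  (actMat m).toHomUnits

theorem actGL_mulVec (g : Equiv.Perm (Fin (m + 1) ⊕ Fin (m + 1)))
    (v : Fin m ⊕ Fin m → ZMod 2) :
    ((actGL m g : GL (Fin m ⊕ Fin m) (ZMod 2)) : Matrix (Fin m ⊕ Fin m) (Fin m ⊕ Fin m) (ZMod 2))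
      *ᵥ v = act m g v := by
  show LinearMap.toMatrix' (act m g) *ᵥ v = _
  rw [LinearMap.toMatrix'_mulVec]

theorem actGL_mem (hm : Odd m) (g : Equiv.Perm (Fin (m + 1) ⊕ Fin (m + 1))) :
    actGL m g ∈ Cfsg.isometryGroup (ZMod 2) (Qm m) := by
  rw [mem_iso_iff]
  intro u
  rw [actGL_mulVec, Qm_act m hm]

/-- the symmetric group inside the isometry group of `Qm` -/
def symHom (hm : Odd m) :
    Equiv.Perm (Fin (m + 1) ⊕ Fin (m + 1)) →* Cfsg.isometryGroup (ZMod 2) (Qm m) :=
  (actGL m).codRestrict _ (actGL_mem m hm)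

theorem symHom_injective (hm : Odd m) (hm2 : 2 ≤ m) : Function.Injective (symHom m hm) := by
  classical
  have h2' : (2 : ZMod 2) = 0 := rfl
  rw [injective_iff_map_eq_one]
  intro g hg
  have h1 : ∀ v, act m g v = v := by
    intro v
    have := congrArg (fun x : Cfsg.isometryGroup (ZMod 2) (Qm m) =>
      ((x : GL (Fin m ⊕ Fin m) (ZMod 2)) : Matrix (Fin m ⊕ Fin m) (Fin m ⊕ Fin m) (ZMod 2))
        *ᵥ v) hg
    simp only [symHom, MonoidHom.codRestrict_apply, actGL_mulVec, OneMemClass.coe_one,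
      Units.val_one, Matrix.one_mulVec] at this
    exact this
  have h2 : ∀ w : Fin (m + 1) ⊕ Fin (m + 1) → ZMod 2, ∑ x, w x = 0 →
      ∃ c : ZMod 2, permL g w = w + c • 1 := by
    intro w hw
    have e1 := Lmap_Rmap m w hw
    have e2 := Lmap_Rmap m (permL g (Lmap m (Rmap m w))) (by rw [sum_permL, sum_Lmap])
    have e3 := h1 (Rmap m w)
    rw [act_apply] at e3
    rw [e3, e1, map_add, map_smul, permL_one_vec] at e2
    refine ⟨(permL g w + w (Sum.inr (Fin.last m)) • 1) (Sum.inr (Fin.last m)), ?_⟩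
    funext x
    have e4 := congrFun e2 x
    simp only [Pi.add_apply, Pi.smul_apply, Pi.one_apply, smul_eq_mul, mul_one] at e4 ⊢
    linear_combination (-1 : ZMod 2) * e4 - (permL g w (Sum.inr (Fin.last m))
      + w (Sum.inr (Fin.last m))) * h2'
  apply Equiv.ext
  intro x
  by_contra hx
  have hx' : g x ≠ x := hx
  have hcard : 6 ≤ Fintype.card (Fin (m + 1) ⊕ Fin (m + 1)) := by
    simp only [Fintype.card_sum, Fintype.card_fin]
    omega
  obtain ⟨y, -, hy⟩ := Finset.exists_mem_notMem_of_card_lt_card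
    (s := ({x, g x} : Finset (Fin (m + 1) ⊕ Fin (m + 1)))) (t := Finset.univ)
    (lt_of_le_of_lt Finset.card_le_two (by rw [Finset.card_univ]; omega))
  obtain ⟨p, -, hp⟩ := Finset.exists_mem_notMem_of_card_lt_card
    (s := ({x, y, g x, g y} : Finset (Fin (m + 1) ⊕ Fin (m + 1)))) (t := Finset.univ)
    (lt_of_le_of_lt Finset.card_le_four (by rw [Finset.card_univ]; omega))
  simp only [Finset.mem_insert, Finset.mem_singleton, not_or] at hy hp
  obtain ⟨hyx, hygx⟩ := hy
  obtain ⟨hpx, hpy, hpgx, hpgy⟩ := hp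
  let w : Fin (m + 1) ⊕ Fin (m + 1) → ZMod 2 := Pi.single x 1 + Pi.single y 1
  have hw : ∑ z, w z = 0 := by
    simp only [w, Pi.add_apply, Finset.sum_add_distrib, Finset.sum_pi_single', Finset.mem_univ,
      if_true]
    rfl
  obtain ⟨c, hc⟩ := h2 w hw
  have c1 := congrFun hc (g x)
  have c2 := congrFun hc p
  have hgp : g.symm p ≠ x := fun h => hpgx (by rw [← h, Equiv.apply_symm_apply])
  have hgp' : g.symm p ≠ y := fun h => hpgy (by rw [← h, Equiv.apply_symm_apply])
  have hxy : x ≠ y := Ne.symm hyx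
  have hgxy : g x ≠ y := Ne.symm hygx
  simp only [permL_apply, Equiv.symm_apply_apply, w, Pi.add_apply, Pi.smul_apply, Pi.one_apply,
    smul_eq_mul, mul_one, Pi.single_apply, if_true, hxy, if_false, hx', hgxy,
    add_zero, zero_add, hgp, hgp', hpx, hpy] at c1 c2
  exact one_ne_zero (c1.trans c2.symm)

/-- indicator of the first half of the points -/
def vA : Fin (m + 1) ⊕ Fin (m + 1) → ZMod 2 := Sum.elim (fun _ => 1) (fun _ => 0)

/-- indicator of the pair `j` -/
def vP (j : Fin (m + 1)) : Fin (m + 1) ⊕ Fin (m + 1) → ZMod 2 :=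
  Sum.elim (Pi.single j 1) (Pi.single j 1)

/-- indicator of the two points `j` and `last` of the second half -/
def vT (j : Fin (m + 1)) : Fin (m + 1) ⊕ Fin (m + 1) → ZMod 2 :=
  Sum.elim 0 (Pi.single j 1 + Pi.single (Fin.last m) 1)

theorem sum_vA : ∑ x, vA m x = ((m + 1 : ℕ) : ZMod 2) := by
  simp [vA, Fintype.sum_sum_type]

theorem sum_vP (j : Fin (m + 1)) : ∑ x, vP m j x = 0 := by
  simp only [vP, Fintype.sum_sum_type, Sum.elim_inl, Sum.elim_inr, Finset.sum_pi_single',
    Finset.mem_univ, if_true]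
  rfl

theorem sum_vT (j : Fin (m + 1)) : ∑ x, vT m j x = 0 := by
  simp only [vT, Fintype.sum_sum_type, Sum.elim_inl, Sum.elim_inr, Pi.zero_apply, Pi.add_apply,
    Finset.sum_add_distrib, Finset.sum_pi_single', Finset.mem_univ, if_true,
    Finset.sum_const_zero, zero_add]
  rfl

theorem wt_vA : wt (vA m) = m + 1 := by
  simp [wt, vA, Fintype.sum_sum_type, ZMod.val_one]

theorem wt_vP (j : Fin (m + 1)) : wt (vP m j) = 2 := by
  simp [wt, vP, Fintype.sum_sum_type, Pi.single_apply, apply_ite ZMod.val, ZMod.val_one]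

theorem qq_vA : qq (vA m) = (((m + 1) / 2 : ℕ) : ZMod 2) := by
  rw [qq, wt_vA]

theorem qq_vP (j : Fin (m + 1)) : qq (vP m j) = 1 := by
  rw [qq, wt_vP]
  rfl

theorem bb_vA_vP (j : Fin (m + 1)) : bb (vA m) (vP m j) = 1 := by
  rw [bb_apply, sum_vP, mul_zero, zero_add]
  simp [vA, vP, Fintype.sum_sum_type]

theorem bb_vP_vA (j : Fin (m + 1)) : bb (vP m j) (vA m) = 1 := by
  rw [bb_symm, bb_vA_vP]

theorem bb_vP_vP (i j : Fin (m + 1)) : bb (vP m i) (vP m j) = 0 := by
  rw [bb_apply, sum_vP, zero_mul, zero_add]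
  simp only [vP, Fintype.sum_sum_type, Sum.elim_inl, Sum.elim_inr]
  exact CharTwo.add_self_eq_zero _

theorem bb_vA_vT (j : Fin (m + 1)) : bb (vA m) (vT m j) = 0 := by
  rw [bb_apply, sum_vT, mul_zero, zero_add]
  simp [vA, vT, Fintype.sum_sum_type]

theorem bb_vP_vT (i j : Fin (m + 1)) : bb (vP m i) (vT m j)
    = (if i = j then 1 else 0) + (if i = Fin.last m then 1 else 0) := by
  rw [bb_apply, sum_vT, mul_zero, zero_add]
  simp [vP, vT, Fintype.sum_sum_type, Pi.single_apply, mul_add, Finset.sum_add_distrib, eq_comm]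

theorem bb_vT_vP (i j : Fin (m + 1)) : bb (vT m j) (vP m i)
    = (if i = j then 1 else 0) + (if i = Fin.last m then 1 else 0) := by
  rw [bb_symm, bb_vP_vT]

theorem bb_vT_vA (j : Fin (m + 1)) : bb (vT m j) (vA m) = 0 := by
  rw [bb_symm, bb_vA_vT]

end Model

end SymModel
end Cfsg.Agent.Helper43
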