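/-
Helper43 library: the quadratic form `SymModel.Qm (2k+1)` (the orthogonal representation of
`Sym (4k+4)` over `ZMod 2`) is of plus type for `k` odd and of minus type for `k` even:
explicit isometries with `Cfsg.quadFormPlus` / `Cfsg.quadFormMinus`.
-/
import Cfsg.Agent.Helper43.SymModel

set_option autoImplicit false
set_option linter.unusedSectionVars false

namespace Cfsg.Agent.Helper43
namespace SymModel

open Module Matrix TwoFam SymOrth

theorem cast_even_eq_zero {t : ℕ} (ht : Even t) : ((t : ℕ) : ZMod 2) = 0 := by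
  obtain ⟨s, rfl⟩ := ht
  push_cast
  exact CharTwo.add_self_eq_zero _

theorem cast_odd_eq_one {t : ℕ} (ht : Odd t) : ((t : ℕ) : ZMod 2) = 1 := by
  obtain ⟨s, rfl⟩ := ht
  push_cast
  rw [two_eq_zero', zero_mul, zero_add]

theorem sum_vA_odd (k : ℕ) : ∑ x, vA (2 * k + 1) x = 0 := by
  rw [sum_vA]
  exact cast_even_eq_zero ⟨k + 1, by ring⟩

theorem qq_vA_odd (k : ℕ) : qq (vA (2 * k + 1)) = ((k + 1 : ℕ) : ZMod 2) := by
  rw [qq_vA]
  congr 1
  omega

/-- plus type for `k` odd -/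
theorem exists_plus (k : ℕ) (hk : Odd k) :
    ∃ (P : Matrix (Fin (2 * k + 1) ⊕ Fin (2 * k + 1)) (Fin (2 * k + 1) ⊕ Fin (2 * k + 1))
        (ZMod 2))
      (P' : Matrix (Fin (2 * k + 1) ⊕ Fin (2 * k + 1)) (Fin (2 * k + 1) ⊕ Fin (2 * k + 1))
        (ZMod 2)),
      P * P' = 1 ∧ P' * P = 1 ∧
        ∀ w, Qm (2 * k + 1) (P *ᵥ w) = Cfsg.quadFormPlus (2 * k + 1) (ZMod 2) w := by
  have hmodd : Odd (2 * k + 1) := ⟨k, rfl⟩
  have hA0 := sum_vA_odd k
  have hqA : qq (vA (2 * k + 1)) = 0 := by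
    rw [qq_vA_odd]
    exact cast_even_eq_zero (by simpa [Nat.even_add_one] using hk)
  let e : Fin (2 * k + 1) → (Fin (2 * k + 1) ⊕ Fin (2 * k + 1) → ZMod 2) :=
    fun j => Rmap (2 * k + 1) (vA (2 * k + 1) + vP (2 * k + 1) j.castSucc)
  let f' : Fin (2 * k + 1) → (Fin (2 * k + 1) ⊕ Fin (2 * k + 1) → ZMod 2) :=
    fun j => Rmap (2 * k + 1) (vT (2 * k + 1) j.castSucc)
  have hev : ∀ j : Fin (2 * k + 1),
      ∑ x, (vA (2 * k + 1) + vP (2 * k + 1) j.castSucc) x = 0 := by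
    intro j
    simp only [Pi.add_apply, Finset.sum_add_distrib, hA0, sum_vP, add_zero]
  have hQe : ∀ i, Qm (2 * k + 1) (e i) = 0 := by
    intro i
    show Qm (2 * k + 1) (Rmap (2 * k + 1) _) = 0
    rw [Qm_Rmap _ hmodd _ (hev i), qq_add, hqA, qq_vP, bb_vA_vP]
    rfl
  have hBee : ∀ i j, Bm (2 * k + 1) (e i) (e j) = 0 := by
    intro i j
    show Bm (2 * k + 1) (Rmap (2 * k + 1) _) (Rmap (2 * k + 1) _) = 0
    rw [Bm_Rmap _ _ _ (hev i) (hev j)]
    simp only [map_add, LinearMap.add_apply, bb_self, bb_vA_vP, bb_vP_vA, bb_vP_vP]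
    rfl
  have hd : ∀ i j, Bm (2 * k + 1) (e i) (f' j) = if i = j then 1 else 0 := by
    intro i j
    show Bm (2 * k + 1) (Rmap (2 * k + 1) _) (Rmap (2 * k + 1) _) = _
    rw [Bm_Rmap _ _ _ (hev i) (sum_vT _ _)]
    simp only [map_add, LinearMap.add_apply, bb_vA_vT, bb_vP_vT, zero_add, Fin.castSucc_inj,
      (Fin.castSucc_lt_last i).ne, if_false, add_zero]
  obtain ⟨f, hf, -⟩ := (QPol.of_qspace (qspace (2 * k + 1))).exists_frame_of_dual e f' hQe hBee hd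
  obtain ⟨P', h1, h2⟩ := frameMat_exists_inv (qspace (2 * k + 1)) hf
  exact ⟨frameMat e f, P', h1, h2, fun w => frameMat_Q (qspace (2 * k + 1)) hf w⟩

/-- minus type for `k` even -/
theorem exists_minus (k : ℕ) (hk : Even k) :
    ∃ (P : Matrix (Fin (2 * k + 1) ⊕ Fin (2 * k + 1)) ((Fin (2 * k) ⊕ Fin (2 * k)) ⊕ Fin 2)
        (ZMod 2))
      (P' : Matrix ((Fin (2 * k) ⊕ Fin (2 * k)) ⊕ Fin 2) (Fin (2 * k + 1) ⊕ Fin (2 * k + 1))
        (ZMod 2)),
      P * P' = 1 ∧ P' * P = 1 ∧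
        ∀ w, Qm (2 * k + 1) (P *ᵥ w) = Cfsg.quadFormMinus (2 * k) (ZMod 2) 1 1 w := by
  have hmodd : Odd (2 * k + 1) := ⟨k, rfl⟩
  have hA0 := sum_vA_odd k
  have hqA : qq (vA (2 * k + 1)) = 1 := by
    rw [qq_vA_odd]
    exact cast_odd_eq_one (by simpa [Nat.odd_add_one] using hk)
  -- the index of the pair `m - 1`
  let c : Fin (2 * k + 1 + 1) := (Fin.last (2 * k)).castSucc
  have hc : c ≠ Fin.last (2 * k + 1) := (Fin.castSucc_lt_last _).ne
  have hcj : ∀ j : Fin (2 * k), c ≠ j.castSucc.castSucc := by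
    intro j h
    have := Fin.castSucc_injective _ h
    exact (Fin.castSucc_lt_last j).ne this.symm
  have hjl : ∀ j : Fin (2 * k), j.castSucc.castSucc ≠ Fin.last (2 * k + 1) :=
    fun j => (Fin.castSucc_lt_last _).ne
  let e : Fin (2 * k) → (Fin (2 * k + 1) ⊕ Fin (2 * k + 1) → ZMod 2) :=
    fun j => Rmap (2 * k + 1) (vP (2 * k + 1) j.castSucc.castSucc + vP (2 * k + 1) c)
  let f' : Fin (2 * k) → (Fin (2 * k + 1) ⊕ Fin (2 * k + 1) → ZMod 2) :=
    fun j => Rmap (2 * k + 1) (vT (2 * k + 1) j.castSucc.castSucc)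
  let a : Fin (2 * k + 1) ⊕ Fin (2 * k + 1) → ZMod 2 := Rmap (2 * k + 1) (vP (2 * k + 1) c)
  let b : Fin (2 * k + 1) ⊕ Fin (2 * k + 1) → ZMod 2 := Rmap (2 * k + 1) (vA (2 * k + 1))
  have hev : ∀ j : Fin (2 * k),
      ∑ x, (vP (2 * k + 1) j.castSucc.castSucc + vP (2 * k + 1) c) x = 0 := by
    intro j
    simp only [Pi.add_apply, Finset.sum_add_distrib, sum_vP, add_zero]
  have hQe : ∀ i, Qm (2 * k + 1) (e i) = 0 := by
    intro i
    show Qm (2 * k + 1) (Rmap (2 * k + 1) _) = 0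
    rw [Qm_Rmap _ hmodd _ (hev i), qq_add, qq_vP, qq_vP, bb_vP_vP]
    rfl
  have hBee : ∀ i j, Bm (2 * k + 1) (e i) (e j) = 0 := by
    intro i j
    show Bm (2 * k + 1) (Rmap (2 * k + 1) _) (Rmap (2 * k + 1) _) = 0
    rw [Bm_Rmap _ _ _ (hev i) (hev j)]
    simp only [map_add, LinearMap.add_apply, bb_vP_vP, add_zero]
  have hd : ∀ i j, Bm (2 * k + 1) (e i) (f' j) = if i = j then 1 else 0 := by
    intro i j
    show Bm (2 * k + 1) (Rmap (2 * k + 1) _) (Rmap (2 * k + 1) _) = _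
    rw [Bm_Rmap _ _ _ (hev i) (sum_vT _ _)]
    simp only [map_add, LinearMap.add_apply, bb_vP_vT, Fin.castSucc_inj, hjl i, hc, hcj j,
      if_false, add_zero]
  have hea : ∀ i, Bm (2 * k + 1) (e i) a = 0 := by
    intro i
    show Bm (2 * k + 1) (Rmap (2 * k + 1) _) (Rmap (2 * k + 1) _) = _
    rw [Bm_Rmap _ _ _ (hev i) (sum_vP _ _)]
    simp only [map_add, LinearMap.add_apply, bb_vP_vP, add_zero]
  have heb : ∀ i, Bm (2 * k + 1) (e i) b = 0 := by
    intro i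
    show Bm (2 * k + 1) (Rmap (2 * k + 1) _) (Rmap (2 * k + 1) _) = _
    rw [Bm_Rmap _ _ _ (hev i) hA0]
    simp only [map_add, LinearMap.add_apply, bb_vP_vA]
    rfl
  have hfa' : ∀ i, Bm (2 * k + 1) (f' i) a = 0 := by
    intro i
    show Bm (2 * k + 1) (Rmap (2 * k + 1) _) (Rmap (2 * k + 1) _) = _
    rw [Bm_Rmap _ _ _ (sum_vT _ _) (sum_vP _ _), bb_vT_vP]
    simp only [hcj i, hc, if_false, add_zero]
  have hfb' : ∀ i, Bm (2 * k + 1) (f' i) b = 0 := by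
    intro i
    show Bm (2 * k + 1) (Rmap (2 * k + 1) _) (Rmap (2 * k + 1) _) = _
    rw [Bm_Rmap _ _ _ (sum_vT _ _) hA0, bb_vT_vA]
  have hpol := QPol.of_qspace (qspace (2 * k + 1))
  obtain ⟨f, hf, hfc⟩ := hpol.exists_frame_of_dual e f' hQe hBee hd
  have hp : EllPair (Qm (2 * k + 1)) (Bm (2 * k + 1)) e f a b :=
    { Qa := by
        show Qm (2 * k + 1) (Rmap (2 * k + 1) _) = 1
        rw [Qm_Rmap _ hmodd _ (sum_vP _ _), qq_vP]
      Qb := by
        show Qm (2 * k + 1) (Rmap (2 * k + 1) _) = 1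
        rw [Qm_Rmap _ hmodd _ hA0, hqA]
      Bab := by
        show Bm (2 * k + 1) (Rmap (2 * k + 1) _) (Rmap (2 * k + 1) _) = _
        rw [Bm_Rmap _ _ _ (sum_vP _ _) hA0, bb_vP_vA]
      Baa := by
        show Bm (2 * k + 1) (Rmap (2 * k + 1) _) (Rmap (2 * k + 1) _) = _
        rw [Bm_Rmap _ _ _ (sum_vP _ _) (sum_vP _ _), bb_self]
      Bbb := by
        show Bm (2 * k + 1) (Rmap (2 * k + 1) _) (Rmap (2 * k + 1) _) = _
        rw [Bm_Rmap _ _ _ hA0 hA0, bb_self]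
      Bea := hea
      Beb := heb
      Bfa := by
        intro i
        obtain ⟨d, hd'⟩ := hfc i
        rw [hd', map_add, LinearMap.add_apply, hfa' i, zero_add, map_sum, LinearMap.sum_apply]
        refine Finset.sum_eq_zero fun j _ => ?_
        rw [map_smul, LinearMap.smul_apply, hea j, smul_zero]
      Bfb := by
        intro i
        obtain ⟨d, hd'⟩ := hfc i
        rw [hd', map_add, LinearMap.add_apply, hfb' i, zero_add, map_sum, LinearMap.sum_apply]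
        refine Finset.sum_eq_zero fun j _ => ?_
        rw [map_smul, LinearMap.smul_apply, heb j, smul_zero] }
  obtain ⟨P', h1, h2⟩ := frameMatMinus_exists_inv hpol hf hp (by
    simp only [Fintype.card_sum, Fintype.card_fin]
    ring)
  exact ⟨frameMatMinus e f a b, P', h1, h2, fun w => frameMatMinus_Q hpol hf hp w⟩

end SymModel
end Cfsg.Agent.Helper43
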