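import Mathlib
import Cfsg.Prelude.Def_GeometricClasses
import Cfsg.Prelude.Def_Classical
import Cfsg.Agent.Helper58.TSDefs
import Cfsg.Agent.Helper43.PrimeOrdO3
import Cfsg.Agent.Helper33.OType
import Cfsg.Agent.Helper43.OrthStd
import Cfsg.Agent.Helper43.TBXISO
import Cfsg.Agent.Helper35.TBXODD
import Cfsg.Agent.Helper37.TBBLKO
import Cfsg.Agent.Helper72.TBFULL

set_option autoImplicit false

/-!
# Stage OB (`ts_odd_bad`) of CALL TS (helper58; rows S5973 + S5987): assembly of sub-CALL TB (helper43)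
-/

namespace Cfsg.Agent.Helper43.TS5973

open Module Polynomial Cfsg Cfsg.Geo Cfsg.Agent.Helper58.TS
open Cfsg.Agent.Helper43 Cfsg.Agent.Helper43.OrthEven Cfsg.Agent.Helper43.CycFactors
  Cfsg.Agent.Helper43.PrimeOrdMat
open Cfsg.Agent.Helper43.TB (tb_xiso)
open Cfsg.Agent.Helper35.TB (tb_xodd)
open Cfsg.Agent.Helper37.TB (tb_blk_odd)
open Cfsg.Agent.Helper72.TB (tb_full)
open scoped MatrixGroups

universe u

section xfer

variable {ι : Type} [Fintype ι] [DecidableEq ι] {F : Type u} [Field F] [Fintype F]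

/-- XFER: transfer of an isometry of odd order of a model space to `Ω(Q)`. -/
theorem tb_xfer (Q : (ι → F) → F) (hQ : IsNondegenerateQuadraticForm Q) (d δ : ℕ) (hd : 4 ≤ d)
    (hcard : Fintype.card ι = 2 * d) (hδ : TypeDefect Q δ) (r : ℕ) (hr : Odd r) {V' : Type u}
    [AddCommGroup V'] [Module F V'] [FiniteDimensional F V'] (Q' : QuadraticForm F V')
    (hnd : PolarNondeg Q') (hdim : finrank F V' = 2 * d) (htype : HasTS Q' d ↔ δ = 0)
    (T : Module.End F V') (hT : ∀ v, Q' (T v) = Q' v) (hTr : T ^ r = 1) (hT1 : T ≠ 1) :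
    ∃ x : GL ι F, x ∈ Cfsg.Geo.omegaGL Q ∧ x ^ r = 1 ∧ x ≠ 1 ∧
      ∀ k, InvTS Q (x : Matrix ι ι F) k →
        ∃ W : Submodule F V', W.map T ≤ W ∧ (∀ w ∈ W, Q' w = 0) ∧ finrank F W = k := by
  classical
  obtain ⟨Φ, hΦ⟩ := tb_xiso Q hQ d δ (by omega) hcard hδ Q' hnd hdim htype
  let b : Module.Basis ι F V' := Module.Basis.ofEquivFun Φ
  obtain ⟨A, hAdef⟩ : ∃ A : Matrix ι ι F, A = LinearMap.toMatrix b b T := ⟨_, rfl⟩
  have hAΦ : ∀ v, A.mulVec (Φ v) = Φ (T v) := by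
    intro v
    rw [hAdef]
    exact LinearMap.toMatrix_mulVec_repr b b T v
  have hA : ∀ x, Q (A.mulVec x) = Q x := by
    intro x
    obtain ⟨v, rfl⟩ := Φ.surjective x
    rw [hAΦ, hΦ, hΦ, hT]
  have hAr : A ^ r = 1 := by
    rw [hAdef, ← Cfsg.Agent.Helper43.OrthStd.toMatrix_pow', hTr, LinearMap.toMatrix_one]
  have hrpos : 0 < r := hr.pos
  have hr1 : r - 1 + 1 = r := Nat.sub_add_cancel hrpos
  let g0 : GL ι F := ⟨A, A ^ (r - 1), by rw [← pow_succ', hr1, hAr], by rw [← pow_succ, hr1, hAr]⟩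
  have hg0 : g0 ∈ Cfsg.isometryGroup F Q := by
    intro u v
    exact hA u
  have hg0r : g0 ^ r = 1 := by
    apply Units.ext
    rw [Units.val_pow_eq_pow_val]
    exact hAr
  have hg01 : g0 ≠ 1 := by
    intro h1
    have h3 : A = 1 := congrArg (fun y : GL ι F => (y : Matrix ι ι F)) h1
    apply hT1
    apply (LinearMap.toMatrix b b).injective
    rw [← hAdef, h3, LinearMap.toMatrix_one]
  refine ⟨g0, tb_xodd Q hQ (by omega) g0 hg0 r hr hg0r, hg0r, hg01, ?_⟩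
  rintro k ⟨W, hWk, hW0, hWinv⟩
  refine ⟨W.map (Φ.symm : (ι → F) →ₗ[F] V'), ?_, ?_, ?_⟩
  · rintro _ ⟨_, ⟨w, hw, rfl⟩, rfl⟩
    refine ⟨A.mulVec w, ?_, ?_⟩
    · apply hWinv
      exact ⟨w, hw, by rw [Matrix.toLin'_apply]⟩
    · have h1 := hAΦ (Φ.symm w)
      rw [LinearEquiv.apply_symm_apply] at h1
      show Φ.symm (A.mulVec w) = T (Φ.symm w)
      rw [h1, LinearEquiv.symm_apply_apply]
  · rintro _ ⟨w, hw, rfl⟩
    show Q' (Φ.symm w) = 0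
    rw [← hΦ, LinearEquiv.apply_symm_apply]
    exact hW0 w hw
  · rw [LinearEquiv.finrank_map_eq, hWk]

end xfer

section stages

variable {ι : Type} [Fintype ι] [DecidableEq ι] {F : Type*} [Field F] [Fintype F]

/-- ODD-BAD. -/
theorem ts_odd_bad (Q : (ι → F) → F) (hQ : IsNondegenerateQuadraticForm Q) (d δ : ℕ) (hd : 4 ≤ d)
    (hcard : Fintype.card ι = 2 * d) (hδ : TypeDefect Q δ) (p : ℕ) [Fact p.Prime] [CharP F p]
    (q : ℕ) (hq : Fintype.card F = q) (r : ℕ) [Fact r.Prime] (hr2 : 2 < r) (hrp : r ≠ p) (i : ℕ)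
    (hi : i = orderOf ((q : ℕ) : ZMod r)) (hodd : Odd i) (a : ℕ) (ha : 1 ≤ a)
    (had : i * a + δ ≤ d) :
    ∃ x : GL ι F, x ∈ Cfsg.Geo.omegaGL Q ∧ x ^ r = 1 ∧ x ≠ 1 ∧
      ∀ k, InvTS Q (x : Matrix ι ι F) k → ∃ s w, s ≤ a ∧ w + i * a + δ ≤ d ∧ k = i * s + w := by
  have hr : r.Prime := Fact.out
  subst hq
  have hipos : 0 < i := by rw [hi]; exact orderOf_pos_of_card (p := p) rfl hr hrp
  have hrF : (r : F) ≠ 0 := natCast_ne_zero_of_ne (p := p) hr hrp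
  have hrodd : Odd r := hr.odd_of_ne_two (by omega)
  have hodd' : Odd (orderOf ((Fintype.card F : ℕ) : ZMod r)) := by rw [← hi]; exact hodd
  obtain ⟨V₁, _, _, _, Q₁, T₁, hnd₁, hT₁, hcyc₁, hfr₁, hts₁, hU₁⟩ :=
    tb_blk_odd (F := F) p r hr2 hrp hodd' a
  rw [← hi] at hfr₁ hts₁ hU₁
  have hl : 1 ≤ i * a := Nat.mul_pos hipos ha
  have hδ1 : δ ≤ 1 := hδ.le_one
  obtain ⟨V', _, _, _, Q', T, hnd', hdim', htype', hT', hTr, hT1, hW⟩ :=
    tb_full r hrF Q₁ T₁ hnd₁ hT₁ hcyc₁ (i * a) hl hfr₁ (d - i * a) δ hδ1 (by omega)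
  have hkl : d - i * a + i * a = d := by omega
  rw [hkl] at hdim' htype'
  have htype : HasTS Q' d ↔ δ = 0 := by
    rw [htype']
    exact ⟨fun h => h.mpr hts₁, fun h => ⟨fun _ => hts₁, fun _ => h⟩⟩
  obtain ⟨x, hxΩ, hxr, hx1, hx⟩ :=
    tb_xfer Q hQ d δ hd hcard hδ r hrodd Q' hnd' hdim' htype T hT' hTr hT1
  refine ⟨x, hxΩ, hxr, hx1, ?_⟩
  intro k hk
  obtain ⟨W, hWT, hW0, hWk⟩ := hx k hk
  obtain ⟨w, U₁, hU₁T, hU₁0, hw, hfin⟩ := hW W hWT hW0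
  obtain ⟨s, hs, hsa⟩ := hU₁ U₁ hU₁T hU₁0
  exact ⟨s, w, hsa, by omega, by omega⟩

end stages

end Cfsg.Agent.Helper43.TS5973
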