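import Mathlib
import Cfsg.Prelude.Def_GeometricClasses
import Cfsg.Prelude.Def_Classical
import Cfsg.Agent.Helper58.TSDefs
import Cfsg.Agent.Helper43.PrimeOrdO3
import Cfsg.Agent.Helper33.OType
import Cfsg.Agent.Helper43.OrthStd
import Cfsg.Agent.Helper43.TSOB
import Cfsg.Agent.Helper31.TBSEL
import Cfsg.Agent.Helper48.TBINDE
import Cfsg.Agent.Helper72.TBFULL

set_option autoImplicit false

/-!
# Stage EB (`ts_even_bad`) of CALL TS (helper58; rows S5973 + S5987): assembly of sub-CALL TB (helper43)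
-/

namespace Cfsg.Agent.Helper43.TS5973

open Module Polynomial Cfsg Cfsg.Geo Cfsg.Agent.Helper58.TS
open Cfsg.Agent.Helper43 Cfsg.Agent.Helper43.OrthEven Cfsg.Agent.Helper43.CycFactors
  Cfsg.Agent.Helper43.PrimeOrdMat
open Cfsg.Agent.Helper31.TB (tb_sel)
open Cfsg.Agent.Helper48.TB (tb_ind_even)
open Cfsg.Agent.Helper72.TB (tb_full)
open scoped MatrixGroups

universe u

section stages

variable {ι : Type} [Fintype ι] [DecidableEq ι] {F : Type*} [Field F] [Fintype F]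

/-- EVEN-BAD. -/
theorem ts_even_bad (Q : (ι → F) → F) (hQ : IsNondegenerateQuadraticForm Q) (d δ : ℕ) (hd : 4 ≤ d)
    (hcard : Fintype.card ι = 2 * d) (hδ : TypeDefect Q δ) (p : ℕ) [Fact p.Prime] [CharP F p]
    (q : ℕ) (hq : Fintype.card F = q) (r : ℕ) [Fact r.Prime] (hr2 : 2 < r) (hrp : r ≠ p) (i : ℕ)
    (hi : i = orderOf ((q : ℕ) : ZMod r)) (heven : Even i) (A o : ℕ) (hA : 1 ≤ A)
    (ho : o ≤ (r - 1) / i) (hoA : o ≤ A) (hpar : Even (A - o))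
    (hadm : i * A + 2 * ((δ + A) % 2) ≤ 2 * d) :
    ∃ x : GL ι F, x ∈ Cfsg.Geo.omegaGL Q ∧ x ^ r = 1 ∧ x ≠ 1 ∧
      ∀ k, InvTS Q (x : Matrix ι ι F) k →
        ∃ s w, 2 * s + o ≤ A ∧ 2 * w + i * A + 2 * ((δ + A) % 2) ≤ 2 * d ∧ k = i * s + w := by
  classical
  have hr : r.Prime := Fact.out
  subst hq
  have hipos : 0 < i := by rw [hi]; exact orderOf_pos_of_card (p := p) rfl hr hrp
  have hrF : (r : F) ≠ 0 := natCast_ne_zero_of_ne (p := p) hr hrp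
  have hrodd : Odd r := hr.odd_of_ne_two (by omega)
  have heven' : Even (orderOf ((Fintype.card F : ℕ) : ZMod r)) := by rw [← hi]; exact heven
  obtain ⟨j, hj⟩ := heven
  have hj2 : i / 2 = j := by omega
  have hjpos : 0 < j := by omega
  have hcardJ : (cycJ F r).card * i = r - 1 := by
    rw [hi]; exact cycJ_card_mul (p := p) rfl hr hrp
  have hJ : (r - 1) / i = (cycJ F r).card := by
    rw [← hcardJ]; exact Nat.mul_div_cancel _ hipos
  have hJ1 : 1 ≤ (cycJ F r).card := by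
    rcases Nat.eq_zero_or_pos (cycJ F r).card with h0 | h0
    · rw [h0, zero_mul] at hcardJ; omega
    · exact h0
  obtain ⟨S, c, hSJ, hsum, hoddsum⟩ := tb_sel (cycJ F r) A o hJ1 (by rw [← hJ]; exact ho) hoA hpar
  obtain ⟨V₁, _, _, _, Q₁, T₁, hnd₁, hT₁, hcyc₁, -, hfr₁, hts₁, hU₁⟩ :=
    tb_ind_even (F := F) p r hr2 hrp heven' S hSJ c
  rw [← hi, hsum, hj2] at hfr₁ hts₁
  rw [← hi, hsum, hoddsum] at hU₁
  have hl : 1 ≤ j * A := Nat.mul_pos hjpos hA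
  have hiA : i * A = 2 * (j * A) := by rw [hj]; ring
  have hε1 : (δ + A) % 2 ≤ 1 := by omega
  obtain ⟨V', _, _, _, Q', T, hnd', hdim', htype', hT', hTr, hT1, hW⟩ :=
    tb_full r hrF Q₁ T₁ hnd₁ hT₁ hcyc₁ (j * A) hl hfr₁ (d - j * A) ((δ + A) % 2) hε1 (by omega)
  have hkl : d - j * A + j * A = d := by omega
  rw [hkl] at hdim' htype'
  have hδ1 : δ ≤ 1 := hδ.le_one
  have htype : HasTS Q' d ↔ δ = 0 := by
    rw [htype', hts₁, Nat.even_iff]
    omega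
  obtain ⟨x, hxΩ, hxr, hx1, hx⟩ :=
    tb_xfer Q hQ d δ hd hcard hδ r hrodd Q' hnd' hdim' htype T hT' hTr hT1
  refine ⟨x, hxΩ, hxr, hx1, ?_⟩
  intro k hk
  obtain ⟨W, hWT, hW0, hWk⟩ := hx k hk
  obtain ⟨w, U₁, hU₁T, hU₁0, hw, hfin⟩ := hW W hWT hW0
  obtain ⟨s, hs, hsA⟩ := hU₁ U₁ hU₁T hU₁0
  exact ⟨s, w, hsA, by omega, by omega⟩

end stages

end Cfsg.Agent.Helper43.TS5973
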