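/-
Helper43 library: every square matrix over a field is similar to its transpose.
(Structure theorem for modules over a PID + the Frobenius form on `F[X]/(f)`.)
-/
import Mathlib

set_option autoImplicit false

namespace Cfsg.Agent.Helper43

open Polynomial Module

theorem frob_monic {F : Type*} [Field F] (q : F[X]) (hq : q.Monic) :
    ∃ τ : AdjoinRoot q →ₗ[F] F, ∀ a : AdjoinRoot q, a ≠ 0 → ∃ b, τ (a * b) ≠ 0 := by
  refine ⟨(Polynomial.lcoeff F (q.natDegree - 1)) ∘ₗ (AdjoinRoot.modByMonicHom hq), ?_⟩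
  intro a ha
  obtain ⟨g0, rfl⟩ := AdjoinRoot.mk_surjective a
  set g := g0 %ₘ q with hg
  have hmk : AdjoinRoot.mk q g = AdjoinRoot.mk q g0 := by
    rw [AdjoinRoot.mk_eq_mk]
    have := Polynomial.modByMonic_add_div g0 q
    refine ⟨-(g0 /ₘ q), ?_⟩
    rw [hg]
    linear_combination this
  have hg0 : g ≠ 0 := by
    intro h0
    rw [h0, map_zero] at hmk
    exact ha hmk.symm
  have hdeg : g.degree < q.degree := Polynomial.degree_modByMonic_lt g0 hq
  have hnat : g.natDegree < q.natDegree := Polynomial.natDegree_lt_natDegree hg0 hdeg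
  obtain ⟨k, hk⟩ : ∃ k, q.natDegree - 1 = g.natDegree + k :=
    ⟨q.natDegree - 1 - g.natDegree, by omega⟩
  refine ⟨AdjoinRoot.mk q (X ^ k), ?_⟩
  rw [← hmk, ← map_mul]
  show (Polynomial.lcoeff F (q.natDegree - 1)) (AdjoinRoot.modByMonicHom hq
    (AdjoinRoot.mk q (g * X ^ k))) ≠ 0
  rw [AdjoinRoot.modByMonicHom_mk]
  have hnd : (g * X ^ k).natDegree = q.natDegree - 1 := by
    rw [Polynomial.natDegree_mul_X_pow _ hg0]
    omega
  have hself : (g * X ^ k) %ₘ q = g * X ^ k := by
    rw [Polynomial.modByMonic_eq_self_iff hq]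
    apply Polynomial.degree_lt_degree
    rw [hnd]
    omega
  rw [hself, Polynomial.lcoeff_apply, hk, Polynomial.coeff_mul_X_pow]
  exact Polynomial.leadingCoeff_ne_zero.mpr hg0

theorem frob_ideal {F : Type*} [Field F] (q : F[X]) (hq : q.Monic) (I : Ideal F[X])
    (hI : I = Ideal.span {q}) :
    ∃ τ : (F[X] ⧸ I) →ₗ[F] F, ∀ a : F[X] ⧸ I, a ≠ 0 → ∃ b, τ (a * b) ≠ 0 := by
  subst hI
  exact frob_monic q hq

theorem frob {F : Type*} [Field F] (f : F[X]) (hf : f ≠ 0) :
    ∃ τ : (F[X] ⧸ Ideal.span {f}) →ₗ[F] F,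
      ∀ a : F[X] ⧸ Ideal.span {f}, a ≠ 0 → ∃ b, τ (a * b) ≠ 0 := by
  apply frob_ideal (f * C (leadingCoeff f)⁻¹) (Polynomial.monic_mul_leadingCoeff_inv hf)
  rw [Ideal.span_singleton_eq_span_singleton]
  have hu : IsUnit (C (leadingCoeff f)⁻¹ : F[X]) :=
    Polynomial.isUnit_C.mpr (IsUnit.mk0 _ (inv_ne_zero (Polynomial.leadingCoeff_ne_zero.mpr hf)))
  exact associated_mul_unit_right f _ hu


theorem exists_sym_form {F : Type*} [Field F] {V : Type*} [AddCommGroup V] [Module F V]
    [FiniteDimensional F V] (T : Module.End F V) :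
    ∃ B : V →ₗ[F] V →ₗ[F] F, (∀ x y, B (T x) y = B x (T y)) ∧
      (∀ y, (∀ x, B x y = 0) → y = 0) := by
  classical
  have htor : Module.IsTorsion F[X] (AEval' T) :=
    Module.AEval.isTorsion_of_finiteDimensional F V T
  obtain ⟨ι, _, p, hp, e, ⟨φ⟩⟩ := Module.equiv_directSum_of_isTorsion htor
  have hf : ∀ i, p i ^ e i ≠ 0 := fun i => pow_ne_zero _ (hp i).ne_zero
  choose τ hτ using fun i => frob (p i ^ e i) (hf i)
  let π : ∀ i, V →ₗ[F] (F[X] ⧸ Ideal.span {p i ^ e i}) := fun i =>
    ((DirectSum.component F[X] ι (fun i => F[X] ⧸ Ideal.span {p i ^ e i}) i).restrictScalars F)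
      ∘ₗ ((φ.restrictScalars F : AEval' T ≃ₗ[F] _) : AEval' T →ₗ[F] _)
      ∘ₗ ((AEval'.of T : V ≃ₗ[F] AEval' T) : V →ₗ[F] AEval' T)
  have hπ : ∀ i v, π i v = (φ (AEval'.of T v)) i := fun i v => rfl
  let B : V →ₗ[F] V →ₗ[F] F :=
    ∑ i, ((LinearMap.mul F (F[X] ⧸ Ideal.span {p i ^ e i})).compr₂ (τ i)).compl₁₂ (π i) (π i)
  have hB : ∀ x y, B x y = ∑ i, τ i (π i x * π i y) := by
    intro x y
    simp [B, LinearMap.sum_apply]
  refine ⟨B, ?_, ?_⟩
  · intro x y
    rw [hB, hB]
    refine Finset.sum_congr rfl fun i _ => ?_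
    have hX : ∀ v, π i (T v) = (Ideal.Quotient.mk (Ideal.span {p i ^ e i}) X) * π i v := by
      intro v
      rw [hπ, hπ, ← AEval'.X_smul_of, map_smul, DirectSum.smul_apply, Algebra.smul_def]
      rfl
    rw [hX, hX]
    congr 1
    ring
  · intro y hy
    have hcomp : ∀ i, π i y = 0 := by
      intro i
      by_contra hne
      obtain ⟨b, hb⟩ := hτ i (π i y) hne
      let x : V := (AEval'.of T).symm (φ.symm
        (DirectSum.lof F[X] ι (fun i => F[X] ⧸ Ideal.span {p i ^ e i}) i b))
      have hπx : ∀ j, π j x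
          = (DirectSum.lof F[X] ι (fun i => F[X] ⧸ Ideal.span {p i ^ e i}) i b) j := by
        intro j
        rw [hπ]
        simp [x]
      have h1 := hy x
      rw [hB, Finset.sum_eq_single i] at h1
      · rw [hπx, DirectSum.lof_apply, mul_comm] at h1
        exact hb h1
      · intro j _ hji
        rw [hπx, DirectSum.lof_eq_of, DirectSum.of_eq_of_ne _ _ _ hji, zero_mul, map_zero]
      · intro h
        exact absurd (Finset.mem_univ i) h
    have h0 : φ (AEval'.of T y) = 0 := by
      apply DirectSum.ext_component F[X]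
      intro i
      rw [map_zero]
      exact hcomp i
    have h1 : AEval'.of T y = 0 := by
      rw [← map_zero φ] at h0
      exact φ.injective h0
    rw [← map_zero (AEval'.of T)] at h1
    exact (AEval'.of T).injective h1

/-- A square matrix over a field is conjugate to its transpose. -/
theorem isConj_transpose {F : Type*} [Field F] {ι : Type*} [Fintype ι] [DecidableEq ι]
    (A : Matrix ι ι F) : IsConj A A.transpose := by
  classical
  obtain ⟨B, hB1, hB2⟩ := exists_sym_form (Matrix.toLin' A)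
  let G : Matrix ι ι F := LinearMap.BilinForm.toMatrix' B
  have hBG : ∀ x y, B x y = x ⬝ᵥ G.mulVec y := by
    intro x y
    rw [← Matrix.toBilin'_apply', Matrix.toBilin'_toMatrix']
  have hGinj : Function.Injective G.mulVec := by
    intro y y' hyy
    have h1 : G.mulVec (y - y') = 0 := by
      rw [Matrix.mulVec_sub, hyy, sub_self]
    have h3 : y - y' = 0 := by
      apply hB2
      intro x
      rw [hBG, h1, dotProduct_zero]
    exact sub_eq_zero.mp h3
  have hGunit : IsUnit G := Matrix.mulVec_injective_iff_isUnit.mp hGinj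
  have hGA : G * A = A.transpose * G := by
    ext i j
    have h1 := hB1 (Pi.single i 1) (Pi.single j 1)
    rw [hBG, hBG, Matrix.toLin'_apply, Matrix.toLin'_apply, Matrix.mulVec_mulVec,
      ← Matrix.vecMul_transpose, ← Matrix.dotProduct_mulVec, Matrix.mulVec_mulVec] at h1
    simp only [Matrix.mulVec_single_one, single_one_dotProduct, Matrix.col_apply] at h1
    exact h1.symm
  exact ⟨hGunit.unit, hGA⟩

end Cfsg.Agent.Helper43
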