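/-
Helper43 library: rank-one square-zero endomorphisms (transvections minus one), adapted bases,
and transitivity of the determinant-one linear group on transvection data.
-/
import Mathlib

set_option autoImplicit false

namespace Cfsg.Agent.Helper43

open Module

universe u

/-- A square-zero endomorphism of rank one is `x ↦ φ x • v` with `φ v = 0`. -/
theorem rank_one_decomp {F : Type*} [Field F] {n : ℕ} (N : (Fin n → F) →ₗ[F] (Fin n → F))
    (hr : finrank F (LinearMap.range N) = 1) (hsq : N ∘ₗ N = 0) :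
    ∃ (v : Fin n → F) (φ : (Fin n → F) →ₗ[F] F), v ≠ 0 ∧ φ ≠ 0 ∧ φ v = 0 ∧ ∀ x, N x = φ x • v := by
  obtain ⟨⟨v, hvr⟩, hv0, hspan⟩ := finrank_eq_one_iff'.mp hr
  have hv : v ≠ 0 := fun h => hv0 (Subtype.ext h)
  obtain ⟨j, hj⟩ : ∃ j, v j ≠ 0 := by
    by_contra h
    exact hv (funext fun j => by_contra fun hj => h ⟨j, hj⟩)
  let lam : (Fin n → F) →ₗ[F] F := (v j)⁻¹ • LinearMap.proj j
  have hlam : lam v = 1 := by simp [lam, inv_mul_cancel₀ hj]
  have hN : ∀ x, N x = (lam ∘ₗ N) x • v := by
    intro x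
    obtain ⟨c, hc⟩ := hspan ⟨N x, LinearMap.mem_range_self N x⟩
    have hc' : c • v = N x := congrArg Subtype.val hc
    show N x = lam (N x) • v
    rw [← hc', map_smul, hlam, smul_eq_mul, mul_one]
  have hφ0 : lam ∘ₗ N ≠ 0 := by
    intro h
    obtain ⟨y, hy⟩ := hvr
    rw [hN y, h] at hy
    simp at hy
    exact hv hy.symm
  obtain ⟨x0, hx0⟩ : ∃ x0, (lam ∘ₗ N) x0 ≠ 0 := by
    by_contra h
    exact hφ0 (LinearMap.ext fun x => by_contra fun hx => h ⟨x, hx⟩)
  have hφv : (lam ∘ₗ N) v = 0 := by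
    have h1 : N (N x0) = 0 := by
      have := congrArg (fun f => f x0) hsq
      simpa using this
    rw [hN x0, map_smul, hN v, smul_smul] at h1
    rcases smul_eq_zero.mp h1 with h | h
    · exact (mul_eq_zero.mp h).resolve_left hx0
    · exact absurd h hv
  exact ⟨v, lam ∘ₗ N, hv, hφ0, hφv, hN⟩

/-- A basis adapted to a non-zero functional and a non-zero vector in its kernel. -/
theorem exists_adapted_basis {F : Type*} [Field F] {V : Type u} [AddCommGroup V] [Module F V]
    [FiniteDimensional F V] (φ : V →ₗ[F] F) (hφ : φ ≠ 0) (v : V) (hv : v ≠ 0) (hφv : φ v = 0) :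
    ∃ (ι : Type u) (_ : Fintype ι) (_ : DecidableEq ι) (b : Basis (Option ι) F V) (i0 : ι),
      b (some i0) = v ∧ (∀ i, φ (b (some i)) = 0) ∧ φ (b none) = 1 ∧
        Fintype.card ι + 1 = finrank F V := by
  classical
  obtain ⟨u0, hu0⟩ : ∃ u0, φ u0 ≠ 0 := by
    by_contra h
    exact hφ (LinearMap.ext fun x => by_contra fun hx => h ⟨x, hx⟩)
  have hφu : φ ((φ u0)⁻¹ • u0) = 1 := by
    rw [map_smul, smul_eq_mul, inv_mul_cancel₀ hu0]
  generalize (φ u0)⁻¹ • u0 = u at hφu
  have hv' : (⟨v, hφv⟩ : LinearMap.ker φ) ≠ 0 := fun h => hv (congrArg Subtype.val h)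
  have hs : LinearIndepOn F id ({⟨v, hφv⟩} : Set (LinearMap.ker φ)) :=
    (linearIndepOn_singleton_iff F).mpr hv'
  have hvS : (⟨v, hφv⟩ : LinearMap.ker φ) ∈ hs.extend (Set.subset_univ _) :=
    Basis.subset_extend hs (Set.mem_singleton _)
  have : Fintype (hs.extend (Set.subset_univ _)) :=
    FiniteDimensional.fintypeBasisIndex (Basis.extend hs)
  have hli : LinearIndependent F (fun o : Option (hs.extend (Set.subset_univ _)) =>
      Option.casesOn' o u (fun i => ((Basis.extend hs i : LinearMap.ker φ) : V))) := by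
    rw [linearIndependent_option']
    refine ⟨(Basis.extend hs).linearIndependent.map' (LinearMap.ker φ).subtype
      (Submodule.ker_subtype _), ?_⟩
    intro hmem
    have hle : Submodule.span F (Set.range fun i : hs.extend (Set.subset_univ _) =>
        ((Basis.extend hs i : LinearMap.ker φ) : V)) ≤ LinearMap.ker φ := by
      rw [Submodule.span_le]
      rintro _ ⟨i, rfl⟩
      exact (Basis.extend hs i).2
    have := hle hmem
    rw [LinearMap.mem_ker, hφu] at this
    exact one_ne_zero this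
  have hcardS : Fintype.card (hs.extend (Set.subset_univ _)) = finrank F (LinearMap.ker φ) :=
    (Module.finrank_eq_card_basis (Basis.extend hs)).symm
  have hrn : finrank F (LinearMap.ker φ) + 1 = finrank F V := by
    have h1 := LinearMap.finrank_range_add_finrank_ker φ
    have hsurj : Function.Surjective φ := fun a => ⟨a • u, by rw [map_smul, hφu, smul_eq_mul, mul_one]⟩
    rw [LinearMap.range_eq_top.mpr hsurj, finrank_top, Module.finrank_self] at h1
    omega
  have hcard : Fintype.card (Option (hs.extend (Set.subset_univ _))) = finrank F V := by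
    rw [Fintype.card_option, hcardS, hrn]
  refine ⟨hs.extend (Set.subset_univ _), inferInstance, inferInstance,
    basisOfLinearIndependentOfCardEqFinrank hli hcard, ⟨_, hvS⟩, ?_, ?_, ?_, ?_⟩
  · rw [coe_basisOfLinearIndependentOfCardEqFinrank]
    show ((Basis.extend hs ⟨_, hvS⟩ : LinearMap.ker φ) : V) = v
    rw [Basis.extend_apply_self]
  · intro i
    rw [coe_basisOfLinearIndependentOfCardEqFinrank]
    exact (Basis.extend hs i).2
  · rw [coe_basisOfLinearIndependentOfCardEqFinrank]
    exact hφu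
  · rw [hcardS, hrn]

/-- For `dim V ≥ 3`, the determinant-one linear group is transitive on pairs (non-zero vector,
non-zero functional vanishing on it). -/
theorem exists_det_one_equiv {F : Type*} [Field F] {V : Type u} [AddCommGroup V] [Module F V]
    [FiniteDimensional F V] (h3 : 3 ≤ finrank F V) (φ ψ : V →ₗ[F] F) (hφ : φ ≠ 0) (hψ : ψ ≠ 0)
    (v w : V) (hv : v ≠ 0) (hw : w ≠ 0) (hφv : φ v = 0) (hψw : ψ w = 0) :
    ∃ g : V ≃ₗ[F] V, LinearMap.det (g : V →ₗ[F] V) = 1 ∧ g v = w ∧ ∀ x, ψ (g x) = φ x := by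
  classical
  obtain ⟨ι, _, _, b, i0, hb0, hbφ, hbn, hc⟩ := exists_adapted_basis φ hφ v hv hφv
  obtain ⟨ι', _, _, b', j0, hb0', hbψ, hbn', hc'⟩ := exists_adapted_basis ψ hψ w hw hψw
  have hcard : Fintype.card ι = Fintype.card ι' := by omega
  let τ0 : ι ≃ ι' := Fintype.equivOfCardEq hcard
  let τ : ι ≃ ι' := τ0.trans (Equiv.swap (τ0 i0) j0)
  have hτ : τ i0 = j0 := by simp [τ]
  let g0 : V ≃ₗ[F] V := b.equiv b' (Equiv.optionCongr τ)
  have hg0 : ∀ o, g0 (b o) = b' (Equiv.optionCongr τ o) := fun o => Basis.equiv_apply _ _ _ _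
  have hg0v : g0 v = w := by
    rw [← hb0, hg0]
    simp [hτ, hb0']
  have hg0φ : ∀ x, ψ (g0 x) = φ x := by
    have : ψ ∘ₗ (g0 : V →ₗ[F] V) = φ := by
      apply b.ext
      intro o
      cases o with
      | none => simp [hg0, hbn, hbn']
      | some i => simp [hg0, hbφ, hbψ]
    intro x
    exact congrArg (fun f => f x) this
  obtain ⟨i1, hi1⟩ : ∃ i1, i1 ≠ i0 := Fintype.exists_ne_of_one_lt_card (by omega) i0
  have hδ0 : LinearMap.det (g0 : V →ₗ[F] V) ≠ 0 := (LinearEquiv.isUnit_det' g0).ne_zero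
  let wt : Option ι → Fˣ := fun o => if o = some i1 then (Units.mk0 _ hδ0)⁻¹ else 1
  let d : V ≃ₗ[F] V := b.equiv (b.unitsSMul wt) (Equiv.refl _)
  have hd : ∀ o, d (b o) = (wt o : F) • b o := by
    intro o
    simp [d, Basis.equiv_apply, Basis.unitsSMul_apply, Units.smul_def]
  have hdv : d v = v := by
    rw [← hb0, hd]
    simp [wt, hi1.symm]
  have hdφ : ∀ x, φ (d x) = φ x := by
    have : φ ∘ₗ (d : V →ₗ[F] V) = φ := by
      apply b.ext
      intro o
      simp only [LinearMap.comp_apply, LinearEquiv.coe_coe, hd, map_smul, smul_eq_mul]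
      by_cases ho : o = some i1
      · subst ho
        simp [hbφ]
      · simp [wt, ho]
    intro x
    exact congrArg (fun f => f x) this
  have hdetd : LinearMap.det (d : V →ₗ[F] V) = (LinearMap.det (g0 : V →ₗ[F] V))⁻¹ := by
    rw [← LinearMap.det_toMatrix b]
    have hmat : LinearMap.toMatrix b b (d : V →ₗ[F] V)
        = Matrix.diagonal (fun o => ((wt o : Fˣ) : F)) := by
      ext o o'
      rw [LinearMap.toMatrix_apply, LinearEquiv.coe_coe, hd, map_smul, Basis.repr_self,
        Matrix.diagonal_apply]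
      by_cases hoo : o = o'
      · subst hoo
        simp
      · simp [hoo]
    rw [hmat, Matrix.det_diagonal, Finset.prod_eq_single (some i1)]
    · simp [wt]
    · intro o _ ho
      simp [wt, ho]
    · intro h
      exact absurd (Finset.mem_univ _) h
  refine ⟨d.trans g0, ?_, ?_, ?_⟩
  · rw [LinearEquiv.coe_trans, LinearMap.det_comp, hdetd, mul_inv_cancel₀ hδ0]
  · simp [hdv, hg0v]
  · intro x
    simp [hg0φ, hdφ]

end Cfsg.Agent.Helper43
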