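import Mathlib
import Cfsg.Agent.Helper30.UGDefs

set_option autoImplicit false

/-!
Piece DA of helper30's CALL S2708 (helper43): descent for an antisymmetric unitary matrix.
-/

namespace Cfsg.Agent.Helper43.UGDA

open Matrix Cfsg.Agent.Helper44.PSLn Cfsg.Agent.Helper44.PSUn Cfsg.Agent.Helper43.GraphAut
open Cfsg.Agent.Helper30.UG

universe u v

variable {F : Type u} [Field F] [Fintype F] {q n : ℕ}

theorem da_tau_order (hF : Fintype.card F = q ^ 2) : orderOf (ulang_tau hF) = 2 := by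
  have : Fact (Nat.Prime 2) := ⟨Nat.prime_two⟩
  apply orderOf_eq_prime
  · apply RingEquiv.ext
    intro a
    rw [pow_two]
    exact ulang_tau_tau hF a
  · exact ulang_tau_ne_one hF

theorem da_twR_two {R : Type*} [Ring R] (τ : R →+* R) (G : R) : twR τ G 2 = G * τ G := by
  rw [show (2 : ℕ) = 0 + 1 + 1 from rfl, twR_succ, twR_succ, twR_zero, map_one, mul_one]

/-- a scalar of norm `-1` -/
theorem da_norm_neg_one (hF : Fintype.card F = q ^ 2) :
    ∃ a : F, a ≠ 0 ∧ a * ulang_tau hF a = -1 := by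
  obtain ⟨a, ha0, ha⟩ := lang_norm_surj (ulang_tau hF) 2 (da_tau_order hF) two_pos (-1 : F)
    (by simp) (by rw [map_neg, map_one])
  rw [da_twR_two] at ha
  exact ⟨a, ha0, ha⟩

/-- a non-zero scalar negated by `τ` -/
theorem da_anti_scalar (hF : Fintype.card F = q ^ 2) :
    ∃ u : F, u ≠ 0 ∧ ulang_tau hF u = -u := by
  obtain ⟨u, hu0, hu⟩ := lang_h90_scalar (ulang_tau hF) 2 (da_tau_order hF) two_pos (-1 : F)
    (by
      rw [da_twR_two]
      show (-1 : F) * ulang_tau hF (-1) = 1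
      rw [map_neg, map_one]
      ring)
  refine ⟨u, hu0, ?_⟩
  have h1 : ulang_tau hF u = -(-1 * ulang_tau hF u) := by ring
  rw [h1, hu]

section Dict

variable {F₀ : Type v} [Field F₀] (hF : Fintype.card F = q ^ 2) (ι : F₀ →+* F)
  (hι : ∀ x, ulang_tau hF x = x ↔ x ∈ Set.range ι)

include hι

/-- DA -/
theorem ug_descent_anti (g : ↥(Cfsg.GU n F q))
    (hs : ((g : GL (Fin n) F) : Mn n F)ᵀ = -((g : GL (Fin n) F) : Mn n F)) :
    ∃ (k : GL (Fin n) F) (B : GL (Fin n) F₀), UDat hF ι g k B ∧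
      (B : Mn n F₀)ᵀ = -(B : Mn n F₀) := by
  set G₀ : Mn n F := ((g : GL (Fin n) F) : Mn n F) with hG₀
  have hord : orderOf (ulang_tau hF) = 2 := da_tau_order hF
  have h1 : G₀ * G₀.map (ulang_tau hF) = -1 := by
    have h := ug_GU hF g
    rw [← hG₀, hs, Matrix.neg_mul] at h
    exact neg_eq_iff_eq_neg.mp h
  obtain ⟨a, ha0, ha⟩ := da_norm_neg_one hF
  set G : Mn n F := a • G₀ with hG
  have hGG : G * G.map (ulang_tau hF) = 1 := by
    rw [hG, ug_map_smul, Matrix.smul_mul, Matrix.mul_smul, smul_smul, h1, ha]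
    simp
  obtain ⟨b, hbu, hb⟩ := lang_h90_matrix (ulang_tau hF) 2 hord two_pos G (by
    rw [da_twR_two]
    exact hGG)
  set S : Mn n F := bᵀ * b.map (ulang_tau hF) with hS
  have hGt : Gᵀ = -G := by rw [hG, Matrix.transpose_smul, hs, smul_neg]
  have hbt : bᵀ = -((b.map (ulang_tau hF))ᵀ * G) := by
    conv_lhs => rw [← hb]
    rw [Matrix.transpose_mul, hGt, Matrix.mul_neg]
  have hS1 : S = -((b.map (ulang_tau hF))ᵀ * b) := by
    rw [hS, hbt, Matrix.neg_mul, Matrix.mul_assoc, hb]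
  have hSt : Sᵀ = (b.map (ulang_tau hF))ᵀ * b := by
    rw [hS, Matrix.transpose_mul, Matrix.transpose_transpose]
  have hSskew : Sᵀ = -S := by
    rw [hSt, hS1, neg_neg]
  have hSτ : S.map (ulang_tau hF) = -S := by
    rw [← hSskew, hSt, hS, ug_map_mul, ug_map_map, ug_map_transpose]
  obtain ⟨u, hu0, hu⟩ := da_anti_scalar hF
  have hfix : (u⁻¹ • S).map (ulang_tau hF) = u⁻¹ • S := by
    rw [ug_map_smul, hSτ, map_inv₀, hu, smul_neg, inv_neg, neg_smul, neg_neg]
  obtain ⟨B0, hB0⟩ := ug_iota_pullback hF ι hι (u⁻¹ • S) hfix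
  have hB0skew : B0ᵀ = -B0 := by
    apply ug_iota_inj ι
    rw [ug_iota_transpose, hB0, Matrix.transpose_smul, hSskew, smul_neg, ← hB0]
    ext i j
    simp
  have hdb : b.det ≠ 0 := ((Matrix.isUnit_iff_isUnit_det b).mp hbu).ne_zero
  have hdet : B0.det ≠ 0 := by
    intro h0
    have h3 : (B0.map ι).det = 0 := by rw [ug_iota_det, h0, map_zero]
    rw [hB0, Matrix.det_smul, hS, Matrix.det_mul, Matrix.det_transpose, ug_map_det] at h3
    have h4 : ulang_tau hF b.det ≠ 0 := by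
      intro h5
      apply hdb
      have := congrArg (ulang_tau hF) h5
      rwa [ulang_tau_tau, map_zero] at this
    exact mul_ne_zero (pow_ne_zero _ (inv_ne_zero hu0)) (mul_ne_zero hdb h4) h3
  refine ⟨hbu.unit, Matrix.GeneralLinearGroup.mkOfDetNeZero B0 hdet, ⟨a, u, ha0, hu0, ?_, ?_⟩,
    hB0skew⟩
  · exact hb
  · show bᵀ * b.map (ulang_tau hF) = u • B0.map ι
    rw [hB0, smul_smul, mul_inv_cancel₀ hu0, one_smul]

end Dict

end Cfsg.Agent.Helper43.UGDA
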