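import Mathlib
import Cfsg.Agent.Helper30.UGDefs
import Cfsg.Agent.Helper43.UGDA
import Cfsg.Agent.Helper43.HermOrtho

set_option autoImplicit false

/-!
Piece EA of helper30's CALL S2708 (helper43): every invertible antisymmetric matrix over the
fixed field is the descent datum of an antisymmetric unitary matrix.
-/

namespace Cfsg.Agent.Helper43.UGEA

open Matrix Cfsg.Agent.Helper44.PSLn Cfsg.Agent.Helper44.PSUn Cfsg.Agent.Helper43.GraphAut
open Cfsg.Agent.Helper30.UG Cfsg.Agent.Helper43.UGDA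

universe u v

variable {F : Type u} [Field F] [Fintype F] {q n : ℕ}

section Dict

variable {F₀ : Type v} [Field F₀] (hF : Fintype.card F = q ^ 2) (ι : F₀ →+* F)
  (hι : ∀ x, ulang_tau hF x = x ↔ x ∈ Set.range ι)

include hι

/-- EA -/
theorem ug_exists_anti (B : GL (Fin n) F₀) (hB : (B : Mn n F₀)ᵀ = -(B : Mn n F₀)) :
    ∃ (g : ↥(Cfsg.GU n F q)) (k : GL (Fin n) F), UDat hF ι g k B ∧
      ((g : GL (Fin n) F) : Mn n F)ᵀ = -((g : GL (Fin n) F) : Mn n F) := by
  obtain ⟨u, hu0, hu⟩ := da_anti_scalar hF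
  obtain ⟨a, ha0, ha⟩ := da_norm_neg_one hF
  set B₁ : Mn n F := (B : Mn n F₀).map ι with hB₁
  set Y : Mn n F := u • B₁ with hY
  have hB₁t : B₁ᵀ = -B₁ := by
    rw [hB₁, ← ug_iota_transpose, hB]
    ext i j
    simp
  have hB₁τ : B₁.map (ulang_tau hF) = B₁ := ug_iota_fixed hF ι hι _
  have hYt : Yᵀ = -Y := by rw [hY, Matrix.transpose_smul, hB₁t, smul_neg]
  have hYτ : Y.map (ulang_tau hF) = -Y := by rw [hY, ug_map_smul, hB₁τ, hu, neg_smul]
  have hadj_eq : ∀ M : Mn n F, HermAdj.hadj q M = (M.map (ulang_tau hF))ᵀ := fun M =>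
    HermAdj.hadj_eq_map (φ := ((ulang_tau hF : RingAut F) : F →+* F))
      (fun a => ulang_tau_apply hF a) M
  have hYh : HermAdj.hadj q Y = Y := by
    rw [hadj_eq, hYτ, Matrix.transpose_neg, hYt, neg_neg]
  have hYu : IsUnit Y := by
    rw [Matrix.isUnit_iff_isUnit_det, hY, Matrix.det_smul, hB₁, ug_iota_det]
    apply IsUnit.mul (IsUnit.pow _ (isUnit_iff_ne_zero.mpr hu0))
    rw [isUnit_iff_ne_zero]
    intro h0
    exact Matrix.GeneralLinearGroup.det_ne_zero B ((map_eq_zero ι).mp h0)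
  obtain ⟨P, hP⟩ := HermOrtho.exists_hadj_mul hF Y hYh hYu
  rw [hadj_eq] at hP
  set Pt : Mn n F := P.map (ulang_tau hF) with hPt
  have E1 : Ptᵀ * Y * P = 1 := hP
  have E2 : P * (Ptᵀ * Y) = 1 := mul_eq_one_comm.mp E1
  have E3 : (Y * P) * Ptᵀ = 1 := by
    rw [Matrix.mul_assoc] at E1
    exact mul_eq_one_comm.mp E1
  set K : Mn n F := -(Pᵀ * Y) with hK
  have hPtK : Pt * K = 1 := by
    have h3 := congrArg Matrix.transpose E3
    rw [Matrix.transpose_mul, Matrix.transpose_transpose, Matrix.transpose_mul, hYt,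
      Matrix.transpose_one, Matrix.mul_neg] at h3
    rw [hK]
    exact h3
  have hKPt : K * Pt = 1 := mul_eq_one_comm.mp hPtK
  have hKτ : K.map (ulang_tau hF) = Ptᵀ * Y := by
    have h3 : (-(Pᵀ * Y)).map (ulang_tau hF) = -((Pᵀ * Y).map (ulang_tau hF)) := by
      ext i j
      simp only [Matrix.map_apply, Matrix.neg_apply, map_neg]
    rw [hK, h3, ug_map_mul, ug_map_transpose, hYτ, Matrix.mul_neg, neg_neg]
  have hKτP : K.map (ulang_tau hF) * P = 1 := by
    rw [hKτ]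
    exact E1
  have hPKτ : P * K.map (ulang_tau hF) = 1 := mul_eq_one_comm.mp hKτP
  have hKt : Kᵀ = Y * P := by
    rw [hK, Matrix.transpose_neg, Matrix.transpose_mul, Matrix.transpose_transpose, hYt,
      Matrix.neg_mul, neg_neg]
  have hKK : Kᵀ * K.map (ulang_tau hF) = Y := by
    rw [hKt, hKτ, Matrix.mul_assoc, E2, Matrix.mul_one]
  set G : Mn n F := K * P with hG
  have hGt : Gᵀ = -G := by
    rw [hG, Matrix.transpose_mul, hKt, ← Matrix.mul_assoc, hK, Matrix.neg_mul, neg_neg]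
  have hGτ : G.map (ulang_tau hF) = K.map (ulang_tau hF) * Pt := by rw [hG, ug_map_mul]
  have hGG : G * G.map (ulang_tau hF) = 1 := by
    rw [hGτ, hG, Matrix.mul_assoc, ← Matrix.mul_assoc P, hPKτ, Matrix.one_mul, hKPt]
  set M : Mn n F := a⁻¹ • G with hM
  have hMt : Mᵀ = -M := by rw [hM, Matrix.transpose_smul, hGt, smul_neg]
  have hMM : Mᵀ * M.map (ulang_tau hF) = 1 := by
    rw [hMt, hM, ug_map_smul, Matrix.neg_mul, Matrix.smul_mul, Matrix.mul_smul, smul_smul, hGG,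
      map_inv₀, ← mul_inv, ha]
    simp
  have hMu : IsUnit M := by
    have h3 := congrArg Matrix.transpose hMM
    rw [Matrix.transpose_mul, Matrix.transpose_transpose, Matrix.transpose_one] at h3
    exact (Matrix.isUnit_iff_isUnit_det _).mpr (Matrix.isUnit_det_of_left_inverse h3)
  have hKu : IsUnit K :=
    (Matrix.isUnit_iff_isUnit_det _).mpr (Matrix.isUnit_det_of_left_inverse hPtK)
  refine ⟨⟨hMu.unit, (ug_mem_GU hF _).mpr hMM⟩, hKu.unit, ⟨a, u, ha0, hu0, ?_, ?_⟩, hMt⟩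
  · show (a • M) * K.map (ulang_tau hF) = K
    rw [hM, smul_smul, mul_inv_cancel₀ ha0, one_smul, hG, Matrix.mul_assoc, hPKτ, Matrix.mul_one]
  · show Kᵀ * K.map (ulang_tau hF) = u • (B : Mn n F₀).map ι
    rw [hKK]

end Dict

end Cfsg.Agent.Helper43.UGEA
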