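import Mathlib
import Cfsg.Prelude.Def_GeometricClasses
import Cfsg.Prelude.Def_LieTypeDatum
import Cfsg.Agent.Helper43.GraphAut
import Cfsg.Agent.S2699
import Cfsg.Agent.S2700
import Cfsg.Agent.S2703

/-!
# Graph involutions of `PSU_n(q)` from those of `PSL_n(q)` (helper43)

A *transfer package* attaches to every involutory graph automorphism of `PSU_n(F, q)` an
invertible (skew-)symmetric matrix over the field `F₀` of `q` elements, compatibly with conjugacy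
under `Inndiag` and with centralisers.  Given such a package, the statements on `PSU_n(q)` follow
from the ones on `PSL_n(F₀)`.
-/

set_option autoImplicit false

namespace Cfsg.Agent.Helper43.UTransfer

open Matrix Cfsg.Agent.Helper44.PSLn Cfsg.Agent.Helper43.GraphAut

universe u v

/-- the transfer package -/
def HasTransfer (n q : ℕ) (F : Type u) [Field F] (F₀ : Type v) [Field F₀] : Prop :=
  ∃ NF : MulAut (Cfsg.PSU n F q) → GL (Fin n) F₀ → Prop,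
    (∀ γ : MulAut (Cfsg.PSU n F q), Cfsg.IsGraphAutClassPSU γ → orderOf γ = 2 →
        ∃ B : GL (Fin n) F₀, NF γ B ∧
          ((B : Mn n F₀)ᵀ = (B : Mn n F₀) ∨ (B : Mn n F₀)ᵀ = -(B : Mn n F₀))) ∧
    (∀ B : GL (Fin n) F₀,
        ((B : Mn n F₀)ᵀ = (B : Mn n F₀) ∨ (B : Mn n F₀)ᵀ = -(B : Mn n F₀)) →
        ∃ γ : MulAut (Cfsg.PSU n F q), Cfsg.IsGraphAutClassPSU γ ∧ orderOf γ = 2 ∧ NF γ B) ∧
    (∀ (γ γ' : MulAut (Cfsg.PSU n F q)) (B B' : GL (Fin n) F₀), NF γ B → NF γ' B' →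
        (Cfsg.IsConjUnder (Cfsg.inndiagPSU n F q) γ γ' ↔
          ∃ (e : GL (Fin n) F₀) (c : F₀),
            (B' : Mn n F₀) = c • ((e : Mn n F₀)ᵀ * (B : Mn n F₀) * (e : Mn n F₀)))) ∧
    (∀ (γ : MulAut (Cfsg.PSU n F q)) (B : GL (Fin n) F₀), NF γ B →
        ∀ H : Subgroup (GL (Fin n) F₀),
        (∀ x : GL (Fin n) F₀, x ∈ H ↔
          ∃ c : F₀, (x : Mn n F₀)ᵀ * (B : Mn n F₀) * (x : Mn n F₀) = c • (B : Mn n F₀)) →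
        Nonempty (↥(Cfsg.inndiagPSU n F q ⊓ Subgroup.centralizer {γ}) ≃* Cfsg.projQuot H)) ∧
    (∀ (σ : F ≃+* F) (φ : MulAut (Cfsg.PSU n F q)), (∀ a : F, σ a = a ^ q) →
        Cfsg.IsFieldAutPSUOf σ φ → NF φ 1)

variable {n : ℕ} {F₀ : Type v} [Field F₀]

/-- the similitude group of the bilinear form with Gram matrix `B` -/
def simB (B : GL (Fin n) F₀) : Subgroup (GL (Fin n) F₀) where
  carrier := {x | ∃ c : F₀, (x : Mn n F₀)ᵀ * (B : Mn n F₀) * (x : Mn n F₀) = c • (B : Mn n F₀)}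
  one_mem' := ⟨1, by simp⟩
  mul_mem' := by
    rintro x y ⟨c, hc⟩ ⟨d, hd⟩
    refine ⟨d * c, ?_⟩
    have e1 : ((x * y : GL (Fin n) F₀) : Mn n F₀)ᵀ * (B : Mn n F₀) * ((x * y : GL (Fin n) F₀) : Mn n F₀)
        = (y : Mn n F₀)ᵀ * ((x : Mn n F₀)ᵀ * (B : Mn n F₀) * (x : Mn n F₀)) * (y : Mn n F₀) := by
      rw [Units.val_mul, Matrix.transpose_mul]
      simp only [Matrix.mul_assoc]
    rw [e1, hc, Matrix.mul_smul, Matrix.smul_mul, hd, smul_smul, mul_comm]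
  inv_mem' := by
    rintro x ⟨c, hc⟩
    rcases Nat.eq_zero_or_pos n with rfl | hn
    · exact ⟨1, Subsingleton.elim _ _⟩
    have hc0 : c ≠ 0 := by
      rintro rfl
      rw [zero_smul] at hc
      have h1 := congrArg Matrix.det hc
      rw [Matrix.det_mul, Matrix.det_mul, Matrix.det_transpose] at h1
      have hx := Matrix.GeneralLinearGroup.det_ne_zero x
      have hB := Matrix.GeneralLinearGroup.det_ne_zero B
      have : Nonempty (Fin n) := ⟨⟨0, hn⟩⟩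
      rw [Matrix.det_zero] at h1
      exact mul_ne_zero (mul_ne_zero hx hB) hx h1
    refine ⟨c⁻¹, ?_⟩
    have hxi : (x : Mn n F₀) * ((x⁻¹ : GL (Fin n) F₀) : Mn n F₀) = 1 := by
      rw [← Units.val_mul, mul_inv_cancel, Units.val_one]
    have hxi' : ((x⁻¹ : GL (Fin n) F₀) : Mn n F₀)ᵀ * (x : Mn n F₀)ᵀ = 1 := by
      rw [← Matrix.transpose_mul, hxi, Matrix.transpose_one]
    have e1 : (B : Mn n F₀) = c⁻¹ • ((x : Mn n F₀)ᵀ * (B : Mn n F₀) * (x : Mn n F₀)) := by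
      rw [hc, smul_smul, inv_mul_cancel₀ hc0, one_smul]
    calc ((x⁻¹ : GL (Fin n) F₀) : Mn n F₀)ᵀ * (B : Mn n F₀) * ((x⁻¹ : GL (Fin n) F₀) : Mn n F₀)
        = ((x⁻¹ : GL (Fin n) F₀) : Mn n F₀)ᵀ *
            (c⁻¹ • ((x : Mn n F₀)ᵀ * (B : Mn n F₀) * (x : Mn n F₀))) *
            ((x⁻¹ : GL (Fin n) F₀) : Mn n F₀) := by rw [← e1]
      _ = c⁻¹ • ((((x⁻¹ : GL (Fin n) F₀) : Mn n F₀)ᵀ * (x : Mn n F₀)ᵀ) * (B : Mn n F₀) *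
            ((x : Mn n F₀) * ((x⁻¹ : GL (Fin n) F₀) : Mn n F₀))) := by
          rw [Matrix.mul_smul, Matrix.smul_mul]
          simp only [Matrix.mul_assoc]
      _ = c⁻¹ • (B : Mn n F₀) := by rw [hxi, hxi', Matrix.one_mul, Matrix.mul_one]

theorem mem_simB (B x : GL (Fin n) F₀) :
    x ∈ simB B ↔
      ∃ c : F₀, (x : Mn n F₀)ᵀ * (B : Mn n F₀) * (x : Mn n F₀) = c • (B : Mn n F₀) := Iff.rfl

/-- the centraliser of `grph B` in `Inndiag(PSL_n(F₀))` -/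
theorem cent_grph (hn : 2 ≤ n) (B : GL (Fin n) F₀) :
    Nonempty (↥(Cfsg.inndiagPSL n F₀ ⊓ Subgroup.centralizer {grph B}) ≃* Cfsg.projQuot (simB B)) := by
  have h := centralizer_grph_iso hn (Equiv.refl (Fin n)) (simB B) B (by
    intro g
    rw [mem_simB]
    simp) 1
  rw [map_one, inv_one, mul_one, one_mul] at h
  exact h

/-- `S2706` from a transfer package -/
theorem s2706_of {F : Type u} [Field F] {p f q : ℕ} [Fact p.Prime] (hq : q = p ^ f)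
    (hf : 1 ≤ f) (hn : 3 ≤ n) {m : ℕ} (hnm : n = 2 * m + 1) [Fintype F₀]
    (hF₀ : Fintype.card F₀ = q) (ht : HasTransfer n q F F₀)
    (γ γ' : MulAut (Cfsg.PSU n F q)) (hγ : Cfsg.IsGraphAutClassPSU γ) (hγ2 : orderOf γ = 2)
    (hγ' : Cfsg.IsGraphAutClassPSU γ') (hγ'2 : orderOf γ' = 2) :
    Nonempty (↥(Cfsg.inndiagPSU n F q ⊓ Subgroup.centralizer {γ}) ≃*
        Cfsg.PGO F₀ (Cfsg.quadFormOdd m F₀)) ∧
      Cfsg.IsConjUnder (Cfsg.inndiagPSU n F q) γ γ' := by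
  obtain ⟨NF, T0, T3, T2, T1, T5⟩ := ht
  obtain ⟨B, hB, hBs⟩ := T0 γ hγ hγ2
  obtain ⟨B', hB', hBs'⟩ := T0 γ' hγ' hγ'2
  have h1 := Cfsg.Agent.S2699.result (F := F₀) (hF₀.trans hq) hf hn hnm (grph B) (grph B')
    (isGraph_grph hn B) ((orderOf_grph hn B).mpr hBs) (isGraph_grph hn B')
    ((orderOf_grph hn B').mpr hBs')
  obtain ⟨⟨e1⟩, hc⟩ := h1
  obtain ⟨e2⟩ := cent_grph (by omega) B
  obtain ⟨e3⟩ := T1 γ B hB (simB B) (mem_simB B)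
  refine ⟨⟨e3.trans (e2.symm.trans e1)⟩, ?_⟩
  rw [T2 γ γ' B B' hB hB']
  exact (isConjUnder_grph (by omega) B B').mp hc

/-- `S2707` from a transfer package -/
theorem s2707_of {F : Type u} [Field F] {q : ℕ} (hodd : Odd q) {m : ℕ} (hm : 2 ≤ m)
    (hnm : n = 2 * m) [Fintype F₀] (hF₀ : Fintype.card F₀ = q) (ht : HasTransfer n q F F₀) :
    ∃ (γ₁ γ₂ γ₃ : MulAut (Cfsg.PSU n F q)) (a b : F₀), (∀ z₁ z₂ : F₀, z₁ ^ 2 + a * z₁ * z₂ + b * z₂ ^ 2 = 0 → z₁ = 0 ∧ z₂ = 0) ∧ Cfsg.IsGraphAutClassPSU γ₁ ∧ orderOf γ₁ = 2 ∧ Cfsg.IsGraphAutClassPSU γ₂ ∧ orderOf γ₂ = 2 ∧ Cfsg.IsGraphAutClassPSU γ₃ ∧ orderOf γ₃ = 2 ∧ ¬ Cfsg.IsConjUnder (Cfsg.inndiagPSU n F q) γ₁ γ₂ ∧ ¬ Cfsg.IsConjUnder (Cfsg.inndiagPSU n F q) γ₁ γ₃ ∧ ¬ Cfsg.IsConjUnder (Cfsg.inndiagPSU n F q) γ₂ γ₃ ∧ (∀ γ : MulAut (Cfsg.PSU n F q), Cfsg.IsGraphAutClassPSU γ → orderOf γ = 2 → Cfsg.IsConjUnder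 (Cfsg.inndiagPSU n F q) γ₁ γ ∨ Cfsg.IsConjUnder (Cfsg.inndiagPSU n F q) γ₂ γ ∨ Cfsg.IsConjUnder (Cfsg.inndiagPSU n F q) γ₃ γ) ∧ Nonempty (↥(Cfsg.inndiagPSU n F q ⊓ Subgroup.centralizer {γ₁}) ≃* Cfsg.PGSp m F₀) ∧ Nonempty (↥(Cfsg.inndiagPSU n F q ⊓ Subgroup.centralizer {γ₂}) ≃* Cfsg.PGO F₀ (Cfsg.quadFormPlus m F₀)) ∧ Nonempty (↥(Cfsg.inndiagPSU n F q ⊓ Subgroup.centralizer {γ₃}) ≃* Cfsg.PGO F₀ (Cfsg.quadFormMinus (m - 1) F₀ a b)) := by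
  obtain ⟨NF, T0, T3, T2, T1, T5⟩ := ht
  have hn : 3 ≤ n := by omega
  have hn2 : 2 ≤ n := by omega
  have hodd' : Odd (Fintype.card F₀) := by rw [hF₀]; exact hodd
  obtain ⟨δ₁, δ₂, δ₃, a, b, hab, hg1, ho1, hg2, ho2, hg3, ho3, hn12, hn13, hn23, hall, ⟨c1⟩,
    ⟨c2⟩, ⟨c3⟩⟩ := Cfsg.Agent.S2700.result (F := F₀) hodd' hm hnm
  obtain ⟨M₁, rfl⟩ := exists_grph δ₁ hg1
  obtain ⟨M₂, rfl⟩ := exists_grph δ₂ hg2
  obtain ⟨M₃, rfl⟩ := exists_grph δ₃ hg3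
  obtain ⟨γ₁, hγ1, hγ1o, hN1⟩ := T3 M₁ ((orderOf_grph hn M₁).mp ho1)
  obtain ⟨γ₂, hγ2, hγ2o, hN2⟩ := T3 M₂ ((orderOf_grph hn M₂).mp ho2)
  obtain ⟨γ₃, hγ3, hγ3o, hN3⟩ := T3 M₃ ((orderOf_grph hn M₃).mp ho3)
  refine ⟨γ₁, γ₂, γ₃, a, b, hab, hγ1, hγ1o, hγ2, hγ2o, hγ3, hγ3o, ?_, ?_, ?_, ?_, ?_, ?_, ?_⟩
  · rw [T2 γ₁ γ₂ M₁ M₂ hN1 hN2, ← isConjUnder_grph hn2]
    exact hn12
  · rw [T2 γ₁ γ₃ M₁ M₃ hN1 hN3, ← isConjUnder_grph hn2]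
    exact hn13
  · rw [T2 γ₂ γ₃ M₂ M₃ hN2 hN3, ← isConjUnder_grph hn2]
    exact hn23
  · intro γ hγ hγo
    obtain ⟨B, hB, hBs⟩ := T0 γ hγ hγo
    rcases hall (grph B) (isGraph_grph hn B) ((orderOf_grph hn B).mpr hBs) with h | h | h
    · left
      rw [T2 γ₁ γ M₁ B hN1 hB, ← isConjUnder_grph hn2]
      exact h
    · right; left
      rw [T2 γ₂ γ M₂ B hN2 hB, ← isConjUnder_grph hn2]
      exact h
    · right; right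
      rw [T2 γ₃ γ M₃ B hN3 hB, ← isConjUnder_grph hn2]
      exact h
  · obtain ⟨e2⟩ := cent_grph hn2 M₁
    obtain ⟨e3⟩ := T1 γ₁ M₁ hN1 (simB M₁) (mem_simB M₁)
    exact ⟨e3.trans (e2.symm.trans c1)⟩
  · obtain ⟨e2⟩ := cent_grph hn2 M₂
    obtain ⟨e3⟩ := T1 γ₂ M₂ hN2 (simB M₂) (mem_simB M₂)
    exact ⟨e3.trans (e2.symm.trans c2)⟩
  · obtain ⟨e2⟩ := cent_grph hn2 M₃
    obtain ⟨e3⟩ := T1 γ₃ M₃ hN3 (simB M₃) (mem_simB M₃)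
    exact ⟨e3.trans (e2.symm.trans c3)⟩

/-- `S2710` from a transfer package -/
theorem s2710_of {F : Type u} [Field F] {q : ℕ} (hodd : Odd q) {m : ℕ} (hm : 2 ≤ m)
    (hnm : n = 2 * m) (h4 : 4 ∣ n) [Fintype F₀] (hF₀ : Fintype.card F₀ = q)
    (ht : HasTransfer n q F F₀) (σ : F ≃+* F) (hσ : ∀ a : F, σ a = a ^ q)
    (φ : MulAut (Cfsg.PSU n F q)) (hφ : Cfsg.IsFieldAutPSUOf σ φ) :
    Nonempty (↥(Cfsg.inndiagPSU n F q ⊓ Subgroup.centralizer {φ}) ≃*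
      Cfsg.PGO F₀ (Cfsg.quadFormPlus m F₀)) := by
  obtain ⟨NF, T0, T3, T2, T1, T5⟩ := ht
  have hn2 : 2 ≤ n := by omega
  have hodd' : Odd (Fintype.card F₀) := by rw [hF₀]; exact hodd
  have hN := T5 σ φ hσ hφ
  obtain ⟨e3⟩ := T1 φ 1 hN (simB 1) (mem_simB 1)
  obtain ⟨e2⟩ := cent_grph hn2 (1 : GL (Fin n) F₀)
  have hev : Even (n * (Fintype.card F₀ - 1) / 4) := by
    obtain ⟨k, rfl⟩ := h4
    obtain ⟨j, hj⟩ := hodd'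
    rw [hj, Nat.add_sub_cancel, Nat.mul_assoc, Nat.mul_div_cancel_left _ (by norm_num : 0 < 4)]
    exact ⟨k * j, by ring⟩
  have h1 := (Cfsg.Agent.S2703.result (F := F₀) hodd' hm hnm iAutN isInverseTranspose_iAutN).1 hev
  rw [iAutN_eq_grph_one] at h1
  obtain ⟨e1⟩ := h1
  exact ⟨e3.trans (e2.symm.trans e1)⟩

end Cfsg.Agent.Helper43.UTransfer
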