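import Mathlib
import Cfsg.Agent.Helper43.UTransfer
import Cfsg.Agent.Helper42.UGA2
import Cfsg.Agent.Helper46.UGA3
import Cfsg.Agent.Helper31.UGA8
import Cfsg.Agent.Helper37.UGIOTA
import Cfsg.Agent.Helper37.UGDS
import Cfsg.Agent.Helper37.UGES
import Cfsg.Agent.Helper43.UGDA
import Cfsg.Agent.Helper43.UGEA
import Cfsg.Agent.Helper47.UGCJ1
import Cfsg.Agent.Helper47.UGCJ2
import Cfsg.Agent.Helper30.UGCE

/-!
# The transfer package for graph involutions of `PSU_n(q)` (helper43)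

Assembled from the dictionary of helper30's CALL S2708 (`ugr g ↔ grph B`): pieces by helper30,
helper31, helper37, helper42, helper46, helper47 and helper43.
-/

set_option autoImplicit false

namespace Cfsg.Agent.Helper43.UTransferAsm

open Matrix Cfsg.Agent.Helper44.PSLn Cfsg.Agent.Helper44.PSUn Cfsg.Agent.Helper43.GraphAut
open Cfsg.Agent.Helper30.UG Cfsg.Agent.Helper43.UTransfer
open Cfsg.Agent.Helper42.UGA2 Cfsg.Agent.Helper46.UGA3 Cfsg.Agent.Helper31.UGA8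
  Cfsg.Agent.Helper37.UGIOTA Cfsg.Agent.Helper37.UGDS Cfsg.Agent.Helper37.UGES
  Cfsg.Agent.Helper43.UGDA Cfsg.Agent.Helper43.UGEA Cfsg.Agent.Helper47.UGCJ1
  Cfsg.Agent.Helper47.UGCJ2 Cfsg.Agent.Helper30.UGCE

universe u v

theorem hasTransfer {F : Type u} [Field F] [Fintype F] {q n : ℕ} (hF : Fintype.card F = q ^ 2)
    (hn : 3 ≤ n) (h32 : ¬ (n = 3 ∧ q = 2)) (F₀ : Type v) [Field F₀] [Fintype F₀]
    (hF₀ : Fintype.card F₀ = q) : HasTransfer n q F F₀ := by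
  obtain ⟨p, hp⟩ := CharP.exists F
  have hpp : Fact p.Prime := ⟨CharP.char_is_prime F p⟩
  obtain ⟨ι, hι⟩ := ug_iota hF hF₀
  refine ⟨fun γ B => ∃ (g : ↥(Cfsg.GU n F q)) (k : GL (Fin n) F), γ = ugr hF g ∧ UDat hF ι g k B,
    ?_, ?_, ?_, ?_, ?_⟩
  · intro γ hγ hγ2
    obtain ⟨g, rfl⟩ := ug_exists hF p hn h32 γ hγ hγ2
    rcases (ug_orderOf hF p hn h32 g).mp hγ2 with hs | hs
    · obtain ⟨k, B, hd, hB⟩ := ug_descent_sym hF ι hι g hs
      exact ⟨B, ⟨g, k, rfl, hd⟩, Or.inl hB⟩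
    · obtain ⟨k, B, hd, hB⟩ := ug_descent_anti hF ι hι g hs
      exact ⟨B, ⟨g, k, rfl, hd⟩, Or.inr hB⟩
  · intro B hB
    rcases hB with hB | hB
    · obtain ⟨g, k, hd, hs⟩ := ug_exists_sym hF ι hι B hB
      exact ⟨ugr hF g, ug_isGraph hF hn g, (ug_orderOf hF p hn h32 g).mpr (Or.inl hs), g, k, rfl,
        hd⟩
    · obtain ⟨g, k, hd, hs⟩ := ug_exists_anti hF ι hι B hB
      exact ⟨ugr hF g, ug_isGraph hF hn g, (ug_orderOf hF p hn h32 g).mpr (Or.inr hs), g, k, rfl,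
        hd⟩
  · rintro γ γ' B B' ⟨g, k, rfl, hd⟩ ⟨g', k', rfl, hd'⟩
    rw [← isConjUnder_grph (by omega)]
    exact ⟨ug_conj_mp hF ι hι p hn h32 g g' k k' B B' hd hd',
      ug_conj_mpr hF ι hι p hn h32 g g' k k' B B' hd hd'⟩
  · rintro γ B ⟨g, k, rfl, hd⟩ H hH
    obtain ⟨φ⟩ := ug_cent hF ι hι p hn h32 g k B hd
    have h := centralizer_grph_iso (by omega : 2 ≤ n) (Equiv.refl (Fin n)) H B (by
      intro x
      rw [hH]
      simp) 1
    rw [map_one, inv_one, mul_one, one_mul] at h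
    obtain ⟨ψ⟩ := h
    exact ⟨φ.trans ψ⟩
  · intro σ φ hσ hφ
    have h1 : φ = uF σ := ulang_eq_uF_of_std σ φ hφ
    have h2 : σ = ulang_tau hF := by
      apply RingEquiv.ext
      intro a
      rw [hσ, ulang_tau_apply]
    refine ⟨1, 1, ?_, 1, 1, one_ne_zero, one_ne_zero, ?_, ?_⟩
    · rw [h1, h2]
      unfold ugr
      rw [map_one, one_mul]
    · rw [one_smul, OneMemClass.coe_one, Units.val_one, ug_map_one, Matrix.one_mul]
    · rw [one_smul, Units.val_one, ug_map_one, Matrix.transpose_one, Matrix.one_mul,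
        Units.val_one, ug_iota_one]

end Cfsg.Agent.Helper43.UTransferAsm
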