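import Mathlib
import Cfsg.Agent.Helper43.UTransferAsm
import Cfsg.Agent.Helper43.USimDet
import Cfsg.Agent.S2702

/-!
# Split counts for graph involutions of `PSU_n(q)`: auxiliary facts (helper43)

Index computations in the norm-one group, square roots of multipliers, and the detection of the
symplectic type from the centraliser.
-/

set_option autoImplicit false

namespace Cfsg.Agent.Helper43.USplitA

open Matrix Module Cfsg.Agent.Helper44.PSLn Cfsg.Agent.Helper44.PSUn Cfsg.Agent.Helper43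
  Cfsg.Agent.Helper43.GraphAut Cfsg.Agent.Helper43.GraphForm Cfsg.Agent.Helper43.OrthEven
  Cfsg.Agent.Helper43.GraphCore

universe u v

section N1

variable {F : Type u} [Field F] [Fintype F] {q : ℕ}

theorem n1_index_pow (hF : Fintype.card F = q ^ 2) (k : ℕ) :
    ((powMonoidHom k : ↥(N1 F q) →* ↥(N1 F q)).range).index = Nat.gcd k (q + 1) := by
  have h := lang_cyclic_index (⊥ : Subgroup ↥(N1 F q)) (q + 1)
    (by rw [Subgroup.card_bot, one_mul]; exact (Cfsg.Agent.Helper5.card_norm_one hF).symm) k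
  rwa [bot_sup_eq] at h

theorem n1_index_neg_pow (hF : Fintype.card F = q ^ 2) (h2 : (2 : F) ≠ 0) (hodd : Odd q)
    (z : ↥(N1 F q)) (hz : ((z : Fˣ) : F) = -1) (m : ℕ) :
    (Subgroup.zpowers z ⊔ (powMonoidHom m : ↥(N1 F q) →* ↥(N1 F q)).range).index
      = Nat.gcd (2 * m) (q + 1) / 2 := by
  have hne : z ≠ 1 := by
    intro h
    rw [h] at hz
    apply h2
    have h3 : ((1 : Fˣ) : F) = -1 := hz
    rw [Units.val_one] at h3
    have : (2 : F) = 1 - (-1) := by ring
    rw [this, ← h3, sub_self]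
  have hsq : z ^ 2 = 1 := by
    apply Subtype.ext
    apply Units.ext
    show ((z : Fˣ) : F) ^ 2 = 1
    rw [hz]
    ring
  have hord : orderOf z = 2 := by
    have : Fact (Nat.Prime 2) := ⟨Nat.prime_two⟩
    exact orderOf_eq_prime hsq hne
  obtain ⟨t, ht⟩ := hodd
  have h := lang_cyclic_index (Subgroup.zpowers z) (t + 1)
    (by
      rw [Nat.card_zpowers, hord]
      have := Cfsg.Agent.Helper5.card_norm_one hF
      rw [this, ht]
      ring) m
  rw [h, ht]
  have : 2 * t + 1 + 1 = 2 * (t + 1) := by ring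
  rw [this, Nat.gcd_mul_left, Nat.mul_div_cancel_left _ (by norm_num : 0 < 2)]

end N1

section Root

variable {K : Type u} [Field K] {n : ℕ}

theorem det_sq_eq (B x : GL (Fin n) K) (c : K)
    (hc : (x : Mn n K)ᵀ * (B : Mn n K) * (x : Mn n K) = c • (B : Mn n K)) :
    (x : Mn n K).det ^ 2 = c ^ n := by
  have h3 := congrArg Matrix.det hc
  rw [Matrix.det_mul, Matrix.det_mul, Matrix.det_transpose, Matrix.det_smul,
    Fintype.card_fin] at h3
  have hB := Matrix.GeneralLinearGroup.det_ne_zero B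
  have h6 : (x : Mn n K).det ^ 2 * (B : Mn n K).det = c ^ n * (B : Mn n K).det := by
    rw [← h3]
    ring
  exact mul_right_cancel₀ hB h6

/-- in odd dimension the multiplier of a similitude is a square, compatibly with the determinant -/
theorem root_sq_odd {m : ℕ} (hnm : n = 2 * m + 1) (B x : GL (Fin n) K) (c : K)
    (hc : (x : Mn n K)ᵀ * (B : Mn n K) * (x : Mn n K) = c • (B : Mn n K)) :
    ∃ a : K, a ^ 2 = c ∧ (x : Mn n K).det = a ^ n := by
  have h5 := det_sq_eq B x c hc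
  have hx := Matrix.GeneralLinearGroup.det_ne_zero x
  have hc0 : c ≠ 0 := by
    rintro rfl
    rw [zero_pow (by omega)] at h5
    exact hx (pow_eq_zero_iff (by norm_num) |>.mp h5)
  have hcm : c ^ m ≠ 0 := pow_ne_zero m hc0
  obtain ⟨d, hd⟩ : ∃ d : K, d = (x : Mn n K).det := ⟨_, rfl⟩
  rw [← hd] at h5 ⊢
  rw [hnm] at h5 ⊢
  have e1 : (d / c ^ m) ^ 2 = c := by
    rw [div_pow, h5, pow_succ, ← pow_mul, mul_comm m 2]
    field_simp
  refine ⟨d / c ^ m, e1, ?_⟩
  rw [pow_succ, pow_mul, e1]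
  field_simp

/-- in characteristic two the multiplier of a similitude is a square, compatibly with the
determinant -/
theorem root_sq_char_two [Finite K] (h2 : (2 : K) = 0) (B x : GL (Fin n) K) (c : K)
    (hc : (x : Mn n K)ᵀ * (B : Mn n K) * (x : Mn n K) = c • (B : Mn n K)) :
    ∃ a : K, a ^ 2 = c ∧ (x : Mn n K).det = a ^ n := by
  have hsq : Function.Injective (fun y : K => y ^ 2) := by
    intro y y' hxy
    have h3 : (y - y') ^ 2 = 0 := by
      have h4 : (y - y') ^ 2 = y ^ 2 + y' ^ 2 - 2 * (y * y') := by ring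
      rw [h4, h2, show y ^ 2 = y' ^ 2 from hxy]
      have h5 : y' ^ 2 + y' ^ 2 = 2 * y' ^ 2 := by ring
      rw [h5, h2]
      ring
    exact sub_eq_zero.mp (pow_eq_zero_iff (by norm_num) |>.mp h3)
  obtain ⟨a, ha⟩ := (Finite.injective_iff_surjective.mp hsq) c
  refine ⟨a, ha, ?_⟩
  apply hsq
  show (x : Mn n K).det ^ 2 = (a ^ n) ^ 2
  rw [det_sq_eq B x c hc, ← pow_mul, mul_comm n 2, pow_mul, show a ^ 2 = c from ha]

end Root

section Typ

variable {F₀ : Type u} [Field F₀] [Fintype F₀] {n m : ℕ}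

/-- a symmetric graph involution of `PSL_n` does not have a centraliser of symplectic type -/
theorem not_pgsp_of_sym (hodd : Odd (Fintype.card F₀)) (hn : 3 ≤ n) (hnm : n = 2 * m)
    (M : GL (Fin n) F₀) (hsym : (M : Mn n F₀)ᵀ = (M : Mn n F₀)) :
    ¬ Nonempty (↥(Cfsg.inndiagPSL n F₀ ⊓ Subgroup.centralizer {grph M}) ≃* Cfsg.PGSp m F₀) := by
  have hn2 : 2 ≤ n := by omega
  have hm1 : 1 ≤ m := by omega
  have h2 : (2 : F₀) ≠ 0 := two_ne_zero_of_odd_card rfl hodd
  have hq3 : 3 ≤ Fintype.card F₀ := by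
    have : 1 < Fintype.card F₀ := Fintype.one_lt_card
    obtain ⟨t, ht⟩ := hodd
    omega
  obtain ⟨e₁⟩ : Nonempty (Fin m ⊕ Fin m ≃ Fin n) :=
    ⟨Fintype.equivFinOfCardEq (by simp only [Fintype.card_sum, Fintype.card_fin]; omega)⟩
  obtain ⟨e₂⟩ : Nonempty ((Fin (m - 1) ⊕ Fin (m - 1)) ⊕ Fin 2 ≃ Fin n) :=
    ⟨Fintype.equivFinOfCardEq (by simp only [Fintype.card_sum, Fintype.card_fin]; omega)⟩
  obtain ⟨a, b, hab⟩ := exists_aniso (F := F₀) h2
  have hP : PolarNondeg (plusQF m F₀) := polarNondeg_of_nondegenerate _ (plusQF_nondeg m)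
  have hMi : PolarNondeg (minusQF (m - 1) F₀ a b) :=
    polarNondeg_of_nondegenerate _ (minusQF_nondeg (m - 1) a b hab)
  obtain ⟨Q, hQ, hQpol, hQnd⟩ := Cfsg.Agent.Helper41.exists_symQF h2 (M : Mn n F₀) hsym
  have hQnd' : PolarNondeg Q := hQnd (Matrix.GeneralLinearGroup.det_ne_zero M)
  have hV : finrank F₀ (Fin n → F₀) = 2 * m := by
    rw [Module.finrank_fintype_fun_eq_card, Fintype.card_fin, hnm]
  have hSp := Cfsg.Agent.S0245.result (F := F₀) rfl m
  by_cases hTS : HasTS Q m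
  · obtain ⟨Ψ, hΨ⟩ := exists_plus_of_hasTS hm1 hV Q hQnd' hTS
    have hconj := conj_of_equiv hn2 e₁ (plusQF m F₀) hP M Q hQpol Ψ 1 one_ne_zero (fun z => by
      rw [hΨ, one_mul]
      rfl)
    rintro ⟨φ₂⟩
    obtain ⟨φ₁⟩ := centralizer_gram_iso hn2 h2 e₁ (plusQF m F₀) hP _ hconj
    have hO := Cfsg.Agent.S0287.result (F := F₀) rfl m hm1
    refine Cfsg.Agent.S2702.not_iso hm1 (plusQF m F₀) ?_ ?_ φ₁ φ₂
    · obtain ⟨v, hv⟩ : ∃ v, QuadraticMap.polar (plusQF m F₀) v ≠ 0 := by
        by_contra hcon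
        simp only [not_exists, not_not] at hcon
        have := hP (fun _ => 1) (fun w => by rw [hcon]; rfl)
        have h5 := congrFun this (Sum.inl ⟨0, hm1⟩)
        simp at h5
      by_contra hcon
      simp only [not_exists, not_not] at hcon
      apply hv
      funext w
      unfold QuadraticMap.polar
      rw [hcon, hcon, hcon]
      simp
    · show Nat.card (Cfsg.isometryGroup F₀ (Cfsg.quadFormPlus m F₀)) < _
      rw [hO, hSp]
      exact Cfsg.Agent.Helper20.ord_arith_plus (Fintype.card F₀) m (by omega) hm1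
  · obtain ⟨Ψ, hΨ⟩ := exists_minus_of_not_hasTS' hm1 hV Q hQnd' hTS a b hab
    have hconj := conj_of_equiv hn2 e₂ (minusQF (m - 1) F₀ a b) hMi M Q hQpol Ψ 1 one_ne_zero
      (fun z => by
        rw [hΨ, one_mul]
        rfl)
    rintro ⟨φ₂⟩
    obtain ⟨φ₁⟩ := centralizer_gram_iso hn2 h2 e₂ (minusQF (m - 1) F₀ a b) hMi _ hconj
    have hO := Cfsg.Agent.S0288.result (F := F₀) rfl m hm1 a b hab
    refine Cfsg.Agent.S2702.not_iso hm1 (minusQF (m - 1) F₀ a b) ?_ ?_ φ₁ φ₂
    · obtain ⟨v, hv⟩ : ∃ v, QuadraticMap.polar (minusQF (m - 1) F₀ a b) v ≠ 0 := by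
        by_contra hcon
        simp only [not_exists, not_not] at hcon
        have := hMi (fun _ => 1) (fun w => by rw [hcon]; rfl)
        have h5 := congrFun this (Sum.inr 0)
        simp at h5
      by_contra hcon
      simp only [not_exists, not_not] at hcon
      apply hv
      funext w
      unfold QuadraticMap.polar
      rw [hcon, hcon, hcon]
      simp
    · show Nat.card (Cfsg.isometryGroup F₀ (Cfsg.quadFormMinus (m - 1) F₀ a b)) < _
      rw [hO, hSp]
      exact Cfsg.Agent.Helper20.ord_arith_minus (Fintype.card F₀) m hq3 hm1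

/-- an antisymmetric graph involution of `PSL_n` has a centraliser of symplectic type -/
theorem pgsp_of_skew (h2 : (2 : F₀) ≠ 0) (hn : 3 ≤ n) (hnm : n = 2 * m)
    (M : GL (Fin n) F₀) (hskew : (M : Mn n F₀)ᵀ = -(M : Mn n F₀)) :
    Nonempty (↥(Cfsg.inndiagPSL n F₀ ⊓ Subgroup.centralizer {grph M}) ≃* Cfsg.PGSp m F₀) := by
  have hn2 : 2 ≤ n := by omega
  obtain ⟨e₁⟩ : Nonempty (Fin m ⊕ Fin m ≃ Fin n) :=
    ⟨Fintype.equivFinOfCardEq (by simp only [Fintype.card_sum, Fintype.card_fin]; omega)⟩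
  have hdiag : ∀ i, (M : Mn n F₀) i i = 0 := by
    intro i
    have h3 := congrFun (congrFun hskew i) i
    rw [Matrix.transpose_apply, Matrix.neg_apply] at h3
    have h4 : (2 : F₀) * (M : Mn n F₀) i i = 0 := by linear_combination h3
    exact (mul_eq_zero.mp h4).resolve_left h2
  exact centralizer_J_iso hn2 e₁ _ (conj_of_alt hn2 e₁ M hskew hdiag)

end Typ

end Cfsg.Agent.Helper43.USplitA
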