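import Mathlib
import Cfsg.Agent.Helper43.USplitA
import Cfsg.Agent.Helper30.UGDM1
import Cfsg.Agent.Helper30.UGDM2

/-!
# Split counts for graph involutions of `PSU_n(q)` (helper43)

The `Inndiag`-class of an involutory graph automorphism `γ` of `PSU_n(q)` splits into
`|N₁ : det C_{GU}(γ)|` classes under the inner automorphisms; the determinant image is computed
from the descent datum of `γ` (helper30's dictionary).
-/

set_option autoImplicit false

namespace Cfsg.Agent.Helper43.USplit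

open Matrix Module Cfsg.Agent.Helper44.PSLn Cfsg.Agent.Helper44.PSUn Cfsg.Agent.Helper43
  Cfsg.Agent.Helper43.GraphAut
open Cfsg.Agent.Helper30.UG Cfsg.Agent.Helper30.UGCE Cfsg.Agent.Helper43.USplitA
  Cfsg.Agent.Helper43.USimDet Cfsg.Agent.Helper30.UGDM1 Cfsg.Agent.Helper30.UGDM2
  Cfsg.Agent.Helper43.UGDA

universe u v

variable {F : Type u} [Field F] [Fintype F] {q n : ℕ}

theorem n1_iff (hF : Fintype.card F = q ^ 2) (w : F) :
    w ^ (q + 1) = 1 ↔ w * ulang_tau hF w = 1 := by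
  rw [ulang_tau_apply, pow_succ']

section Dict

variable {F₀ : Type v} [Field F₀] (hF : Fintype.card F = q ^ 2) (ι : F₀ →+* F)
  (hι : ∀ x, ulang_tau hF x = x ↔ x ∈ Set.range ι)

include hι

theorem tau_iota (c : F₀) : ulang_tau hF (ι c) = ι c := (hι _).mpr ⟨c, rfl⟩

/-- the norm-one element attached to a pair `(b, c)` -/
theorem v_mem (b : F) (c : F₀) (hb : b * ulang_tau hF b * ι c = 1) :
    (b ^ 2 * ι c) ^ (q + 1) = 1 := by
  rw [n1_iff hF, map_mul, map_pow, tau_iota hF ι hι]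
  have h1 : b ^ 2 * ι c * (ulang_tau hF b ^ 2 * ι c) = (b * ulang_tau hF b * ι c) ^ 2 := by ring
  rw [h1, hb, one_pow]

/-- Hilbert 90 for a norm-one element, together with the multiplier -/
theorem exists_bc (w : F) (hw : w * ulang_tau hF w = 1) :
    ∃ (b : F) (c : F₀), c ≠ 0 ∧ b * ulang_tau hF b * ι c = 1 ∧ b ^ 2 * ι c = w := by
  obtain ⟨b, hb0, hb⟩ := lang_h90_scalar (ulang_tau hF) 2 (da_tau_order hF) two_pos w (by
    rw [da_twR_two]
    exact hw)
  have hτb : ulang_tau hF b ≠ 0 := by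
    intro h
    apply hb0
    have := congrArg (ulang_tau hF) h
    rwa [ulang_tau_tau, map_zero] at this
  have hfix : ulang_tau hF (b * ulang_tau hF b)⁻¹ = (b * ulang_tau hF b)⁻¹ := by
    rw [map_inv₀, map_mul, ulang_tau_tau, mul_comm]
  obtain ⟨c, hc⟩ := (hι _).mp hfix
  have hne : b * ulang_tau hF b ≠ 0 := mul_ne_zero hb0 hτb
  refine ⟨b, c, ?_, ?_, ?_⟩
  · intro h0
    rw [h0, map_zero] at hc
    exact inv_ne_zero hne hc.symm
  · rw [hc, mul_inv_cancel₀ hne]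
  · rw [hc]
    have h3 : w = b / ulang_tau hF b := by
      rw [eq_div_iff hτb]
      exact hb
    rw [h3]
    field_simp

/-- membership in the determinant image -/
theorem mem_detimg (p : ℕ) [Fact p.Prime] [CharP F p] (hn : 3 ≤ n) (h32 : ¬ (n = 3 ∧ q = 2))
    (g : ↥(Cfsg.GU n F q)) (k : GL (Fin n) F) (B : GL (Fin n) F₀) (hd : UDat hF ι g k B)
    (hn1 : 1 ≤ n) (z : ↥(N1 F q)) :
    z ∈ (ulang_cGU (ugr hF g)).map (detN hF hn1) ↔
      ∃ (x : GL (Fin n) F₀) (b : F) (c : F₀),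
        (x : Mn n F₀)ᵀ * (B : Mn n F₀) * (x : Mn n F₀) = c • (B : Mn n F₀) ∧
        b * ulang_tau hF b * ι c = 1 ∧ ((z : Fˣ) : F) = b ^ n * ι ((x : Mn n F₀).det) := by
  rw [Subgroup.mem_map]
  constructor
  · rintro ⟨h, hh, rfl⟩
    obtain ⟨x, b, c, hx, hb, hdet⟩ := ug_det_mp hF ι hι p hn h32 g k B hd h hh
    exact ⟨x, b, c, hx, hb, hdet⟩
  · rintro ⟨x, b, c, hx, hb, hz⟩
    obtain ⟨h, hh, hdet⟩ := ug_det_mpr hF ι hι p hn h32 g k B hd x b c hx hb
    refine ⟨h, hh, ?_⟩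
    apply Subtype.ext
    apply Units.ext
    rw [hz, ← hdet]
    rfl

/-- the determinant image when multipliers have compatible square roots -/
theorem detimg_eq_pow (p : ℕ) [Fact p.Prime] [CharP F p] (hn : 3 ≤ n) (h32 : ¬ (n = 3 ∧ q = 2))
    (g : ↥(Cfsg.GU n F q)) (k : GL (Fin n) F) (B : GL (Fin n) F₀) (hd : UDat hF ι g k B)
    (hn1 : 1 ≤ n)
    (hroot : ∀ (x : GL (Fin n) F₀) (c : F₀),
      (x : Mn n F₀)ᵀ * (B : Mn n F₀) * (x : Mn n F₀) = c • (B : Mn n F₀) →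
        ∃ a : F₀, a ^ 2 = c ∧ (x : Mn n F₀).det = a ^ n) :
    (ulang_cGU (ugr hF g)).map (detN hF hn1)
      = (powMonoidHom n : ↥(N1 F q) →* ↥(N1 F q)).range := by
  ext z
  rw [mem_detimg hF ι hι p hn h32 g k B hd hn1, MonoidHom.mem_range]
  constructor
  · rintro ⟨x, b, c, hx, hb, hz⟩
    obtain ⟨a, ha, hdet⟩ := hroot x c hx
    have hv : (b * ι a) ^ (q + 1) = 1 := by
      rw [n1_iff hF, map_mul, tau_iota hF ι hι, ← hb, ← ha, map_pow]
      ring
    refine ⟨ulang_mkN1 (b * ι a) hv, ?_⟩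
    apply Subtype.ext
    apply Units.ext
    show (b * ι a) ^ n = ((z : Fˣ) : F)
    rw [hz, hdet, map_pow, mul_pow]
  · rintro ⟨v, rfl⟩
    refine ⟨1, ((v : Fˣ) : F), 1, ?_, ?_, ?_⟩
    · rw [Units.val_one, Matrix.transpose_one, Matrix.one_mul, Matrix.mul_one, one_smul]
    · rw [map_one, mul_one, ← n1_iff hF]
      exact ulang_N1_pow v
    · rw [Units.val_one, Matrix.det_one, map_one, mul_one]
      rfl

/-- the determinant image for a descent datum of symplectic type -/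
theorem detimg_skew (p : ℕ) [Fact p.Prime] [CharP F p] (hn : 3 ≤ n) (h32 : ¬ (n = 3 ∧ q = 2))
    (g : ↥(Cfsg.GU n F q)) (k : GL (Fin n) F) (B : GL (Fin n) F₀) (hd : UDat hF ι g k B)
    (hn1 : 1 ≤ n) {m : ℕ} (hnm : n = 2 * m) (h2 : (2 : F₀) ≠ 0)
    (hskew : (B : Mn n F₀)ᵀ = -(B : Mn n F₀)) :
    (ulang_cGU (ugr hF g)).map (detN hF hn1)
      = (powMonoidHom m : ↥(N1 F q) →* ↥(N1 F q)).range := by
  obtain ⟨e⟩ : Nonempty (Fin m ⊕ Fin m ≃ Fin n) :=
    ⟨Fintype.equivFinOfCardEq (by simp only [Fintype.card_sum, Fintype.card_fin]; omega)⟩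
  have hdiag : ∀ i, (B : Mn n F₀) i i = 0 := by
    intro i
    have h3 := congrFun (congrFun hskew i) i
    rw [Matrix.transpose_apply, Matrix.neg_apply] at h3
    have h4 : (2 : F₀) * (B : Mn n F₀) i i = 0 := by linear_combination h3
    exact (mul_eq_zero.mp h4).resolve_left h2
  have hdet : (B : Mn n F₀).det ≠ 0 := Matrix.GeneralLinearGroup.det_ne_zero B
  ext z
  rw [mem_detimg hF ι hι p hn h32 g k B hd hn1, MonoidHom.mem_range]
  constructor
  · rintro ⟨x, b, c, hx, hb, hz⟩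
    have hdx := skew_det e (B : Mn n F₀) hdet hskew hdiag x c hx
    refine ⟨ulang_mkN1 (b ^ 2 * ι c) (v_mem hF ι hι b c hb), ?_⟩
    apply Subtype.ext
    apply Units.ext
    show (b ^ 2 * ι c) ^ m = ((z : Fˣ) : F)
    rw [hz, hdx, map_pow, hnm, mul_pow, ← pow_mul]
  · rintro ⟨v, rfl⟩
    obtain ⟨b, c, hc0, hb, hbc⟩ := exists_bc hF ι hι ((v : Fˣ) : F) (by
      rw [← n1_iff hF]
      exact ulang_N1_pow v)
    obtain ⟨x, hx⟩ := skew_exists e (B : Mn n F₀) hdet hskew hdiag c hc0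
    refine ⟨x, b, c, hx, hb, ?_⟩
    have hdx := skew_det e (B : Mn n F₀) hdet hskew hdiag x c hx
    show ((v : Fˣ) : F) ^ m = _
    rw [hdx, map_pow, hnm, ← hbc, mul_pow, ← pow_mul]

/-- the determinant image for a descent datum of orthogonal type -/
theorem detimg_sym [Finite F₀] (p : ℕ) [Fact p.Prime] [CharP F p] (hn : 3 ≤ n)
    (h32 : ¬ (n = 3 ∧ q = 2))
    (g : ↥(Cfsg.GU n F q)) (k : GL (Fin n) F) (B : GL (Fin n) F₀) (hd : UDat hF ι g k B)
    (hn1 : 1 ≤ n) {m : ℕ} (hnm : n = 2 * m) (h2 : (2 : F₀) ≠ 0)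
    (hsym : (B : Mn n F₀)ᵀ = (B : Mn n F₀)) (z₀ : ↥(N1 F q)) (hz₀ : ((z₀ : Fˣ) : F) = -1) :
    (ulang_cGU (ugr hF g)).map (detN hF hn1)
      = Subgroup.zpowers z₀ ⊔ (powMonoidHom m : ↥(N1 F q) →* ↥(N1 F q)).range := by
  have hm1 : 1 ≤ m := by omega
  have hdet : (B : Mn n F₀).det ≠ 0 := Matrix.GeneralLinearGroup.det_ne_zero B
  have hB0 : (B : Mn n F₀) ≠ 0 := by
    intro h0
    apply hdet
    rw [h0]
    have : Nonempty (Fin n) := ⟨⟨0, by omega⟩⟩
    exact Matrix.det_zero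
  have hor : ∀ (x : GL (Fin n) F₀) (c : F₀),
      (x : Mn n F₀)ᵀ * (B : Mn n F₀) * (x : Mn n F₀) = c • (B : Mn n F₀) →
        (x : Mn n F₀).det = c ^ m ∨ (x : Mn n F₀).det = -c ^ m := by
    intro x c hx
    have hsq := det_sq_eq B x c hx
    have e : c ^ n = (c ^ m) ^ 2 := by
      rw [← pow_mul]
      congr 1
      omega
    rw [e] at hsq
    exact sq_eq_sq_iff_eq_or_eq_neg.mp hsq
  have hz₀mem : z₀ ∈ (ulang_cGU (ugr hF g)).map (detN hF hn1) := by
    rw [mem_detimg hF ι hι p hn h32 g k B hd hn1]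
    obtain ⟨x, hx, hdx⟩ := exists_refl h2 (B : Mn n F₀) hsym hB0
    refine ⟨x, 1, 1, by rw [hx, one_smul], by rw [map_one, map_one, mul_one, mul_one], ?_⟩
    rw [hz₀, hdx, one_pow, one_mul, map_neg, map_one]
  apply le_antisymm
  · intro z hz
    rw [mem_detimg hF ι hι p hn h32 g k B hd hn1] at hz
    obtain ⟨x, b, c, hx, hb, hz⟩ := hz
    rw [Subgroup.mem_sup]
    rcases hor x c hx with h | h
    · refine ⟨1, Subgroup.one_mem _, powMonoidHom m (ulang_mkN1 (b ^ 2 * ι c) (v_mem hF ι hι b c hb)),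
        ⟨_, rfl⟩, ?_⟩
      rw [one_mul]
      apply Subtype.ext
      apply Units.ext
      show (b ^ 2 * ι c) ^ m = ((z : Fˣ) : F)
      rw [hz, h, map_pow, hnm, mul_pow, ← pow_mul]
    · refine ⟨z₀, Subgroup.mem_zpowers _,
        powMonoidHom m (ulang_mkN1 (b ^ 2 * ι c) (v_mem hF ι hι b c hb)), ⟨_, rfl⟩, ?_⟩
      apply Subtype.ext
      apply Units.ext
      show ((z₀ : Fˣ) : F) * (b ^ 2 * ι c) ^ m = ((z : Fˣ) : F)
      rw [hz, h, hz₀, map_neg, map_pow, hnm, mul_pow, ← pow_mul]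
      ring
  · rw [sup_le_iff]
    constructor
    · rw [Subgroup.zpowers_le]
      exact hz₀mem
    · rintro z ⟨v, rfl⟩
      obtain ⟨b, c, hc0, hb, hbc⟩ := exists_bc hF ι hι ((v : Fˣ) : F) (by
        rw [← n1_iff hF]
        exact ulang_N1_pow v)
      obtain ⟨x, hx⟩ := exists_mult h2 hm1 hnm (B : Mn n F₀) hsym hdet c hc0
      rcases hor x c hx with h | h
      · rw [mem_detimg hF ι hι p hn h32 g k B hd hn1]
        refine ⟨x, b, c, hx, hb, ?_⟩
        show ((v : Fˣ) : F) ^ m = _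
        rw [h, map_pow, hnm, ← hbc, mul_pow, ← pow_mul]
      · have hz' : z₀ * powMonoidHom m v ∈ (ulang_cGU (ugr hF g)).map (detN hF hn1) := by
          rw [mem_detimg hF ι hι p hn h32 g k B hd hn1]
          refine ⟨x, b, c, hx, hb, ?_⟩
          show ((z₀ : Fˣ) : F) * ((v : Fˣ) : F) ^ m = _
          rw [h, hz₀, map_neg, map_pow, hnm, ← hbc, mul_pow, ← pow_mul]
          ring
        have h5 : powMonoidHom m v = z₀⁻¹ * (z₀ * powMonoidHom m v) := by group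
        rw [h5]
        exact Subgroup.mul_mem _ (Subgroup.inv_mem _ hz₀mem) hz'

end Dict

end Cfsg.Agent.Helper43.USplit
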