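/-
Helper43 library: the determinant on the centraliser of a semisimple element of the finite
unitary group `GU_n(q)` takes every value `c / c ^ q`: for `g` with `hadj g * g = 1` of order
prime to the characteristic and `c ≠ 0` there is `z` with `hadj z * z = 1`, `z * g = g * z`,
`det z = c * (c ^ q)⁻¹`.  Proof: a normal idempotent onto an irreducible `g`-submodule
(`IrredIdem.exists_irred_idem_matrix`; orthogonal projection in the non-degenerate case,
`P - μ^q • P * hadj P` with `μ + μ^q = 1` in the isotropic case) and `z = ψ * hadj ψ⁻¹`.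
-/
import Cfsg.Agent.Helper43.IrredIdem
import Cfsg.Agent.Helper43.HermAdj
import Cfsg.Agent.Helper43.KdimTwist
import Cfsg.Agent.Helper43.NormH90Sub

set_option autoImplicit false
set_option linter.unusedSectionVars false

namespace Cfsg.Agent.Helper43
namespace UnitaryCentDet

open Matrix Polynomial NormH90 HermAdj KdimTwist IrredIdem Cfsg.Agent.Helper38 Module

variable {K : Type*} [Field K] [Fintype K] {q : ℕ} {n : ℕ}

theorem hadj_smul (a : K) (Y : Matrix (Fin n) (Fin n) K) : hadj q (a • Y) = a ^ q • hadj q Y := by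
  ext i j
  rw [hadj_apply, Matrix.smul_apply, Matrix.smul_apply, hadj_apply, smul_eq_mul, smul_eq_mul,
    mul_pow]

theorem hadj_sub (hK : Fintype.card K = q ^ 2) (M N : Matrix (Fin n) (Fin n) K) :
    hadj q (M - N) = hadj q M - hadj q N := by
  ext i j
  rw [hadj_apply, Matrix.sub_apply, Matrix.sub_apply, hadj_apply, hadj_apply, sub_pow_q hK]

theorem hadj_det (hK : Fintype.card K = q ^ 2) (M : Matrix (Fin n) (Fin n) K) :
    (hadj q M).det = M.det ^ q := by
  rw [hadj_eq_map (frobQ_apply hK), Matrix.det_transpose, ← frobQ_apply hK, RingHom.map_det,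
    RingHom.mapMatrix_apply]

theorem finrank_ker_hadj (hK : Fintype.card K = q ^ 2) (P : Matrix (Fin n) (Fin n) K) :
    finrank K (LinearMap.ker (Matrix.toLin' (hadj q P)))
      = finrank K (LinearMap.ker (Matrix.toLin' P)) := by
  have h1 := kdim_eq_finrank_ker (hadj q P) 1
  have h2 := kdim_eq_finrank_ker P 1
  rw [pow_one] at h1 h2
  rw [← h1, ← h2, hadj_eq_map (frobQ_apply hK), kdim_transpose,
    kdim_map (frobQ hK) (frobQ_bijective hK)]

/-- the orthogonal projection onto a non-degenerate image of an idempotent -/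
theorem exists_orth_proj (hK : Fintype.card K = q ^ 2) (P g : Matrix (Fin n) (Fin n) K)
    (hPP : P * P = P) (hPg : P * g = g * P) (hPdg : hadj q P * g = g * hadj q P)
    (hnd : ∀ u : Fin n → K, P *ᵥ u = u → hadj q P *ᵥ u = 0 → u = 0) :
    ∃ E : Matrix (Fin n) (Fin n) K, E * E = E ∧ E * g = g * E ∧ hadj q E = E ∧ P * E = E ∧
      E * P = P := by
  classical
  have hdisj : Disjoint (LinearMap.range (Matrix.toLin' P))
      (LinearMap.ker (Matrix.toLin' (hadj q P))) := by
    rw [Submodule.disjoint_def]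
    rintro x ⟨y, rfl⟩ hx
    rw [LinearMap.mem_ker, Matrix.toLin'_apply] at hx
    rw [Matrix.toLin'_apply] at hx ⊢
    refine hnd _ ?_ hx
    rw [mulVec_mulVec, hPP]
  have hdim : finrank K (LinearMap.range (Matrix.toLin' P))
      + finrank K (LinearMap.ker (Matrix.toLin' (hadj q P))) = finrank K (Fin n → K) := by
    rw [finrank_ker_hadj hK]
    exact LinearMap.finrank_range_add_finrank_ker (Matrix.toLin' P)
  have hc : IsCompl (LinearMap.range (Matrix.toLin' P))
      (LinearMap.ker (Matrix.toLin' (hadj q P))) :=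
    ⟨hdisj, codisjoint_iff.2 (Submodule.eq_top_of_disjoint _ _ hdim.ge hdisj)⟩
  obtain ⟨E₀, hE₀⟩ : ∃ E₀ : (Fin n → K) →ₗ[K] (Fin n → K),
      E₀ = (LinearMap.range (Matrix.toLin' P)).projection
        (LinearMap.ker (Matrix.toLin' (hadj q P))) hc := ⟨_, rfl⟩
  obtain ⟨E, hEdef⟩ : ∃ E : Matrix (Fin n) (Fin n) K, E = LinearMap.toMatrix' E₀ := ⟨_, rfl⟩
  have hE : ∀ x, E *ᵥ x = E₀ x := by
    intro x
    rw [hEdef, ← Matrix.toLin'_apply, Matrix.toLin'_toMatrix']
  -- images of `E` are fixed by `P`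
  have hb : ∀ x, P *ᵥ (E *ᵥ x) = E *ᵥ x := by
    intro x
    have h1 : E₀ x ∈ LinearMap.range (Matrix.toLin' P) := by
      rw [hE₀]
      exact Submodule.projection_apply_mem hc x
    obtain ⟨y, hy⟩ := h1
    rw [hE, ← hy, Matrix.toLin'_apply, mulVec_mulVec, hPP]
  have hcc : ∀ x, E *ᵥ (P *ᵥ x) = P *ᵥ x := by
    intro x
    rw [hE, hE₀]
    exact Submodule.projection_apply_of_mem_left hc ⟨x, Matrix.toLin'_apply _ _⟩
  have hd : ∀ y, hadj q P *ᵥ y = 0 → E *ᵥ y = 0 := by
    intro y hy
    rw [hE, hE₀]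
    exact Submodule.projection_apply_right hc
      (⟨y, by rw [LinearMap.mem_ker, Matrix.toLin'_apply]; exact hy⟩ :
        ↥(LinearMap.ker (Matrix.toLin' (hadj q P))))
  have hres : ∀ x, hadj q P *ᵥ (x - E *ᵥ x) = 0 := by
    intro x
    have h1 := Submodule.sub_projection_mem hc x
    rw [← hE₀, LinearMap.mem_ker, Matrix.toLin'_apply, ← hE] at h1
    exact h1
  have hPE : P * E = E := by
    apply Matrix.toLin'.injective
    refine LinearMap.ext fun x => ?_
    rw [Matrix.toLin'_apply, Matrix.toLin'_apply, ← mulVec_mulVec, hb]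
  have hEP : E * P = P := by
    apply Matrix.toLin'.injective
    refine LinearMap.ext fun x => ?_
    rw [Matrix.toLin'_apply, Matrix.toLin'_apply, ← mulVec_mulVec, hcc]
  have hEE : E * E = E := by
    calc E * E = E * (P * E) := by rw [hPE]
      _ = (E * P) * E := by rw [mul_assoc]
      _ = E := by rw [hEP, hPE]
  have hEg : E * g = g * E := by
    apply Matrix.toLin'.injective
    refine LinearMap.ext fun x => ?_
    rw [Matrix.toLin'_apply, Matrix.toLin'_apply, ← mulVec_mulVec, ← mulVec_mulVec]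
    have h1 : g *ᵥ x = g *ᵥ (E *ᵥ x) + g *ᵥ (x - E *ᵥ x) := by
      rw [← mulVec_add, add_sub_cancel]
    have h2 : E *ᵥ (g *ᵥ (E *ᵥ x)) = g *ᵥ (E *ᵥ x) := by
      have h3 : g *ᵥ (E *ᵥ x) = P *ᵥ (g *ᵥ (E *ᵥ x)) := by
        calc g *ᵥ (E *ᵥ x) = g *ᵥ (P *ᵥ (E *ᵥ x)) := by rw [hb]
          _ = (P * g) *ᵥ (E *ᵥ x) := by rw [mulVec_mulVec, hPg]
          _ = P *ᵥ (g *ᵥ (E *ᵥ x)) := by rw [← mulVec_mulVec]
      rw [h3, hcc]
    have h4 : E *ᵥ (g *ᵥ (x - E *ᵥ x)) = 0 := by
      apply hd
      rw [mulVec_mulVec, hPdg, ← mulVec_mulVec, hres, mulVec_zero]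
    rw [h1, mulVec_add, h2, h4, add_zero]
  have hEd : hadj q E = E := by
    have h1 : hadj q P * hadj q E = hadj q P := by rw [← hadj_mul hK, hEP]
    have h2 : E * (hadj q E - 1) = 0 := by
      apply Matrix.toLin'.injective
      refine LinearMap.ext fun x => ?_
      rw [Matrix.toLin'_apply, ← mulVec_mulVec, map_zero, LinearMap.zero_apply]
      apply hd
      rw [mulVec_mulVec, mul_sub, h1, mul_one, sub_self, zero_mulVec]
    have h3 : E * hadj q E = E := by
      rw [mul_sub, mul_one, sub_eq_zero] at h2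
      exact h2
    calc hadj q E = hadj q (E * hadj q E) := by rw [h3]
      _ = E * hadj q E := by rw [hadj_mul hK, hadj_hadj hK]
      _ = E := h3
  exact ⟨E, hEE, hEg, hEd, hPE, hEP⟩

/-- the determinant on the unitary centraliser of a semisimple unitary matrix -/
theorem exists_unitary_commuting_det (hK : Fintype.card K = q ^ 2) (p : ℕ) [Fact p.Prime]
    [CharP K p] (hn : 0 < n) {m : ℕ} (hm : m.Coprime p) (g : Matrix (Fin n) (Fin n) K)
    (hg : g ^ m = 1) (hgu : hadj q g * g = 1) (c : K) (hc : c ≠ 0) :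
    ∃ z : Matrix (Fin n) (Fin n) K, hadj q z * z = 1 ∧ z * g = g * z ∧ z.det = c * (c ^ q)⁻¹ := by
  classical
  obtain ⟨P, hPP, hPg, hirr, hdet⟩ := exists_irred_idem_matrix p hn hm g hg
  have hgu' : g * hadj q g = 1 := mul_eq_one_comm.1 hgu
  have hcomm : ∀ Y : Matrix (Fin n) (Fin n) K, Y * g = g * Y → hadj q Y * g = g * hadj q Y := by
    intro Y hY
    have h1 : hadj q g * hadj q Y = hadj q Y * hadj q g := by
      rw [← hadj_mul hK, ← hadj_mul hK, hY]
    calc hadj q Y * g = (g * hadj q g) * hadj q Y * g := by rw [hgu', one_mul]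
      _ = g * (hadj q g * hadj q Y) * g := by simp only [mul_assoc]
      _ = g * (hadj q Y * hadj q g) * g := by rw [h1]
      _ = g * hadj q Y * (hadj q g * g) := by simp only [mul_assoc]
      _ = g * hadj q Y := by rw [hgu, mul_one]
  have hPdg : hadj q P * g = g * hadj q P := hcomm P hPg
  have hdPP : hadj q P * hadj q P = hadj q P := by rw [← hadj_mul hK, hPP]
  -- a normal idempotent with the same determinants
  obtain ⟨P', hP'g, hP'n, hP'det⟩ : ∃ P' : Matrix (Fin n) (Fin n) K, P' * g = g * P' ∧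
      P' * hadj q P' = hadj q P' * P' ∧
      ∀ a : K[X], (1 + (aeval g a - 1) * P').det = (1 + (aeval g a - 1) * P).det := by
    by_cases hcase : hadj q P * P = 0
    · obtain ⟨μ, hμ⟩ := exists_trace_one hK
      obtain ⟨N, hN⟩ : ∃ N : Matrix (Fin n) (Fin n) K, N = P * hadj q P := ⟨_, rfl⟩
      have hNd : hadj q N = N := by rw [hN, hadj_mul hK, hadj_hadj hK]
      have hPN : P * N = N := by rw [hN, ← mul_assoc, hPP]
      have hNdP : N * hadj q P = N := by rw [hN, mul_assoc, hdPP]
      have hNN : N * N = 0 := by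
        calc N * N = P * (hadj q P * P) * hadj q P := by rw [hN]; simp only [mul_assoc]
          _ = 0 := by rw [hcase, mul_zero, zero_mul]
      have hdPN : hadj q P * N = 0 := by rw [hN, ← mul_assoc, hcase, zero_mul]
      have hNP : N * P = 0 := by rw [hN, mul_assoc, hcase, mul_zero]
      have hP'd : hadj q (P - μ ^ q • N) = hadj q P - μ • N := by
        rw [hadj_sub hK, hadj_smul, pow_q_q hK, hNd]
      refine ⟨P - μ ^ q • N, ?_, ?_, ?_⟩
      · rw [sub_mul, mul_sub, smul_mul_assoc, mul_smul_comm, hPg, hN, mul_assoc, hPdg,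
          ← mul_assoc, hPg, mul_assoc]
      · rw [hP'd]
        have e1 : (P - μ ^ q • N) * (hadj q P - μ • N) = (1 - μ - μ ^ q) • N := by
          rw [sub_mul, mul_sub, mul_sub, smul_mul_assoc, smul_mul_assoc, mul_smul_comm,
            mul_smul_comm, hPN, hNdP, hNN, ← hN, smul_zero, smul_zero, sub_zero, sub_smul,
            sub_smul, one_smul]
        have e2 : (hadj q P - μ • N) * (P - μ ^ q • N) = 0 := by
          rw [sub_mul, mul_sub, mul_sub, smul_mul_assoc, smul_mul_assoc, mul_smul_comm,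
            mul_smul_comm, hcase, hdPN, hNP, hNN]
          simp
        have e3 : (1 : K) - μ - μ ^ q = 0 := by rw [← hμ]; ring
        rw [e1, e2, e3, zero_smul]
      · intro a
        obtain ⟨A, hA⟩ : ∃ A : Matrix (Fin n) (Fin n) K, A = aeval g a := ⟨_, rfl⟩
        rw [← hA]
        have hAdP : hadj q P * A = A * hadj q P := by
          rw [hA]
          exact (commute_aeval (show Commute (hadj q P) g from hPdg) a).eq
        have e1 : (A - 1) * (P - μ ^ q • N) = ((A - 1) * P) * (1 - μ ^ q • hadj q P) := by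
          rw [hN, mul_sub, mul_sub, mul_one, mul_smul_comm, mul_smul_comm, mul_assoc]
        have e2 : (1 - μ ^ q • hadj q P) * ((A - 1) * P) = (A - 1) * P := by
          rw [sub_mul, one_mul, smul_mul_assoc, ← mul_assoc, mul_sub, mul_one, hAdP,
            ← sub_one_mul, mul_assoc, hcase, mul_zero, smul_zero, sub_zero]
        rw [e1, Matrix.det_one_add_mul_comm, e2]
    · have hnd : ∀ u : Fin n → K, P *ᵥ u = u → hadj q P *ᵥ u = 0 → u = 0 := by
        intro u hu hu0
        by_contra hne
        apply hcase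
        apply Matrix.toLin'.injective
        refine LinearMap.ext fun x => ?_
        obtain ⟨b, hb⟩ := hirr u hu hne x
        have h1 : hadj q P * aeval g b = aeval g b * hadj q P :=
          (commute_aeval (show Commute (hadj q P) g from hPdg) b).eq
        rw [Matrix.toLin'_apply, ← mulVec_mulVec, hb, mulVec_mulVec, h1, ← mulVec_mulVec, hu0,
          mulVec_zero, map_zero, LinearMap.zero_apply]
      obtain ⟨E, hEE, hEg, hEd, hPE, hEP⟩ := exists_orth_proj hK P g hPP hPg hPdg hnd
      refine ⟨E, hEg, by rw [hEd], ?_⟩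
      intro a
      obtain ⟨A, hA⟩ : ∃ A : Matrix (Fin n) (Fin n) K, A = aeval g a := ⟨_, rfl⟩
      rw [← hA]
      have hEA : E * A = A * E := by
        rw [hA]
        exact (commute_aeval (show Commute E g from hEg) a).eq
      have e1 : (A - 1) * E = ((A - 1) * P) * E := by rw [mul_assoc, hPE]
      have e2 : E * ((A - 1) * P) = (A - 1) * P := by
        rw [← mul_assoc, mul_sub, mul_one, hEA, ← sub_one_mul, mul_assoc, hEP]
      rw [e1, Matrix.det_one_add_mul_comm, e2]
  -- the element with determinant `c`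
  obtain ⟨a, ha⟩ := hdet c
  obtain ⟨A, hA⟩ : ∃ A : Matrix (Fin n) (Fin n) K, A = aeval g a := ⟨_, rfl⟩
  have hAg : Commute A g := by
    rw [hA]
    exact (commute_aeval (Commute.refl g) a).symm
  have hP'dg : hadj q P' * g = g * hadj q P' := hcomm P' hP'g
  have hAP' : Commute A P' := by
    rw [hA]
    exact (commute_aeval (show Commute P' g from hP'g) a).symm
  have hAdP' : Commute A (hadj q P') := by
    rw [hA]
    exact (commute_aeval (show Commute (hadj q P') g from hP'dg) a).symm
  have hdAg : hadj q A * g = g * hadj q A := hcomm A hAg.eq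
  have hAdA : Commute A (hadj q A) := by
    rw [hA]
    have h1 : Commute (hadj q (aeval g a)) g := by rw [← hA]; exact hdAg
    exact (commute_aeval h1 a).symm
  have hdAdP' : Commute (hadj q A) (hadj q P') := by
    show hadj q A * hadj q P' = hadj q P' * hadj q A
    rw [← hadj_mul hK, ← hadj_mul hK, hAP'.eq]
  have hdAP' : Commute (hadj q A) P' := by
    show hadj q A * P' = P' * hadj q A
    have h1 := congrArg (hadj q) hAdP'.eq
    rw [hadj_mul hK, hadj_mul hK, hadj_hadj hK] at h1
    exact h1.symm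
  obtain ⟨ψ, hψ⟩ : ∃ ψ : Matrix (Fin n) (Fin n) K, ψ = 1 + (A - 1) * P' := ⟨_, rfl⟩
  have hψdet : ψ.det = c := by rw [hψ, hA, hP'det a, ha]
  have hψd : hadj q ψ = 1 + hadj q P' * (hadj q A - 1) := by
    rw [hψ, hadj_add hK, hadj_one hK, hadj_mul hK, hadj_sub hK, hadj_one hK]
  have hψg : ψ * g = g * ψ := by
    rw [hψ, add_mul, mul_add, one_mul, mul_one, mul_assoc, hP'g, ← mul_assoc, sub_mul, one_mul,
      hAg.eq, ← mul_assoc, mul_sub, mul_one]
  have hnorm : ψ * hadj q ψ = hadj q ψ * ψ := by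
    have h1 : Commute (A - 1) (hadj q P') := hAdP'.sub_left (Commute.one_left _)
    have h2 : Commute (A - 1) (hadj q A - 1) :=
      (hAdA.sub_left (Commute.one_left _)).sub_right (Commute.one_right _)
    have h3 : Commute P' (hadj q P') := hP'n
    have h4 : Commute P' (hadj q A - 1) := (hdAP'.symm).sub_right (Commute.one_right _)
    have h5 : Commute ((A - 1) * P') (hadj q P' * (hadj q A - 1)) :=
      (h1.mul_right h2).mul_left (h3.mul_right h4)
    rw [hψd, hψ]
    exact ((Commute.one_right _).add_right ((Commute.one_left _).add_left h5)).eq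
  have hψu : IsUnit ψ.det := by rw [hψdet]; exact isUnit_iff_ne_zero.2 hc
  obtain ⟨ψi, hψi⟩ : ∃ ψi : Matrix (Fin n) (Fin n) K, ψ * ψi = 1 :=
    ⟨ψ⁻¹, Matrix.mul_nonsing_inv ψ hψu⟩
  have hψi' : ψi * ψ = 1 := mul_eq_one_comm.1 hψi
  have hψig : ψi * g = g * ψi := by
    calc ψi * g = ψi * (g * ψ) * ψi := by rw [mul_assoc, mul_assoc, hψi, mul_one]
      _ = ψi * (ψ * g) * ψi := by rw [hψg]
      _ = g * ψi := by rw [← mul_assoc, hψi', one_mul]
  have hdψig : hadj q ψi * g = g * hadj q ψi := hcomm ψi hψig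
  have hψidet : ψi.det = c⁻¹ := by
    have h1 := congrArg Matrix.det hψi
    rw [Matrix.det_mul, hψdet, Matrix.det_one] at h1
    exact eq_inv_of_mul_eq_one_right h1
  refine ⟨ψ * hadj q ψi, ?_, ?_, ?_⟩
  · rw [hadj_mul hK, hadj_hadj hK]
    calc ψi * hadj q ψ * (ψ * hadj q ψi) = ψi * (hadj q ψ * ψ) * hadj q ψi := by
          simp only [mul_assoc]
      _ = ψi * (ψ * hadj q ψ) * hadj q ψi := by rw [hnorm]
      _ = (ψi * ψ) * (hadj q ψ * hadj q ψi) := by simp only [mul_assoc]
      _ = 1 := by rw [hψi', one_mul, ← hadj_mul hK, hψi', hadj_one hK]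
  · rw [mul_assoc, hdψig, ← mul_assoc, hψg, mul_assoc]
  · rw [Matrix.det_mul, hadj_det hK, hψdet, hψidet, inv_pow]

end UnitaryCentDet
end Cfsg.Agent.Helper43
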